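import Mathlib
import Cfsg.Agent.Lib.helper6.GO2m

set_option autoImplicit false

namespace Cfsg.Agent.Lib.helper6

open Matrix

section
variable {F : Type*} [Field F] {m : ℕ}

/-- hyperbolic quadratic form on `F^(2m)` -/
def q0 (w : Fin m ⊕ Fin m → F) : F := ∑ i : Fin m, w (.inl i) * w (.inr i)

/-- the alternating form -/
def beta (u v : Fin m ⊕ Fin m → F) : F := u ⬝ᵥ (J (Fin m) F *ᵥ v)

theorem quadFormOdd_eq (v : Unit ⊕ (Fin m ⊕ Fin m) → F) :
    Cfsg.quadFormOdd m F v = v (.inl ()) ^ 2 + q0 (v ∘ Sum.inr) := rfl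

theorem beta_eq (u v : Fin m ⊕ Fin m → F) :
    beta u v = ∑ i : Fin m, (v (.inl i) * u (.inr i) - u (.inl i) * v (.inr i)) := by
  unfold beta
  rw [J, Matrix.fromBlocks_mulVec, dotProduct, Fintype.sum_sum_type]
  simp only [Sum.elim_inl, Sum.elim_inr, Matrix.zero_mulVec, Matrix.neg_mulVec, Matrix.one_mulVec,
    zero_add, add_zero, Pi.neg_apply, Function.comp_apply]
  rw [← Finset.sum_add_distrib]
  apply Finset.sum_congr rfl
  intro i _
  ring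

theorem q0_polar (h2 : (2 : F) = 0) (u v : Fin m ⊕ Fin m → F) :
    q0 (u + v) = q0 u + q0 v + beta u v := by
  rw [beta_eq]
  unfold q0
  rw [← Finset.sum_add_distrib, ← Finset.sum_add_distrib]
  apply Finset.sum_congr rfl
  intro i _
  simp only [Pi.add_apply]
  linear_combination (u (.inl i) * v (.inr i)) * h2

theorem Q_polar (h2 : (2 : F) = 0) (u v : Unit ⊕ (Fin m ⊕ Fin m) → F) :
    Cfsg.quadFormOdd m F (u + v) = Cfsg.quadFormOdd m F u + Cfsg.quadFormOdd m F v +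
      beta (u ∘ Sum.inr) (v ∘ Sum.inr) := by
  rw [quadFormOdd_eq, quadFormOdd_eq, quadFormOdd_eq]
  have e : (u + v) ∘ Sum.inr = u ∘ (Sum.inr : Fin m ⊕ Fin m → Unit ⊕ (Fin m ⊕ Fin m)) +
      v ∘ Sum.inr := rfl
  rw [e, q0_polar h2]
  simp only [Pi.add_apply]
  linear_combination (u (.inl ()) * v (.inl ())) * h2

theorem q0_smul (c : F) (w : Fin m ⊕ Fin m → F) : q0 (c • w) = c ^ 2 * q0 w := by
  unfold q0
  rw [Finset.mul_sum]
  apply Finset.sum_congr rfl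
  intro i _
  simp only [Pi.smul_apply, smul_eq_mul]
  ring

theorem mat_ext_of_dot {κ : Type*} [Fintype κ] [DecidableEq κ] (N N' : Matrix κ κ F)
    (h : ∀ w w' : κ → F, w ⬝ᵥ (N *ᵥ w') = w ⬝ᵥ (N' *ᵥ w')) : N = N' := by
  ext i j
  have h1 := h (Pi.single i 1) (Pi.single j 1)
  simpa using h1

theorem beta_mulVec (S : Matrix (Fin m ⊕ Fin m) (Fin m ⊕ Fin m) F) (w w' : Fin m ⊕ Fin m → F) :
    beta (S *ᵥ w) (S *ᵥ w') = w ⬝ᵥ ((Sᵀ * J (Fin m) F * S) *ᵥ w') := by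
  unfold beta
  rw [← Matrix.mulVec_mulVec, ← Matrix.mulVec_mulVec, Matrix.dotProduct_mulVec w Sᵀ,
    Matrix.vecMul_transpose]

theorem sq_inj_of_two (h2 : (2 : F) = 0) {x y : F} (h : x ^ 2 = y ^ 2) : x = y := by
  have h3 : (x - y) ^ 2 = 0 := by
    linear_combination h - x * y * h2 + y ^ 2 * h2
  exact sub_eq_zero.mp ((pow_eq_zero_iff two_ne_zero).mp h3)

end

section
variable {F : Type*} [Field F] {m : ℕ}

theorem isom_beta (h2 : (2 : F) = 0) (M : Matrix (Unit ⊕ (Fin m ⊕ Fin m)) (Unit ⊕ (Fin m ⊕ Fin m)) F)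
    (hM : ∀ u, Cfsg.quadFormOdd m F (M *ᵥ u) = Cfsg.quadFormOdd m F u)
    (u v : Unit ⊕ (Fin m ⊕ Fin m) → F) :
    beta ((M *ᵥ u) ∘ Sum.inr) ((M *ᵥ v) ∘ Sum.inr) = beta (u ∘ Sum.inr) (v ∘ Sum.inr) := by
  have h := hM (u + v)
  rw [Matrix.mulVec_add, Q_polar h2, Q_polar h2, hM u, hM v] at h
  linear_combination h

theorem beta_zero_left (w : Fin m ⊕ Fin m → F) : beta 0 w = 0 := by
  unfold beta; simp

theorem eq_zero_of_beta (c : Fin m ⊕ Fin m → F) (h : ∀ w, beta c w = 0) : c = 0 := by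
  have h1 : ∀ w' : Fin m ⊕ Fin m → F, c ⬝ᵥ w' = 0 := by
    intro w'
    have h3 := h (J (Fin m) F *ᵥ w')
    unfold beta at h3
    rw [Matrix.mulVec_mulVec, J_squared, Matrix.neg_mulVec, Matrix.one_mulVec, dotProduct_neg] at h3
    exact neg_eq_zero.mp h3
  funext j
  have := h1 (Pi.single j 1)
  simpa using this

/-- structure of the isometries: first column is `e₀`. -/
theorem isom_col (h2 : (2 : F) = 0) (g : GL (Unit ⊕ (Fin m ⊕ Fin m)) F)
    (hg : g ∈ Cfsg.isometryGroup F (Cfsg.quadFormOdd m F)) :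
    (∀ j, (g : Matrix (Unit ⊕ (Fin m ⊕ Fin m)) (Unit ⊕ (Fin m ⊕ Fin m)) F) (.inr j) (.inl ()) = 0) ∧
      (g : Matrix (Unit ⊕ (Fin m ⊕ Fin m)) (Unit ⊕ (Fin m ⊕ Fin m)) F) (.inl ()) (.inl ()) = 1 := by
  classical
  rw [mem_isometryGroup_iff] at hg
  set M : Matrix (Unit ⊕ (Fin m ⊕ Fin m)) (Unit ⊕ (Fin m ⊕ Fin m)) F := ↑g with hM
  set e₀ : Unit ⊕ (Fin m ⊕ Fin m) → F := Pi.single (.inl ()) 1 with he₀
  have hcol : ∀ x, (M *ᵥ e₀) x = M x (.inl ()) := by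
    intro x; simp [he₀]
  have he₀r : e₀ ∘ (Sum.inr : Fin m ⊕ Fin m → Unit ⊕ (Fin m ⊕ Fin m)) = 0 := by
    funext j; simp [he₀]
  have hc : ((M *ᵥ e₀) ∘ Sum.inr : Fin m ⊕ Fin m → F) = 0 := by
    apply eq_zero_of_beta
    intro w
    set v : Unit ⊕ (Fin m ⊕ Fin m) → F :=
      ((g⁻¹ : GL _ F) : Matrix (Unit ⊕ (Fin m ⊕ Fin m)) (Unit ⊕ (Fin m ⊕ Fin m)) F) *ᵥ (Sum.elim 0 w)
      with hv
    have hMv : M *ᵥ v = Sum.elim (0 : Unit → F) w := by
      rw [hv, Matrix.mulVec_mulVec, hM, ← Units.val_mul, mul_inv_cancel, Units.val_one,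
        Matrix.one_mulVec]
    have h := isom_beta h2 M hg e₀ v
    rw [hMv, he₀r, beta_zero_left] at h
    have e : (Sum.elim (0 : Unit → F) w) ∘ Sum.inr = w := rfl
    rw [e] at h
    exact h
  have hc' : ∀ j, M (.inr j) (.inl ()) = 0 := by
    intro j
    rw [← hcol]
    exact congrFun hc j
  refine ⟨hc', ?_⟩
  have h1 := hg e₀
  rw [quadFormOdd_eq, quadFormOdd_eq, hc, he₀r, hcol] at h1
  have hq : q0 (0 : Fin m ⊕ Fin m → F) = 0 := by
    unfold q0; simp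
  rw [hq] at h1
  have he₀0 : e₀ (.inl ()) = 1 := by simp [he₀]
  have h3 : M (.inl ()) (.inl ()) ^ 2 = 1 ^ 2 := by
    rw [he₀0, add_zero, add_zero] at h1
    exact h1
  exact sq_inj_of_two h2 h3

theorem isom_inr (M : Matrix (Unit ⊕ (Fin m ⊕ Fin m)) (Unit ⊕ (Fin m ⊕ Fin m)) F)
    (hc : ∀ j, M (.inr j) (.inl ()) = 0) (v : Unit ⊕ (Fin m ⊕ Fin m) → F) :
    (M *ᵥ v) ∘ Sum.inr = M.toBlocks₂₂ *ᵥ (v ∘ Sum.inr) := by
  funext j
  simp [Matrix.mulVec, dotProduct, Fintype.sum_sum_type, Matrix.toBlocks₂₂, hc]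

theorem isom_sp (h2 : (2 : F) = 0) (g : GL (Unit ⊕ (Fin m ⊕ Fin m)) F)
    (hg : g ∈ Cfsg.isometryGroup F (Cfsg.quadFormOdd m F)) :
    (g : Matrix (Unit ⊕ (Fin m ⊕ Fin m)) (Unit ⊕ (Fin m ⊕ Fin m)) F).toBlocks₂₂ ∈
      Matrix.symplecticGroup (Fin m) F := by
  classical
  have hc := (isom_col h2 g hg).1
  rw [mem_isometryGroup_iff] at hg
  rw [SymplecticGroup.mem_iff']
  apply mat_ext_of_dot
  intro w w'
  rw [← beta_mulVec]
  have h := isom_beta h2 _ hg (Sum.elim 0 w) (Sum.elim 0 w')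
  rw [isom_inr _ hc, isom_inr _ hc] at h
  exact h

end

theorem oddO_equiv_sp {F : Type*} [Field F] [Fintype F] [CharP F 2] (m : ℕ) :
    Nonempty (Cfsg.isometryGroup F (Cfsg.quadFormOdd m F) ≃* Matrix.symplecticGroup (Fin m) F) := by
  classical
  haveI : Fact (Nat.Prime 2) := ⟨Nat.prime_two⟩
  have h2 : (2 : F) = 0 := CharTwo.two_eq_zero
  set H := Cfsg.isometryGroup F (Cfsg.quadFormOdd m F) with hH
  let φ : H →* Matrix.symplecticGroup (Fin m) F :=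
    { toFun := fun g => ⟨((g : GL (Unit ⊕ (Fin m ⊕ Fin m)) F) :
          Matrix (Unit ⊕ (Fin m ⊕ Fin m)) (Unit ⊕ (Fin m ⊕ Fin m)) F).toBlocks₂₂, isom_sp h2 g.1 g.2⟩
      map_one' := by
        apply Subtype.ext
        show ((1 : Matrix (Unit ⊕ (Fin m ⊕ Fin m)) (Unit ⊕ (Fin m ⊕ Fin m)) F)).toBlocks₂₂ = 1
        ext j k
        simp [Matrix.toBlocks₂₂, Matrix.one_apply]
      map_mul' := fun g g' => by
        apply Subtype.ext
        have hc := (isom_col h2 g.1 g.2).1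
        show (((g : GL (Unit ⊕ (Fin m ⊕ Fin m)) F) :
            Matrix (Unit ⊕ (Fin m ⊕ Fin m)) (Unit ⊕ (Fin m ⊕ Fin m)) F) *
            ((g' : GL (Unit ⊕ (Fin m ⊕ Fin m)) F) :
            Matrix (Unit ⊕ (Fin m ⊕ Fin m)) (Unit ⊕ (Fin m ⊕ Fin m)) F)).toBlocks₂₂ =
          ((g : GL (Unit ⊕ (Fin m ⊕ Fin m)) F) :
            Matrix (Unit ⊕ (Fin m ⊕ Fin m)) (Unit ⊕ (Fin m ⊕ Fin m)) F).toBlocks₂₂ *
          ((g' : GL (Unit ⊕ (Fin m ⊕ Fin m)) F) :
            Matrix (Unit ⊕ (Fin m ⊕ Fin m)) (Unit ⊕ (Fin m ⊕ Fin m)) F).toBlocks₂₂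
        ext j k
        simp [Matrix.toBlocks₂₂, Matrix.mul_apply, Fintype.sum_sum_type, hc] }
  have hφval : ∀ g : H, ((φ g : Matrix.symplecticGroup (Fin m) F) :
      Matrix (Fin m ⊕ Fin m) (Fin m ⊕ Fin m) F) =
      ((g : GL (Unit ⊕ (Fin m ⊕ Fin m)) F) :
          Matrix (Unit ⊕ (Fin m ⊕ Fin m)) (Unit ⊕ (Fin m ⊕ Fin m)) F).toBlocks₂₂ := fun g => rfl
  have hinj : Function.Injective φ := by
    intro g g' h
    have hS : ((g : GL (Unit ⊕ (Fin m ⊕ Fin m)) F) :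
          Matrix (Unit ⊕ (Fin m ⊕ Fin m)) (Unit ⊕ (Fin m ⊕ Fin m)) F).toBlocks₂₂ =
        ((g' : GL (Unit ⊕ (Fin m ⊕ Fin m)) F) :
          Matrix (Unit ⊕ (Fin m ⊕ Fin m)) (Unit ⊕ (Fin m ⊕ Fin m)) F).toBlocks₂₂ := by
      rw [← hφval, ← hφval, h]
    obtain ⟨hc, ha⟩ := isom_col h2 g.1 g.2
    obtain ⟨hc', ha'⟩ := isom_col h2 g'.1 g'.2
    have hg := (mem_isometryGroup_iff _ _).mp g.2
    have hg' := (mem_isometryGroup_iff _ _).mp g'.2
    set M : Matrix (Unit ⊕ (Fin m ⊕ Fin m)) (Unit ⊕ (Fin m ⊕ Fin m)) F :=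
      ((g : GL (Unit ⊕ (Fin m ⊕ Fin m)) F) :
        Matrix (Unit ⊕ (Fin m ⊕ Fin m)) (Unit ⊕ (Fin m ⊕ Fin m)) F) with hM
    set M' : Matrix (Unit ⊕ (Fin m ⊕ Fin m)) (Unit ⊕ (Fin m ⊕ Fin m)) F :=
      ((g' : GL (Unit ⊕ (Fin m ⊕ Fin m)) F) :
        Matrix (Unit ⊕ (Fin m ⊕ Fin m)) (Unit ⊕ (Fin m ⊕ Fin m)) F) with hM'
    have hr : ∀ j, M (.inl ()) (.inr j) = M' (.inl ()) (.inr j) := by
      intro j
      set v : Unit ⊕ (Fin m ⊕ Fin m) → F := Pi.single (.inr j) 1 with hv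
      have h1 := hg v
      have h1' := hg' v
      rw [quadFormOdd_eq, quadFormOdd_eq, isom_inr _ hc] at h1
      rw [quadFormOdd_eq, quadFormOdd_eq, isom_inr _ hc', ← hS] at h1'
      have e1 : (M *ᵥ v) (.inl ()) = M (.inl ()) (.inr j) := by simp [hv]
      have e1' : (M' *ᵥ v) (.inl ()) = M' (.inl ()) (.inr j) := by simp [hv]
      rw [e1] at h1
      rw [e1'] at h1'
      apply sq_inj_of_two h2
      linear_combination h1 - h1'
    have hMM : M = M' := by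
      ext x y
      rcases x with ⟨⟩ | j <;> rcases y with ⟨⟩ | k
      · rw [ha, ha']
      · exact hr k
      · rw [hc j, hc' j]
      · exact congrFun (congrFun hS j) k
    exact Subtype.ext (Units.ext hMM)
  have hsurj : Function.Surjective φ := by
    rintro ⟨S, hS⟩
    have hS' := SymplecticGroup.mem_iff'.mp hS
    have hbeta : ∀ w w', beta (S *ᵥ w) (S *ᵥ w') = beta w w' := by
      intro w w'; rw [beta_mulVec, hS']; rfl
    set f : (Fin m ⊕ Fin m → F) → F := fun w => q0 w + q0 (S *ᵥ w) with hf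
    have hfadd : ∀ u v, f (u + v) = f u + f v := by
      intro u v
      simp only [hf]
      rw [Matrix.mulVec_add, q0_polar h2, q0_polar h2, hbeta]
      linear_combination (beta u v) * h2
    have hfsmul : ∀ (c : F) w, f (c • w) = c ^ 2 * f w := by
      intro c w
      simp only [hf]
      rw [Matrix.mulVec_smul, q0_smul, q0_smul]; ring
    have hfsum : ∀ w, f w = ∑ j, w j ^ 2 * f (Pi.single j 1) := by
      intro w
      let fA : (Fin m ⊕ Fin m → F) →+ F := AddMonoidHom.mk' f hfadd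
      have e1 : w = ∑ j, w j • (Pi.single j (1 : F) : Fin m ⊕ Fin m → F) := by
        funext k
        simp [Finset.sum_apply, Pi.single_apply]
      conv_lhs => rw [e1]
      show fA (∑ j, w j • (Pi.single j (1 : F) : Fin m ⊕ Fin m → F)) = _
      rw [map_sum]
      apply Finset.sum_congr rfl
      intro j _
      exact hfsmul _ _
    have hsurj2 : Function.Surjective (fun x : F => x ^ 2) :=
      Finite.injective_iff_surjective.mp (fun x y h => sq_inj_of_two h2 h)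
    choose sqrt hsq using hsurj2
    set r : Fin m ⊕ Fin m → F := fun j => sqrt (f (Pi.single j 1)) with hr
    have hr2 : ∀ j, r j ^ 2 = f (Pi.single j 1) := fun j => hsq _
    set M : Matrix (Unit ⊕ (Fin m ⊕ Fin m)) (Unit ⊕ (Fin m ⊕ Fin m)) F :=
      Matrix.fromBlocks 1 (Matrix.of (fun (_ : Unit) j => r j)) 0 S with hM
    have hdet : IsUnit M.det := by
      rw [hM, Matrix.det_fromBlocks_zero₂₁, Matrix.det_one, one_mul]
      exact SymplecticGroup.symplectic_det hS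
    have hMv0 : ∀ v : Unit ⊕ (Fin m ⊕ Fin m) → F,
        (M *ᵥ v) (.inl ()) = v (.inl ()) + ∑ j, r j * v (.inr j) := by
      intro v
      simp [hM, Matrix.mulVec, dotProduct, Fintype.sum_sum_type]
    have hMvr : ∀ v : Unit ⊕ (Fin m ⊕ Fin m) → F, (M *ᵥ v) ∘ Sum.inr = S *ᵥ (v ∘ Sum.inr) := by
      intro v
      have h3 := isom_inr M (by intro j; simp [hM]) v
      rw [h3, hM, Matrix.toBlocks_fromBlocks₂₂]
    have hMQ : ∀ v, Cfsg.quadFormOdd m F (M *ᵥ v) = Cfsg.quadFormOdd m F v := by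
      intro v
      rw [quadFormOdd_eq, quadFormOdd_eq, hMvr, hMv0]
      have h3 : (∑ j, r j * v (.inr j)) ^ 2 = f (v ∘ Sum.inr) := by
        rw [sum_pow_char 2, hfsum]
        apply Finset.sum_congr rfl
        intro j _
        rw [mul_pow, hr2, mul_comm]
        rfl
      have h4 : f (v ∘ Sum.inr) = q0 (v ∘ Sum.inr) + q0 (S *ᵥ (v ∘ Sum.inr)) := rfl
      linear_combination h3 + h4 + (v (.inl ()) * ∑ j, r j * v (.inr j)) * h2 +
        (q0 (S *ᵥ (v ∘ Sum.inr))) * h2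
    have hMu : IsUnit M := (Matrix.isUnit_iff_isUnit_det M).mpr hdet
    refine ⟨⟨hMu.unit, ?_⟩, ?_⟩
    · rw [mem_isometryGroup_iff]
      intro u
      rw [IsUnit.unit_spec]
      exact hMQ u
    · apply Subtype.ext
      rw [hφval]
      show (↑(hMu.unit) : Matrix (Unit ⊕ (Fin m ⊕ Fin m)) (Unit ⊕ (Fin m ⊕ Fin m)) F).toBlocks₂₂ = S
      rw [IsUnit.unit_spec, hM, Matrix.toBlocks_fromBlocks₂₂]
  exact ⟨MulEquiv.ofBijective φ ⟨hinj, hsurj⟩⟩

end Cfsg.Agent.Lib.helper6
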