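import Mathlib
import Cfsg.Agent.Lib.helper13.PSLn
import Cfsg.Prelude.Def_RootSubgroups

set_option autoImplicit false

/-! Transvections of `SL_n` in characteristic 2 as root involutions. -/

namespace Cfsg.Agent.Lib.helper6.TvRoot

open Matrix Cfsg.Agent.Lib.helper13.PN

variable {F : Type*} [Field F] {n : ℕ}

theorem sl_mul_inv (g : SLn n F) :
    (g : Matrix (Fin n) (Fin n) F) * ((g⁻¹ : SLn n F) : Matrix (Fin n) (Fin n) F) = 1 := by
  rw [← Matrix.SpecialLinearGroup.coe_mul, mul_inv_cancel, Matrix.SpecialLinearGroup.coe_one]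

theorem sl_inv_mul (g : SLn n F) :
    ((g⁻¹ : SLn n F) : Matrix (Fin n) (Fin n) F) * (g : Matrix (Fin n) (Fin n) F) = 1 := by
  rw [← Matrix.SpecialLinearGroup.coe_mul, inv_mul_cancel, Matrix.SpecialLinearGroup.coe_one]

theorem dot_conj' (g : SLn n F) (v φ : Fin n → F) :
    (φ ᵥ* ((g⁻¹ : SLn n F) : Matrix (Fin n) (Fin n) F)) ⬝ᵥ
      ((g : Matrix (Fin n) (Fin n) F) *ᵥ v) = φ ⬝ᵥ v := by
  rw [← dotProduct_mulVec, mulVec_mulVec, sl_inv_mul, one_mulVec]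

/-- conjugating a transvection inside `SL` -/
theorem conj_tv (g : SLn n F) (v φ : Fin n → F) (h : φ ⬝ᵥ v = 0) (t : F) :
    g * tv v φ h t * g⁻¹ = tv ((g : Matrix (Fin n) (Fin n) F) *ᵥ v)
      (φ ᵥ* ((g⁻¹ : SLn n F) : Matrix (Fin n) (Fin n) F)) (by rw [dot_conj', h]) t := by
  apply Subtype.ext
  rw [Matrix.SpecialLinearGroup.coe_mul, Matrix.SpecialLinearGroup.coe_mul, tv_coe, tv_coe,
    mul_add, add_mul, mul_one, sl_mul_inv, Matrix.mul_smul, Matrix.smul_mul, mul_vecMulVec,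
    vecMulVec_mul]

theorem tv_congr {v v' φ φ' : Fin n → F} (h : φ ⬝ᵥ v = 0) (h' : φ' ⬝ᵥ v' = 0) (hv : v = v')
    (hφ : φ = φ') (t : F) : tv v φ h t = tv v' φ' h' t := by
  subst hv; subst hφ; rfl

theorem tv_smul_right (v φ : Fin n → F) (h : φ ⬝ᵥ v = 0) (c t : F)
    (h' : (c • φ) ⬝ᵥ v = 0) : tv v (c • φ) h' t = tv v φ h (c * t) := by
  apply Subtype.ext
  rw [tv_coe, tv_coe, vecMulVec_smul, smul_smul, mul_comm]

theorem tv_smul_left (v φ : Fin n → F) (h : φ ⬝ᵥ v = 0) (c t : F)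
    (h' : φ ⬝ᵥ (c • v) = 0) : tv (c • v) φ h' t = tv v φ h (c * t) := by
  apply Subtype.ext
  rw [tv_coe, tv_coe, smul_vecMulVec, smul_smul, mul_comm]

theorem tv_ne_one (v φ : Fin n → F) (h : φ ⬝ᵥ v = 0) (hv : v ≠ 0) (hφ : φ ≠ 0) (t : F)
    (ht : t ≠ 0) : tv v φ h t ≠ 1 := by
  intro h1
  have h2 := congrArg (fun M : SLn n F => (M : Matrix (Fin n) (Fin n) F)) h1
  simp only [tv_coe, Matrix.SpecialLinearGroup.coe_one] at h2
  obtain ⟨a, ha⟩ := exists_ne_of_ne_zero hv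
  obtain ⟨b, hb⟩ := exists_ne_of_ne_zero hφ
  have h3 : t • vecMulVec v φ = 0 := by
    have : (1 : Matrix (Fin n) (Fin n) F) + t • vecMulVec v φ = 1 + 0 := by rw [h2, add_zero]
    exact add_left_cancel this
  have h4 := congrFun (congrFun h3 a) b
  simp only [Matrix.smul_apply, vecMulVec_apply, smul_eq_mul, Matrix.zero_apply] at h4
  exact mul_ne_zero ht (mul_ne_zero ha hb) h4

/-! ### the class of transvections -/

/-- the conjugates of the elementary transvections `1 + c E₀₁`, `c ≠ 0` -/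
def Dset (F : Type*) [Field F] (m : ℕ) : Set (SLn (m + 3) F) :=
  {t | ∃ c : F, c ≠ 0 ∧ ∃ g : SLn (m + 3) F,
    ((g⁻¹ * t * g : SLn (m + 3) F) : Matrix (Fin (m + 3)) (Fin (m + 3)) F)
      = Matrix.transvection 0 1 c}

theorem h01 (m : ℕ) : (0 : Fin (m + 3)) ≠ 1 := by
  intro h
  have := congrArg Fin.val h
  simp at this

theorem h02 (m : ℕ) : (0 : Fin (m + 3)) ≠ 2 := by
  intro h
  have := congrArg Fin.val h
  simp at this
  rw [Nat.mod_eq_of_lt (by omega : 2 < m + 3)] at this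
  omega

theorem h12 (m : ℕ) : (1 : Fin (m + 3)) ≠ 2 := by
  intro h
  have := congrArg Fin.val h
  simp at this
  rw [Nat.mod_eq_of_lt (by omega : 2 < m + 3)] at this
  omega

/-- the elementary transvection `1 + c E₀₁` -/
def T01 (m : ℕ) (c : F) : SLn (m + 3) F := tv (E 0) (E 1) (E_dot_ne (h01 m)) c

theorem T01_coe (m : ℕ) (c : F) :
    ((T01 m c : SLn (m + 3) F) : Matrix (Fin (m + 3)) (Fin (m + 3)) F)
      = Matrix.transvection 0 1 c := by
  rw [T01, tv_E_eq (h01 m)]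
  rfl

theorem mem_D_iff (m : ℕ) (t : SLn (m + 3) F) :
    t ∈ Dset F m ↔ ∃ c : F, c ≠ 0 ∧ ∃ g : SLn (m + 3) F, t = g * T01 m c * g⁻¹ := by
  constructor
  · rintro ⟨c, hc, g, hg⟩
    refine ⟨c, hc, g, ?_⟩
    have h1 : g⁻¹ * t * g = T01 m c := Subtype.ext (by rw [hg, T01_coe])
    rw [← h1]
    group
  · rintro ⟨c, hc, g, rfl⟩
    refine ⟨c, hc, g, ?_⟩
    have h1 : g⁻¹ * (g * T01 m c * g⁻¹) * g = T01 m c := by group
    rw [h1, T01_coe]

theorem D_conj (m : ℕ) (t : SLn (m + 3) F) (ht : t ∈ Dset F m) (x : SLn (m + 3) F) :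
    x * t * x⁻¹ ∈ Dset F m := by
  rw [mem_D_iff] at ht ⊢
  obtain ⟨c, hc, g, rfl⟩ := ht
  exact ⟨c, hc, x * g, by group⟩

/-- the data of a member of `D` -/
theorem D_data (m : ℕ) (t : SLn (m + 3) F) (ht : t ∈ Dset F m) :
    ∃ (u φ ω : Fin (m + 3) → F) (h : φ ⬝ᵥ u = 0), u ≠ 0 ∧ φ ≠ 0 ∧ ω ⬝ᵥ u = 1 ∧
      t = tv u φ h 1 ∧ ∀ c : F, c ≠ 0 → tv u φ h c ∈ Dset F m := by
  rw [mem_D_iff] at ht
  obtain ⟨c, hc, g, rfl⟩ := ht
  have hu0 : (g : Matrix (Fin (m + 3)) (Fin (m + 3)) F) *ᵥ (E 0 : Fin (m + 3) → F) ≠ 0 := by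
    intro h
    have h1 : ((g⁻¹ : SLn (m + 3) F) : Matrix (Fin (m + 3)) (Fin (m + 3)) F) *ᵥ
        ((g : Matrix (Fin (m + 3)) (Fin (m + 3)) F) *ᵥ (E 0 : Fin (m + 3) → F)) = E 0 := by
      rw [mulVec_mulVec, sl_inv_mul, one_mulVec]
    rw [h, mulVec_zero] at h1
    exact E_ne_zero (0 : Fin (m + 3)) h1.symm
  have hφ0 : (E 1 : Fin (m + 3) → F) ᵥ*
      ((g⁻¹ : SLn (m + 3) F) : Matrix (Fin (m + 3)) (Fin (m + 3)) F) ≠ 0 := by
    intro h
    have h1 : ((E 1 : Fin (m + 3) → F) ᵥ*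
        ((g⁻¹ : SLn (m + 3) F) : Matrix (Fin (m + 3)) (Fin (m + 3)) F)) ᵥ*
        (g : Matrix (Fin (m + 3)) (Fin (m + 3)) F) = E 1 := by
      rw [vecMul_vecMul, sl_inv_mul, vecMul_one]
    rw [h, zero_vecMul] at h1
    exact E_ne_zero (1 : Fin (m + 3)) h1.symm
  have hdot : ((E 1 : Fin (m + 3) → F) ᵥ*
      ((g⁻¹ : SLn (m + 3) F) : Matrix (Fin (m + 3)) (Fin (m + 3)) F)) ⬝ᵥ
      ((g : Matrix (Fin (m + 3)) (Fin (m + 3)) F) *ᵥ (E 0 : Fin (m + 3) → F)) = 0 := by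
    rw [dot_conj', E_dot_ne (h01 m)]
  have hkey : ∀ c' : F, g * T01 m c' * g⁻¹
      = tv ((g : Matrix (Fin (m + 3)) (Fin (m + 3)) F) *ᵥ (E 0 : Fin (m + 3) → F))
        ((E 1 : Fin (m + 3) → F) ᵥ*
          ((g⁻¹ : SLn (m + 3) F) : Matrix (Fin (m + 3)) (Fin (m + 3)) F)) hdot c' := by
    intro c'
    rw [T01, conj_tv]
  have hdot' : (c • ((E 1 : Fin (m + 3) → F) ᵥ*
      ((g⁻¹ : SLn (m + 3) F) : Matrix (Fin (m + 3)) (Fin (m + 3)) F))) ⬝ᵥ
      ((g : Matrix (Fin (m + 3)) (Fin (m + 3)) F) *ᵥ (E 0 : Fin (m + 3) → F)) = 0 := by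
    rw [smul_dotProduct, hdot, smul_zero]
  refine ⟨_, c • ((E 1 : Fin (m + 3) → F) ᵥ*
      ((g⁻¹ : SLn (m + 3) F) : Matrix (Fin (m + 3)) (Fin (m + 3)) F)),
    (E 0 : Fin (m + 3) → F) ᵥ* ((g⁻¹ : SLn (m + 3) F) : Matrix (Fin (m + 3)) (Fin (m + 3)) F),
    hdot', hu0, smul_ne_zero hc hφ0, ?_, ?_, ?_⟩
  · rw [dot_conj', E_dot, if_pos rfl]
  · rw [hkey, tv_smul_right _ _ hdot, mul_one]
  · intro c' hc'
    rw [tv_smul_right _ _ hdot, ← hkey, mem_D_iff]
    exact ⟨c * c', mul_ne_zero hc hc', g, rfl⟩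

/-! ### products of two transvections -/

/-- the non-identity part of a product of two transvections -/
def NN (u φ v ψ : Fin n → F) : Matrix (Fin n) (Fin n) F :=
  vecMulVec u φ + vecMulVec v ψ + (φ ⬝ᵥ v) • vecMulVec u ψ

theorem prod_coe (u φ v ψ : Fin n → F) (h1 : φ ⬝ᵥ u = 0) (h2 : ψ ⬝ᵥ v = 0) :
    ((tv u φ h1 1 * tv v ψ h2 1 : SLn n F) : Matrix (Fin n) (Fin n) F) = 1 + NN u φ v ψ := by
  rw [tv_mul_coe, NN]
  simp only [one_smul, one_mul]
  abel

theorem NN_sq (u φ v ψ : Fin n → F) (h1 : φ ⬝ᵥ u = 0) (h2 : ψ ⬝ᵥ v = 0) :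
    NN u φ v ψ * NN u φ v ψ = ((φ ⬝ᵥ v) * (ψ ⬝ᵥ u)) • NN u φ v ψ
      + ((φ ⬝ᵥ v) • vecMulVec u ψ + (ψ ⬝ᵥ u) • vecMulVec v φ) := by
  simp only [NN, mul_add, add_mul, smul_mul_assoc, mul_smul_comm, vv_mul, smul_smul, h1, h2,
    zero_smul, smul_zero, mul_zero, zero_mul, add_zero, zero_add]
  module

theorem NN_R (u φ v ψ : Fin n → F) (h1 : φ ⬝ᵥ u = 0) (h2 : ψ ⬝ᵥ v = 0) :
    NN u φ v ψ * ((φ ⬝ᵥ v) • vecMulVec u ψ + (ψ ⬝ᵥ u) • vecMulVec v φ)
      = ((φ ⬝ᵥ v) * (ψ ⬝ᵥ u)) • NN u φ v ψ := by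
  simp only [NN, mul_add, add_mul, smul_mul_assoc, mul_smul_comm, vv_mul, smul_smul, h1, h2,
    zero_smul, smul_zero, mul_zero, zero_mul, add_zero, zero_add]
  module

theorem NN_cube (u φ v ψ : Fin n → F) (h1 : φ ⬝ᵥ u = 0) (h2 : ψ ⬝ᵥ v = 0) :
    NN u φ v ψ * (NN u φ v ψ * NN u φ v ψ)
      = ((φ ⬝ᵥ v) * (ψ ⬝ᵥ u)) • (NN u φ v ψ * NN u φ v ψ)
        + ((φ ⬝ᵥ v) * (ψ ⬝ᵥ u)) • NN u φ v ψ := by
  have hsq := NN_sq u φ v ψ h1 h2
  have hR := NN_R u φ v ψ h1 h2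
  calc NN u φ v ψ * (NN u φ v ψ * NN u φ v ψ)
      = NN u φ v ψ * (((φ ⬝ᵥ v) * (ψ ⬝ᵥ u)) • NN u φ v ψ
        + ((φ ⬝ᵥ v) • vecMulVec u ψ + (ψ ⬝ᵥ u) • vecMulVec v φ)) := by rw [← hsq]
    _ = ((φ ⬝ᵥ v) * (ψ ⬝ᵥ u)) • (NN u φ v ψ * NN u φ v ψ)
        + NN u φ v ψ * ((φ ⬝ᵥ v) • vecMulVec u ψ + (ψ ⬝ᵥ u) • vecMulVec v φ) := by
      rw [mul_add, mul_smul_comm]
    _ = _ := by rw [hR]

theorem comm_case (u φ v ψ : Fin n → F) (h1 : φ ⬝ᵥ u = 0) (h2 : ψ ⬝ᵥ v = 0)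
    (hα : φ ⬝ᵥ v = 0) (hβ : ψ ⬝ᵥ u = 0) :
    tv u φ h1 1 * tv v ψ h2 1 = tv v ψ h2 1 * tv u φ h1 1 := by
  apply Subtype.ext
  rw [tv_mul_coe, tv_mul_coe, hα, hβ]
  simp only [mul_zero, zero_smul, add_zero]
  abel

section CharTwo

variable [CharP F 2]

theorem add_self_mat (X : Matrix (Fin n) (Fin n) F) : X + X = 0 := by
  rw [← two_smul F X, CharTwo.two_eq_zero, zero_smul]

theorem sq_one_add (N : Matrix (Fin n) (Fin n) F) : (1 + N) * (1 + N) = 1 + N * N := by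
  have h := add_self_mat N
  calc (1 + N) * (1 + N) = 1 + (N + N) + N * N := by
        rw [mul_add, add_mul, add_mul, one_mul, mul_one, one_mul]; abel
    _ = 1 + N * N := by rw [h, add_zero]

theorem mixed_sq (u φ v ψ : Fin n → F) (h1 : φ ⬝ᵥ u = 0) (h2 : ψ ⬝ᵥ v = 0)
    (hβ : ψ ⬝ᵥ u = 0) :
    (tv u φ h1 1 * tv v ψ h2 1) ^ 2 = tv u ψ hβ (φ ⬝ᵥ v) := by
  apply Subtype.ext
  rw [pow_two, Matrix.SpecialLinearGroup.coe_mul, prod_coe, sq_one_add, NN_sq u φ v ψ h1 h2, hβ,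
    tv_coe]
  simp only [mul_zero, zero_smul, add_zero, zero_add]

theorem mixed_sq' (u φ v ψ : Fin n → F) (h1 : φ ⬝ᵥ u = 0) (h2 : ψ ⬝ᵥ v = 0)
    (hα : φ ⬝ᵥ v = 0) :
    (tv u φ h1 1 * tv v ψ h2 1) ^ 2 = tv v φ hα (ψ ⬝ᵥ u) := by
  apply Subtype.ext
  rw [pow_two, Matrix.SpecialLinearGroup.coe_mul, prod_coe, sq_one_add, NN_sq u φ v ψ h1 h2, hα,
    tv_coe]
  simp only [zero_mul, zero_smul, add_zero, zero_add]

theorem tv_sq (w χ : Fin n → F) (h : χ ⬝ᵥ w = 0) (c : F) : tv w χ h c * tv w χ h c = 1 := by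
  rw [← tv_add, CharTwo.add_self_eq_zero, tv_zero]

theorem order_two (w χ : Fin n → F) (h : χ ⬝ᵥ w = 0) (hw : w ≠ 0) (hχ : χ ≠ 0) (c : F)
    (hc : c ≠ 0) : orderOf (tv w χ h c) = 2 := by
  apply orderOf_eq_prime
  · rw [pow_two, tv_sq]
  · exact tv_ne_one w χ h hw hχ c hc

theorem order_four (x : SLn n F) (w χ : Fin n → F) (h : χ ⬝ᵥ w = 0) (hw : w ≠ 0) (hχ : χ ≠ 0)
    (c : F) (hc : c ≠ 0) (hx : x ^ 2 = tv w χ h c) : orderOf x = 4 := by
  haveI : Fact (Nat.Prime 2) := ⟨Nat.prime_two⟩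
  have h4 : x ^ 2 ^ (1 + 1) = 1 := by
    have e : (2 : ℕ) ^ (1 + 1) = 2 * 2 := by norm_num
    rw [e, pow_mul, hx, pow_two, tv_sq]
  have hne : ¬ x ^ 2 ^ 1 = 1 := by
    rw [pow_one, hx]
    exact tv_ne_one w χ h hw hχ c hc
  have := orderOf_eq_prime_pow hne h4
  rw [this]
  norm_num

theorem swap_conj (u v ψ χ : Fin n → F) (h2 : ψ ⬝ᵥ v = 0) (hu : ψ ⬝ᵥ u = 0)
    (hχu : χ ⬝ᵥ u = 1) (hχv : χ ⬝ᵥ v = 1) (c : F) :
    ∃ s : SLn n F, s * tv v ψ h2 c * s⁻¹ = tv u ψ hu c := by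
  have hχ : χ ⬝ᵥ (u + v) = 0 := by
    rw [dotProduct_add, hχu, hχv]
    exact CharTwo.add_self_eq_zero 1
  refine ⟨tv (u + v) χ hχ 1, ?_⟩
  rw [conj_tv]
  apply tv_congr
  · rw [tv_mulVec, hχv, mul_one, one_smul]
    funext a
    simp only [Pi.add_apply]
    have := CharTwo.add_self_eq_zero (v a)
    linear_combination this
  · rw [tv_inv, tv_coe, vecMul_add, vecMul_one, vecMul_smul, vecMul_vecMulVec, dotProduct_add,
      hu, h2, add_zero, zero_smul, smul_zero, add_zero]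

theorem poly_identity (N : Matrix (Fin n) (Fin n) F) (t : F)
    (hc : N * (N * N) = t • (N * N) + t • N) :
    (1 + N) * (1 + N) * (1 + N) + (t + 1) • ((1 + N) * (1 + N)) + (t + 1) • (1 + N) + 1 = 0 := by
  rw [sq_one_add]
  have e : (1 + N * N) * (1 + N) = 1 + N + N * N + (t • (N * N) + t • N) := by
    rw [add_mul, one_mul, mul_add, mul_one, mul_assoc, hc]; abel
  rw [e]
  generalize N * N = M2
  have h : (1 + N + M2 + (t • M2 + t • N) + (t + 1) • (1 + M2) + (t + 1) • (1 + N) + 1 :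
      Matrix (Fin n) (Fin n) F)
      = (2 : F) • ((t + 2) • (1 : Matrix (Fin n) (Fin n) F) + (t + 1) • N + (t + 1) • M2) := by
    module
  rw [h, CharTwo.two_eq_zero, zero_smul]

theorem cube_one (N : Matrix (Fin n) (Fin n) F) (hc : N * (N * N) = N * N + N) :
    (1 + N) * (1 + N) * (1 + N) = 1 := by
  rw [sq_one_add]
  have e : (1 + N * N) * (1 + N) = 1 + N + N * N + (N * N + N) := by
    rw [add_mul, one_mul, mul_add, mul_one, mul_assoc, hc]; abel
  rw [e]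
  generalize N * N = M2
  have h : (1 + N + M2 + (M2 + N) : Matrix (Fin n) (Fin n) F) = 1 + (2 : F) • (N + M2) := by
    module
  rw [h, CharTwo.two_eq_zero, zero_smul, add_zero]

end CharTwo

/-! ### odd order via semisimplicity -/

theorem eq_one_of_sq [CharP F 2] (Xm : Matrix (Fin n) (Fin n) F) (t : F) (ht : t ≠ 0)
    (hp : Xm * Xm * Xm + (t + 1) • (Xm * Xm) + (t + 1) • Xm + 1 = 0) (m : ℕ)
    (hm : Xm ^ m * Xm ^ m = 1) : Xm ^ m = 1 := by
  classical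
  have h2F : (2 : F) = 0 := CharTwo.two_eq_zero
  obtain ⟨p, hpdef⟩ : ∃ p : Polynomial F, p = Polynomial.X ^ 3
      + Polynomial.C (t + 1) * Polynomial.X ^ 2 + Polynomial.C (t + 1) * Polynomial.X + 1 :=
    ⟨_, rfl⟩
  have hsep : p.Separable := by
    rw [Polynomial.separable_def]
    have h2X : (2 : Polynomial F) = 0 := by
      have : (2 : Polynomial F) = Polynomial.C (2 : F) := (map_ofNat Polynomial.C 2).symm
      rw [this, h2F, map_zero]
    have e3 : (Polynomial.C ((3 : ℕ) : F) : Polynomial F) = 1 := by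
      have : ((3 : ℕ) : F) = 1 := by push_cast; linear_combination h2F
      rw [this, map_one]
    have e2 : (Polynomial.C ((2 : ℕ) : F) : Polynomial F) = 0 := by
      have : ((2 : ℕ) : F) = 0 := by push_cast; exact h2F
      rw [this, map_zero]
    have hder : Polynomial.derivative p = Polynomial.X ^ 2 + (Polynomial.C t + 1) := by
      rw [hpdef]
      simp only [Polynomial.derivative_add, Polynomial.derivative_mul, Polynomial.derivative_X_pow,
        Polynomial.derivative_C, Polynomial.derivative_X, Polynomial.derivative_one, e3, e2,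
        map_add, map_one]
      ring
    have hC : Polynomial.C ((t ^ 2)⁻¹) * (Polynomial.C t) ^ 2 = (1 : Polynomial F) := by
      rw [← map_pow, ← map_mul, inv_mul_cancel₀ (pow_ne_zero 2 ht), map_one]
    refine ⟨Polynomial.C ((t ^ 2)⁻¹),
      Polynomial.C ((t ^ 2)⁻¹) * (Polynomial.X + (Polynomial.C t + 1)), ?_⟩
    rw [hder, hpdef, map_add, map_one]
    linear_combination (Polynomial.C ((t ^ 2)⁻¹) * (Polynomial.X ^ 3
      + (Polynomial.C t + 1) * Polynomial.X ^ 2 + (Polynomial.C t + 1) * Polynomial.X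
      + Polynomial.C t + 1)) * h2X + hC
  have hsq : Squarefree p := hsep.squarefree
  have key : ∀ q : Polynomial F,
      Polynomial.aeval (Matrix.toLinAlgEquiv' Xm : Module.End F (Fin n → F)) q
        = Matrix.toLinAlgEquiv' (Polynomial.aeval Xm q) := by
    intro q
    exact Polynomial.aeval_algHom_apply
      (Matrix.toLinAlgEquiv' : Matrix (Fin n) (Fin n) F ≃ₐ[F] _).toAlgHom Xm q
  have hT : Polynomial.aeval (Matrix.toLinAlgEquiv' Xm : Module.End F (Fin n → F)) p = 0 := by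
    rw [key, hpdef]
    have : Polynomial.aeval Xm (Polynomial.X ^ 3 + Polynomial.C (t + 1) * Polynomial.X ^ 2
        + Polynomial.C (t + 1) * Polynomial.X + 1)
        = Xm * Xm * Xm + (t + 1) • (Xm * Xm) + (t + 1) • Xm + 1 := by
      simp only [map_add, map_mul, map_pow, Polynomial.aeval_X, Polynomial.aeval_C, map_one,
        Algebra.algebraMap_eq_smul_one, smul_mul_assoc, one_mul, pow_succ, pow_zero, add_mul,
        add_smul, one_smul]
    rw [this, hp, map_zero]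
  have hss := Module.End.isSemisimple_of_squarefree_aeval_eq_zero hsq hT
  have hss2 := hss.aeval (Polynomial.X ^ m - 1)
  have hval : Polynomial.aeval Xm (Polynomial.X ^ m - 1 : Polynomial F) = Xm ^ m - 1 := by
    simp only [map_sub, map_pow, Polynomial.aeval_X, map_one]
  have hnilM : (Xm ^ m - 1) * (Xm ^ m - 1) = 0 := by
    have e : (Xm ^ m - 1) * (Xm ^ m - 1) = Xm ^ m * Xm ^ m - (Xm ^ m + Xm ^ m) + 1 := by
      rw [mul_sub, sub_mul, sub_mul, one_mul, mul_one, mul_one]; abel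
    rw [e, hm, add_self_mat, sub_zero]
    exact add_self_mat 1
  have hnil : IsNilpotent (Polynomial.aeval (Matrix.toLinAlgEquiv' Xm : Module.End F (Fin n → F))
      (Polynomial.X ^ m - 1 : Polynomial F)) := by
    refine ⟨2, ?_⟩
    rw [key, hval, pow_two, ← map_mul, hnilM, map_zero]
  have h0 := Module.End.eq_zero_of_isNilpotent_isSemisimple hnil hss2
  rw [key, hval] at h0
  have h1 : Xm ^ m - 1 = 0 := by
    have := congrArg (Matrix.toLinAlgEquiv' : Matrix (Fin n) (Fin n) F ≃ₐ[F] _).symm h0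
    simpa using this
  exact sub_eq_zero.mp h1

theorem odd_order [CharP F 2] [Finite F] (x : SLn n F) (t : F) (ht : t ≠ 0)
    (hp : (x : Matrix (Fin n) (Fin n) F) * (x : Matrix (Fin n) (Fin n) F)
        * (x : Matrix (Fin n) (Fin n) F)
      + (t + 1) • ((x : Matrix (Fin n) (Fin n) F) * (x : Matrix (Fin n) (Fin n) F))
      + (t + 1) • (x : Matrix (Fin n) (Fin n) F) + 1 = 0) : Odd (orderOf x) := by
  by_contra hodd
  rw [Nat.not_odd_iff_even] at hodd
  obtain ⟨m, hm⟩ := hodd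
  have hpos : 0 < orderOf x := orderOf_pos x
  have h1 : x ^ m * x ^ m = 1 := by rw [← pow_add, ← hm, pow_orderOf_eq_one]
  have h2 : x ^ m = 1 := by
    apply Subtype.ext
    rw [Matrix.SpecialLinearGroup.coe_pow, Matrix.SpecialLinearGroup.coe_one]
    apply eq_one_of_sq _ t ht hp m
    rw [← Matrix.SpecialLinearGroup.coe_pow, ← Matrix.SpecialLinearGroup.coe_mul, h1,
      Matrix.SpecialLinearGroup.coe_one]
  have h3 := orderOf_dvd_of_pow_eq_one h2
  have h4 := Nat.le_of_dvd (by omega) h3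
  omega

/-! ### generation and the single class -/

section Gen

variable [CharP F 2]

/-- permutation matrices have determinant one in characteristic 2 -/
def permSL (k : ℕ) (σ : Equiv.Perm (Fin k)) : SLn k F := ⟨σ.permMatrix F, by
  rw [Matrix.det_permutation]
  rcases Int.units_eq_one_or (Equiv.Perm.sign σ) with h | h
  · rw [h]; simp
  · rw [h]
    simp only [Units.val_neg, Units.val_one, Int.cast_neg, Int.cast_one]
    exact CharTwo.neg_eq 1⟩

theorem permSL_coe (k : ℕ) (σ : Equiv.Perm (Fin k)) :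
    ((permSL k σ : SLn k F) : Matrix (Fin k) (Fin k) F) = σ.permMatrix F := rfl

theorem elem_mem (m : ℕ) {i j : Fin (m + 3)} (hij : i ≠ j) (a : F) (ha : a ≠ 0) :
    Matrix.SpecialLinearGroup.transvection hij a ∈ Dset F m := by
  classical
  obtain ⟨σ, hσi, hσj⟩ : ∃ σ : Equiv.Perm (Fin (m + 3)), σ i = 0 ∧ σ j = 1 := by
    refine ⟨Equiv.swap (Equiv.swap i 0 j) 1 * Equiv.swap i 0, ?_, ?_⟩
    · rw [Equiv.Perm.mul_apply, Equiv.swap_apply_left]
      apply Equiv.swap_apply_of_ne_of_ne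
      · intro h
        have h2 : Equiv.swap i 0 j = Equiv.swap i 0 i := by rw [Equiv.swap_apply_left, ← h]
        exact hij ((Equiv.swap i 0).injective h2).symm
      · exact h01 m
    · rw [Equiv.Perm.mul_apply, Equiv.swap_apply_left]
  rw [mem_D_iff]
  refine ⟨a, ha, permSL (m + 3) σ, ?_⟩
  have e1 : ((permSL (m + 3) σ : SLn (m + 3) F) : Matrix (Fin (m + 3)) (Fin (m + 3)) F) *ᵥ
      (E 0 : Fin (m + 3) → F) = E i := by
    rw [permSL_coe, Matrix.permMatrix_mulVec]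
    funext k
    simp only [Function.comp_apply, E, Pi.single_apply]
    by_cases hk : k = i
    · rw [hk, hσi, if_pos rfl, if_pos rfl]
    · rw [if_neg hk, if_neg]
      intro h
      exact hk (σ.injective (h.trans hσi.symm))
  have e2' : (E j : Fin (m + 3) → F) ᵥ*
      ((permSL (m + 3) σ : SLn (m + 3) F) : Matrix (Fin (m + 3)) (Fin (m + 3)) F) = E 1 := by
    rw [permSL_coe, Matrix.vecMul_permMatrix]
    funext l
    simp only [Function.comp_apply, E, Pi.single_apply]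
    by_cases hl : l = 1
    · rw [hl, ← hσj, Equiv.symm_apply_apply, if_pos rfl, if_pos rfl]
    · rw [if_neg hl, if_neg]
      intro h
      apply hl
      rw [← hσj, ← h, Equiv.apply_symm_apply]
  have e2 : (E 1 : Fin (m + 3) → F) ᵥ*
      (((permSL (m + 3) σ)⁻¹ : SLn (m + 3) F) : Matrix (Fin (m + 3)) (Fin (m + 3)) F) = E j := by
    rw [← e2', vecMul_vecMul, sl_mul_inv, vecMul_one]
  rw [T01, conj_tv, ← tv_E_eq hij]
  exact tv_congr _ _ e1.symm e2.symm a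

theorem D_closure (m : ℕ) : Subgroup.closure (Dset F m) = ⊤ := by
  rw [eq_top_iff]
  intro M _
  haveI : Nontrivial (Fin (m + 3)) := ⟨⟨0, 1, h01 m⟩⟩
  refine Cfsg.Agent.Lib.helper13.SLSimple.transvection_induction
    (fun M => M ∈ Subgroup.closure (Dset F m)) ?_ ?_ M
  · intro i j hij a
    by_cases ha : a = 0
    · subst ha
      rw [Matrix.SpecialLinearGroup.transvection_coeff_zero]
      exact Subgroup.one_mem _
    · exact Subgroup.subset_closure (elem_mem m hij a ha)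
  · intro A B hA hB
    exact Subgroup.mul_mem _ hA hB

end Gen

theorem T01_conj (m : ℕ) (c c' : F) (hc : c ≠ 0) (hc' : c' ≠ 0) :
    ∃ d : SLn (m + 3) F, T01 m c' = d * T01 m c * d⁻¹ := by
  classical
  have hcc : c' / c ≠ 0 := div_ne_zero hc' hc
  refine ⟨Matrix.SpecialLinearGroup.diag2n (h02 m) (c' / c) hcc, ?_⟩
  have e1 : ((Matrix.SpecialLinearGroup.diag2n (h02 m) (c' / c) hcc : SLn (m + 3) F) :
      Matrix (Fin (m + 3)) (Fin (m + 3)) F) *ᵥ (E 0 : Fin (m + 3) → F) = (c' / c) • E 0 := by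
    have h := Cfsg.Agent.Lib.helper13.SLSimple.d_smul (h02 m) (c' / c) hcc (0 : Fin (m + 3))
    rw [if_pos rfl] at h
    exact h
  have e2' : (E 1 : Fin (m + 3) → F) ᵥ*
      ((Matrix.SpecialLinearGroup.diag2n (h02 m) (c' / c) hcc : SLn (m + 3) F) :
      Matrix (Fin (m + 3)) (Fin (m + 3)) F) = E 1 := by
    rw [Matrix.SpecialLinearGroup.diag2n_coe]
    funext l
    rw [vecMul_diagonal]
    simp only [E, Pi.single_apply]
    by_cases hl : l = 1
    · rw [if_pos hl, hl, if_neg (h01 m).symm, if_neg (h12 m), mul_one]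
    · rw [if_neg hl, zero_mul]
  have e2 : (E 1 : Fin (m + 3) → F) ᵥ*
      (((Matrix.SpecialLinearGroup.diag2n (h02 m) (c' / c) hcc)⁻¹ : SLn (m + 3) F) :
      Matrix (Fin (m + 3)) (Fin (m + 3)) F) = E 1 := by
    conv_lhs => rw [← e2']
    rw [vecMul_vecMul, sl_mul_inv, vecMul_one]
  have h' : (E 1 : Fin (m + 3) → F) ⬝ᵥ ((c' / c) • (E 0 : Fin (m + 3) → F)) = 0 := by
    rw [dotProduct_smul, E_dot_ne (h01 m), smul_zero]
  rw [T01, T01, conj_tv, tv_congr _ h' e1 e2, tv_smul_left _ _ (E_dot_ne (h01 m)),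
    div_mul_cancel₀ _ hc]

/-! ### the main statements -/

theorem D_pair [CharP F 2] [Fintype F] (m : ℕ) (a b : SLn (m + 3) F) (ha : a ∈ Dset F m)
    (hb : b ∈ Dset F m) :
    a * b = b * a ∨ (Odd (orderOf (a * b)) ∧ (Fintype.card F = 2 → (a * b) ^ 3 = 1)) ∨
      (orderOf (a * b) = 4 ∧ (a * b) ^ 2 ∈ Dset F m) := by
  obtain ⟨u, φ, ω, h1, hu, hφ, hω, rfl, haD⟩ := D_data m a ha
  obtain ⟨v, ψ, ω', h2, hv, hψ, hω', rfl, hbD⟩ := D_data m b hb
  by_cases hα : φ ⬝ᵥ v = 0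
  · by_cases hβ : ψ ⬝ᵥ u = 0
    · left; exact comm_case u φ v ψ h1 h2 hα hβ
    · right; right
      have hsq := mixed_sq' u φ v ψ h1 h2 hα
      refine ⟨order_four _ v φ hα hv hφ _ hβ hsq, ?_⟩
      rw [hsq]
      obtain ⟨s, hs⟩ := swap_conj v u φ (ω' + ((1 - ω' ⬝ᵥ u) / (ψ ⬝ᵥ u)) • ψ) h1 hα (by
        rw [add_dotProduct, smul_dotProduct, hω', h2]; simp) (by
        rw [add_dotProduct, smul_dotProduct, smul_eq_mul, div_mul_cancel₀ _ hβ]; ring) (ψ ⬝ᵥ u)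
      rw [← hs]
      exact D_conj m _ (haD _ hβ) s
  · by_cases hβ : ψ ⬝ᵥ u = 0
    · right; right
      have hsq := mixed_sq u φ v ψ h1 h2 hβ
      refine ⟨order_four _ u ψ hβ hu hψ _ hα hsq, ?_⟩
      rw [hsq]
      obtain ⟨s, hs⟩ := swap_conj u v ψ (ω + ((1 - ω ⬝ᵥ v) / (φ ⬝ᵥ v)) • φ) h2 hβ (by
        rw [add_dotProduct, smul_dotProduct, hω, h1]; simp) (by
        rw [add_dotProduct, smul_dotProduct, smul_eq_mul, div_mul_cancel₀ _ hα]; ring) (φ ⬝ᵥ v)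
      rw [← hs]
      exact D_conj m _ (hbD _ hα) s
    · right; left
      have hcube := NN_cube u φ v ψ h1 h2
      constructor
      · apply odd_order _ ((φ ⬝ᵥ v) * (ψ ⬝ᵥ u)) (mul_ne_zero hα hβ)
        rw [prod_coe]
        exact poly_identity _ _ hcube
      · intro hcard
        have ht : (φ ⬝ᵥ v) * (ψ ⬝ᵥ u) = 1 := by
          have h := FiniteField.pow_card_sub_one_eq_one ((φ ⬝ᵥ v) * (ψ ⬝ᵥ u))
            (mul_ne_zero hα hβ)
          rw [hcard] at h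
          simpa using h
        rw [ht, one_smul, one_smul] at hcube
        apply Subtype.ext
        rw [pow_succ, pow_two, Matrix.SpecialLinearGroup.coe_mul,
          Matrix.SpecialLinearGroup.coe_mul, prod_coe, Matrix.SpecialLinearGroup.coe_one]
        exact cube_one _ hcube

theorem root_set [CharP F 2] [Fintype F] (m : ℕ) : Cfsg.IsRootInvolutionSet (Dset F m) where
  orderOf_eq := by
    intro d hd
    obtain ⟨u, φ, ω, h1, hu, hφ, hω, rfl, _⟩ := D_data m d hd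
    exact order_two u φ h1 hu hφ 1 one_ne_zero
  generates := D_closure m
  conj_mem := fun d hd g => D_conj m d hd g
  pair := by
    intro a ha b hb
    rcases D_pair m a b ha hb with h | h | h
    · left; exact h
    · right; left; exact h.1
    · right; right; exact h

theorem root_class [CharP F 2] [Fintype F] (m : ℕ) : Cfsg.IsRootInvolutionClass (Dset F m) := by
  refine ⟨root_set m, ⟨T01 m 1, (mem_D_iff m _).mpr ⟨1, one_ne_zero, 1, by group⟩⟩, ?_⟩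
  intro a ha b hb
  rw [mem_D_iff] at ha hb
  obtain ⟨c, hc, g, rfl⟩ := ha
  obtain ⟨c', hc', g', rfl⟩ := hb
  obtain ⟨d, hd⟩ := T01_conj m c c' hc hc'
  refine ⟨g' * d * g⁻¹, ?_⟩
  rw [hd]
  group

theorem three_four [CharP F 2] [Fintype F] (m : ℕ) (hcard : Fintype.card F = 2) :
    Cfsg.IsThreeFourPlusTranspositionSet (Dset F m) := by
  refine ⟨root_set m, ?_⟩
  intro a ha b hb hodd
  rcases D_pair m a b ha hb with h | h | h
  · left
    have ha2 : a * a = 1 := by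
      have := pow_orderOf_eq_one a
      rw [(root_set m).orderOf_eq a ha, pow_two] at this
      exact this
    have hb2 : b * b = 1 := by
      have := pow_orderOf_eq_one b
      rw [(root_set m).orderOf_eq b hb, pow_two] at this
      exact this
    have h2 : (a * b) ^ 2 = 1 := by
      rw [pow_two]
      calc a * b * (a * b) = a * (b * a) * b := by group
        _ = a * (a * b) * b := by rw [h]
        _ = (a * a) * (b * b) := by group
        _ = 1 := by rw [ha2, hb2, one_mul]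
    have hd := orderOf_dvd_of_pow_eq_one h2
    rcases (Nat.dvd_prime Nat.prime_two).mp hd with h1 | h1
    · exact h1
    · rw [h1] at hodd
      exact absurd hodd (by decide)
  · have hd := orderOf_dvd_of_pow_eq_one (h.2 hcard)
    exact (Nat.dvd_prime Nat.prime_three).mp hd
  · rw [h.1] at hodd
    exact absurd hodd (by decide)

end Cfsg.Agent.Lib.helper6.TvRoot
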