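import Mathlib
import Cfsg.Agent.Lib.helper6.TvRoot
import Cfsg.Agent.Lib.helper13.SLSimple

set_option autoImplicit false

/-! Root subgroups of transvections of `SL_n` as a class of abstract root subgroups. -/

namespace Cfsg.Agent.Lib.helper6.TvRootSub

open Matrix Cfsg Cfsg.Agent.Lib.helper13.PN Cfsg.Agent.Lib.helper6.TvRoot

variable {F : Type*} [Field F] {n : ℕ}

/-- the group of transvections with centre `u` and axis `ker φ` -/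
def RS (u φ : Fin n → F) (h : φ ⬝ᵥ u = 0) : Subgroup (SLn n F) where
  carrier := {x | ∃ t : F, x = tv u φ h t}
  mul_mem' := by
    rintro _ _ ⟨s, rfl⟩ ⟨t, rfl⟩
    exact ⟨s + t, (tv_add _ _ _ _ _).symm⟩
  one_mem' := ⟨0, (tv_zero _ _ _).symm⟩
  inv_mem' := by
    rintro _ ⟨s, rfl⟩
    exact ⟨-s, tv_inv _ _ _ _⟩

theorem mem_RS (u φ : Fin n → F) (h : φ ⬝ᵥ u = 0) (x : SLn n F) :
    x ∈ RS u φ h ↔ ∃ t : F, x = tv u φ h t := Iff.rfl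

theorem tv_mem (u φ : Fin n → F) (h : φ ⬝ᵥ u = 0) (t : F) : tv u φ h t ∈ RS u φ h := ⟨t, rfl⟩

theorem RS_congr {u u' φ φ' : Fin n → F} (h : φ ⬝ᵥ u = 0) (hu : u = u') (hφ : φ = φ') :
    RS u φ h = RS u' φ' (by rw [← hu, ← hφ]; exact h) := by
  subst hu; subst hφ; rfl

theorem RS_smul {u u' φ φ' : Fin n → F} (h : φ ⬝ᵥ u = 0) (h' : φ' ⬝ᵥ u' = 0) (c d : F)
    (hc : c ≠ 0) (hd : d ≠ 0) (hu : u' = c • u) (hφ : φ' = d • φ) :
    RS u' φ' h' = RS u φ h := by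
  subst hu; subst hφ
  ext x
  rw [mem_RS, mem_RS]
  constructor
  · rintro ⟨t, rfl⟩
    exact ⟨c * d * t, tv_smul u φ h c d t h'⟩
  · rintro ⟨t, rfl⟩
    refine ⟨t / (c * d), ?_⟩
    rw [tv_smul u φ h c d _ h']
    congr 1
    field_simp

theorem mem_conjBy {G : Type*} [Group G] (A : Subgroup G) (g x : G) :
    x ∈ conjBy A g ↔ ∃ a ∈ A, x = g * a * g⁻¹ := by
  simp only [conjBy, Subgroup.mem_map, MulEquiv.coe_toMonoidHom, MulAut.conj_apply]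
  constructor
  · rintro ⟨a, ha, rfl⟩; exact ⟨a, ha, rfl⟩
  · rintro ⟨a, ha, rfl⟩; exact ⟨a, ha, rfl⟩

theorem conjBy_RS (u φ : Fin n → F) (h : φ ⬝ᵥ u = 0) (g : SLn n F) :
    conjBy (RS u φ h) g = RS ((g : Matrix (Fin n) (Fin n) F) *ᵥ u)
      (φ ᵥ* ((g⁻¹ : SLn n F) : Matrix (Fin n) (Fin n) F)) (by rw [dot_conj', h]) := by
  ext x
  rw [mem_conjBy, mem_RS]
  constructor
  · rintro ⟨_, ⟨t, rfl⟩, rfl⟩
    exact ⟨t, conj_tv g u φ h t⟩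
  · rintro ⟨t, rfl⟩
    exact ⟨_, ⟨t, rfl⟩, (conj_tv g u φ h t).symm⟩

theorem conjBy_mul {G : Type*} [Group G] (A : Subgroup G) (g g' : G) :
    conjBy (conjBy A g) g' = conjBy A (g' * g) := by
  ext x
  simp only [mem_conjBy]
  constructor
  · rintro ⟨_, ⟨a, ha, rfl⟩, rfl⟩
    exact ⟨a, ha, by group⟩
  · rintro ⟨a, ha, rfl⟩
    exact ⟨g * a * g⁻¹, ⟨a, ha, rfl⟩, by group⟩

theorem conjBy_one {G : Type*} [Group G] (A : Subgroup G) : conjBy A 1 = A := by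
  ext x
  rw [mem_conjBy]
  constructor
  · rintro ⟨a, ha, rfl⟩
    simpa using ha
  · intro hx
    exact ⟨x, hx, by simp⟩

theorem tv_comm_st (u φ v ψ : Fin n → F) (h1 : φ ⬝ᵥ u = 0) (h2 : ψ ⬝ᵥ v = 0)
    (hα : φ ⬝ᵥ v = 0) (hβ : ψ ⬝ᵥ u = 0) (s t : F) :
    tv u φ h1 s * tv v ψ h2 t = tv v ψ h2 t * tv u φ h1 s := by
  apply Subtype.ext
  rw [tv_mul_coe, tv_mul_coe, hα, hβ]
  simp only [mul_zero, zero_smul, add_zero]
  abel

theorem RS_comm (u φ : Fin n → F) (h : φ ⬝ᵥ u = 0) : IsMulCommutative (RS u φ h) := by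
  refine ⟨⟨?_⟩⟩
  rintro ⟨_, ⟨s, rfl⟩⟩ ⟨_, ⟨t, rfl⟩⟩
  apply Subtype.ext
  exact tv_comm_st u φ u φ h h h h s t

theorem RS_nilp (u φ : Fin n → F) (h : φ ⬝ᵥ u = 0) : Group.IsNilpotent (RS u φ h) :=
  ⟨⟨1, Subgroup.upperCentralSeries_one_eq_top_iff.2 (RS_comm u φ h)⟩⟩

theorem RS_ne_bot (u φ : Fin n → F) (h : φ ⬝ᵥ u = 0) (hu : u ≠ 0) (hφ : φ ≠ 0) :
    RS u φ h ≠ ⊥ := by
  intro hb
  have h1 : tv u φ h 1 ∈ RS u φ h := tv_mem u φ h 1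
  rw [hb, Subgroup.mem_bot] at h1
  exact tv_ne_one u φ h hu hφ 1 one_ne_zero h1

theorem tv_vecMul (v φ : Fin n → F) (h : φ ⬝ᵥ v = 0) (t : F) (x : Fin n → F) :
    x ᵥ* ((tv v φ h t : SLn n F) : Matrix (Fin n) (Fin n) F) = x + (t * (x ⬝ᵥ v)) • φ := by
  rw [tv_coe, vecMul_add, vecMul_one, vecMul_smul, vecMul_vecMulVec, smul_smul]

theorem vv_mulVec (v φ x : Fin n → F) : vecMulVec v φ *ᵥ x = (φ ⬝ᵥ x) • v := by
  ext i
  simp only [mulVec, dotProduct, vecMulVec_apply, Pi.smul_apply, smul_eq_mul, Finset.sum_mul]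
  apply Finset.sum_congr rfl
  intro j _
  ring

/-! ### transitivity on incident point-hyperplane pairs -/

theorem move_point (u u' φ : Fin n → F) (h : φ ⬝ᵥ u = 0) (h' : φ ⬝ᵥ u' = 0) (hu : u ≠ 0)
    (hu' : u' ≠ 0) : ∃ g : SLn n F, conjBy (RS u φ h) g = RS u' φ h' := by
  by_cases hp : Par u u'
  · obtain ⟨c, hc, hcu⟩ := hp.exists_smul hu hu'
    refine ⟨1, ?_⟩
    rw [conjBy_one]
    exact (RS_smul h h' c 1 hc one_ne_zero hcu (one_smul _ _).symm).symm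
  · unfold Par at hp
    push Not at hp
    obtain ⟨a, c, hac⟩ := hp
    obtain ⟨D, hDdef⟩ : ∃ D, D = u a * u' c - u c * u' a := ⟨_, rfl⟩
    have hD : D ≠ 0 := by rw [hDdef]; exact sub_ne_zero.mpr hac
    obtain ⟨χ, hχdef⟩ : ∃ χ : Fin n → F,
        χ = ((u' c - u c) / D) • E a + ((u a - u' a) / D) • E c := ⟨_, rfl⟩
    have hχu : χ ⬝ᵥ u = 1 := by
      rw [hχdef, add_dotProduct, smul_dotProduct, smul_dotProduct, E_dot', E_dot']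
      simp only [smul_eq_mul]
      field_simp
      rw [hDdef]; ring
    have hχu' : χ ⬝ᵥ u' = 1 := by
      rw [hχdef, add_dotProduct, smul_dotProduct, smul_dotProduct, E_dot', E_dot']
      simp only [smul_eq_mul]
      field_simp
      rw [hDdef]; ring
    have hχ : χ ⬝ᵥ (u' - u) = 0 := by rw [dotProduct_sub, hχu, hχu', sub_self]
    refine ⟨tv (u' - u) χ hχ 1, ?_⟩
    rw [conjBy_RS]
    have e1 : ((tv (u' - u) χ hχ 1 : SLn n F) : Matrix (Fin n) (Fin n) F) *ᵥ u = u' := by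
      rw [tv_mulVec, hχu, mul_one, one_smul]; abel
    have e2 : φ ᵥ* (((tv (u' - u) χ hχ 1)⁻¹ : SLn n F) : Matrix (Fin n) (Fin n) F) = φ := by
      rw [tv_inv, tv_vecMul, dotProduct_sub, h, h', sub_zero, mul_zero, zero_smul, add_zero]
    exact RS_congr _ e1 e2

theorem move_hyp (u φ φ' : Fin n → F) (h : φ ⬝ᵥ u = 0) (h' : φ' ⬝ᵥ u = 0) (hφ : φ ≠ 0)
    (hφ' : φ' ≠ 0) : ∃ g : SLn n F, conjBy (RS u φ h) g = RS u φ' h' := by
  by_cases hp : Par φ φ'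
  · obtain ⟨c, hc, hcu⟩ := hp.exists_smul hφ hφ'
    refine ⟨1, ?_⟩
    rw [conjBy_one]
    exact (RS_smul h h' 1 c one_ne_zero hc (one_smul _ _).symm hcu).symm
  · unfold Par at hp
    push Not at hp
    obtain ⟨a, c, hac⟩ := hp
    obtain ⟨D, hDdef⟩ : ∃ D, D = φ a * φ' c - φ c * φ' a := ⟨_, rfl⟩
    have hD : D ≠ 0 := by rw [hDdef]; exact sub_ne_zero.mpr hac
    obtain ⟨w, hwdef⟩ : ∃ w : Fin n → F,
        w = ((φ' c - φ c) / D) • E a + ((φ a - φ' a) / D) • E c := ⟨_, rfl⟩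
    have hφw : φ ⬝ᵥ w = 1 := by
      rw [hwdef, dotProduct_add, dotProduct_smul, dotProduct_smul, dot_E, dot_E]
      simp only [smul_eq_mul]
      field_simp
      rw [hDdef]; ring
    have hφ'w : φ' ⬝ᵥ w = 1 := by
      rw [hwdef, dotProduct_add, dotProduct_smul, dotProduct_smul, dot_E, dot_E]
      simp only [smul_eq_mul]
      field_simp
      rw [hDdef]; ring
    have hw : (φ' - φ) ⬝ᵥ w = 0 := by rw [sub_dotProduct, hφw, hφ'w, sub_self]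
    refine ⟨tv w (φ' - φ) hw (-1), ?_⟩
    rw [conjBy_RS]
    have e1 : ((tv w (φ' - φ) hw (-1) : SLn n F) : Matrix (Fin n) (Fin n) F) *ᵥ u = u := by
      rw [tv_mulVec, sub_dotProduct, h, h', sub_zero, mul_zero, zero_smul, add_zero]
    have e2 : φ ᵥ* (((tv w (φ' - φ) hw (-1))⁻¹ : SLn n F) : Matrix (Fin n) (Fin n) F) = φ' := by
      rw [tv_inv, tv_vecMul, hφw, mul_one, neg_neg, one_smul]; abel
    exact RS_congr _ e1 e2

theorem trans_RS (hn : 3 ≤ n) (u φ v ψ : Fin n → F) (h : φ ⬝ᵥ u = 0) (h' : ψ ⬝ᵥ v = 0)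
    (hu : u ≠ 0) (hφ : φ ≠ 0) (hv : v ≠ 0) (hψ : ψ ≠ 0) :
    ∃ g : SLn n F, conjBy (RS u φ h) g = RS v ψ h' := by
  obtain ⟨χ, hχ0, hχu, hχv⟩ := exists_ker2 hn u v
  rw [dotProduct_comm] at hχu hχv
  obtain ⟨g1, hg1⟩ := move_hyp u φ χ h hχu hφ hχ0
  obtain ⟨g2, hg2⟩ := move_point u v χ hχu hχv hu hv
  obtain ⟨g3, hg3⟩ := move_hyp v χ ψ hχv h' hχ0 hψ
  refine ⟨g3 * (g2 * g1), ?_⟩
  rw [← conjBy_mul, ← conjBy_mul, hg1, hg2, hg3]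

/-! ### the class of the statement -/

/-- the conjugates of the group of elementary transvections `1 + c E₀₁` -/
def S0 (F : Type*) [Field F] (m : ℕ) : Set (Subgroup (SLn (m + 3) F)) :=
  {A | ∃ g : SLn (m + 3) F, A = conjBy (Subgroup.closure {t : SLn (m + 3) F |
      ∃ c : F, (t : Matrix (Fin (m + 3)) (Fin (m + 3)) F) = Matrix.transvection 0 1 c}) g}

theorem A0_eq (m : ℕ) : Subgroup.closure {t : SLn (m + 3) F |
      ∃ c : F, (t : Matrix (Fin (m + 3)) (Fin (m + 3)) F) = Matrix.transvection 0 1 c}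
    = RS (E 0) (E 1) (E_dot_ne (h01 m)) := by
  have : {t : SLn (m + 3) F |
      ∃ c : F, (t : Matrix (Fin (m + 3)) (Fin (m + 3)) F) = Matrix.transvection 0 1 c}
      = ((RS (E 0) (E 1) (E_dot_ne (h01 m)) : Subgroup (SLn (m + 3) F)) :
        Set (SLn (m + 3) F)) := by
    ext t
    constructor
    · rintro ⟨c, hc⟩
      exact ⟨c, Subtype.ext (by rw [hc]; exact (T01_coe m c).symm)⟩
    · rintro ⟨c, rfl⟩
      exact ⟨c, T01_coe m c⟩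
  rw [this, Subgroup.closure_eq]

theorem mulVec_ne_zero (g : SLn n F) (u : Fin n → F) (hu : u ≠ 0) :
    (g : Matrix (Fin n) (Fin n) F) *ᵥ u ≠ 0 := by
  intro h
  have h1 : ((g⁻¹ : SLn n F) : Matrix (Fin n) (Fin n) F) *ᵥ
      ((g : Matrix (Fin n) (Fin n) F) *ᵥ u) = u := by
    rw [mulVec_mulVec, sl_inv_mul, one_mulVec]
  rw [h, mulVec_zero] at h1
  exact hu h1.symm

theorem vecMul_ne_zero (g : SLn n F) (φ : Fin n → F) (hφ : φ ≠ 0) :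
    φ ᵥ* ((g⁻¹ : SLn n F) : Matrix (Fin n) (Fin n) F) ≠ 0 := by
  intro h
  have h1 : (φ ᵥ* ((g⁻¹ : SLn n F) : Matrix (Fin n) (Fin n) F)) ᵥ*
      (g : Matrix (Fin n) (Fin n) F) = φ := by
    rw [vecMul_vecMul, sl_inv_mul, vecMul_one]
  rw [h, zero_vecMul] at h1
  exact hφ h1.symm

theorem mem_S0 (m : ℕ) (A : Subgroup (SLn (m + 3) F)) :
    A ∈ S0 F m ↔ ∃ (u φ : Fin (m + 3) → F) (h : φ ⬝ᵥ u = 0), u ≠ 0 ∧ φ ≠ 0 ∧ A = RS u φ h := by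
  constructor
  · rintro ⟨g, rfl⟩
    rw [A0_eq, conjBy_RS]
    exact ⟨_, _, _, mulVec_ne_zero g _ (E_ne_zero 0), vecMul_ne_zero g _ (E_ne_zero 1), rfl⟩
  · rintro ⟨u, φ, h, hu, hφ, rfl⟩
    obtain ⟨g, hg⟩ := trans_RS (by omega) (E 0) (E 1) u φ (E_dot_ne (h01 m)) h (E_ne_zero 0)
      (E_ne_zero 1) hu hφ
    exact ⟨g, by rw [A0_eq, hg]⟩

theorem RS_mem_S0 (m : ℕ) (u φ : Fin (m + 3) → F) (h : φ ⬝ᵥ u = 0) (hu : u ≠ 0) (hφ : φ ≠ 0) :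
    RS u φ h ∈ S0 F m := (mem_S0 m _).2 ⟨u, φ, h, hu, hφ, rfl⟩

/-! ### pairs of root subgroups -/

theorem comm_identity (u φ v ψ : Fin n → F) (h1 : φ ⬝ᵥ u = 0) (h2 : ψ ⬝ᵥ v = 0)
    (hβ : ψ ⬝ᵥ u = 0) (s t : F) :
    tv u φ h1 s * tv v ψ h2 t * (tv u φ h1 s)⁻¹ * (tv v ψ h2 t)⁻¹
      = tv u ψ hβ (s * t * (φ ⬝ᵥ v)) := by
  have key : tv u φ h1 s * tv v ψ h2 t
      = tv u ψ hβ (s * t * (φ ⬝ᵥ v)) * (tv v ψ h2 t * tv u φ h1 s) := by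
    apply Subtype.ext
    rw [Matrix.SpecialLinearGroup.coe_mul (tv u ψ hβ _), tv_mul_coe, tv_mul_coe, tv_coe, hβ]
    simp only [mul_add, add_mul, mul_one, one_mul, smul_mul_assoc, mul_smul_comm, vv_mul,
      hβ, h2, mul_zero, zero_smul, smul_zero, add_zero]
    module
  rw [key]; group

theorem comm_bot (u φ v ψ : Fin n → F) (h1 : φ ⬝ᵥ u = 0) (h2 : ψ ⬝ᵥ v = 0)
    (hα : φ ⬝ᵥ v = 0) (hβ : ψ ⬝ᵥ u = 0) : ⁅RS u φ h1, RS v ψ h2⁆ = ⊥ := by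
  rw [Subgroup.commutator_eq_bot_iff_le_centralizer]
  rintro _ ⟨s, rfl⟩
  rw [Subgroup.mem_centralizer_iff]
  rintro _ ⟨t, rfl⟩
  exact (tv_comm_st u φ v ψ h1 h2 hα hβ s t).symm

theorem comm_case_RS (m : ℕ) (u φ v ψ : Fin (m + 3) → F) (h1 : φ ⬝ᵥ u = 0) (h2 : ψ ⬝ᵥ v = 0)
    (hu : u ≠ 0) (hψ : ψ ≠ 0) (hα : φ ⬝ᵥ v ≠ 0) (hβ : ψ ⬝ᵥ u = 0) :
    RootCommutatorCase (S0 F m) (RS u φ h1) (RS v ψ h2) := by
  have hcomm : ⁅RS u φ h1, RS v ψ h2⁆ = RS u ψ hβ := by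
    apply le_antisymm
    · rw [Subgroup.commutator_le]
      rintro _ ⟨s, rfl⟩ _ ⟨t, rfl⟩
      rw [commutatorElement_def, comm_identity u φ v ψ h1 h2 hβ]
      exact tv_mem _ _ _ _
    · rintro _ ⟨c, rfl⟩
      have := Subgroup.commutator_mem_commutator (tv_mem u φ h1 1)
        (tv_mem v ψ h2 (c / (φ ⬝ᵥ v)))
      rw [commutatorElement_def, comm_identity u φ v ψ h1 h2 hβ] at this
      have e : 1 * (c / (φ ⬝ᵥ v)) * (φ ⬝ᵥ v) = c := by field_simp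
      rwa [e] at this
  refine ⟨?_, ?_, ?_, ?_⟩
  · rw [hcomm]
    exact RS_mem_S0 m u ψ hβ hu hψ
  · rw [hcomm]
    rintro _ ⟨c, rfl⟩ x hx
    have hle : RS u φ h1 ⊔ RS v ψ h2 ≤ Subgroup.centralizer {tv u ψ hβ c} := by
      rw [sup_le_iff]
      constructor
      · rintro _ ⟨s, rfl⟩
        rw [Subgroup.mem_centralizer_iff]
        intro y hy
        rw [Set.mem_singleton_iff] at hy
        subst hy
        exact tv_comm_st u ψ u φ hβ h1 hβ h1 c s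
      · rintro _ ⟨t, rfl⟩
        rw [Subgroup.mem_centralizer_iff]
        intro y hy
        rw [Set.mem_singleton_iff] at hy
        subst hy
        exact tv_comm_st u ψ v ψ hβ h2 h2 hβ c t
    have h3 := hle hx
    rw [Subgroup.mem_centralizer_iff] at h3
    exact h3 _ rfl
  · intro a ha ha1
    obtain ⟨s, rfl⟩ := ha
    have hs : s ≠ 0 := by
      rintro rfl
      exact ha1 (tv_zero _ _ _)
    rw [hcomm]
    apply le_antisymm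
    · rw [Subgroup.closure_le]
      rintro _ ⟨_, ⟨t, rfl⟩, rfl⟩
      show _ * _ * _⁻¹ * _⁻¹ ∈ _
      rw [comm_identity u φ v ψ h1 h2 hβ]
      exact tv_mem _ _ _ _
    · rintro _ ⟨c, rfl⟩
      apply Subgroup.subset_closure
      refine ⟨tv v ψ h2 (c / (s * (φ ⬝ᵥ v))), tv_mem _ _ _ _, ?_⟩
      show _ * _ * _⁻¹ * _⁻¹ = _
      rw [comm_identity u φ v ψ h1 h2 hβ]
      congr 1
      field_simp
  · intro b hb hb1
    obtain ⟨t, rfl⟩ := hb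
    have ht : t ≠ 0 := by
      rintro rfl
      exact hb1 (tv_zero _ _ _)
    rw [hcomm]
    apply le_antisymm
    · rw [Subgroup.closure_le]
      rintro _ ⟨_, ⟨s, rfl⟩, rfl⟩
      show _ * _ * _⁻¹ * _⁻¹ ∈ _
      rw [comm_identity u φ v ψ h1 h2 hβ]
      exact tv_mem _ _ _ _
    · rintro _ ⟨c, rfl⟩
      apply Subgroup.subset_closure
      refine ⟨tv u φ h1 (c / (t * (φ ⬝ᵥ v))), tv_mem _ _ _ _, ?_⟩
      show _ * _ * _⁻¹ * _⁻¹ = _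
      rw [comm_identity u φ v ψ h1 h2 hβ]
      congr 1
      field_simp

theorem rcc_symm {G : Type*} [Group G] (S : Set (Subgroup G)) (A B : Subgroup G)
    (h : RootCommutatorCase S B A) : RootCommutatorCase S A B := by
  obtain ⟨h1, h2, h3, h4⟩ := h
  have hc : ⁅A, B⁆ = ⁅B, A⁆ := Subgroup.commutator_comm A B
  have key : ∀ (X : Subgroup G) (a : G), ((fun b : G => a * b * a⁻¹ * b⁻¹) '' (X : Set G))
      = ((fun b : G => b * a * b⁻¹ * a⁻¹) '' (X : Set G))⁻¹ := by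
    intro X a
    ext x
    simp only [Set.mem_image, Set.mem_inv, SetLike.mem_coe]
    constructor
    · rintro ⟨b, hb, rfl⟩
      exact ⟨b, hb, by group⟩
    · rintro ⟨b, hb, hx⟩
      refine ⟨b, hb, ?_⟩
      rw [← inv_inv x, ← hx]
      group
  refine ⟨hc ▸ h1, ?_, ?_, ?_⟩
  · rw [hc, sup_comm]
    exact h2
  · intro a ha ha1
    rw [key, Subgroup.closure_inv, hc]
    exact h4 a ha ha1
  · intro b hb hb1
    rw [hc, ← h3 b hb hb1, key A b, Subgroup.closure_inv]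

theorem conj_inv_RS (u φ v ψ : Fin n → F) (h1 : φ ⬝ᵥ u = 0) (h2 : ψ ⬝ᵥ v = 0) (t : F) :
    ∃ pf, conjBy (RS u φ h1) (tv v ψ h2 t)⁻¹
      = RS (u - (t * (ψ ⬝ᵥ u)) • v) (φ + (t * (φ ⬝ᵥ v)) • ψ) pf := by
  have e1 : (((tv v ψ h2 t)⁻¹ : SLn n F) : Matrix (Fin n) (Fin n) F) *ᵥ u
      = u - (t * (ψ ⬝ᵥ u)) • v := by
    rw [tv_inv, tv_mulVec, neg_mul, neg_smul, sub_eq_add_neg]
  have e2 : φ ᵥ* ((((tv v ψ h2 t)⁻¹)⁻¹ : SLn n F) : Matrix (Fin n) (Fin n) F)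
      = φ + (t * (φ ⬝ᵥ v)) • ψ := by
    rw [inv_inv, tv_vecMul]
  exact ⟨_, (conjBy_RS u φ h1 _).trans (RS_congr _ e1 e2)⟩

theorem rank_one_cond (u φ v ψ : Fin n → F) (h1 : φ ⬝ᵥ u = 0) (h2 : ψ ⬝ᵥ v = 0) (hv : v ≠ 0)
    (hψ : ψ ≠ 0) (hα : φ ⬝ᵥ v ≠ 0) (hβ : ψ ⬝ᵥ u ≠ 0) :
    RankOneCondition (RS u φ h1) (RS v ψ h2) := by
  rintro _ ⟨s, rfl⟩ ha1
  have hs : s ≠ 0 := by
    rintro rfl
    exact ha1 (tv_zero _ _ _)
  obtain ⟨t, ht⟩ : ∃ t : F, t = 1 / (s * (φ ⬝ᵥ v) * (ψ ⬝ᵥ u)) := ⟨_, rfl⟩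
  have ht0 : t ≠ 0 := by
    rw [ht]
    exact one_div_ne_zero (mul_ne_zero (mul_ne_zero hs hα) hβ)
  refine ⟨tv v ψ h2 t, tv_mem _ _ _ _, tv_ne_one v ψ h2 hv hψ t ht0, ?_⟩
  obtain ⟨p1, e1⟩ := conj_inv_RS u φ v ψ h1 h2 t
  obtain ⟨p2, e2⟩ := conj_inv_RS v ψ u φ h2 h1 s
  rw [e1, e2]
  apply RS_smul p2 p1 (-1 / (s * (φ ⬝ᵥ v))) (1 / (s * (ψ ⬝ᵥ u)))
    (div_ne_zero (neg_ne_zero.mpr one_ne_zero) (mul_ne_zero hs hα))
    (one_div_ne_zero (mul_ne_zero hs hβ))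
  · rw [ht]
    ext i
    simp only [Pi.sub_apply, Pi.smul_apply, smul_eq_mul]
    field_simp
    ring
  · rw [ht]
    ext i
    simp only [Pi.add_apply, Pi.smul_apply, smul_eq_mul]
    field_simp
    ring

theorem RS_ne_of (u φ v ψ : Fin n → F) (h1 : φ ⬝ᵥ u = 0) (h2 : ψ ⬝ᵥ v = 0) (hu : u ≠ 0)
    (hα : φ ⬝ᵥ v ≠ 0) : RS u φ h1 ≠ RS v ψ h2 := by
  intro heq
  have hm : tv u φ h1 1 ∈ RS v ψ h2 := heq ▸ tv_mem u φ h1 1
  obtain ⟨r, hr⟩ := hm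
  have h3 := congrArg (fun M : SLn n F => (M : Matrix (Fin n) (Fin n) F) *ᵥ v) hr
  simp only [tv_mulVec, h2, mul_zero, zero_smul, add_zero, one_mul] at h3
  have h4 : (φ ⬝ᵥ v) • u = 0 := by
    have : v + (φ ⬝ᵥ v) • u = v + 0 := by rw [h3, add_zero]
    exact add_left_cancel this
  rcases smul_eq_zero.1 h4 with h5 | h5
  · exact hα h5
  · exact hu h5

theorem rank_one_RS (u φ v ψ : Fin n → F) (h1 : φ ⬝ᵥ u = 0) (h2 : ψ ⬝ᵥ v = 0) (hu : u ≠ 0)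
    (hφ : φ ≠ 0) (hv : v ≠ 0) (hψ : ψ ≠ 0) (hα : φ ⬝ᵥ v ≠ 0) (hβ : ψ ⬝ᵥ u ≠ 0) :
    IsRankOnePair (RS u φ h1) (RS v ψ h2) :=
  ⟨RS_ne_of u φ v ψ h1 h2 hu hα, RS_nilp u φ h1, RS_nilp v ψ h2,
    rank_one_cond u φ v ψ h1 h2 hv hψ hα hβ, rank_one_cond v ψ u φ h2 h1 hu hφ hβ hα⟩

theorem not_rank_one_mixed (u φ v ψ : Fin n → F) (h1 : φ ⬝ᵥ u = 0) (h2 : ψ ⬝ᵥ v = 0)
    (hu : u ≠ 0) (hφ : φ ≠ 0) (hα : φ ⬝ᵥ v ≠ 0) (hβ : ψ ⬝ᵥ u = 0)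
    (hR : RankOneCondition (RS u φ h1) (RS v ψ h2)) : False := by
  obtain ⟨b, ⟨t, rfl⟩, -, heq⟩ := hR (tv u φ h1 1) (tv_mem _ _ _ _)
    (tv_ne_one u φ h1 hu hφ 1 one_ne_zero)
  obtain ⟨p1, e1⟩ := conj_inv_RS u φ v ψ h1 h2 t
  obtain ⟨p2, e2⟩ := conj_inv_RS v ψ u φ h2 h1 1
  rw [e1, e2] at heq
  have hm : tv _ _ p1 1 ∈ RS _ _ p2 := heq ▸ tv_mem _ _ p1 1
  obtain ⟨r, hr⟩ := hm
  have h3 := congrArg (fun M : SLn n F => (M : Matrix (Fin n) (Fin n) F) *ᵥ v) hr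
  simp only [tv_mulVec, add_dotProduct, smul_dotProduct, h2, hβ, mul_zero, zero_smul, add_zero,
    one_mul, smul_zero, sub_zero] at h3
  have h4 : (φ ⬝ᵥ v) • u = 0 := by
    have : v + (φ ⬝ᵥ v) • u = v + 0 := by rw [h3, add_zero]
    exact add_left_cancel this
  rcases smul_eq_zero.1 h4 with h5 | h5
  · exact hα h5
  · exact hu h5

theorem not_rank_one_comm (u φ v ψ : Fin n → F) (h1 : φ ⬝ᵥ u = 0) (h2 : ψ ⬝ᵥ v = 0)
    (hu : u ≠ 0) (hφ : φ ≠ 0) (hα : φ ⬝ᵥ v = 0) (hβ : ψ ⬝ᵥ u = 0)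
    (hR : RankOneCondition (RS u φ h1) (RS v ψ h2)) : RS u φ h1 = RS v ψ h2 := by
  obtain ⟨b, ⟨t, rfl⟩, -, heq⟩ := hR (tv u φ h1 1) (tv_mem _ _ _ _)
    (tv_ne_one u φ h1 hu hφ 1 one_ne_zero)
  obtain ⟨p1, e1⟩ := conj_inv_RS u φ v ψ h1 h2 t
  obtain ⟨p2, e2⟩ := conj_inv_RS v ψ u φ h2 h1 1
  rw [e1, e2] at heq
  have e3 := RS_congr p1 (show u - (t * (ψ ⬝ᵥ u)) • v = u by rw [hβ]; simp)
    (show φ + (t * (φ ⬝ᵥ v)) • ψ = φ by rw [hα]; simp)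
  have e4 := RS_congr p2 (show v - (1 * (φ ⬝ᵥ v)) • u = v by rw [hα]; simp)
    (show ψ + (1 * (ψ ⬝ᵥ u)) • φ = ψ by rw [hβ]; simp)
  rw [← e3, ← e4]
  exact heq

theorem rank_one_dots (u φ v ψ : Fin n → F) (h1 : φ ⬝ᵥ u = 0) (h2 : ψ ⬝ᵥ v = 0)
    (hu : u ≠ 0) (hφ : φ ≠ 0) (hv : v ≠ 0) (hψ : ψ ≠ 0)
    (hR : IsRankOnePair (RS u φ h1) (RS v ψ h2)) : φ ⬝ᵥ v ≠ 0 ∧ ψ ⬝ᵥ u ≠ 0 := by
  by_cases hα : φ ⬝ᵥ v = 0
  · by_cases hβ : ψ ⬝ᵥ u = 0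
    · exact absurd (not_rank_one_comm u φ v ψ h1 h2 hu hφ hα hβ hR.cond_left) hR.ne
    · exact (not_rank_one_mixed v ψ u φ h2 h1 hv hψ hβ hα hR.cond_right).elim
  · by_cases hβ : ψ ⬝ᵥ u = 0
    · exact (not_rank_one_mixed u φ v ψ h1 h2 hu hφ hα hβ hR.cond_left).elim
    · exact ⟨hα, hβ⟩

/-! ### the image of `SL₂` -/

/-- upper unitriangular element of `SL₂` -/
def upT (t : F) : SLn 2 F := ⟨!![1, t; 0, 1], by simp [Matrix.det_fin_two]⟩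

/-- lower unitriangular element of `SL₂` -/
def loT (t : F) : SLn 2 F := ⟨!![1, 0; t, 1], by simp [Matrix.det_fin_two]⟩

theorem upT_00 (t : F) : (upT t : SLn 2 F).1 0 0 = 1 := rfl
theorem upT_01 (t : F) : (upT t : SLn 2 F).1 0 1 = t := rfl
theorem upT_10 (t : F) : (upT t : SLn 2 F).1 1 0 = 0 := rfl
theorem upT_11 (t : F) : (upT t : SLn 2 F).1 1 1 = 1 := rfl
theorem loT_00 (t : F) : (loT t : SLn 2 F).1 0 0 = 1 := rfl
theorem loT_01 (t : F) : (loT t : SLn 2 F).1 0 1 = 0 := rfl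
theorem loT_10 (t : F) : (loT t : SLn 2 F).1 1 0 = t := rfl
theorem loT_11 (t : F) : (loT t : SLn 2 F).1 1 1 = 1 := rfl

section PSL2

variable (u v f g : Fin n → F)

/-- the image of a `2 × 2` matrix acting on the plane `⟨u, v⟩` -/
def MM (X : Matrix (Fin 2) (Fin 2) F) : Matrix (Fin n) (Fin n) F :=
  1 + (X 0 0 - 1) • vecMulVec u f + X 0 1 • vecMulVec u g + X 1 0 • vecMulVec v f
    + (X 1 1 - 1) • vecMulVec v g

theorem MM_one : MM u v f g (1 : Matrix (Fin 2) (Fin 2) F) = 1 := by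
  simp [MM]

theorem MM_mul (fu : f ⬝ᵥ u = 1) (fv : f ⬝ᵥ v = 0) (gu : g ⬝ᵥ u = 0) (gv : g ⬝ᵥ v = 1)
    (X Y : Matrix (Fin 2) (Fin 2) F) :
    MM u v f g (X * Y) = MM u v f g X * MM u v f g Y := by
  simp only [MM, Matrix.mul_apply, Fin.sum_univ_two, mul_add, add_mul, mul_one, one_mul,
    smul_mul_assoc, mul_smul_comm, vv_mul, fu, fv, gu, gv, zero_smul,
    smul_zero, add_zero, one_smul]
  module

theorem MM_upper (gu : g ⬝ᵥ u = 0) (X : Matrix (Fin 2) (Fin 2) F) (h10 : X 1 0 = 0)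
    (h00 : X 0 0 = 1) (h11 : X 1 1 = 1) :
    MM u v f g X = ((tv u g gu (X 0 1) : SLn n F) : Matrix (Fin n) (Fin n) F) := by
  rw [tv_coe, MM, h10, h00, h11]
  simp

theorem MM_lower (fv : f ⬝ᵥ v = 0) (X : Matrix (Fin 2) (Fin 2) F) (h01 : X 0 1 = 0)
    (h00 : X 0 0 = 1) (h11 : X 1 1 = 1) :
    MM u v f g X = ((tv v f fv (X 1 0) : SLn n F) : Matrix (Fin n) (Fin n) F) := by
  rw [tv_coe, MM, h01, h00, h11]
  simp

theorem MM_tv (fv : f ⬝ᵥ v = 0) (gu : g ⬝ᵥ u = 0) (i j : Fin 2) (hij : i ≠ j) (a : F) :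
    (∃ t : F, MM u v f g (Matrix.SpecialLinearGroup.transvection hij a : SLn 2 F).1
        = ((tv u g gu t : SLn n F) : Matrix (Fin n) (Fin n) F)) ∨
    (∃ t : F, MM u v f g (Matrix.SpecialLinearGroup.transvection hij a : SLn 2 F).1
        = ((tv v f fv t : SLn n F) : Matrix (Fin n) (Fin n) F)) := by
  have hc : ((Matrix.SpecialLinearGroup.transvection hij a : SLn 2 F) :
      Matrix (Fin 2) (Fin 2) F) = Matrix.transvection i j a :=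
    Matrix.SpecialLinearGroup.transvection_coe hij a
  fin_cases i <;> fin_cases j
  · exact absurd rfl hij
  · left
    refine ⟨_, MM_upper u v f g gu _ ?_ ?_ ?_⟩ <;>
      · rw [hc]; simp [Matrix.transvection]
  · right
    refine ⟨_, MM_lower u v f g fv _ ?_ ?_ ?_⟩ <;>
      · rw [hc]; simp [Matrix.transvection]
  · exact absurd rfl hij

theorem MM_det (fu : f ⬝ᵥ u = 1) (fv : f ⬝ᵥ v = 0) (gu : g ⬝ᵥ u = 0) (gv : g ⬝ᵥ v = 1)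
    (X : SLn 2 F) : (MM u v f g (X : Matrix (Fin 2) (Fin 2) F)).det = 1 := by
  refine Cfsg.Agent.Lib.helper13.SLSimple.transvection_induction
    (fun X : SLn 2 F => (MM u v f g (X : Matrix (Fin 2) (Fin 2) F)).det = 1) ?_ ?_ X
  · intro i j hij a
    rcases MM_tv u v f g fv gu i j hij a with ⟨t, ht⟩ | ⟨t, ht⟩
    · show (MM u v f g _).det = 1
      rw [ht]
      exact (tv u g gu t).2
    · show (MM u v f g _).det = 1
      rw [ht]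
      exact (tv v f fv t).2
  · intro A B hA hB
    show (MM u v f g _).det = 1
    rw [Matrix.SpecialLinearGroup.coe_mul, MM_mul u v f g fu fv gu gv, det_mul, hA, hB, mul_one]

/-- the homomorphism `SL₂ → SL_n` attached to a hyperbolic pair -/
def phi (fu : f ⬝ᵥ u = 1) (fv : f ⬝ᵥ v = 0) (gu : g ⬝ᵥ u = 0) (gv : g ⬝ᵥ v = 1) :
    SLn 2 F →* SLn n F where
  toFun X := ⟨MM u v f g (X : Matrix (Fin 2) (Fin 2) F), MM_det u v f g fu fv gu gv X⟩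
  map_one' := Subtype.ext (MM_one u v f g)
  map_mul' X Y := Subtype.ext (by
    show MM u v f g ((X * Y : SLn 2 F) : Matrix (Fin 2) (Fin 2) F)
      = MM u v f g (X : Matrix (Fin 2) (Fin 2) F) * MM u v f g (Y : Matrix (Fin 2) (Fin 2) F)
    rw [Matrix.SpecialLinearGroup.coe_mul]
    exact MM_mul u v f g fu fv gu gv _ _)

theorem phi_coe (fu : f ⬝ᵥ u = 1) (fv : f ⬝ᵥ v = 0) (gu : g ⬝ᵥ u = 0) (gv : g ⬝ᵥ v = 1)
    (X : SLn 2 F) :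
    ((phi u v f g fu fv gu gv X : SLn n F) : Matrix (Fin n) (Fin n) F)
      = MM u v f g (X : Matrix (Fin 2) (Fin 2) F) := rfl

theorem MM_entries (fu : f ⬝ᵥ u = 1) (fv : f ⬝ᵥ v = 0) (gu : g ⬝ᵥ u = 0) (gv : g ⬝ᵥ v = 1)
    (X : Matrix (Fin 2) (Fin 2) F) :
    f ⬝ᵥ (MM u v f g X *ᵥ u) = X 0 0 ∧ g ⬝ᵥ (MM u v f g X *ᵥ u) = X 1 0 ∧
    f ⬝ᵥ (MM u v f g X *ᵥ v) = X 0 1 ∧ g ⬝ᵥ (MM u v f g X *ᵥ v) = X 1 1 := by
  refine ⟨?_, ?_, ?_, ?_⟩ <;>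
    · simp only [MM, add_mulVec, one_mulVec, smul_mulVec, vv_mulVec, dotProduct_add,
        dotProduct_smul, fu, fv, gu, gv, smul_eq_mul, mul_one, mul_zero, add_zero, zero_add]
      try ring

theorem psl2_pair (fu : f ⬝ᵥ u = 1) (fv : f ⬝ᵥ v = 0) (gu : g ⬝ᵥ u = 0) (gv : g ⬝ᵥ v = 1) :
    IsPSL2PairOver F (RS u g gu) (RS v f fv) := by
  have hup : (upperUnipotentSL2 F).map (phi u v f g fu fv gu gv) = RS u g gu := by
    rw [upperUnipotentSL2, MonoidHom.map_closure]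
    have : (phi u v f g fu fv gu gv) '' {X : SLn 2 F |
        (X : Matrix (Fin 2) (Fin 2) F) 1 0 = 0 ∧ (X : Matrix (Fin 2) (Fin 2) F) 0 0 = 1 ∧
        (X : Matrix (Fin 2) (Fin 2) F) 1 1 = 1} = ((RS u g gu : Subgroup (SLn n F)) :
          Set (SLn n F)) := by
      ext y
      constructor
      · rintro ⟨X, ⟨h10, h00, h11⟩, rfl⟩
        exact ⟨_, Subtype.ext (MM_upper u v f g gu _ h10 h00 h11)⟩
      · rintro ⟨t, rfl⟩
        refine ⟨upT t, ⟨upT_10 t, upT_00 t, upT_11 t⟩, Subtype.ext ?_⟩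
        have h3 := MM_upper u v f g gu (upT t : SLn 2 F).1 (upT_10 t) (upT_00 t) (upT_11 t)
        rw [upT_01] at h3
        exact h3
    rw [this, Subgroup.closure_eq]
  have hlow : (lowerUnipotentSL2 F).map (phi u v f g fu fv gu gv) = RS v f fv := by
    rw [lowerUnipotentSL2, MonoidHom.map_closure]
    have : (phi u v f g fu fv gu gv) '' {X : SLn 2 F |
        (X : Matrix (Fin 2) (Fin 2) F) 0 1 = 0 ∧ (X : Matrix (Fin 2) (Fin 2) F) 0 0 = 1 ∧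
        (X : Matrix (Fin 2) (Fin 2) F) 1 1 = 1} = ((RS v f fv : Subgroup (SLn n F)) :
          Set (SLn n F)) := by
      ext y
      constructor
      · rintro ⟨X, ⟨h01, h00, h11⟩, rfl⟩
        exact ⟨_, Subtype.ext (MM_lower u v f g fv _ h01 h00 h11)⟩
      · rintro ⟨t, rfl⟩
        refine ⟨loT t, ⟨loT_01 t, loT_00 t, loT_11 t⟩, Subtype.ext ?_⟩
        have h3 := MM_lower u v f g fv (loT t : SLn 2 F).1 (loT_01 t) (loT_00 t) (loT_11 t)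
        rw [loT_10] at h3
        exact h3
    rw [this, Subgroup.closure_eq]
  refine ⟨phi u v f g fu fv gu gv, ?_, ?_, hup, hlow⟩
  · apply le_antisymm
    · rintro _ ⟨X, rfl⟩
      refine Cfsg.Agent.Lib.helper13.SLSimple.transvection_induction
        (fun X : SLn 2 F => phi u v f g fu fv gu gv X ∈ RS u g gu ⊔ RS v f fv) ?_ ?_ X
      · intro i j hij a
        rcases MM_tv u v f g fv gu i j hij a with ⟨t, ht⟩ | ⟨t, ht⟩
        · exact (le_sup_left : RS u g gu ≤ RS u g gu ⊔ RS v f fv) ⟨t, Subtype.ext ht⟩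
        · exact (le_sup_right : RS v f fv ≤ RS u g gu ⊔ RS v f fv) ⟨t, Subtype.ext ht⟩
      · intro A B hA hB
        show phi u v f g fu fv gu gv (A * B) ∈ _
        rw [map_mul]
        exact Subgroup.mul_mem _ hA hB
    · rw [sup_le_iff]
      constructor
      · rw [← hup]
        exact Subgroup.map_le_range _ _
      · rw [← hlow]
        exact Subgroup.map_le_range _ _
  · intro X hX
    rw [MonoidHom.mem_ker] at hX
    have hM : MM u v f g (X : Matrix (Fin 2) (Fin 2) F) = 1 := by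
      rw [← phi_coe u v f g fu fv gu gv, hX]
      rfl
    obtain ⟨e00, e10, e01, e11⟩ := MM_entries u v f g fu fv gu gv (X : Matrix (Fin 2) (Fin 2) F)
    rw [hM, one_mulVec] at e00 e10 e01 e11
    have hX1 : X = 1 := by
      apply Subtype.ext
      ext i j
      fin_cases i <;> fin_cases j
      · show (X : Matrix (Fin 2) (Fin 2) F) 0 0 = _
        rw [← e00, fu]; simp
      · show (X : Matrix (Fin 2) (Fin 2) F) 0 1 = _
        rw [← e01, fv]; simp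
      · show (X : Matrix (Fin 2) (Fin 2) F) 1 0 = _
        rw [← e10, gu]; simp
      · show (X : Matrix (Fin 2) (Fin 2) F) 1 1 = _
        rw [← e11, gv]; simp
    rw [hX1]
    exact Subgroup.one_mem _

end PSL2

theorem psl2_of_dots (u φ v ψ : Fin n → F) (h1 : φ ⬝ᵥ u = 0) (h2 : ψ ⬝ᵥ v = 0)
    (hα : φ ⬝ᵥ v ≠ 0) (hβ : ψ ⬝ᵥ u ≠ 0) : IsPSL2PairOver F (RS u φ h1) (RS v ψ h2) := by
  have fu : ((ψ ⬝ᵥ u)⁻¹ • ψ) ⬝ᵥ u = 1 := by
    rw [smul_dotProduct, smul_eq_mul, inv_mul_cancel₀ hβ]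
  have fv : ((ψ ⬝ᵥ u)⁻¹ • ψ) ⬝ᵥ v = 0 := by
    rw [smul_dotProduct, h2, smul_zero]
  have gu : ((φ ⬝ᵥ v)⁻¹ • φ) ⬝ᵥ u = 0 := by
    rw [smul_dotProduct, h1, smul_zero]
  have gv : ((φ ⬝ᵥ v)⁻¹ • φ) ⬝ᵥ v = 1 := by
    rw [smul_dotProduct, smul_eq_mul, inv_mul_cancel₀ hα]
  have key := psl2_pair u v ((ψ ⬝ᵥ u)⁻¹ • ψ) ((φ ⬝ᵥ v)⁻¹ • φ) fu fv gu gv
  have e1 : RS u ((φ ⬝ᵥ v)⁻¹ • φ) gu = RS u φ h1 :=
    RS_smul h1 gu 1 (φ ⬝ᵥ v)⁻¹ one_ne_zero (inv_ne_zero hα) (one_smul _ _).symm rfl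
  have e2 : RS v ((ψ ⬝ᵥ u)⁻¹ • ψ) fv = RS v ψ h2 :=
    RS_smul h2 fv 1 (ψ ⬝ᵥ u)⁻¹ one_ne_zero (inv_ne_zero hβ) (one_smul _ _).symm rfl
  rw [e1, e2] at key
  exact key

/-! ### the main statements -/

theorem S0_generates (m : ℕ) : (⨆ A ∈ S0 F m, A) = ⊤ := by
  rw [eq_top_iff]
  intro M _
  haveI : Nontrivial (Fin (m + 3)) := ⟨⟨0, 1, h01 m⟩⟩
  refine Cfsg.Agent.Lib.helper13.SLSimple.transvection_induction
    (fun M => M ∈ (⨆ A ∈ S0 F m, A)) ?_ ?_ M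
  · intro i j hij a
    have hmem : RS (E i) (E j) (E_dot_ne hij) ∈ S0 F m :=
      RS_mem_S0 m _ _ _ (E_ne_zero i) (E_ne_zero j)
    have hle : RS (E i) (E j) (E_dot_ne hij) ≤ ⨆ A ∈ S0 F m, A :=
      le_iSup₂ (f := fun (A : Subgroup (SLn (m + 3) F)) (_ : A ∈ S0 F m) => A) _ hmem
    apply hle
    rw [← tv_E_eq hij a]
    exact tv_mem _ _ _ _
  · intro A B hA hB
    exact Subgroup.mul_mem _ hA hB

theorem S0_pair (m : ℕ) (A B : Subgroup (SLn (m + 3) F)) (hA : A ∈ S0 F m) (hB : B ∈ S0 F m) :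
    ⁅A, B⁆ = ⊥ ∨ IsRankOnePair A B ∨ RootCommutatorCase (S0 F m) A B := by
  obtain ⟨u, φ, h1, hu, hφ, rfl⟩ := (mem_S0 m A).1 hA
  obtain ⟨v, ψ, h2, hv, hψ, rfl⟩ := (mem_S0 m B).1 hB
  by_cases hα : φ ⬝ᵥ v = 0
  · by_cases hβ : ψ ⬝ᵥ u = 0
    · left
      exact comm_bot u φ v ψ h1 h2 hα hβ
    · right; right
      exact rcc_symm _ _ _ (comm_case_RS m v ψ u φ h2 h1 hv hφ hβ hα)
  · by_cases hβ : ψ ⬝ᵥ u = 0
    · right; right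
      exact comm_case_RS m u φ v ψ h1 h2 hu hψ hα hβ
    · right; left
      exact rank_one_RS u φ v ψ h1 h2 hu hφ hv hψ hα hβ

theorem S0_rootSet (m : ℕ) : IsRootSubgroupSet (S0 F m) where
  commutative := by
    intro A hA
    obtain ⟨u, φ, h1, hu, hφ, rfl⟩ := (mem_S0 m A).1 hA
    exact RS_comm u φ h1
  ne_bot := by
    intro A hA
    obtain ⟨u, φ, h1, hu, hφ, rfl⟩ := (mem_S0 m A).1 hA
    exact RS_ne_bot u φ h1 hu hφ
  generates := S0_generates m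
  conj_mem := by
    rintro A ⟨g, rfl⟩ x
    exact ⟨x * g, conjBy_mul _ g x⟩
  pair := fun A hA B hB => S0_pair m A B hA hB

theorem S0_class (m : ℕ) : IsConjClassOfSubgroups (S0 F m) := by
  refine ⟨⟨_, 1, rfl⟩, ?_⟩
  rintro A ⟨g1, rfl⟩ B ⟨g2, rfl⟩
  refine ⟨g2 * g1⁻¹, ?_⟩
  rw [conjBy_mul]
  congr 1
  group

theorem RS_ne_of' (u φ v ψ x : Fin n → F) (h1 : φ ⬝ᵥ u = 0) (h2 : ψ ⬝ᵥ v = 0) (hu : u ≠ 0)
    (hx : φ ⬝ᵥ x ≠ 0) (hx' : ψ ⬝ᵥ x = 0) : RS u φ h1 ≠ RS v ψ h2 := by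
  intro heq
  have hm : tv u φ h1 1 ∈ RS v ψ h2 := heq ▸ tv_mem u φ h1 1
  obtain ⟨r, hr⟩ := hm
  have h3 := congrArg (fun M : SLn n F => (M : Matrix (Fin n) (Fin n) F) *ᵥ x) hr
  simp only [tv_mulVec, hx', mul_zero, zero_smul, add_zero, one_mul] at h3
  have h4 : (φ ⬝ᵥ x) • u = 0 := by
    have : x + (φ ⬝ᵥ x) • u = x + 0 := by rw [h3, add_zero]
    exact add_left_cancel this
  rcases smul_eq_zero.1 h4 with h5 | h5
  · exact hx h5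
  · exact hu h5

theorem S0_nondeg (m : ℕ) : IsNondegenerateRootSet (S0 F m) := by
  have m0 : RS (E 0) (E 1) (E_dot_ne (h01 m)) ∈ S0 F m :=
    RS_mem_S0 m _ _ _ (E_ne_zero 0) (E_ne_zero 1)
  have one11 : (E 1 : Fin (m + 3) → F) ⬝ᵥ E 1 ≠ 0 := by
    rw [E_dot, if_pos rfl]
    exact one_ne_zero
  have one00 : (E 0 : Fin (m + 3) → F) ⬝ᵥ E 0 ≠ 0 := by
    rw [E_dot, if_pos rfl]
    exact one_ne_zero
  refine ⟨⟨_, m0, RS (E 0) (E 2) (E_dot_ne (h02 m)),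
      RS_mem_S0 m _ _ _ (E_ne_zero 0) (E_ne_zero 2), ?_, ?_⟩,
    ⟨_, m0, RS (E 1) (E 0) (E_dot_ne (h01 m).symm),
      RS_mem_S0 m _ _ _ (E_ne_zero 1) (E_ne_zero 0), ?_⟩,
    ⟨_, m0, RS (E 1) (E 2) (E_dot_ne (h12 m)),
      RS_mem_S0 m _ _ _ (E_ne_zero 1) (E_ne_zero 2), ?_⟩⟩
  · exact RS_ne_of' _ _ _ _ (E 1) _ _ (E_ne_zero 0) one11 (E_dot_ne (h12 m))
  · exact comm_bot _ _ _ _ _ _ (E_dot_ne (h01 m)) (E_dot_ne (h02 m))
  · exact rank_one_RS _ _ _ _ _ _ (E_ne_zero 0) (E_ne_zero 1) (E_ne_zero 1) (E_ne_zero 0)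
      one11 one00
  · exact comm_case_RS m _ _ _ _ _ _ (E_ne_zero 0) (E_ne_zero 2) one11 (E_dot_ne (h02 m))

theorem exists_both (φ ψ : Fin n → F) (hφ : φ ≠ 0) (hψ : ψ ≠ 0) :
    ∃ w : Fin n → F, φ ⬝ᵥ w ≠ 0 ∧ ψ ⬝ᵥ w ≠ 0 := by
  obtain ⟨a, ha⟩ := exists_ne_of_ne_zero hφ
  obtain ⟨b, hb⟩ := exists_ne_of_ne_zero hψ
  by_cases h1 : ψ ⬝ᵥ E a = 0
  · by_cases h2 : φ ⬝ᵥ E b = 0
    · refine ⟨E a + E b, ?_, ?_⟩
      · rw [dotProduct_add, h2, add_zero, dot_E]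
        exact ha
      · rw [dotProduct_add, h1, zero_add, dot_E]
        exact hb
    · exact ⟨E b, h2, by rw [dot_E]; exact hb⟩
  · exact ⟨E a, by rw [dot_E]; exact ha, h1⟩

theorem exists_chi (w u v : Fin n → F) (hu : ¬ Par u w) (hv : ¬ Par v w) :
    ∃ χ : Fin n → F, χ ⬝ᵥ w = 0 ∧ χ ⬝ᵥ u ≠ 0 ∧ χ ⬝ᵥ v ≠ 0 := by
  have key : ∀ x : Fin n → F, ¬ Par x w → ∃ χ : Fin n → F, χ ⬝ᵥ w = 0 ∧ χ ⬝ᵥ x ≠ 0 := by
    intro x hx
    unfold Par at hx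
    push Not at hx
    obtain ⟨a, c, hac⟩ := hx
    refine ⟨w c • E a - w a • E c, ?_, ?_⟩
    · rw [sub_dotProduct, smul_dotProduct, smul_dotProduct, E_dot', E_dot']
      simp only [smul_eq_mul]
      ring
    · rw [sub_dotProduct, smul_dotProduct, smul_dotProduct, E_dot', E_dot']
      simp only [smul_eq_mul]
      intro h0
      apply hac
      linear_combination h0
  obtain ⟨χ1, h1w, h1u⟩ := key u hu
  obtain ⟨χ2, h2w, h2v⟩ := key v hv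
  by_cases h1 : χ1 ⬝ᵥ v = 0
  · by_cases h2 : χ2 ⬝ᵥ u = 0
    · refine ⟨χ1 + χ2, ?_, ?_, ?_⟩
      · rw [add_dotProduct, h1w, h2w, add_zero]
      · rw [add_dotProduct, h2, add_zero]
        exact h1u
      · rw [add_dotProduct, h1, zero_add]
        exact h2v
    · exact ⟨χ2, h2w, h2, h2v⟩
  · exact ⟨χ1, h1w, h1u, h1⟩

theorem S0_connected (m : ℕ) : IsConnectedFamily (FAdj (S0 F m)) (S0 F m) := by
  intro A hA B hB
  obtain ⟨u, φ, h1, hu, hφ, rfl⟩ := (mem_S0 m A).1 hA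
  obtain ⟨v, ψ, h2, hv, hψ, rfl⟩ := (mem_S0 m B).1 hB
  obtain ⟨w, hφw, hψw⟩ := exists_both φ ψ hφ hψ
  have hw : w ≠ 0 := by
    rintro rfl
    exact hφw (dotProduct_zero _)
  have hpu : ¬ Par u w := fun hp => hφw (hp.dot hu φ h1)
  have hpv : ¬ Par v w := fun hp => hψw (hp.dot hv ψ h2)
  obtain ⟨χ, hχw, hχu, hχv⟩ := exists_chi w u v hpu hpv
  have hχ : χ ≠ 0 := by
    rintro rfl
    exact hχu (zero_dotProduct _)
  have hC : RS w χ hχw ∈ S0 F m := RS_mem_S0 m w χ hχw hw hχ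
  have s1 : FAdj (S0 F m) (RS u φ h1) (RS w χ hχw) :=
    ⟨hA, hC, rank_one_RS u φ w χ h1 hχw hu hφ hw hχ hφw hχu⟩
  have s2 : FAdj (S0 F m) (RS w χ hχw) (RS v ψ h2) :=
    ⟨hC, hB, rank_one_RS w χ v ψ hχw h2 hw hχ hv hψ hχv hψw⟩
  exact (Relation.ReflTransGen.single s1).trans (Relation.ReflTransGen.single s2)

theorem S0_kroot (m : ℕ) : IsKRootSubgroupSet F (S0 F m) := by
  refine ⟨S0_rootSet m, ?_⟩
  intro A hA B hB hR
  obtain ⟨u, φ, h1, hu, hφ, rfl⟩ := (mem_S0 m A).1 hA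
  obtain ⟨v, ψ, h2, hv, hψ, rfl⟩ := (mem_S0 m B).1 hB
  obtain ⟨hα, hβ⟩ := rank_one_dots u φ v ψ h1 h2 hu hφ hv hψ hR
  exact psl2_of_dots u φ v ψ h1 h2 hα hβ

theorem main (m : ℕ) : IsRootSubgroupClass (S0 F m) ∧ IsNondegenerateRootSet (S0 F m) ∧
    IsKRootSubgroupSet F (S0 F m) ∧ IsConnectedFamily (FAdj (S0 F m)) (S0 F m) :=
  ⟨⟨S0_rootSet m, S0_class m⟩, S0_nondeg m, S0_kroot m, S0_connected m⟩

end Cfsg.Agent.Lib.helper6.TvRootSub
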