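import Mathlib
import Cfsg.Agent.Lib.helper13.PSLn
import Cfsg.Agent.Lib.helper6.TvRootSub
import Cfsg.Agent.Lib.helper1.Fitting
import Cfsg.Agent.Lib.helper20.Extraspecial
import Cfsg.Agent.S5421

/-!
# The centralizer of a transvection in `SL_{n+2}(2)` (helper6)
-/

set_option autoImplicit false

namespace Cfsg.Agent.Lib.helper6.TvCent

open Matrix Cfsg
open Cfsg.Agent.Lib.helper13.PN (SLn tv tv_coe vv_mul)

section Basic

variable {n : ℕ}

/-- the index `j + 2` -/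
def s2 (j : Fin n) : Fin (n + 2) := j.succ.succ

theorem s2_ne_zero (j : Fin n) : s2 j ≠ 0 := Fin.succ_ne_zero _

theorem s2_ne_one (j : Fin n) : s2 j ≠ 1 := by
  intro h
  have h1 : (j.succ).succ = (0 : Fin (n + 1)).succ := h
  exact Fin.succ_ne_zero j (Fin.succ_injective _ h1)

theorem s2_injective : Function.Injective (s2 : Fin n → Fin (n + 2)) := fun a b h =>
  Fin.succ_injective _ (Fin.succ_injective _ h)

theorem s2_inj (a b : Fin n) : s2 a = s2 b ↔ a = b := s2_injective.eq_iff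

theorem fin3 {P : Fin (n + 2) → Prop} (h0 : P 0) (h1 : P 1) (h2 : ∀ j : Fin n, P (s2 j)) :
    ∀ i, P i := by
  intro i
  refine Fin.cases h0 (fun i' => ?_) i
  refine Fin.cases ?_ (fun j => h2 j) i'
  exact h1

theorem sum3 (f : Fin (n + 2) → ZMod 2) : ∑ k, f k = f 0 + f 1 + ∑ j : Fin n, f (s2 j) := by
  rw [Fin.sum_univ_succ, Fin.sum_univ_succ]
  exact (add_assoc _ _ _).symm

theorem ext3 {x y : Fin (n + 2) → ZMod 2} (h0 : x 0 = y 0) (h1 : x 1 = y 1)
    (h2 : ∀ j : Fin n, x (s2 j) = y (s2 j)) : x = y :=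
  funext (fin3 h0 h1 h2)

/-- the first basis vector -/
def e0 : Fin (n + 2) → ZMod 2 := Pi.single 0 1

/-- the second coordinate functional -/
def ε1 : Fin (n + 2) → ZMod 2 := Pi.single 1 1

/-- the functional `(0, a, u)` -/
def phi (a : ZMod 2) (u : Fin n → ZMod 2) : Fin (n + 2) → ZMod 2 := Fin.cons 0 (Fin.cons a u)

/-- the vector `(0, 0, v)` -/
def what (v : Fin n → ZMod 2) : Fin (n + 2) → ZMod 2 := Fin.cons 0 (Fin.cons 0 v)

@[simp] theorem e0_zero : (e0 : Fin (n + 2) → ZMod 2) 0 = 1 := by simp [e0]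
@[simp] theorem e0_one : (e0 : Fin (n + 2) → ZMod 2) 1 = 0 := by simp [e0]
@[simp] theorem e0_s2 (j : Fin n) : (e0 : Fin (n + 2) → ZMod 2) (s2 j) = 0 := by
  simp [e0, s2_ne_zero]
@[simp] theorem ε1_zero : (ε1 : Fin (n + 2) → ZMod 2) 0 = 0 := by simp [ε1]
@[simp] theorem ε1_one : (ε1 : Fin (n + 2) → ZMod 2) 1 = 1 := by simp [ε1]
@[simp] theorem ε1_s2 (j : Fin n) : (ε1 : Fin (n + 2) → ZMod 2) (s2 j) = 0 := by
  simp [ε1, s2_ne_one]
@[simp] theorem phi_zero (a : ZMod 2) (u : Fin n → ZMod 2) : phi a u 0 = 0 := rfl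
@[simp] theorem phi_one (a : ZMod 2) (u : Fin n → ZMod 2) : phi a u 1 = a := rfl
@[simp] theorem phi_s2 (a : ZMod 2) (u : Fin n → ZMod 2) (j : Fin n) : phi a u (s2 j) = u j := rfl
@[simp] theorem what_zero (v : Fin n → ZMod 2) : what v 0 = 0 := rfl
@[simp] theorem what_one (v : Fin n → ZMod 2) : what v 1 = 0 := rfl
@[simp] theorem what_s2 (v : Fin n → ZMod 2) (j : Fin n) : what v (s2 j) = v j := rfl

theorem dot_phi_e0 (a : ZMod 2) (u : Fin n → ZMod 2) : phi a u ⬝ᵥ e0 = 0 := by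
  rw [e0, dotProduct_single_one, phi_zero]

theorem dot_ε1_what (v : Fin n → ZMod 2) : ε1 ⬝ᵥ what v = 0 := by
  rw [ε1, single_one_dotProduct, what_one]

theorem dot_ε1_e0 : (ε1 : Fin (n + 2) → ZMod 2) ⬝ᵥ e0 = 0 := by
  rw [ε1, single_one_dotProduct, e0_one]

theorem dot_phi_what (a : ZMod 2) (u v : Fin n → ZMod 2) : phi a u ⬝ᵥ what v = u ⬝ᵥ v := by
  rw [dotProduct, sum3]
  simp [dotProduct]

theorem phi_add (a a' c : ZMod 2) (u u' : Fin n → ZMod 2) :
    phi (a + a' + c) (u + u') = phi a u + phi a' u' + c • ε1 := by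
  apply ext3 <;> simp

theorem what_add (v v' : Fin n → ZMod 2) : what (v + v') = what v + what v' := by
  apply ext3 <;> simp

theorem phi_zero_zero : phi (0 : ZMod 2) (0 : Fin n → ZMod 2) = 0 := by
  apply ext3 <;> simp

theorem what_zero_vec : what (0 : Fin n → ZMod 2) = 0 := by
  apply ext3 <;> simp

theorem phi_one_zero : phi (1 : ZMod 2) (0 : Fin n → ZMod 2) = ε1 := by
  apply ext3 <;> simp

theorem phi_eq (φ : Fin (n + 2) → ZMod 2) (h0 : φ 0 = 0) :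
    φ = phi (φ 1) (fun j => φ (s2 j)) := by
  apply ext3 <;> simp [h0]

theorem zmod2_eq_one {x : ZMod 2} (h : x ≠ 0) : x = 1 := by
  revert x; decide

theorem zmod2_add_self (x : ZMod 2) : x + x = 0 := by
  revert x; decide

theorem vec_add_self {m : Type*} (x : m → ZMod 2) : x + x = 0 := by
  funext i
  exact zmod2_add_self _

/-- the elements of the extraspecial group -/
def qS (a : ZMod 2) (u v : Fin n → ZMod 2) : SLn (n + 2) (ZMod 2) :=
  tv (what v) ε1 (dot_ε1_what v) 1 * tv e0 (phi a u) (dot_phi_e0 a u) 1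

theorem qS_coe (a : ZMod 2) (u v : Fin n → ZMod 2) :
    ((qS a u v : SLn (n + 2) (ZMod 2)) : Matrix (Fin (n + 2)) (Fin (n + 2)) (ZMod 2))
      = 1 + vecMulVec e0 (phi a u) + vecMulVec (what v) ε1 := by
  rw [qS, Matrix.SpecialLinearGroup.coe_mul, tv_coe, tv_coe]
  simp only [one_smul, mul_add, add_mul, mul_one, one_mul, vv_mul, dot_ε1_e0, zero_smul, add_zero]
  abel

theorem qS_apply (a : ZMod 2) (u v : Fin n → ZMod 2) (i j : Fin (n + 2)) :
    ((qS a u v : SLn (n + 2) (ZMod 2)) : Matrix (Fin (n + 2)) (Fin (n + 2)) (ZMod 2)) i j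
      = (1 : Matrix (Fin (n + 2)) (Fin (n + 2)) (ZMod 2)) i j + e0 i * phi a u j
        + what v i * ε1 j := by
  rw [qS_coe]
  simp [vecMulVec_apply]

theorem qS_mul (a a' : ZMod 2) (u v u' v' : Fin n → ZMod 2) :
    qS a u v * qS a' u' v' = qS (a + a' + u ⬝ᵥ v') (u + u') (v + v') := by
  apply Subtype.ext
  rw [Matrix.SpecialLinearGroup.coe_mul, qS_coe, qS_coe, qS_coe, phi_add, what_add]
  simp only [mul_add, add_mul, mul_one, one_mul, vv_mul, dot_ε1_e0, dot_phi_e0, dot_ε1_what,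
    dot_phi_what, zero_smul, add_zero, vecMulVec_add, add_vecMulVec, vecMulVec_smul]
  abel

theorem qS_zero : qS (0 : ZMod 2) (0 : Fin n → ZMod 2) 0 = 1 := by
  apply Subtype.ext
  rw [qS_coe, phi_zero_zero, what_zero_vec]
  simp

theorem qS_inv (a : ZMod 2) (u v : Fin n → ZMod 2) :
    (qS a u v)⁻¹ = qS (a + u ⬝ᵥ v) u v := by
  apply inv_eq_of_mul_eq_one_right
  rw [qS_mul, vec_add_self, vec_add_self]
  have : a + (a + u ⬝ᵥ v) + u ⬝ᵥ v = 0 := by
    have h1 := zmod2_add_self a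
    have h2 := zmod2_add_self (u ⬝ᵥ v)
    linear_combination h1 + h2
  rw [this, qS_zero]

theorem qS_a (a : ZMod 2) (u v : Fin n → ZMod 2) :
    ((qS a u v : SLn (n + 2) (ZMod 2)) : Matrix (Fin (n + 2)) (Fin (n + 2)) (ZMod 2)) 0 1 = a := by
  rw [qS_apply]; simp

theorem qS_u (a : ZMod 2) (u v : Fin n → ZMod 2) (j : Fin n) :
    ((qS a u v : SLn (n + 2) (ZMod 2)) : Matrix (Fin (n + 2)) (Fin (n + 2)) (ZMod 2)) 0 (s2 j)
      = u j := by
  rw [qS_apply]; simp [Matrix.one_apply, (s2_ne_zero j).symm]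

theorem qS_v (a : ZMod 2) (u v : Fin n → ZMod 2) (i : Fin n) :
    ((qS a u v : SLn (n + 2) (ZMod 2)) : Matrix (Fin (n + 2)) (Fin (n + 2)) (ZMod 2)) (s2 i) 1
      = v i := by
  rw [qS_apply]; simp [Matrix.one_apply, s2_ne_one]

theorem qS_col0 (a : ZMod 2) (u v : Fin n → ZMod 2) (i : Fin (n + 2)) :
    ((qS a u v : SLn (n + 2) (ZMod 2)) : Matrix (Fin (n + 2)) (Fin (n + 2)) (ZMod 2)) i 0
      = e0 i := by
  rw [qS_apply]
  revert i
  apply fin3
  · simp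
  · simp
  · intro j; simp [Matrix.one_apply, s2_ne_zero]

theorem qS_row1 (a : ZMod 2) (u v : Fin n → ZMod 2) (j : Fin (n + 2)) :
    ((qS a u v : SLn (n + 2) (ZMod 2)) : Matrix (Fin (n + 2)) (Fin (n + 2)) (ZMod 2)) 1 j
      = ε1 j := by
  rw [qS_apply]
  revert j
  apply fin3
  · simp
  · simp
  · intro j; simp [Matrix.one_apply, (s2_ne_one j).symm]

theorem qS_sub (a : ZMod 2) (u v : Fin n → ZMod 2) (i j : Fin n) :
    ((qS a u v : SLn (n + 2) (ZMod 2)) : Matrix (Fin (n + 2)) (Fin (n + 2)) (ZMod 2)) (s2 i) (s2 j)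
      = (1 : Matrix (Fin n) (Fin n) (ZMod 2)) i j := by
  rw [qS_apply]; simp [Matrix.one_apply, s2_inj]

theorem qS_injective {a a' : ZMod 2} {u v u' v' : Fin n → ZMod 2}
    (h : qS a u v = qS a' u' v') : a = a' ∧ u = u' ∧ v = v' := by
  refine ⟨?_, ?_, ?_⟩
  · rw [← qS_a a u v, h, qS_a]
  · funext j; rw [← qS_u a u v j, h, qS_u]
  · funext i; rw [← qS_v a u v i, h, qS_v]

end Basic

section Cent

variable {n : ℕ}

open Cfsg.Agent.Lib.helper13.PN (tv_mulVec)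
open Cfsg.Agent.Lib.helper1 (pCore_normal pCore_isPGroup le_pCore)

/-- the transvection `z` -/
def zS : SLn (n + 2) (ZMod 2) := qS 1 0 0

theorem zS_coe : ((zS : SLn (n + 2) (ZMod 2)) : Matrix (Fin (n + 2)) (Fin (n + 2)) (ZMod 2))
    = 1 + vecMulVec e0 ε1 := by
  rw [zS, qS_coe, phi_one_zero, what_zero_vec]
  simp

theorem zS_coe' : ((zS : SLn (n + 2) (ZMod 2)) : Matrix (Fin (n + 2)) (Fin (n + 2)) (ZMod 2))
    = Matrix.transvection 0 1 1 := by
  rw [zS_coe, Matrix.transvection]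
  congr 1
  ext i j
  simp only [vecMulVec_apply, e0, ε1, Matrix.single_apply, Pi.single_apply]
  by_cases h1 : i = 0 <;> by_cases h2 : j = 1 <;> simp [h1, h2, eq_comm]

theorem mulVec_e0 (M : Matrix (Fin (n + 2)) (Fin (n + 2)) (ZMod 2)) (i : Fin (n + 2)) :
    (M *ᵥ e0) i = M i 0 := by
  simp [e0]

theorem vecMul_ε1 (M : Matrix (Fin (n + 2)) (Fin (n + 2)) (ZMod 2)) (j : Fin (n + 2)) :
    (ε1 ᵥ* M) j = M 1 j := by
  simp [ε1]

theorem comm_tv (g : SLn (n + 2) (ZMod 2)) (φ : Fin (n + 2) → ZMod 2)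
    (t : SLn (n + 2) (ZMod 2)) (ht : t.1 = 1 + vecMulVec e0 φ) (j0 : Fin (n + 2))
    (hφ : φ j0 = 1) (hcomm : g * t = t * g) : g.1 *ᵥ e0 = e0 ∧ φ ᵥ* g.1 = φ := by
  have h1 : vecMulVec (g.1 *ᵥ e0) φ = vecMulVec e0 (φ ᵥ* g.1) := by
    have h2 := congrArg Subtype.val hcomm
    rw [Matrix.SpecialLinearGroup.coe_mul, Matrix.SpecialLinearGroup.coe_mul, ht, mul_add,
      add_mul, mul_one, one_mul, mul_vecMulVec, vecMulVec_mul] at h2
    exact add_left_cancel h2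
  have hne : g.1 *ᵥ e0 ≠ 0 := by
    intro h0
    have h3 : (g⁻¹).1 *ᵥ (g.1 *ᵥ e0) = e0 := by
      rw [Matrix.mulVec_mulVec, ← Matrix.SpecialLinearGroup.coe_mul, inv_mul_cancel,
        Matrix.SpecialLinearGroup.coe_one, one_mulVec]
    rw [h0, mulVec_zero] at h3
    have h4 := congrFun h3 0
    simp at h4
  have hc : ∀ i, (g.1 *ᵥ e0) i = e0 i * (φ ᵥ* g.1) j0 := by
    intro i
    have h4 := congrFun (congrFun h1 i) j0
    rw [vecMulVec_apply, vecMulVec_apply, hφ, mul_one] at h4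
    exact h4
  have hc1 : (φ ᵥ* g.1) j0 = 1 := by
    apply zmod2_eq_one
    intro h0
    apply hne
    funext i
    rw [hc i, h0, mul_zero]
    rfl
  have he : g.1 *ᵥ e0 = e0 := by
    funext i
    rw [hc i, hc1, mul_one]
  refine ⟨he, ?_⟩
  rw [he] at h1
  funext j
  have h4 := congrFun (congrFun h1 0) j
  rw [vecMulVec_apply, vecMulVec_apply, e0_zero, one_mul, one_mul] at h4
  exact h4.symm

theorem comm_tv_of (g : SLn (n + 2) (ZMod 2)) (φ : Fin (n + 2) → ZMod 2)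
    (t : SLn (n + 2) (ZMod 2)) (ht : t.1 = 1 + vecMulVec e0 φ) (he : g.1 *ᵥ e0 = e0)
    (hφ : φ ᵥ* g.1 = φ) : g * t = t * g := by
  apply Subtype.ext
  rw [Matrix.SpecialLinearGroup.coe_mul, Matrix.SpecialLinearGroup.coe_mul, ht, mul_add,
    add_mul, mul_one, one_mul, mul_vecMulVec, vecMulVec_mul, he, hφ]

/-- the centralizer of `z` -/
abbrev Cz (n : ℕ) : Subgroup (SLn (n + 2) (ZMod 2)) :=
  Subgroup.centralizer ({zS} : Set (SLn (n + 2) (ZMod 2)))

theorem mem_cent (g : SLn (n + 2) (ZMod 2)) :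
    g ∈ Cz n ↔ (∀ i, g.1 i 0 = e0 i) ∧ (∀ j, g.1 1 j = ε1 j) := by
  rw [Subgroup.mem_centralizer_iff]
  constructor
  · intro h
    have hc : g * zS = zS * g := (h zS rfl).symm
    obtain ⟨h1, h2⟩ := comm_tv g ε1 zS zS_coe 1 ε1_one hc
    constructor
    · intro i
      have h3 := congrFun h1 i
      rw [mulVec_e0] at h3
      exact h3
    · intro j
      have h3 := congrFun h2 j
      rw [vecMul_ε1] at h3
      exact h3
  · rintro ⟨h1, h2⟩ x hx
    rw [Set.mem_singleton_iff] at hx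
    rw [hx]
    refine (comm_tv_of g ε1 zS zS_coe ?_ ?_).symm
    · funext i
      rw [mulVec_e0, h1]
    · funext j
      rw [vecMul_ε1, h2]

/-- the lower right block -/
def subM (g : Matrix (Fin (n + 2)) (Fin (n + 2)) (ZMod 2)) : Matrix (Fin n) (Fin n) (ZMod 2) :=
  g.submatrix s2 s2

theorem subM_mul (g h : Matrix (Fin (n + 2)) (Fin (n + 2)) (ZMod 2)) (hg : ∀ i, g i 0 = e0 i)
    (hh : ∀ j, h 1 j = ε1 j) : subM (g * h) = subM g * subM h := by
  ext i j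
  simp only [subM, submatrix_apply, mul_apply]
  rw [sum3, hg (s2 i), hh (s2 j)]
  simp

theorem subM_one : subM (1 : Matrix (Fin (n + 2)) (Fin (n + 2)) (ZMod 2)) = 1 := by
  ext i j
  simp [subM, Matrix.one_apply, s2_inj]

theorem det_one_of_mul {m : ℕ} (A B : Matrix (Fin m) (Fin m) (ZMod 2)) (h : A * B = 1) :
    A.det = 1 := by
  apply zmod2_eq_one
  intro h0
  have h1 := congrArg Matrix.det h
  rw [Matrix.det_mul, h0, zero_mul, Matrix.det_one] at h1
  exact zero_ne_one h1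

theorem cz_mul_inv (g : ↥(Cz n)) : g.1.1 * (g⁻¹).1.1 = 1 := by
  have h := congrArg (fun x : ↥(Cz n) => x.1.1) (mul_inv_cancel g)
  exact h

/-- the projection of the centralizer onto `SL_n` -/
def piC : ↥(Cz n) →* SLn n (ZMod 2) where
  toFun g := ⟨subM g.1.1, det_one_of_mul _ (subM (g⁻¹).1.1) (by
    rw [← subM_mul _ _ ((mem_cent _).1 g.2).1 ((mem_cent _).1 (g⁻¹).2).2, cz_mul_inv, subM_one])⟩
  map_one' := Subtype.ext subM_one
  map_mul' g h := Subtype.ext (subM_mul _ _ ((mem_cent _).1 g.2).1 ((mem_cent _).1 h.2).2)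

theorem piC_coe (g : ↥(Cz n)) : (piC g).1 = subM g.1.1 := rfl

/-- the block diagonal matrix `diag(1, 1, M)` -/
def sM (M : Matrix (Fin n) (Fin n) (ZMod 2)) : Matrix (Fin (n + 2)) (Fin (n + 2)) (ZMod 2) :=
  Matrix.of (Fin.cons e0 (Fin.cons ε1 (fun i => what (M i))))

@[simp] theorem sM_zero (M : Matrix (Fin n) (Fin n) (ZMod 2)) (j : Fin (n + 2)) :
    sM M 0 j = e0 j := rfl
@[simp] theorem sM_one' (M : Matrix (Fin n) (Fin n) (ZMod 2)) (j : Fin (n + 2)) :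
    sM M 1 j = ε1 j := rfl
@[simp] theorem sM_s2 (M : Matrix (Fin n) (Fin n) (ZMod 2)) (i : Fin n) (j : Fin (n + 2)) :
    sM M (s2 i) j = what (M i) j := rfl

theorem sM_mul (M M' : Matrix (Fin n) (Fin n) (ZMod 2)) : sM (M * M') = sM M * sM M' := by
  ext i j
  revert i
  apply fin3
  · rw [mul_apply, sum3]; simp
  · rw [mul_apply, sum3]; simp
  · intro a
    rw [mul_apply, sum3]
    revert j
    apply fin3
    · simp
    · simp
    · intro b; simp [mul_apply]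

theorem sM_one : sM (1 : Matrix (Fin n) (Fin n) (ZMod 2)) = 1 := by
  ext i j
  revert i
  apply fin3
  · revert j
    apply fin3
    · simp
    · simp
    · intro b; simp [Matrix.one_apply, (s2_ne_zero b).symm]
  · revert j
    apply fin3
    · simp
    · simp
    · intro b; simp [Matrix.one_apply, (s2_ne_one b).symm]
  · intro a
    revert j
    apply fin3
    · simp [Matrix.one_apply, s2_ne_zero]
    · simp [Matrix.one_apply, s2_ne_one]
    · intro b; simp [Matrix.one_apply, s2_inj]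

/-- the embedding of `SL_n` -/
def sigmaS : SLn n (ZMod 2) →* SLn (n + 2) (ZMod 2) where
  toFun M := ⟨sM M.1, det_one_of_mul _ (sM (M⁻¹).1) (by
    rw [← sM_mul, ← Matrix.SpecialLinearGroup.coe_mul, mul_inv_cancel,
      Matrix.SpecialLinearGroup.coe_one, sM_one])⟩
  map_one' := Subtype.ext sM_one
  map_mul' M M' := Subtype.ext (sM_mul M.1 M'.1)

theorem sigmaS_coe (M : SLn n (ZMod 2)) : (sigmaS M).1 = sM M.1 := rfl

theorem sigma_mem (M : SLn n (ZMod 2)) : sigmaS M ∈ Cz n := by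
  rw [mem_cent]
  constructor
  · apply fin3
    · rfl
    · rw [sigmaS_coe]; simp
    · intro a; rw [sigmaS_coe]; simp
  · intro j; rfl

theorem subM_sM (M : Matrix (Fin n) (Fin n) (ZMod 2)) : subM (sM M) = M := by
  ext i j
  simp [subM]

theorem sigmaS_injective : Function.Injective (sigmaS : SLn n (ZMod 2) →* _) := by
  intro M M' h
  apply Subtype.ext
  have h1 := congrArg (fun x : SLn (n + 2) (ZMod 2) => subM x.1) h
  simp only [sigmaS_coe, subM_sM] at h1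
  exact h1

/-- the group `Q` -/
def Qs (n : ℕ) : Subgroup (SLn (n + 2) (ZMod 2)) where
  carrier := {g | ∃ a u v, g = qS a u v}
  mul_mem' := by
    rintro _ _ ⟨a, u, v, rfl⟩ ⟨a', u', v', rfl⟩
    exact ⟨_, _, _, qS_mul a a' u v u' v'⟩
  one_mem' := ⟨0, 0, 0, qS_zero.symm⟩
  inv_mem' := by
    rintro _ ⟨a, u, v, rfl⟩
    exact ⟨_, _, _, qS_inv a u v⟩

theorem qS_mem (a : ZMod 2) (u v : Fin n → ZMod 2) : qS a u v ∈ Qs n := ⟨a, u, v, rfl⟩

theorem qS_mem_cent (a : ZMod 2) (u v : Fin n → ZMod 2) : qS a u v ∈ Cz n :=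
  (mem_cent _).2 ⟨qS_col0 a u v, qS_row1 a u v⟩

theorem Qs_le : Qs n ≤ Cz n := by
  rintro _ ⟨a, u, v, rfl⟩
  exact qS_mem_cent a u v

theorem mem_Qs_iff (g : SLn (n + 2) (ZMod 2)) : g ∈ Qs n ↔ g ∈ Cz n ∧ subM g.1 = 1 := by
  constructor
  · rintro ⟨a, u, v, rfl⟩
    exact ⟨qS_mem_cent a u v, by ext i j; exact qS_sub a u v i j⟩
  · rintro ⟨hC, hs⟩
    obtain ⟨h1, h2⟩ := (mem_cent g).1 hC
    refine ⟨g.1 0 1, fun j => g.1 0 (s2 j), fun i => g.1 (s2 i) 1, ?_⟩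
    apply Subtype.ext
    ext i j
    revert i
    apply fin3
    · revert j
      apply fin3
      · rw [h1 0, qS_col0]
      · rw [qS_a]
      · intro b; rw [qS_u]
    · rw [h2 j, qS_row1]
    · intro a
      revert j
      apply fin3
      · rw [h1 (s2 a), qS_col0]
      · rw [qS_v]
      · intro b
        rw [qS_sub]
        exact congrFun (congrFun hs a) b

theorem ker_piC : (piC (n := n)).ker = (Qs n).subgroupOf (Cz n) := by
  ext g
  rw [MonoidHom.mem_ker, Subgroup.mem_subgroupOf, mem_Qs_iff]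
  constructor
  · intro h
    exact ⟨g.2, congrArg Subtype.val h⟩
  · rintro ⟨_, h⟩
    exact Subtype.ext h

theorem piC_surjective : Function.Surjective (piC (n := n)) := fun M =>
  ⟨⟨sigmaS M, sigma_mem M⟩, Subtype.ext (subM_sM M.1)⟩

/-- parametrization of `Q` -/
def qEquiv : (ZMod 2 × (Fin n → ZMod 2) × (Fin n → ZMod 2)) ≃ ↥(Qs n) where
  toFun x := ⟨qS x.1 x.2.1 x.2.2, ⟨_, _, _, rfl⟩⟩
  invFun g := (g.1.1 0 1, fun j => g.1.1 0 (s2 j), fun i => g.1.1 (s2 i) 1)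
  left_inv x := by
    refine Prod.ext (qS_a _ _ _) (Prod.ext (funext (qS_u _ _ _)) (funext (qS_v _ _ _)))
  right_inv g := by
    obtain ⟨g, a, u, v, rfl⟩ := g
    apply Subtype.ext
    simp only [qS_a, qS_u, qS_v]

theorem card_Qs : Nat.card (Qs n) = 2 ^ (2 * n + 1) := by
  rw [← Nat.card_congr qEquiv]
  simp only [Nat.card_eq_fintype_card, Fintype.card_prod, Fintype.card_fun, ZMod.card,
    Fintype.card_fin]
  ring

theorem isPGroup_Qs : IsPGroup 2 (Qs n) := IsPGroup.of_card card_Qs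

/-- the action of a subgroup of `SL_m(2)` on the nonzero vectors -/
def actN {m : ℕ} (N : Subgroup (SLn m (ZMod 2))) :
    MulAction ↥N {v : Fin m → ZMod 2 // v ≠ 0} where
  smul g v := ⟨g.1.1 *ᵥ v.1, fun h => v.2 (by
    have h3 : (g.1⁻¹).1 *ᵥ (g.1.1 *ᵥ v.1) = v.1 := by
      rw [Matrix.mulVec_mulVec, ← Matrix.SpecialLinearGroup.coe_mul, inv_mul_cancel,
        Matrix.SpecialLinearGroup.coe_one, one_mulVec]
    rw [h, mulVec_zero] at h3
    exact h3.symm)⟩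
  one_smul v := Subtype.ext (by
    show ((1 : ↥N) : SLn m (ZMod 2)).1 *ᵥ v.1 = v.1
    simp)
  mul_smul g h v := Subtype.ext (by
    show ((g * h : ↥N) : SLn m (ZMod 2)).1 *ᵥ v.1 = g.1.1 *ᵥ (h.1.1 *ᵥ v.1)
    rw [Subgroup.coe_mul, Matrix.SpecialLinearGroup.coe_mul, Matrix.mulVec_mulVec])

theorem card_nonzero (m : ℕ) (hm : 1 ≤ m) : ¬ 2 ∣ Nat.card {v : Fin m → ZMod 2 // v ≠ 0} := by
  have h1 : Nat.card {v : Fin m → ZMod 2 // v ≠ 0} = 2 ^ m - 1 := by
    rw [Nat.card_eq_fintype_card, Fintype.card_subtype_compl, Fintype.card_subtype_eq]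
    simp [ZMod.card]
  rw [h1]
  obtain ⟨k, hk⟩ : 2 ∣ 2 ^ m := dvd_pow_self 2 (by omega)
  have hpos : 0 < 2 ^ m := by positivity
  rintro ⟨l, hl⟩
  omega

theorem O2_SL_bot {m : ℕ} (hm : 2 ≤ m) (N : Subgroup (SLn m (ZMod 2))) (hN : N.Normal)
    (hp : IsPGroup 2 N) : N = ⊥ := by
  letI := actN N
  obtain ⟨v, hv⟩ := hp.nonempty_fixed_point_of_prime_not_dvd_card
    {v : Fin m → ZMod 2 // v ≠ 0} (card_nonzero m (by omega))
  have hv0 : ∀ x ∈ N, x.1 *ᵥ v.1 = v.1 := by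
    intro x hx
    exact congrArg Subtype.val (hv ⟨x, hx⟩)
  -- the fixed space is invariant
  have hinv : ∀ (w : Fin m → ZMod 2), (∀ x ∈ N, x.1 *ᵥ w = w) →
      ∀ g : SLn m (ZMod 2), ∀ x ∈ N, x.1 *ᵥ (g.1 *ᵥ w) = g.1 *ᵥ w := by
    intro w hw g x hx
    have h1 := hw (g⁻¹ * x * g⁻¹⁻¹) (hN.conj_mem x hx g⁻¹)
    have h2 : x = g * (g⁻¹ * x * g⁻¹⁻¹) * g⁻¹ := by group
    rw [h2, Matrix.SpecialLinearGroup.coe_mul, Matrix.SpecialLinearGroup.coe_mul,
      Matrix.mulVec_mulVec, Matrix.mul_assoc, ← Matrix.SpecialLinearGroup.coe_mul g⁻¹ g,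
      inv_mul_cancel, Matrix.SpecialLinearGroup.coe_one, Matrix.mul_one, ← Matrix.mulVec_mulVec,
      h1]
  have hadd : ∀ (w w' : Fin m → ZMod 2), (∀ x ∈ N, x.1 *ᵥ w = w) → (∀ x ∈ N, x.1 *ᵥ w' = w') →
      ∀ x ∈ N, x.1 *ᵥ (w + w') = w + w' := by
    intro w w' hw hw' x hx
    rw [mulVec_add, hw x hx, hw' x hx]
  obtain ⟨i, hi⟩ : ∃ i, v.1 i ≠ 0 := by
    by_contra h0
    push Not at h0
    exact v.2 (funext h0)
  have hi1 : v.1 i = 1 := zmod2_eq_one hi
  -- basis vectors other than `i`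
  have hbj : ∀ j, j ≠ i → ∀ x ∈ N, x.1 *ᵥ (Pi.single j 1 : Fin m → ZMod 2) = Pi.single j 1 := by
    intro j hj
    have hd : (Pi.single i 1 : Fin m → ZMod 2) ⬝ᵥ Pi.single j 1 = 0 := by
      rw [single_one_dotProduct, Pi.single_apply, if_neg hj.symm]
    have h1 := hinv v.1 hv0 (tv (Pi.single j 1) (Pi.single i 1) hd 1)
    rw [tv_mulVec, single_one_dotProduct, hi1, mul_one, one_smul] at h1
    have h2 := hadd _ _ h1 hv0
    have h3 : v.1 + Pi.single j 1 + v.1 = (Pi.single j 1 : Fin m → ZMod 2) := by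
      have h4 := vec_add_self v.1
      rw [add_comm, ← add_assoc, h4, zero_add]
    rwa [h3] at h2
  obtain ⟨j, hj⟩ : ∃ j : Fin m, j ≠ i := by
    by_cases h0 : i = ⟨0, by omega⟩
    · exact ⟨⟨1, by omega⟩, by rw [h0]; intro h; exact absurd (congrArg Fin.val h) (by simp)⟩
    · exact ⟨⟨0, by omega⟩, fun h => h0 h.symm⟩
  have hbi : ∀ x ∈ N, x.1 *ᵥ (Pi.single i 1 : Fin m → ZMod 2) = Pi.single i 1 := by
    have hd : (Pi.single j 1 : Fin m → ZMod 2) ⬝ᵥ Pi.single i 1 = 0 := by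
      rw [single_one_dotProduct, Pi.single_apply, if_neg hj]
    have h1 := hinv _ (hbj j hj) (tv (Pi.single i 1) (Pi.single j 1) hd 1)
    rw [tv_mulVec, single_one_dotProduct, Pi.single_eq_same, mul_one, one_smul] at h1
    have h2 := hadd _ _ h1 (hbj j hj)
    have h3 : (Pi.single j 1 : Fin m → ZMod 2) + Pi.single i 1 + Pi.single j 1
        = Pi.single i 1 := by
      have h4 := vec_add_self (Pi.single j 1 : Fin m → ZMod 2)
      rw [add_comm, ← add_assoc, h4, zero_add]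
    rwa [h3] at h2
  rw [Subgroup.eq_bot_iff_forall]
  intro x hx
  apply Subtype.ext
  ext a b
  have h1 : x.1 *ᵥ (Pi.single b 1 : Fin m → ZMod 2) = Pi.single b 1 := by
    by_cases hb : b = i
    · rw [hb]; exact hbi x hx
    · exact hbj b hb x hx
  have h2 := congrFun h1 a
  simp only [mulVec_single_one, Matrix.col_apply] at h2
  rw [h2, Matrix.SpecialLinearGroup.coe_one, Matrix.one_apply, Pi.single_apply]

theorem pcore_eq (hn : 2 ≤ n) : (Cfsg.pCore 2 ↥(Cz n)).map (Cz n).subtype = Qs n := by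
  have hker : (piC (n := n)).ker = (Qs n).subgroupOf (Cz n) := ker_piC
  have h1 : Cfsg.pCore 2 ↥(Cz n) = (Qs n).subgroupOf (Cz n) := by
    apply le_antisymm
    · have hN : ((Cfsg.pCore 2 ↥(Cz n)).map piC).Normal :=
        Subgroup.Normal.map (pCore_normal 2 _) piC piC_surjective
      have hp : IsPGroup 2 ((Cfsg.pCore 2 ↥(Cz n)).map piC) := (pCore_isPGroup 2 _).map piC
      have hbot := O2_SL_bot hn _ hN hp
      rw [← hker]
      intro x hx
      rw [MonoidHom.mem_ker]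
      have h2 : piC x ∈ (Cfsg.pCore 2 ↥(Cz n)).map piC := ⟨x, hx, rfl⟩
      rwa [hbot, Subgroup.mem_bot] at h2
    · apply le_pCore
      · rw [← hker]
        exact MonoidHom.normal_ker _
      · exact isPGroup_Qs.comap_subtype
  rw [h1, Subgroup.subgroupOf_map_subtype, inf_eq_left.2 Qs_le]

end Cent

section Extra

variable {n : ℕ}

open Cfsg.Agent.Lib.helper1 (pCore_normal pCore_isPGroup le_pCore)

theorem qS_comm_rel (a a' : ZMod 2) (u v u' v' : Fin n → ZMod 2) :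
    qS a u v * qS a' u' v' = qS (u ⬝ᵥ v' + u' ⬝ᵥ v) 0 0 * (qS a' u' v' * qS a u v) := by
  rw [qS_mul, qS_mul, qS_mul, zero_dotProduct, zero_add, zero_add, add_comm u u', add_comm v v']
  congr 1
  linear_combination -(zmod2_add_self (u' ⬝ᵥ v))

theorem qS_commutator (a a' : ZMod 2) (u v u' v' : Fin n → ZMod 2) :
    qS a u v * qS a' u' v' * (qS a u v)⁻¹ * (qS a' u' v')⁻¹ = qS (u ⬝ᵥ v' + u' ⬝ᵥ v) 0 0 := by
  rw [qS_comm_rel]
  group

theorem qS_sq (a : ZMod 2) (u v : Fin n → ZMod 2) : qS a u v * qS a u v = qS (u ⬝ᵥ v) 0 0 := by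
  rw [qS_mul, vec_add_self, vec_add_self, zmod2_add_self, zero_add]

theorem qS_central (a a' : ZMod 2) (u' v' : Fin n → ZMod 2) :
    qS a 0 0 * qS a' u' v' = qS a' u' v' * qS a 0 0 := by
  rw [qS_mul, qS_mul, zero_dotProduct, dotProduct_zero, zero_add, zero_add, add_zero, add_zero,
    add_zero, add_zero, add_comm a a']

theorem qS_central_imp (a : ZMod 2) (u v : Fin n → ZMod 2)
    (h : ∀ (a' : ZMod 2) (u' v' : Fin n → ZMod 2),
      qS a u v * qS a' u' v' = qS a' u' v' * qS a u v) : u = 0 ∧ v = 0 := by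
  constructor
  · funext j
    have h1 := h 0 0 (Pi.single j 1)
    rw [qS_mul, qS_mul] at h1
    have h2 := (qS_injective h1).1
    rw [dotProduct_single_one, zero_dotProduct] at h2
    have h3 : u j = 0 := by linear_combination h2
    exact h3
  · funext i
    have h1 := h 0 (Pi.single i 1) 0
    rw [qS_mul, qS_mul] at h1
    have h2 := (qS_injective h1).1
    rw [single_one_dotProduct, dotProduct_zero] at h2
    have h3 : v i = 0 := by linear_combination -h2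
    exact h3

theorem center_mem (a : ZMod 2) :
    (⟨qS a 0 0, qS_mem a 0 0⟩ : ↥(Qs n)) ∈ Subgroup.center ↥(Qs n) := by
  rw [Subgroup.mem_center_iff]
  rintro ⟨_, a', u', v', rfl⟩
  exact Subtype.ext (qS_central a a' u' v').symm

theorem center_elim (x : ↥(Qs n)) (hx : x ∈ Subgroup.center ↥(Qs n)) :
    ∃ a, x.1 = qS a 0 0 := by
  obtain ⟨_, a, u, v, rfl⟩ := x
  rw [Subgroup.mem_center_iff] at hx
  have h : ∀ (a' : ZMod 2) (u' v' : Fin n → ZMod 2),
      qS a u v * qS a' u' v' = qS a' u' v' * qS a u v := by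
    intro a' u' v'
    exact (congrArg Subtype.val (hx ⟨qS a' u' v', qS_mem a' u' v'⟩)).symm
  obtain ⟨hu, hv⟩ := qS_central_imp a u v h
  exact ⟨a, by rw [hu, hv]⟩

/-- the centre of `Q` -/
def centerEquiv : ZMod 2 ≃ ↥(Subgroup.center ↥(Qs n)) where
  toFun a := ⟨⟨qS a 0 0, qS_mem a 0 0⟩, center_mem a⟩
  invFun x := x.1.1.1 0 1
  left_inv a := qS_a a 0 0
  right_inv x := by
    obtain ⟨a, ha⟩ := center_elim x.1 x.2
    apply Subtype.ext
    apply Subtype.ext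
    show qS (x.1.1.1 0 1) 0 0 = x.1.1
    rw [ha, qS_a]

theorem card_center : Nat.card ↥(Subgroup.center ↥(Qs n)) = 2 := by
  rw [← Nat.card_congr centerEquiv, Nat.card_eq_fintype_card, ZMod.card]

theorem Qs_extraspecial (hn : 1 ≤ n) : Cfsg.IsExtraspecial 2 ↥(Qs n) := by
  apply Cfsg.Agent.Lib.helper20.Extraspecial.extraspecial_of
  · exact isPGroup_Qs
  · exact card_center
  · rw [commutator_def, Subgroup.commutator_le]
    rintro ⟨_, a, u, v, rfl⟩ _ ⟨_, a', u', v', rfl⟩ _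
    have e : (⟨qS a u v, qS_mem a u v⟩ : ↥(Qs n)) * (⟨qS a' u' v', qS_mem a' u' v'⟩ : ↥(Qs n))
          * (⟨qS a u v, qS_mem a u v⟩ : ↥(Qs n))⁻¹ * (⟨qS a' u' v', qS_mem a' u' v'⟩ : ↥(Qs n))⁻¹
        = (⟨qS (u ⬝ᵥ v' + u' ⬝ᵥ v) 0 0, qS_mem _ _ _⟩ : ↥(Qs n)) :=
      Subtype.ext (qS_commutator a a' u v u' v')
    rw [commutatorElement_def, e]
    exact center_mem _
  · obtain ⟨k⟩ : Nonempty (Fin n) := ⟨⟨0, by omega⟩⟩
    refine ⟨⟨qS 0 (Pi.single k 1) 0, qS_mem _ _ _⟩,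
      ⟨qS 0 0 (Pi.single k 1), qS_mem _ _ _⟩, ?_⟩
    intro h
    have h1 := congrArg Subtype.val h
    have h2 : qS 0 (Pi.single k 1) 0 * qS 0 0 (Pi.single k 1)
        = qS 0 0 (Pi.single k 1) * qS 0 (Pi.single k 1) 0 := h1
    rw [qS_mul, qS_mul] at h2
    have h3 := (qS_injective h2).1
    rw [dotProduct_single_one, zero_dotProduct, Pi.single_eq_same] at h3
    revert h3
    decide
  · rintro ⟨_, a, u, v, rfl⟩
    have e : (⟨qS a u v, qS_mem a u v⟩ : ↥(Qs n)) ^ 2 = ⟨qS (u ⬝ᵥ v) 0 0, qS_mem _ _ _⟩ := by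
      rw [pow_two]
      exact Subtype.ext (qS_sq a u v)
    rw [e]
    exact center_mem _

/-- the elementary abelian subgroup `E` -/
def Es (n : ℕ) : Subgroup (SLn (n + 2) (ZMod 2)) where
  carrier := {g | ∃ a u, g = qS a u 0}
  mul_mem' := by
    rintro _ _ ⟨a, u, rfl⟩ ⟨a', u', rfl⟩
    exact ⟨a + a' + u ⬝ᵥ 0, u + u', by rw [qS_mul, add_zero]⟩
  one_mem' := ⟨0, 0, qS_zero.symm⟩
  inv_mem' := by
    rintro _ ⟨a, u, rfl⟩
    exact ⟨a + u ⬝ᵥ 0, u, qS_inv a u 0⟩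

theorem Es_le : Es n ≤ Qs n := by
  rintro _ ⟨a, u, rfl⟩
  exact qS_mem a u 0

theorem Es_comm (x y : SLn (n + 2) (ZMod 2)) (hx : x ∈ Es n) (hy : y ∈ Es n) : x * y = y * x := by
  obtain ⟨a, u, rfl⟩ := hx
  obtain ⟨a', u', rfl⟩ := hy
  rw [qS_mul, qS_mul, dotProduct_zero, dotProduct_zero, add_comm a a', add_comm u u']

theorem Es_elem : Cfsg.IsElementaryAbelian 2 (Es n) := by
  refine ⟨⟨⟨fun x y => Subtype.ext (Es_comm x.1 y.1 x.2 y.2)⟩⟩, ?_⟩
  rintro _ ⟨a, u, rfl⟩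
  rw [pow_two, qS_sq, dotProduct_zero, qS_zero]

/-- parametrization of `E` -/
def eEquiv : (ZMod 2 × (Fin n → ZMod 2)) ≃ ↥(Es n) where
  toFun x := ⟨qS x.1 x.2 0, ⟨_, _, rfl⟩⟩
  invFun g := (g.1.1 0 1, fun j => g.1.1 0 (s2 j))
  left_inv x := Prod.ext (qS_a _ _ _) (funext (qS_u _ _ _))
  right_inv g := by
    obtain ⟨g, a, u, rfl⟩ := g
    apply Subtype.ext
    simp only [qS_a, qS_u]

theorem card_Es : Nat.card (Es n) = 2 ^ (n + 1) := by
  rw [← Nat.card_congr eEquiv]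
  simp only [Nat.card_eq_fintype_card, Fintype.card_prod, Fintype.card_fun, ZMod.card,
    Fintype.card_fin]
  ring

theorem qS_coe_E (a : ZMod 2) (u : Fin n → ZMod 2) :
    ((qS a u 0 : SLn (n + 2) (ZMod 2)) : Matrix (Fin (n + 2)) (Fin (n + 2)) (ZMod 2))
      = 1 + vecMulVec e0 (phi a u) := by
  rw [qS_coe, what_zero_vec]
  simp

theorem phi_single (k : Fin n) :
    phi 0 (Pi.single k 1) = (Pi.single (s2 k) 1 : Fin (n + 2) → ZMod 2) := by
  apply ext3
  · simp [(s2_ne_zero k).symm]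
  · simp [(s2_ne_one k).symm]
  · intro j
    simp [Pi.single_apply, s2_inj]

theorem Qs_conj (g : SLn (n + 2) (ZMod 2)) (hg : g ∈ Cz n) (h : SLn (n + 2) (ZMod 2))
    (hh : h ∈ Qs n) : g * h * g⁻¹ ∈ Qs n := by
  have hk : (⟨h, Qs_le hh⟩ : ↥(Cz n)) ∈ (piC (n := n)).ker := by
    rw [ker_piC]
    exact Subgroup.mem_subgroupOf.2 hh
  have h1 := (MonoidHom.normal_ker (piC (n := n))).conj_mem _ hk ⟨g, hg⟩
  rw [ker_piC] at h1
  exact Subgroup.mem_subgroupOf.1 h1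

theorem centralizer_Qs :
    Subgroup.centralizer ((Qs n : Subgroup (SLn (n + 2) (ZMod 2))) : Set (SLn (n + 2) (ZMod 2)))
      = (Subgroup.center ↥(Qs n)).map (Qs n).subtype := by
  ext g
  constructor
  · intro hg
    rw [Subgroup.mem_centralizer_iff] at hg
    have hgC : g ∈ Cz n := by
      rw [Subgroup.mem_centralizer_iff]
      intro x hx
      rw [Set.mem_singleton_iff] at hx
      rw [hx]
      exact hg _ (qS_mem 1 0 0)
    -- rows of `g`
    have hrow : ∀ (k : Fin n) (j : Fin (n + 2)), g.1 (s2 k) j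
        = (Pi.single (s2 k) 1 : Fin (n + 2) → ZMod 2) j := by
      intro k j
      have hc : g * qS 0 (Pi.single k 1) 0 = qS 0 (Pi.single k 1) 0 * g :=
        (hg _ (qS_mem _ _ _)).symm
      obtain ⟨-, h2⟩ := comm_tv g (phi 0 (Pi.single k 1)) _ (qS_coe_E 0 (Pi.single k 1)) (s2 k)
        (by simp) hc
      have h3 := congrFun h2 j
      rw [phi_single, single_one_vecMul] at h3
      exact h3
    have hsub : subM g.1 = 1 := by
      ext i j
      show g.1 (s2 i) (s2 j) = _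
      rw [hrow i (s2 j), Pi.single_apply, Matrix.one_apply]
      simp [s2_inj, eq_comm]
    obtain ⟨a, u, v, rfl⟩ := (mem_Qs_iff g).2 ⟨hgC, hsub⟩
    have hv : v = 0 := by
      funext i
      have h1 := hrow i 1
      rw [qS_v, Pi.single_apply, if_neg (s2_ne_one i).symm] at h1
      exact h1
    have hu : u = 0 := by
      funext j
      have h1 := hg _ (qS_mem 0 0 (Pi.single j 1))
      rw [hv, qS_mul, qS_mul] at h1
      have h2 := (qS_injective h1).1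
      rw [dotProduct_single_one, zero_dotProduct] at h2
      have h3 : u j = 0 := by linear_combination -h2
      exact h3
    rw [hu, hv]
    exact ⟨⟨qS a 0 0, qS_mem a 0 0⟩, center_mem a, rfl⟩
  · rintro ⟨c, hc, rfl⟩
    rw [Subgroup.mem_centralizer_iff]
    intro h hh
    rw [SetLike.mem_coe] at hc hh
    rw [Subgroup.mem_center_iff] at hc
    exact congrArg Subtype.val (hc ⟨h, hh⟩)

theorem zS_mem_center_map :
    (zS : SLn (n + 2) (ZMod 2)) ∈ (Subgroup.center ↥(Qs n)).map (Qs n).subtype :=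
  ⟨⟨qS 1 0 0, qS_mem 1 0 0⟩, center_mem 1, rfl⟩

theorem normalizer_cond :
    Subgroup.centralizer ((((Subgroup.center ↥(Qs n)).map (Qs n).subtype :
      Subgroup (SLn (n + 2) (ZMod 2)))) : Set (SLn (n + 2) (ZMod 2)))
      ≤ Subgroup.normalizer ((Qs n : Subgroup (SLn (n + 2) (ZMod 2))) :
        Set (SLn (n + 2) (ZMod 2))) := by
  intro g hg
  rw [Subgroup.mem_centralizer_iff] at hg
  have hgC : g ∈ Cz n := by
    rw [Subgroup.mem_centralizer_iff]
    intro x hx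
    rw [Set.mem_singleton_iff] at hx
    rw [hx]
    exact hg _ zS_mem_center_map
  rw [Subgroup.mem_normalizer_iff]
  intro h
  constructor
  · intro hh
    exact Qs_conj g hgC h hh
  · intro hh
    have h1 := Qs_conj g⁻¹ ((Cz n).inv_mem hgC) _ hh
    have h2 : g⁻¹ * (g * h * g⁻¹) * g⁻¹⁻¹ = h := by group
    rwa [h2] at h1

theorem Es_normal_cent (k : Fin n) :
    ((Es n).subgroupOf (Subgroup.centralizer
      ({qS 0 (Pi.single k 1) 0} : Set (SLn (n + 2) (ZMod 2))))).Normal := by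
  refine ⟨fun x hx g => ?_⟩
  rw [Subgroup.mem_subgroupOf] at hx ⊢
  obtain ⟨a, u, hxa⟩ := hx
  have hg := g.2
  rw [Subgroup.mem_centralizer_iff] at hg
  have hc : g.1 * qS 0 (Pi.single k 1) 0 = qS 0 (Pi.single k 1) 0 * g.1 := (hg _ rfl).symm
  obtain ⟨he, -⟩ := comm_tv g.1 (phi 0 (Pi.single k 1)) _ (qS_coe_E 0 (Pi.single k 1)) (s2 k)
    (by simp) hc
  have he' : (g.1⁻¹).1 *ᵥ e0 = e0 := by
    have h3 : (g.1⁻¹).1 *ᵥ (g.1.1 *ᵥ e0) = e0 := by
      rw [Matrix.mulVec_mulVec, ← Matrix.SpecialLinearGroup.coe_mul, inv_mul_cancel,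
        Matrix.SpecialLinearGroup.coe_one, one_mulVec]
    rwa [he] at h3
  obtain ⟨ψ, hψ⟩ : ∃ ψ, ψ = phi a u ᵥ* (g.1⁻¹).1 := ⟨_, rfl⟩
  have hψ0 : ψ 0 = 0 := by
    have h1 : ψ 0 = ψ ⬝ᵥ e0 := by rw [e0, dotProduct_single_one]
    rw [h1, hψ, ← Matrix.dotProduct_mulVec, he', dot_phi_e0]
  refine ⟨ψ 1, fun j => ψ (s2 j), ?_⟩
  apply Subtype.ext
  show (g.1 * x.1 * g.1⁻¹).1 = _
  rw [qS_coe_E, ← phi_eq ψ hψ0, Matrix.SpecialLinearGroup.coe_mul,
    Matrix.SpecialLinearGroup.coe_mul, hxa, qS_coe_E, mul_add, add_mul, mul_one,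
    ← Matrix.SpecialLinearGroup.coe_mul, mul_inv_cancel, Matrix.SpecialLinearGroup.coe_one,
    mul_vecMulVec, vecMulVec_mul, he, hψ]

theorem Qs_large (hn : 1 ≤ n) : Cfsg.IsLargeExtraspecial (Qs n) := by
  obtain ⟨k⟩ : Nonempty (Fin n) := ⟨⟨0, by omega⟩⟩
  have hb1 : qS 0 (Pi.single k 1) 0 ≠ (1 : SLn (n + 2) (ZMod 2)) := by
    intro h
    rw [← qS_zero] at h
    have h1 := congrFun (qS_injective h).2.1 k
    rw [Pi.single_eq_same, Pi.zero_apply] at h1
    exact one_ne_zero h1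
  refine Cfsg.Agent.S5421.result (Qs n) (Qs_extraspecial hn) centralizer_Qs normalizer_cond
    (qS 0 (Pi.single k 1) 0) (qS_mem _ _ _) ?_ ?_ ?_
  · rintro ⟨c, hc, hcb⟩
    obtain ⟨a, ha⟩ := center_elim c hc
    have h1 : qS a 0 0 = qS 0 (Pi.single k 1) 0 := by rw [← ha]; exact hcb
    have h2 := congrFun (qS_injective h1).2.1 k
    rw [Pi.single_eq_same, Pi.zero_apply] at h2
    exact zero_ne_one h2
  · apply orderOf_eq_prime
    · rw [pow_two, qS_sq, dotProduct_zero, qS_zero]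
    · exact hb1
  · rintro _ ⟨c, hc, rfl⟩
    obtain ⟨a, ha⟩ := center_elim c hc
    have hE : qS a 0 0 ∈ Es n := ⟨a, 0, rfl⟩
    have hcent : qS a 0 0 ∈ Subgroup.centralizer
        ({qS 0 (Pi.single k 1) 0} : Set (SLn (n + 2) (ZMod 2))) := by
      rw [Subgroup.mem_centralizer_iff]
      intro x hx
      rw [Set.mem_singleton_iff] at hx
      rw [hx]
      exact (qS_central a 0 (Pi.single k 1) 0).symm
    haveI := Es_normal_cent (n := n) k
    have hle : (Es n).subgroupOf (Subgroup.centralizer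
        ({qS 0 (Pi.single k 1) 0} : Set (SLn (n + 2) (ZMod 2))))
        ≤ Cfsg.pCore 2 _ :=
      le_pCore (Es_normal_cent (n := n) k)
        ((IsPGroup.of_card (card_Es (n := n))).comap_subtype)
    refine ⟨⟨qS a 0 0, hcent⟩, hle (Subgroup.mem_subgroupOf.2 hE), ?_⟩
    exact ha.symm

theorem main (n : ℕ) (hn : 2 ≤ n) (z : Matrix.SpecialLinearGroup (Fin (n + 2)) (ZMod 2))
    (hz : (z : Matrix (Fin (n + 2)) (Fin (n + 2)) (ZMod 2)) = Matrix.transvection 0 1 1)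
    (Q : Subgroup (Matrix.SpecialLinearGroup (Fin (n + 2)) (ZMod 2)))
    (hQ : Q = (Cfsg.pCore 2 ↥(Subgroup.centralizer ({z} : Set (Matrix.SpecialLinearGroup (Fin (n + 2)) (ZMod 2))))).map (Subgroup.centralizer ({z} : Set (Matrix.SpecialLinearGroup (Fin (n + 2)) (ZMod 2)))).subtype) :
    Cfsg.IsExtraspecial 2 ↥Q ∧ Nat.card ↥Q = 2 ^ (2 * n + 1) ∧
    (∃ E : Subgroup (Matrix.SpecialLinearGroup (Fin (n + 2)) (ZMod 2)), E ≤ Q ∧
      Cfsg.IsElementaryAbelian 2 E ∧ Nat.card ↥E = 2 ^ (n + 1)) ∧ Cfsg.IsLargeExtraspecial Q ∧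
    ∃ K : Subgroup (Matrix.SpecialLinearGroup (Fin (n + 2)) (ZMod 2)),
      K ≤ Subgroup.centralizer ({z} : Set (Matrix.SpecialLinearGroup (Fin (n + 2)) (ZMod 2))) ∧
      Q ⊓ K = ⊥ ∧
      Q ⊔ K = Subgroup.centralizer ({z} : Set (Matrix.SpecialLinearGroup (Fin (n + 2)) (ZMod 2))) ∧
      Nonempty (↥K ≃* Matrix.SpecialLinearGroup (Fin n) (ZMod 2)) := by
  have hz' : z = zS := Subtype.ext (hz.trans zS_coe'.symm)
  subst hz'
  have hQ' : Q = Qs n := hQ.trans (pcore_eq hn)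
  subst hQ'
  refine ⟨Qs_extraspecial (by omega), card_Qs, ⟨Es n, Es_le, Es_elem, card_Es⟩,
    Qs_large (by omega), (sigmaS (n := n)).range, ?_, ?_, ?_, ?_⟩
  · rintro _ ⟨M, rfl⟩
    exact sigma_mem M
  · rw [Subgroup.eq_bot_iff_forall]
    rintro g ⟨hgQ, ⟨M, rfl⟩⟩
    have h1 := ((mem_Qs_iff _).1 hgQ).2
    rw [sigmaS_coe, subM_sM] at h1
    have hM : M = 1 := Subtype.ext h1
    rw [hM, map_one]
  · apply le_antisymm
    · rw [sup_le_iff]
      refine ⟨Qs_le, ?_⟩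
      rintro _ ⟨M, rfl⟩
      exact sigma_mem M
    · intro g hg
      have hpi : piC (⟨sigmaS (piC ⟨g, hg⟩), sigma_mem _⟩ : ↥(Cz n)) = piC ⟨g, hg⟩ :=
        Subtype.ext (subM_sM _)
      have hk : (⟨g, hg⟩ : ↥(Cz n)) * (⟨sigmaS (piC ⟨g, hg⟩), sigma_mem _⟩ : ↥(Cz n))⁻¹
          ∈ (piC (n := n)).ker := by
        rw [MonoidHom.mem_ker, map_mul, map_inv, hpi, mul_inv_cancel]
      rw [ker_piC, Subgroup.mem_subgroupOf] at hk
      have hr : sigmaS (piC ⟨g, hg⟩) ∈ (sigmaS (n := n)).range := ⟨_, rfl⟩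
      have hm := Subgroup.mul_mem_sup hk hr
      have hgg : g = g * (sigmaS (piC ⟨g, hg⟩))⁻¹ * sigmaS (piC ⟨g, hg⟩) := by group
      rw [hgg]
      exact hm
  · exact ⟨(MonoidHom.ofInjective sigmaS_injective).symm⟩

end Extra

end Cfsg.Agent.Lib.helper6.TvCent
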