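import Mathlib
import Cfsg.Agent.Lib.helper6.TvCent
import Cfsg.Agent.Lib.helper14.Basic
import Cfsg.Agent.Lib.helper14.Amalgam
import Cfsg.Agent.S5420

set_option autoImplicit false

namespace Cfsg.Agent.Lib.helper6.AffLarge

open Cfsg Matrix
open Cfsg.Agent.Lib.helper13.PN
open Cfsg.Agent.Lib.helper6.TvCent

section Blk

variable {k : ℕ}

/-- the block matrix `[[1, r], [0, C]]` -/
def blk (r : Fin k → ZMod 2) (C : Matrix (Fin k) (Fin k) (ZMod 2)) :
    Matrix (Fin (k + 1)) (Fin (k + 1)) (ZMod 2) :=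
  fun i j => Fin.cases (Fin.cases 1 r j) (fun i' => Fin.cases 0 (C i') j) i

@[simp] theorem blk_zero_zero (r : Fin k → ZMod 2) (C : Matrix (Fin k) (Fin k) (ZMod 2)) :
    blk r C 0 0 = 1 := rfl
@[simp] theorem blk_zero_succ (r : Fin k → ZMod 2) (C : Matrix (Fin k) (Fin k) (ZMod 2))
    (j : Fin k) : blk r C 0 j.succ = r j := rfl
@[simp] theorem blk_succ_zero (r : Fin k → ZMod 2) (C : Matrix (Fin k) (Fin k) (ZMod 2))
    (i : Fin k) : blk r C i.succ 0 = 0 := rfl
@[simp] theorem blk_succ_succ (r : Fin k → ZMod 2) (C : Matrix (Fin k) (Fin k) (ZMod 2))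
    (i j : Fin k) : blk r C i.succ j.succ = C i j := rfl

theorem blk_mul (r r' : Fin k → ZMod 2) (C C' : Matrix (Fin k) (Fin k) (ZMod 2)) :
    blk r C * blk r' C' = blk (r' + Matrix.vecMul r C') (C * C') := by
  ext i j
  rw [Matrix.mul_apply, Fin.sum_univ_succ]
  refine Fin.cases ?_ (fun i' => ?_) i <;> refine Fin.cases ?_ (fun j' => ?_) j
  · simp
  · simp [Matrix.vecMul, dotProduct]
  · simp
  · simp [Matrix.mul_apply]

theorem blk_one : blk (0 : Fin k → ZMod 2) 1 = 1 := by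
  ext i j
  refine Fin.cases ?_ (fun i' => ?_) i <;> refine Fin.cases ?_ (fun j' => ?_) j
  · simp
  · simp [Matrix.one_apply, Fin.succ_ne_zero, (Fin.succ_ne_zero _).symm]
  · simp [Matrix.one_apply, Fin.succ_ne_zero]
  · simp [Matrix.one_apply]

theorem blk_inj {r r' : Fin k → ZMod 2} {C C' : Matrix (Fin k) (Fin k) (ZMod 2)}
    (h : blk r C = blk r' C') : r = r' ∧ C = C' := by
  constructor
  · funext j
    have := congrFun (congrFun h 0) j.succ
    simpa using this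
  · ext i j
    have := congrFun (congrFun h i.succ) j.succ
    simpa using this

theorem eq_blk (X : Matrix (Fin (k + 1)) (Fin (k + 1)) (ZMod 2)) (h0 : X 0 0 = 1)
    (h : ∀ i : Fin k, X i.succ 0 = 0) :
    X = blk (fun j => X 0 j.succ) (fun i j => X i.succ j.succ) := by
  ext i j
  refine Fin.cases ?_ (fun i' => ?_) i <;> refine Fin.cases ?_ (fun j' => ?_) j
  · exact h0
  · rfl
  · exact h i'
  · rfl

theorem mat_ext_mulVec {A A' : Matrix (Fin k) (Fin k) (ZMod 2)}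
    (h : ∀ x, A *ᵥ x = A' *ᵥ x) : A = A' := by
  ext i j
  have := congrFun (h (Pi.single j 1)) i
  simpa [Matrix.mulVec_single_one] using this

end Blk

section Aff

variable {G : Type*} [Group G]

/-- the affine hypothesis: `G = U ⋊ M` with `U` elementary abelian and `M` inducing `Aut(U)` -/
structure Aff (U M : Subgroup G) : Prop where
  normal : U.Normal
  comm : ∀ a ∈ U, ∀ b ∈ U, a * b = b * a
  sq : ∀ a ∈ U, a * a = 1
  inf : U ⊓ M = ⊥
  sup : U ⊔ M = ⊤
  faith : ∀ m ∈ M, (∀ u ∈ U, m * u * m⁻¹ = u) → m = 1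
  full : ∀ φ : ↥U ≃* ↥U, ∃ m ∈ M, ∀ u : ↥U, ((φ u : ↥U) : G) = m * u * m⁻¹

/-- coordinates on `U` -/
structure Coord (n : ℕ) (U : Subgroup G) where
  f : ↥U → (Fin (n + 1) → ZMod 2)
  bij : Function.Bijective f
  add : ∀ a b, f (a * b) = f a + f b

theorem exists_coord0 [Finite G] (n : ℕ) (U : Subgroup G) (hU : Cfsg.IsElementaryAbelian 2 U)
    (hcard : Nat.card ↥U = 2 ^ (n + 1)) : Nonempty (Coord n U) := by
  letI : CommGroup ↥U := { (inferInstance : Group ↥U) with mul_comm := hU.1.is_comm.comm }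
  have h2 : ∀ x : Additive ↥U, 2 • x = 0 := by
    intro x
    have h3 : (Additive.toMul x : ↥U) ^ 2 = 1 := Subtype.ext (hU.2 _ (Additive.toMul x).2)
    exact congrArg Additive.ofMul h3
  letI : Module (ZMod 2) (Additive ↥U) := AddCommGroup.zmodModule h2
  haveI : Finite (Additive ↥U) := inferInstanceAs (Finite ↥U)
  haveI : Module.Finite (ZMod 2) (Additive ↥U) := Module.Finite.of_finite
  have hfr : Module.finrank (ZMod 2) (Additive ↥U) = n + 1 := by
    have h4 := Module.natCard_eq_pow_finrank (K := ZMod 2) (V := Additive ↥U)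
    have h5 : Nat.card (Additive ↥U) = 2 ^ (n + 1) := hcard
    rw [h5, Nat.card_zmod] at h4
    exact (Nat.pow_right_injective (le_refl 2) h4).symm
  let b := Module.finBasisOfFinrankEq (ZMod 2) (Additive ↥U) hfr
  refine ⟨⟨fun u => b.equivFun (Additive.ofMul u), ?_, ?_⟩⟩
  · exact b.equivFun.bijective.comp Additive.ofMul.bijective
  · intro a c
    change b.equivFun (Additive.ofMul a + Additive.ofMul c) = _
    rw [map_add]

namespace Coord

variable {n : ℕ} {U : Subgroup G} (c : Coord n U)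

/-- the coordinate bijection -/
noncomputable def eq : ↥U ≃ (Fin (n + 1) → ZMod 2) := Equiv.ofBijective c.f c.bij

theorem eq_apply (u : ↥U) : c.eq u = c.f u := rfl

theorem f_symm (x : Fin (n + 1) → ZMod 2) : c.f (c.eq.symm x) = x := c.eq.apply_symm_apply x

theorem symm_f (u : ↥U) : c.eq.symm (c.f u) = u := c.eq.symm_apply_apply u

theorem f_one : c.f 1 = 0 := by
  have h := c.add 1 1
  rw [mul_one] at h
  exact left_eq_add.1 h

theorem symm_add (x y : Fin (n + 1) → ZMod 2) :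
    c.eq.symm (x + y) = c.eq.symm x * c.eq.symm y := by
  apply c.bij.1
  rw [c.f_symm, c.add, c.f_symm, c.f_symm]

theorem f_inv (u : ↥U) : c.f u⁻¹ = c.f u := by
  have h := c.add u u⁻¹
  rw [mul_inv_cancel, c.f_one] at h
  have h2 : c.f u + c.f u = 0 := by
    funext i
    exact zmod2_add_self _
  have h3 : c.f u + c.f u⁻¹ = c.f u + c.f u := by rw [← h, h2]
  exact add_left_cancel h3

end Coord

/-- normalised coordinates: a given non-identity element goes to the first basis vector -/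
theorem exists_coord [Finite G] (n : ℕ) (U : Subgroup G) (hU : Cfsg.IsElementaryAbelian 2 U)
    (hcard : Nat.card ↥U = 2 ^ (n + 1)) (v : ↥U) (hv : v ≠ 1) :
    ∃ c : Coord n U, c.f v = Pi.single 0 1 := by
  obtain ⟨c0⟩ := exists_coord0 n U hU hcard
  have hw : c0.f v ≠ 0 := by
    intro h
    apply hv
    apply c0.bij.1
    rw [h, c0.f_one]
  obtain ⟨k, hk⟩ : ∃ k, c0.f v k ≠ 0 := by
    by_contra hno
    push Not at hno
    exact hw (funext hno)
  have hk1 : c0.f v k = 1 := zmod2_eq_one hk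
  -- swap coordinates `0` and `k`
  obtain ⟨w', hw'⟩ : ∃ w' : Fin (n + 1) → ZMod 2, w' = fun i => c0.f v (Equiv.swap 0 k i) :=
    ⟨_, rfl⟩
  have hw'0 : w' 0 = 1 := by
    rw [hw']
    show c0.f v (Equiv.swap 0 k 0) = 1
    rw [Equiv.swap_apply_left]
    exact hk1
  obtain ⟨d, hd⟩ : ∃ d : Fin (n + 1) → ZMod 2, d = w' + Pi.single 0 1 := ⟨_, rfl⟩
  have hd0 : d 0 = 0 := by
    rw [hd, Pi.add_apply, hw'0, Pi.single_eq_same]
    decide
  -- the shear `T x = x + x 0 • d`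
  have hT : ∀ x : Fin (n + 1) → ZMod 2, (x + x 0 • d) + (x + x 0 • d) 0 • d = x := by
    intro x
    have h1 : (x + x 0 • d) 0 = x 0 := by
      rw [Pi.add_apply, Pi.smul_apply, hd0, smul_zero, add_zero]
    rw [h1, add_assoc]
    have h2 : x 0 • d + x 0 • d = 0 := by
      funext i
      exact zmod2_add_self _
    rw [h2, add_zero]
  refine ⟨⟨fun u => (fun i => c0.f u (Equiv.swap 0 k i)) +
      (c0.f u (Equiv.swap 0 k 0)) • d, ?_, ?_⟩, ?_⟩
  · constructor
    · intro a b hab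
      have h1 : (fun i => c0.f a (Equiv.swap 0 k i)) = fun i => c0.f b (Equiv.swap 0 k i) := by
        have h2 := hT (fun i => c0.f a (Equiv.swap 0 k i))
        have h3 := hT (fun i => c0.f b (Equiv.swap 0 k i))
        rw [← h2, ← h3]
        have hab' : (fun i => c0.f a (Equiv.swap 0 k i)) + (c0.f a (Equiv.swap 0 k 0)) • d
            = (fun i => c0.f b (Equiv.swap 0 k i)) + (c0.f b (Equiv.swap 0 k 0)) • d := hab
        rw [hab']
      apply c0.bij.1
      funext i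
      have := congrFun h1 (Equiv.swap 0 k i)
      simpa using this
    · intro y
      obtain ⟨u, hu⟩ := c0.bij.2 (fun i => (y + y 0 • d) (Equiv.swap 0 k i))
      refine ⟨u, ?_⟩
      have h1 : (fun i => c0.f u (Equiv.swap 0 k i)) = y + y 0 • d := by
        funext i
        rw [hu]
        simp
      show (fun i => c0.f u (Equiv.swap 0 k i)) + (c0.f u (Equiv.swap 0 k 0)) • d = y
      have h2 : c0.f u (Equiv.swap 0 k 0) = (y + y 0 • d) 0 := by
        rw [← h1]
      rw [h2, h1]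
      exact hT y
  · intro a b
    funext i
    simp only [c0.add, Pi.add_apply, Pi.smul_apply, smul_eq_mul]
    ring
  · show (fun i => c0.f v (Equiv.swap 0 k i)) + (c0.f v (Equiv.swap 0 k 0)) • d = Pi.single 0 1
    rw [← hw']
    have h0 : c0.f v (Equiv.swap 0 k 0) = 1 := by rw [Equiv.swap_apply_left]; exact hk1
    rw [h0, one_smul, hd, ← add_assoc]
    have : w' + w' = 0 := by
      funext i
      exact zmod2_add_self _
    rw [this, zero_add]

namespace Aff

variable {n : ℕ} {U M : Subgroup G}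

theorem exists_dec (h : Aff U M) (g : G) : ∃ u : ↥U, ∃ m ∈ M, g = u * m := by
  haveI := h.normal
  have hg : g ∈ ((U ⊔ M : Subgroup G) : Set G) := by
    rw [h.sup]
    exact Subgroup.mem_top g
  rw [Subgroup.normal_mul] at hg
  obtain ⟨u, hu, m, hm, rfl⟩ := Set.mem_mul.1 hg
  exact ⟨⟨u, hu⟩, m, hm, rfl⟩

/-- the `U`-part of an element -/
noncomputable def pu (h : Aff U M) (g : G) : ↥U := Classical.choose (h.exists_dec g)

theorem pu_spec (h : Aff U M) (g : G) : ∃ m ∈ M, g = (h.pu g : G) * m := Classical.choose_spec (h.exists_dec g)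

theorem pu_eq (h : Aff U M) (g : G) (u : ↥U) (m : G) (hm : m ∈ M) (hg : g = u * m) : h.pu g = u := by
  obtain ⟨m', hm', hg'⟩ := h.pu_spec g
  have h1 : (u : G)⁻¹ * (h.pu g : G) = m * m'⁻¹ := by
    have : (h.pu g : G) * m' = u * m := hg'.symm.trans hg
    calc (u : G)⁻¹ * (h.pu g : G) = (u : G)⁻¹ * ((h.pu g : G) * m') * m'⁻¹ := by group
      _ = (u : G)⁻¹ * (u * m) * m'⁻¹ := by rw [this]
      _ = m * m'⁻¹ := by group
  have h2 : (u : G)⁻¹ * (h.pu g : G) ∈ U ⊓ M :=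
    ⟨U.mul_mem (U.inv_mem u.2) (h.pu g).2, by rw [h1]; exact M.mul_mem hm (M.inv_mem hm')⟩
  rw [h.inf, Subgroup.mem_bot] at h2
  apply Subtype.ext
  exact (inv_mul_eq_one.1 h2).symm

theorem pu_of_U (h : Aff U M) (u : ↥U) : h.pu (u : G) = u :=
  h.pu_eq _ u 1 M.one_mem (mul_one _).symm

theorem pu_of_M (h : Aff U M) (m : G) (hm : m ∈ M) : h.pu m = 1 :=
  h.pu_eq _ 1 m hm (by rw [Subgroup.coe_one, one_mul])

/-- conjugation on `U` -/
def cj (h : Aff U M) (g : G) (u : ↥U) : ↥U := ⟨g * u * g⁻¹, h.normal.conj_mem u u.2 g⟩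

theorem cj_coe (h : Aff U M) (g : G) (u : ↥U) : ((h.cj g u : ↥U) : G) = g * u * g⁻¹ := rfl

theorem cj_mul (h : Aff U M) (g : G) (a b : ↥U) : h.cj g (a * b) = h.cj g a * h.cj g b := by
  apply Subtype.ext
  rw [cj_coe, Subgroup.coe_mul, Subgroup.coe_mul, cj_coe, cj_coe]
  group

theorem cj_comp (h : Aff U M) (g g' : G) (u : ↥U) : h.cj (g * g') u = h.cj g (h.cj g' u) := by
  apply Subtype.ext
  rw [cj_coe, cj_coe, cj_coe]
  group

theorem cj_one (h : Aff U M) (u : ↥U) : h.cj 1 u = u := by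
  apply Subtype.ext
  rw [cj_coe]
  group

theorem cj_of_U (h : Aff U M) (a : G) (ha : a ∈ U) (u : ↥U) : h.cj a u = u := by
  apply Subtype.ext
  rw [cj_coe, h.comm a ha u u.2]
  group

/-- conjugation by `g` in coordinates, as an additive map -/
noncomputable def L (h : Aff U M) (c : Coord n U) (g : G) : (Fin (n + 1) → ZMod 2) →+ (Fin (n + 1) → ZMod 2) :=
  AddMonoidHom.mk' (fun x => c.f (h.cj g (c.eq.symm x))) (by
    intro x y
    rw [c.symm_add, h.cj_mul, c.add])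

theorem L_apply (h : Aff U M) (c : Coord n U) (g : G) (x : Fin (n + 1) → ZMod 2) : h.L c g x = c.f (h.cj g (c.eq.symm x)) := rfl

/-- the matrix of conjugation by `g` on `U` -/
noncomputable def B (h : Aff U M) (c : Coord n U) (g : G) : Matrix (Fin (n + 1)) (Fin (n + 1)) (ZMod 2) :=
  LinearMap.toMatrix' (AddMonoidHom.toZModLinearMap 2 (h.L c g))

theorem B_mulVec (h : Aff U M) (c : Coord n U) (g : G) (x : Fin (n + 1) → ZMod 2) :
    h.B c g *ᵥ x = c.f (h.cj g (c.eq.symm x)) := by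
  rw [← h.L_apply c g x, B, ← Matrix.toLin'_apply, Matrix.toLin'_toMatrix']
  rfl

theorem B_f (h : Aff U M) (c : Coord n U) (g : G) (u : ↥U) : c.f (h.cj g u) = h.B c g *ᵥ c.f u := by
  rw [B_mulVec, c.symm_f]

theorem B_mul (h : Aff U M) (c : Coord n U) (g g' : G) : h.B c (g * g') = h.B c g * h.B c g' := by
  apply mat_ext_mulVec
  intro x
  rw [← Matrix.mulVec_mulVec, B_mulVec, B_mulVec, B_mulVec, c.symm_f, h.cj_comp]

theorem B_one (h : Aff U M) (c : Coord n U) : h.B c 1 = 1 := by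
  apply mat_ext_mulVec
  intro x
  rw [B_mulVec, h.cj_one, c.f_symm, Matrix.one_mulVec]

theorem B_of_U (h : Aff U M) (c : Coord n U) (a : G) (ha : a ∈ U) : h.B c a = 1 := by
  apply mat_ext_mulVec
  intro x
  rw [B_mulVec, h.cj_of_U a ha, c.f_symm, Matrix.one_mulVec]

/-- the translation part in coordinates -/
noncomputable def ph (h : Aff U M) (c : Coord n U) (g : G) : Fin (n + 1) → ZMod 2 := c.f (h.pu g)

theorem ph_of_U (h : Aff U M) (c : Coord n U) (u : ↥U) : h.ph c (u : G) = c.f u := by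
  rw [ph, h.pu_of_U]

theorem ph_of_M (h : Aff U M) (c : Coord n U) (m : G) (hm : m ∈ M) : h.ph c m = 0 := by
  rw [ph, h.pu_of_M m hm, c.f_one]

theorem ph_mul (h : Aff U M) (c : Coord n U) (g g' : G) : h.ph c (g * g') = h.ph c g + h.B c g *ᵥ h.ph c g' := by
  obtain ⟨m, hm, hg⟩ := h.pu_spec g
  obtain ⟨m', hm', hg'⟩ := h.pu_spec g'
  have h1 : h.pu (g * g') = h.pu g * h.cj m (h.pu g') := by
    apply h.pu_eq _ _ (m * m') (M.mul_mem hm hm')
    rw [Subgroup.coe_mul, cj_coe]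
    calc g * g' = ((h.pu g : G) * m) * ((h.pu g' : G) * m') := by rw [← hg, ← hg']
      _ = (h.pu g : G) * (m * (h.pu g' : G) * m⁻¹) * (m * m') := by group
  have h2 : h.B c g = h.B c m := by
    have : h.B c g = h.B c ((h.pu g : G) * m) := by rw [← hg]
    rw [this, B_mul, h.B_of_U c _ (h.pu g).2, one_mul]
  rw [ph, h1, c.add, h.B_f c, h2]
  rfl

/-- the matrix of the embedding -/
noncomputable def P (h : Aff U M) (c : Coord n U) (g : G) : Matrix (Fin (n + 2)) (Fin (n + 2)) (ZMod 2) :=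
  blk (h.ph c g⁻¹) (h.B c g⁻¹)ᵀ

theorem P_mul (h : Aff U M) (c : Coord n U) (g g' : G) : h.P c (g * g') = h.P c g * h.P c g' := by
  rw [P, P, P, blk_mul, _root_.mul_inv_rev, ph_mul, B_mul, Matrix.transpose_mul, Matrix.vecMul_transpose]

theorem P_one (h : Aff U M) (c : Coord n U) : h.P c 1 = 1 := by
  rw [P, inv_one, h.ph_of_M c 1 M.one_mem, h.B_one c, Matrix.transpose_one]
  exact blk_one

/-- the embedding of `G` into `SL_{n+2}(2)` -/
noncomputable def Psi (h : Aff U M) (c : Coord n U) : G →* SLn (n + 2) (ZMod 2) where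
  toFun g := ⟨h.P c g, det_one_of_mul _ (h.P c g⁻¹) (by rw [← P_mul, mul_inv_cancel, P_one])⟩
  map_one' := Subtype.ext (h.P_one c)
  map_mul' g g' := Subtype.ext (h.P_mul c g g')

theorem Psi_coe (h : Aff U M) (c : Coord n U) (g : G) : (h.Psi c g).1 = h.P c g := rfl

theorem P_of_U (h : Aff U M) (c : Coord n U) (u : ↥U) : h.P c (u : G) = blk (c.f u) 1 := by
  have h1 : ((u : G))⁻¹ = ((u⁻¹ : ↥U) : G) := rfl
  rw [P, h1, h.ph_of_U c, c.f_inv, h.B_of_U c _ (u⁻¹).2, Matrix.transpose_one]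

theorem P_of_M_inv (h : Aff U M) (c : Coord n U) (m : G) (hm : m ∈ M) : h.P c m⁻¹ = blk 0 (h.B c m)ᵀ := by
  rw [P, inv_inv, h.ph_of_M c m hm]

theorem Psi_injective (h : Aff U M) (c : Coord n U) : Function.Injective (h.Psi c) := by
  rw [injective_iff_map_eq_one]
  intro g hg
  have h1 : h.P c g = blk 0 1 := by
    rw [blk_one, ← Psi_coe, hg]
    rfl
  obtain ⟨h2, h3⟩ := blk_inj h1
  have h4 : h.pu g⁻¹ = 1 := by
    apply c.bij.1
    rw [c.f_one]
    exact h2
  obtain ⟨m, hm, hgm⟩ := h.pu_spec g⁻¹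
  rw [h4, Subgroup.coe_one, one_mul] at hgm
  have h5 : h.B c g⁻¹ = 1 := by
    have := congrArg Matrix.transpose h3
    rwa [Matrix.transpose_transpose, Matrix.transpose_one] at this
  have h6 : g⁻¹ = 1 := by
    apply h.faith g⁻¹ (hgm ▸ hm)
    intro u hu
    have h7 := h.B_f c g⁻¹ ⟨u, hu⟩
    rw [h5, Matrix.one_mulVec] at h7
    exact congrArg Subtype.val (c.bij.1 h7)
  exact inv_eq_one.1 h6

theorem e0_succ (i : Fin (n + 1)) : (e0 : Fin (n + 2) → ZMod 2) i.succ = 0 := by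
  simp [e0, Fin.succ_ne_zero]

/-- elements of the centraliser of the transvection are in the range -/
theorem Psi_surj (h : Aff U M) (c : Coord n U) (X : SLn (n + 2) (ZMod 2)) (hX : X ∈ Cz n) :
    ∃ g, h.Psi c g = X := by
  have hXi : X⁻¹ ∈ Cz n := (Cz n).inv_mem hX
  have h1 := ((mem_cent X).1 hX).1
  have h1' := ((mem_cent X⁻¹).1 hXi).1
  obtain ⟨r, hr⟩ : ∃ r : Fin (n + 1) → ZMod 2, r = fun j => X.1 0 j.succ := ⟨_, rfl⟩
  obtain ⟨C, hC⟩ : ∃ C : Matrix (Fin (n + 1)) (Fin (n + 1)) (ZMod 2),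
      C = fun i j => X.1 i.succ j.succ := ⟨_, rfl⟩
  obtain ⟨r', hr'⟩ : ∃ r' : Fin (n + 1) → ZMod 2, r' = fun j => (X⁻¹).1 0 j.succ := ⟨_, rfl⟩
  obtain ⟨C', hC'⟩ : ∃ C' : Matrix (Fin (n + 1)) (Fin (n + 1)) (ZMod 2),
      C' = fun i j => (X⁻¹).1 i.succ j.succ := ⟨_, rfl⟩
  have e1 : X.1 = blk r C := by
    rw [hr, hC]
    exact eq_blk _ (by rw [h1]; exact e0_zero) (fun i => by rw [h1]; exact e0_succ i)
  have e2 : (X⁻¹).1 = blk r' C' := by
    rw [hr', hC']
    exact eq_blk _ (by rw [h1']; exact e0_zero) (fun i => by rw [h1']; exact e0_succ i)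
  have hCC' : C * C' = 1 := by
    have : X.1 * (X⁻¹).1 = 1 := by
      rw [← Matrix.SpecialLinearGroup.coe_mul, mul_inv_cancel, Matrix.SpecialLinearGroup.coe_one]
    rw [e1, e2, blk_mul, ← blk_one] at this
    exact (blk_inj this).2
  have hC'C : C' * C = 1 := by
    have : (X⁻¹).1 * X.1 = 1 := by
      rw [← Matrix.SpecialLinearGroup.coe_mul, inv_mul_cancel, Matrix.SpecialLinearGroup.coe_one]
    rw [e1, e2, blk_mul, ← blk_one] at this
    exact (blk_inj this).2
  obtain ⟨φ, hφdef⟩ : ∃ φ : ↥U ≃* ↥U, ∀ u, φ u = c.eq.symm (Cᵀ *ᵥ c.f u) := by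
    refine ⟨{ toFun := fun u => c.eq.symm (Cᵀ *ᵥ c.f u)
              invFun := fun u => c.eq.symm (C'ᵀ *ᵥ c.f u)
              left_inv := ?_
              right_inv := ?_
              map_mul' := ?_ }, fun u => rfl⟩
    · intro u
      show c.eq.symm (C'ᵀ *ᵥ c.f (c.eq.symm (Cᵀ *ᵥ c.f u))) = u
      rw [c.f_symm, Matrix.mulVec_mulVec, ← Matrix.transpose_mul, hCC', Matrix.transpose_one,
        Matrix.one_mulVec, c.symm_f]
    · intro u
      show c.eq.symm (Cᵀ *ᵥ c.f (c.eq.symm (C'ᵀ *ᵥ c.f u))) = u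
      rw [c.f_symm, Matrix.mulVec_mulVec, ← Matrix.transpose_mul, hC'C, Matrix.transpose_one,
        Matrix.one_mulVec, c.symm_f]
    · intro a b
      show c.eq.symm (Cᵀ *ᵥ c.f (a * b)) = c.eq.symm (Cᵀ *ᵥ c.f a) * c.eq.symm (Cᵀ *ᵥ c.f b)
      rw [c.add, Matrix.mulVec_add, c.symm_add]
  obtain ⟨m₀, hm₀, hφ⟩ := h.full φ
  have hB : h.B c m₀ = Cᵀ := by
    apply mat_ext_mulVec
    intro x
    rw [B_mulVec]
    have : h.cj m₀ (c.eq.symm x) = φ (c.eq.symm x) :=
      Subtype.ext (by rw [cj_coe]; exact (hφ _).symm)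
    rw [this, hφdef, c.f_symm, c.f_symm]
  refine ⟨m₀⁻¹ * (c.eq.symm r : ↥U), ?_⟩
  apply Subtype.ext
  rw [map_mul, Matrix.SpecialLinearGroup.coe_mul, Psi_coe, Psi_coe, h.P_of_M_inv c m₀ hm₀,
    h.P_of_U c, hB, Matrix.transpose_transpose, blk_mul, c.f_symm, Matrix.zero_vecMul, add_zero,
    mul_one, e1]

theorem Psi_v (h : Aff U M) (c : Coord n U) (v : ↥U) (hv : c.f v = Pi.single 0 1) :
    h.Psi c (v : G) = zS := by
  apply Subtype.ext
  rw [Psi_coe, h.P_of_U c, hv, zS_coe]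
  ext i j
  refine Fin.cases ?_ (fun i' => ?_) i <;> refine Fin.cases ?_ (fun j' => ?_) j
  · simp [Matrix.add_apply, Matrix.vecMulVec_apply]
  · rw [blk_zero_succ, Matrix.add_apply, Matrix.vecMulVec_apply, e0_zero, one_mul,
      Matrix.one_apply_ne (Fin.succ_ne_zero j').symm, zero_add]
    have h1 : (1 : Fin (n + 2)) = (0 : Fin (n + 1)).succ := rfl
    rw [ε1, h1, Pi.single_apply, Pi.single_apply]
    by_cases hj : j' = 0
    · rw [if_pos hj, if_pos (by rw [hj])]
    · rw [if_neg hj, if_neg (fun hh => hj (Fin.succ_injective _ hh))]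
  · rw [blk_succ_zero, Matrix.add_apply, Matrix.vecMulVec_apply, e0_succ, zero_mul,
      Matrix.one_apply_ne (Fin.succ_ne_zero i'), zero_add]
  · rw [blk_succ_succ, Matrix.add_apply, Matrix.vecMulVec_apply, e0_succ, zero_mul, add_zero,
      Matrix.one_apply, Matrix.one_apply]
    by_cases hij : i' = j'
    · rw [if_pos hij, if_pos (by rw [hij])]
    · rw [if_neg hij, if_neg (fun hh => hij (Fin.succ_injective _ hh))]

theorem mem_cent_iff (h : Aff U M) (c : Coord n U) (v : ↥U) (hv : c.f v = Pi.single 0 1)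
    (g : G) : g ∈ Subgroup.centralizer ({(v : G)} : Set G) ↔ h.Psi c g ∈ Cz n := by
  rw [Subgroup.mem_centralizer_iff, Subgroup.mem_centralizer_iff]
  constructor
  · intro hg y hy
    rw [Set.mem_singleton_iff] at hy
    rw [hy, ← h.Psi_v c v hv, ← map_mul, ← map_mul, hg _ rfl]
  · intro hg y hy
    rw [Set.mem_singleton_iff] at hy
    rw [hy]
    apply h.Psi_injective c
    rw [map_mul, map_mul, h.Psi_v c v hv]
    exact hg zS rfl

theorem Psi_U_mem (h : Aff U M) (c : Coord n U) (v : ↥U) (hv : c.f v = Pi.single 0 1)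
    (u : G) (hu : u ∈ U) : h.Psi c u ∈ Qs n := by
  rw [mem_Qs_iff]
  constructor
  · rw [← h.mem_cent_iff c v hv, Subgroup.mem_centralizer_iff]
    intro y hy
    rw [Set.mem_singleton_iff] at hy
    rw [hy]
    exact h.comm _ v.2 _ hu
  · rw [Psi_coe, h.P_of_U c ⟨u, hu⟩]
    ext i j
    show blk (c.f ⟨u, hu⟩) 1 (i.succ.succ) (j.succ.succ) = (1 : Matrix (Fin n) (Fin n) (ZMod 2)) i j
    rw [blk_succ_succ, Matrix.one_apply, Matrix.one_apply]
    by_cases hij : i = j
    · rw [if_pos hij, if_pos (by rw [hij])]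
    · rw [if_neg hij, if_neg (fun hh => hij (Fin.succ_injective _ hh))]

end Aff

end Aff

section Transfer

theorem extraspecial_of_equiv {A B : Type*} [Group A] [Group B] (e : A ≃* B)
    (hB : Cfsg.IsExtraspecial 2 B) : Cfsg.IsExtraspecial 2 A := by
  obtain ⟨⟨hp, hfr, hcm⟩, hcard⟩ := hB
  have hcen : ∀ x : A, x ∈ Subgroup.center A ↔ e x ∈ Subgroup.center B := by
    intro x
    rw [Subgroup.mem_center_iff, Subgroup.mem_center_iff]
    constructor
    · intro hx b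
      obtain ⟨a, rfl⟩ := e.surjective b
      rw [← map_mul, ← map_mul, hx a]
    · intro hx a
      apply e.injective
      rw [map_mul, map_mul]
      exact hx (e a)
  have hfrat : ∀ x : A, x ∈ frattini A ↔ e x ∈ frattini B := by
    intro x
    constructor
    · intro hx
      exact frattini_le_comap_frattini_of_surjective (φ := e.toMonoidHom) e.surjective hx
    · intro hx
      have := frattini_le_comap_frattini_of_surjective (φ := e.symm.toMonoidHom)
        e.symm.surjective hx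
      simpa using this
  have hcomm : ∀ x : A, x ∈ commutator A ↔ e x ∈ commutator B := by
    have h1 : (commutator A).map e.toMonoidHom = commutator B := by
      rw [commutator_def, commutator_def, Subgroup.map_commutator, ← MonoidHom.range_eq_map,
        MonoidHom.range_eq_top.2 e.surjective]
    intro x
    rw [← h1]
    exact (Subgroup.mem_map_iff_mem e.injective).symm
  refine ⟨⟨?_, ?_, ?_⟩, ?_⟩
  · exact hp.of_equiv e.symm
  · ext x
    rw [hfrat, hcen, hfr]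
  · ext x
    rw [hcomm, hcen, hcm]
  · rw [← hcard]
    exact Nat.card_congr (Subgroup.centerCongr e).toEquiv

open Cfsg.Agent.Lib.helper1 (pCore_normal pCore_isPGroup le_pCore)

theorem O2_SL_bot' {m : ℕ} (hm : 1 ≤ m) (N : Subgroup (SLn m (ZMod 2))) (hN : N.Normal)
    (hp : IsPGroup 2 N) : N = ⊥ := by
  rcases Nat.lt_or_ge m 2 with h | h
  · have hm1 : m = 1 := by omega
    subst hm1
    rw [Subgroup.eq_bot_iff_forall]
    intro x _
    apply Subtype.ext
    ext i j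
    have hd := x.2
    rw [Matrix.det_unique] at hd
    rw [Subsingleton.elim i default, Subsingleton.elim j default, hd]
    simp
  · exact O2_SL_bot h N hN hp

theorem pcore_eq' {n : ℕ} (hn : 1 ≤ n) :
    (Cfsg.pCore 2 ↥(Cz n)).map (Cz n).subtype = Qs n := by
  have hker : (piC (n := n)).ker = (Qs n).subgroupOf (Cz n) := ker_piC
  have h1 : Cfsg.pCore 2 ↥(Cz n) = (Qs n).subgroupOf (Cz n) := by
    apply le_antisymm
    · have hN : ((Cfsg.pCore 2 ↥(Cz n)).map piC).Normal :=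
        Subgroup.Normal.map (pCore_normal 2 _) piC piC_surjective
      have hp : IsPGroup 2 ((Cfsg.pCore 2 ↥(Cz n)).map piC) := (pCore_isPGroup 2 _).map piC
      have hbot := O2_SL_bot' hn _ hN hp
      rw [← hker]
      intro x hx
      rw [MonoidHom.mem_ker]
      have h2 : piC x ∈ (Cfsg.pCore 2 ↥(Cz n)).map piC := ⟨x, hx, rfl⟩
      rwa [hbot, Subgroup.mem_bot] at h2
    · apply le_pCore
      · rw [← hker]
        exact MonoidHom.normal_ker _
      · exact isPGroup_Qs.comap_subtype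
  rw [h1, Subgroup.subgroupOf_map_subtype, inf_eq_left.2 Qs_le]

end Transfer

section Main

variable {G : Type*} [Group G]

theorem zmod2_cases : ∀ b : ZMod 2, b = 0 ∨ b = 1 := by decide

/-- `SL_n(2) ≃* GL_n(2)` -/
noncomputable def slgl (n : ℕ) :
    SLn n (ZMod 2) ≃* Matrix.GeneralLinearGroup (Fin n) (ZMod 2) :=
  MulEquiv.ofBijective Matrix.SpecialLinearGroup.toGL (by
    constructor
    · exact Matrix.SpecialLinearGroup.toGL_injective
    · intro A
      have hd : (A : Matrix (Fin n) (Fin n) (ZMod 2)).det = 1 :=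
        det_one_of_mul _ ((A⁻¹ : Matrix.GeneralLinearGroup (Fin n) (ZMod 2)) :
          Matrix (Fin n) (Fin n) (ZMod 2)) (by rw [← Units.val_mul, mul_inv_cancel]; rfl)
      exact ⟨⟨A.1, hd⟩, Units.ext rfl⟩)

theorem main_aux [Finite G] (n : ℕ) (hn : 1 ≤ n) (U M : Subgroup G) (h : Aff U M)
    (hU : Cfsg.IsElementaryAbelian 2 U) (hUcard : Nat.card ↥U = 2 ^ (n + 1))
    (c : Coord n U) (v : ↥U) (hv : c.f v = Pi.single 0 1) (Q : Subgroup G)
    (hQmem : ∀ g, g ∈ Q ↔ h.Psi c g ∈ Qs n) :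
    Cfsg.IsExtraspecial 2 ↥Q ∧ Nat.card ↥Q = 2 ^ (2 * n + 1) ∧
    (∃ E : Subgroup G, E ≤ Q ∧ Cfsg.IsElementaryAbelian 2 E ∧ Nat.card ↥E = 2 ^ (n + 1)) ∧
    Cfsg.IsLargeExtraspecial Q ∧
    ∃ K : Subgroup G, K ≤ Subgroup.centralizer ({(v : G)} : Set G) ∧ Q ⊓ K = ⊥ ∧
      Q ⊔ K = Subgroup.centralizer ({(v : G)} : Set G) ∧
      Nonempty (↥K ≃* Matrix.GeneralLinearGroup (Fin n) (ZMod 2)) := by
  haveI : Fact (Nat.Prime 2) := ⟨Nat.prime_two⟩
  haveI := h.normal
  have hinj := h.Psi_injective c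
  -- the isomorphism `Q ≃* Qs n`
  obtain ⟨eQ, heQ⟩ : ∃ eQ : ↥Q ≃* ↥(Qs n), ∀ q : ↥Q, ((eQ q : ↥(Qs n)) : SLn (n + 2) (ZMod 2))
      = h.Psi c q := by
    refine ⟨MulEquiv.ofBijective (((h.Psi c).comp Q.subtype).codRestrict (Qs n)
      (fun q => (hQmem q).1 q.2)) ⟨?_, ?_⟩, fun q => rfl⟩
    · intro a b hab
      have h1 := congrArg Subtype.val hab
      exact Subtype.ext (hinj h1)
    · rintro ⟨y, hy⟩
      obtain ⟨g, hg⟩ := h.Psi_surj c y (Qs_le hy)
      exact ⟨⟨g, (hQmem g).2 (hg ▸ hy)⟩, Subtype.ext hg⟩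
  have hL1 : Cfsg.IsExtraspecial 2 ↥Q := extraspecial_of_equiv eQ (Qs_extraspecial hn)
  have hcardQ : Nat.card ↥Q = 2 ^ (2 * n + 1) := by
    rw [Nat.card_congr eQ.toEquiv, card_Qs]
  have hUQ : U ≤ Q := fun u hu => (hQmem u).2 (h.Psi_U_mem c v hv u hu)
  have hQC : ∀ q ∈ Q, q ∈ Subgroup.centralizer ({(v : G)} : Set G) := by
    intro q hq
    rw [h.mem_cent_iff c v hv]
    exact Qs_le ((hQmem q).1 hq)
  -- (L2)
  have hL2 : Subgroup.centralizer (Q : Set G) = (Subgroup.center ↥Q).map Q.subtype := by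
    ext x
    constructor
    · intro hx
      have h1 : h.Psi c x ∈ Subgroup.centralizer
          ((Qs n : Subgroup (SLn (n + 2) (ZMod 2))) : Set (SLn (n + 2) (ZMod 2))) := by
        rw [Subgroup.mem_centralizer_iff]
        intro y hy
        obtain ⟨q, rfl⟩ := h.Psi_surj c y (Qs_le hy)
        have hq : q ∈ Q := (hQmem q).2 hy
        rw [← map_mul, ← map_mul, (Subgroup.mem_centralizer_iff.1 hx) q hq]
      rw [centralizer_Qs] at h1
      obtain ⟨y, hy, hyx⟩ := h1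
      have hxQ : x ∈ Q := (hQmem x).2 (by rw [← hyx]; exact y.2)
      refine ⟨⟨x, hxQ⟩, Subgroup.mem_center_iff.2 ?_, rfl⟩
      intro q
      apply Subtype.ext
      exact (Subgroup.mem_centralizer_iff.1 hx) q q.2
    · rintro ⟨q, hq, rfl⟩
      rw [Subgroup.mem_centralizer_iff]
      intro y hy
      have hq' := Subgroup.mem_center_iff.1 hq
      exact congrArg Subtype.val (hq' ⟨y, hy⟩)
  -- the centre
  have hZc : ∀ x ∈ (Subgroup.center ↥Q).map Q.subtype, x = 1 ∨ x = (v : G) := by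
    intro x hx
    rw [← hL2] at hx
    have h1 : h.Psi c x ∈ Subgroup.centralizer
        ((Qs n : Subgroup (SLn (n + 2) (ZMod 2))) : Set (SLn (n + 2) (ZMod 2))) := by
      rw [Subgroup.mem_centralizer_iff]
      intro y hy
      obtain ⟨q, rfl⟩ := h.Psi_surj c y (Qs_le hy)
      have hq : q ∈ Q := (hQmem q).2 hy
      rw [← map_mul, ← map_mul, (Subgroup.mem_centralizer_iff.1 hx) q hq]
    rw [centralizer_Qs] at h1
    obtain ⟨y, hy, hyx⟩ := h1
    obtain ⟨a, ha⟩ := center_elim y hy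
    have hyx' : (y : SLn (n + 2) (ZMod 2)) = h.Psi c x := hyx
    rw [hyx'] at ha
    rcases zmod2_cases a with rfl | rfl
    · left
      apply hinj
      rw [ha, map_one]
      exact qS_zero
    · right
      apply hinj
      rw [ha, h.Psi_v c v hv]
      rfl
  have hvQ : (v : G) ∈ Q := hUQ v.2
  have hvZ : (v : G) ∈ (Subgroup.center ↥Q).map Q.subtype := by
    refine ⟨⟨v, hvQ⟩, Subgroup.mem_center_iff.2 ?_, rfl⟩
    intro q
    apply Subtype.ext
    have := hQC q q.2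
    rw [Subgroup.mem_centralizer_iff] at this
    exact (this _ rfl).symm
  -- (L3)
  have hL3 : Subgroup.centralizer (((Subgroup.center ↥Q).map Q.subtype : Subgroup G) : Set G)
      ≤ Subgroup.normalizer (Q : Set G) := by
    intro x hx
    have hxv : x ∈ Subgroup.centralizer ({(v : G)} : Set G) := by
      rw [Subgroup.mem_centralizer_iff] at hx ⊢
      intro y hy
      rw [Set.mem_singleton_iff] at hy
      rw [hy]
      exact hx _ hvZ
    have hxC : h.Psi c x ∈ Cz n := (h.mem_cent_iff c v hv x).1 hxv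
    rw [Subgroup.mem_normalizer_iff]
    intro q
    rw [hQmem, hQmem, map_mul, map_mul, map_inv]
    constructor
    · intro hq
      exact Qs_conj _ hxC _ hq
    · intro hq
      have := Qs_conj _ ((Cz n).inv_mem hxC) _ hq
      have e : (h.Psi c x)⁻¹ * (h.Psi c x * h.Psi c q * (h.Psi c x)⁻¹) * ((h.Psi c x)⁻¹)⁻¹
          = h.Psi c q := by group
      rwa [e] at this
  -- Z ≤ O_2(G)
  have hZle : (Subgroup.center ↥Q).map Q.subtype ≤ Cfsg.pCore 2 G := by
    intro x hx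
    have hUp : U ≤ Cfsg.pCore 2 G :=
      Cfsg.Agent.Lib.helper14.le_pCore h.normal (IsPGroup.of_card hUcard)
    rcases hZc x hx with rfl | rfl
    · exact Subgroup.one_mem _
    · exact hUp v.2
  have hLarge : Cfsg.IsLargeExtraspecial Q := Cfsg.Agent.S5420.result Q hL1 hL2 hL3 hZle
  refine ⟨hL1, hcardQ, ⟨U, hUQ, hU, hUcard⟩, hLarge, ?_⟩
  -- the complement
  refine ⟨(sigmaS (n := n)).range.comap (h.Psi c), ?_, ?_, ?_, ?_⟩
  · intro k hk
    rw [h.mem_cent_iff c v hv]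
    obtain ⟨Mx, hMx⟩ := Subgroup.mem_comap.1 hk
    rw [← hMx]
    exact sigma_mem Mx
  · rw [Subgroup.eq_bot_iff_forall]
    rintro g ⟨hgQ, hgK⟩
    obtain ⟨Mx, hMx⟩ := Subgroup.mem_comap.1 hgK
    have h1 := ((mem_Qs_iff _).1 ((hQmem g).1 hgQ)).2
    rw [← hMx, sigmaS_coe, subM_sM] at h1
    have hM1 : Mx = 1 := Subtype.ext h1
    apply hinj
    rw [← hMx, hM1, map_one, map_one]
  · apply le_antisymm
    · rw [sup_le_iff]
      refine ⟨hQC, ?_⟩
      intro k hk
      rw [h.mem_cent_iff c v hv]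
      obtain ⟨Mx, hMx⟩ := Subgroup.mem_comap.1 hk
      rw [← hMx]
      exact sigma_mem Mx
    · intro g hg
      have hX : h.Psi c g ∈ Cz n := (h.mem_cent_iff c v hv g).1 hg
      obtain ⟨k, hk⟩ := h.Psi_surj c (sigmaS (piC ⟨h.Psi c g, hX⟩)) (sigma_mem _)
      have hkK : k ∈ (sigmaS (n := n)).range.comap (h.Psi c) :=
        Subgroup.mem_comap.2 ⟨_, hk.symm⟩
      have hpi : piC (⟨sigmaS (piC ⟨h.Psi c g, hX⟩), sigma_mem _⟩ : ↥(Cz n))
          = piC ⟨h.Psi c g, hX⟩ := Subtype.ext (subM_sM _)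
      have hker : (⟨h.Psi c g, hX⟩ : ↥(Cz n)) *
          (⟨sigmaS (piC ⟨h.Psi c g, hX⟩), sigma_mem _⟩ : ↥(Cz n))⁻¹ ∈ (piC (n := n)).ker := by
        rw [MonoidHom.mem_ker, map_mul, map_inv, hpi, mul_inv_cancel]
      rw [ker_piC, Subgroup.mem_subgroupOf] at hker
      have hq : g * k⁻¹ ∈ Q := by
        rw [hQmem, map_mul, map_inv, hk]
        exact hker
      have hm := Subgroup.mul_mem_sup hq hkK
      have hgg : g = g * k⁻¹ * k := by group
      rw [hgg]
      exact hm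
  · obtain ⟨eK⟩ : Nonempty (↥((sigmaS (n := n)).range.comap (h.Psi c)) ≃* ↥(sigmaS (n := n)).range) := by
      refine ⟨MulEquiv.ofBijective (((h.Psi c).comp (Subgroup.subtype _)).codRestrict
        (sigmaS (n := n)).range (fun k => Subgroup.mem_comap.1 k.2)) ⟨?_, ?_⟩⟩
      · intro a b hab
        have h1 := congrArg Subtype.val hab
        exact Subtype.ext (hinj h1)
      · rintro ⟨y, hy⟩
        obtain ⟨Mx, hMx⟩ := hy
        obtain ⟨g, hg⟩ := h.Psi_surj c y (hMx ▸ sigma_mem Mx)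
        exact ⟨⟨g, Subgroup.mem_comap.2 (hg ▸ ⟨Mx, hMx⟩)⟩, Subtype.ext hg⟩
    exact ⟨(eK.trans (MonoidHom.ofInjective sigmaS_injective).symm).trans (slgl n)⟩

theorem main [Finite G] (n : ℕ) (hn : 1 ≤ n) (U M : Subgroup G) [U.Normal]
    (hU : Cfsg.IsElementaryAbelian 2 U) (hUcard : Nat.card ↥U = 2 ^ (n + 1)) (hUM : U ⊓ M = ⊥)
    (hUM' : U ⊔ M = ⊤) (hfaith : ∀ m ∈ M, (∀ u ∈ U, m * u * m⁻¹ = u) → m = 1)
    (hfull : ∀ φ : ↥U ≃* ↥U, ∃ m ∈ M, ∀ u : ↥U, ((φ u : ↥U) : G) = m * u * m⁻¹)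
    (Z : Subgroup G) (hZU : Z ≤ U) (hZ : Nat.card ↥Z = 2) (Q : Subgroup G)
    (hQ : Q = (Cfsg.pCore 2 ↥(Subgroup.centralizer (Z : Set G))).map
      (Subgroup.centralizer (Z : Set G)).subtype) :
    Cfsg.IsExtraspecial 2 ↥Q ∧ Nat.card ↥Q = 2 ^ (2 * n + 1) ∧
    (∃ E : Subgroup G, E ≤ Q ∧ Cfsg.IsElementaryAbelian 2 E ∧ Nat.card ↥E = 2 ^ (n + 1)) ∧
    Cfsg.IsLargeExtraspecial Q ∧
    ∃ K : Subgroup G, K ≤ Subgroup.centralizer (Z : Set G) ∧ Q ⊓ K = ⊥ ∧
      Q ⊔ K = Subgroup.centralizer (Z : Set G) ∧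
      Nonempty (↥K ≃* Matrix.GeneralLinearGroup (Fin n) (ZMod 2)) := by
  have h : Aff U M := by
    refine ⟨inferInstance, ?_, ?_, hUM, hUM', hfaith, hfull⟩
    · intro a ha b hb
      exact congrArg Subtype.val (hU.1.is_comm.comm ⟨a, ha⟩ ⟨b, hb⟩)
    · intro a ha
      rw [← pow_two]
      exact hU.2 a ha
  obtain ⟨v', hv'1, hv'u⟩ := (Nat.card_eq_two_iff' (1 : ↥Z)).1 hZ
  obtain ⟨v, hvdef⟩ : ∃ v : ↥U, v = ⟨v'.1, hZU v'.2⟩ := ⟨_, rfl⟩
  have hv1 : v ≠ 1 := by
    intro hv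
    apply hv'1
    apply Subtype.ext
    have := congrArg Subtype.val hv
    rw [hvdef] at this
    exact this
  have hvc : (v : G) = v'.1 := by rw [hvdef]
  have hZmem : ∀ y ∈ Z, y = 1 ∨ y = (v : G) := by
    intro y hy
    by_cases hy1 : (⟨y, hy⟩ : ↥Z) = 1
    · left
      exact congrArg Subtype.val hy1
    · right
      rw [hvc]
      exact congrArg Subtype.val (hv'u ⟨y, hy⟩ hy1)
  have hCZ : Subgroup.centralizer (Z : Set G) = Subgroup.centralizer ({(v : G)} : Set G) := by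
    ext g
    rw [Subgroup.mem_centralizer_iff, Subgroup.mem_centralizer_iff]
    constructor
    · intro hg y hy
      rw [Set.mem_singleton_iff] at hy
      rw [hy]
      exact hg _ (by rw [hvc]; exact v'.2)
    · intro hg y hy
      rcases hZmem y hy with rfl | rfl
      · rw [one_mul, mul_one]
      · exact hg _ rfl
  obtain ⟨c, hc⟩ := exists_coord n U hU hUcard v hv1
  rw [hCZ] at hQ ⊢
  -- the isomorphism of centralisers
  obtain ⟨Θ, hΘ⟩ : ∃ Θ : ↥(Subgroup.centralizer ({(v : G)} : Set G)) ≃* ↥(Cz n),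
      ∀ x, ((Θ x : ↥(Cz n)) : SLn (n + 2) (ZMod 2)) = h.Psi c x := by
    refine ⟨MulEquiv.ofBijective (((h.Psi c).comp (Subgroup.subtype _)).codRestrict (Cz n)
      (fun x => (h.mem_cent_iff c v hc x).1 x.2)) ⟨?_, ?_⟩, fun x => rfl⟩
    · intro a b hab
      have h1 := congrArg Subtype.val hab
      exact Subtype.ext (h.Psi_injective c h1)
    · rintro ⟨y, hy⟩
      obtain ⟨g, hg⟩ := h.Psi_surj c y hy
      exact ⟨⟨g, (h.mem_cent_iff c v hc g).2 (hg ▸ hy)⟩, Subtype.ext hg⟩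
  have hpc : ∀ x : ↥(Subgroup.centralizer ({(v : G)} : Set G)),
      x ∈ Cfsg.pCore 2 ↥(Subgroup.centralizer ({(v : G)} : Set G)) ↔ h.Psi c x ∈ Qs n := by
    intro x
    have e1 := Cfsg.Agent.Lib.helper14.pCore_map_equiv Θ 2
    have e2 := pcore_eq' hn
    constructor
    · intro hx
      have h1 : Θ x ∈ Cfsg.pCore 2 ↥(Cz n) := by
        rw [← e1]
        exact ⟨x, hx, rfl⟩
      rw [← e2, ← hΘ]
      exact ⟨Θ x, h1, rfl⟩
    · intro hx
      rw [← e2, ← hΘ] at hx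
      obtain ⟨y, hy, hyx⟩ := hx
      have hyx' : y = Θ x := Subtype.ext hyx
      rw [hyx', ← e1] at hy
      obtain ⟨x', hx', hxx⟩ := hy
      have : x' = x := Θ.injective hxx
      rwa [this] at hx'
  have hQmem : ∀ g, g ∈ Q ↔ h.Psi c g ∈ Qs n := by
    intro g
    rw [hQ]
    constructor
    · rintro ⟨x, hx, rfl⟩
      exact (hpc x).1 hx
    · intro hg
      have hgC : g ∈ Subgroup.centralizer ({(v : G)} : Set G) :=
        (h.mem_cent_iff c v hc g).2 (Qs_le hg)
      exact ⟨⟨g, hgC⟩, (hpc ⟨g, hgC⟩).2 hg, rfl⟩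
  exact main_aux n hn U M h hU hUcard c v hc Q hQmem

end Main

end Cfsg.Agent.Lib.helper6.AffLarge
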