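import Mathlib
import Cfsg.Agent.S5421
import Cfsg.Agent.S5422
import Cfsg.Agent.S5433
import Cfsg.Agent.Lib.helper7.FStar
import Cfsg.Agent.Lib.helper6.AffLarge

set_option autoImplicit false

namespace Cfsg.Agent.Lib.helper6.ESCent

open Cfsg
open scoped commutatorElement

variable {G : Type*} [Group G]

/-- elementwise data of an extraspecial 2-subgroup `Q` with centre `{1, z}`, `C_G(Q) = Z(Q)` and
`Q` normal in `C_G(z)` -/
structure ES (Q : Subgroup G) (z : G) : Prop where
  zQ : z ∈ Q
  z1 : z ≠ 1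
  zz : z * z = 1
  cen : ∀ x ∈ Q, x * z = z * x
  comm : ∀ x ∈ Q, ∀ y ∈ Q, x * y = y * x ∨ x * y = z * (y * x)
  cent : ∀ c : G, (∀ x ∈ Q, c * x = x * c) → c = 1 ∨ c = z
  norm : ∀ c : G, c * z = z * c → ∀ x ∈ Q, c * x * c⁻¹ ∈ Q

namespace ES

variable {Q : Subgroup G} {z : G}

theorem zinv (h : ES Q z) : z⁻¹ = z := inv_eq_of_mul_eq_one_left h.zz

/-- the anticommutation relation, conjugation form -/
theorem conj_of_anti (h : ES Q z) {x y : G} (e : x * y = z * (y * x)) :
    y * x * y⁻¹ = z * x := by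
  have h1 : y * x = z⁻¹ * (x * y) := by rw [e]; group
  rw [h1, h.zinv]
  group

/-- a noncentral element is conjugate to its product with `z` -/
theorem exists_swap (h : ES Q z) (t : G) (ht : t ∈ Q) (ht1 : t ≠ 1) (htz : t ≠ z) :
    ∃ u ∈ Q, u * t * u⁻¹ = z * t := by
  by_contra hno
  push Not at hno
  have : ∀ x ∈ Q, t * x = x * t := by
    intro x hx
    rcases h.comm t ht x hx with e | e
    · exact e
    · exact absurd (h.conj_of_anti e) (hno x hx)
  rcases h.cent t this with e | e
  · exact ht1 e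
  · exact htz e

end ES

/-- the elementwise data from the hypothesis `F*(C_G(z)) = Q` extraspecial -/
theorem es_of_fstar [Finite G] (z : G) (hz : orderOf z = 2) (Q : Subgroup G)
    (hQC : Q ≤ Subgroup.centralizer ({z} : Set G))
    (hF : (Cfsg.generalizedFittingSubgroup ↥(Subgroup.centralizer ({z} : Set G))).map
      (Subgroup.centralizer ({z} : Set G)).subtype = Q)
    (hQ : Cfsg.IsExtraspecial 2 ↥Q) :
    ES Q z ∧ ∀ x, x ∈ (Subgroup.center ↥Q).map Q.subtype ↔ x = 1 ∨ x = z := by
  have hz1 : z ≠ 1 := by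
    intro h
    rw [h, orderOf_one] at hz
    omega
  have hzz : z * z = 1 := by
    rw [← pow_two, ← hz]
    exact pow_orderOf_eq_one z
  have hzC : z ∈ Subgroup.centralizer ({z} : Set G) := by
    rw [Subgroup.mem_centralizer_iff]
    intro y hy
    rw [Set.mem_singleton_iff] at hy
    rw [hy]
  have hCz : ∀ x ∈ Subgroup.centralizer ({z} : Set G), z * x = x * z := by
    intro x hx
    exact (Subgroup.mem_centralizer_iff.1 hx) z rfl
  have hmemC : ∀ x : G, z * x = x * z → x ∈ Subgroup.centralizer ({z} : Set G) := by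
    intro x hx
    rw [Subgroup.mem_centralizer_iff]
    intro y hy
    rw [Set.mem_singleton_iff] at hy
    rw [hy, hx]
  have hFQ : ∀ y : ↥(Subgroup.centralizer ({z} : Set G)),
      y ∈ Cfsg.generalizedFittingSubgroup ↥(Subgroup.centralizer ({z} : Set G)) ↔ (y : G) ∈ Q := by
    intro y
    rw [← hF]
    constructor
    · intro hy
      exact ⟨y, hy, rfl⟩
    · rintro ⟨y', hy', hyy⟩
      have : y' = y := Subtype.ext hyy
      rwa [this] at hy'
  have hbender := Cfsg.Agent.Lib.helper7.centralizer_genFitting_le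
    ↥(Subgroup.centralizer ({z} : Set G))
  -- an element of `G` centralising `Q` lies in `Q`
  have hcentQ : ∀ c : G, (∀ x ∈ Q, c * x = x * c) → z * c = c * z → c ∈ Q := by
    intro c hc hcz
    have hcC := hmemC c hcz
    rw [← hFQ ⟨c, hcC⟩]
    apply hbender
    rw [Subgroup.mem_centralizer_iff]
    intro y hy
    apply Subtype.ext
    exact (hc y ((hFQ y).1 hy)).symm
  have hzQ : z ∈ Q := by
    apply hcentQ z _ rfl
    intro x hx
    exact hCz x (hQC hx)
  -- the centre of `Q`
  have hzcen : (⟨z, hzQ⟩ : ↥Q) ∈ Subgroup.center ↥Q := by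
    rw [Subgroup.mem_center_iff]
    intro q
    apply Subtype.ext
    exact (hCz q (hQC q.2)).symm
  obtain ⟨y0, hy01, hy0u⟩ := (Nat.card_eq_two_iff' (1 : ↥(Subgroup.center ↥Q))).1 hQ.2
  have hcenter : ∀ q : ↥Q, q ∈ Subgroup.center ↥Q → (q : G) = 1 ∨ (q : G) = z := by
    intro q hq
    by_cases hq1 : (⟨q, hq⟩ : ↥(Subgroup.center ↥Q)) = 1
    · left
      exact congrArg (fun t : ↥(Subgroup.center ↥Q) => ((t : ↥Q) : G)) hq1
    · right
      have h1 := hy0u ⟨q, hq⟩ hq1
      have h2 := hy0u ⟨⟨z, hzQ⟩, hzcen⟩ (by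
        intro h
        exact hz1 (congrArg (fun t : ↥(Subgroup.center ↥Q) => ((t : ↥Q) : G)) h))
      have h3 : (⟨q, hq⟩ : ↥(Subgroup.center ↥Q)) = ⟨⟨z, hzQ⟩, hzcen⟩ := h1.trans h2.symm
      exact congrArg (fun t : ↥(Subgroup.center ↥Q) => ((t : ↥Q) : G)) h3
  have hZc : ∀ x, x ∈ (Subgroup.center ↥Q).map Q.subtype ↔ x = 1 ∨ x = z := by
    intro x
    constructor
    · rintro ⟨q, hq, rfl⟩
      exact hcenter q hq
    · rintro (rfl | rfl)
      · exact Subgroup.one_mem _
      · exact ⟨⟨x, hzQ⟩, hzcen, rfl⟩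
  refine ⟨⟨hzQ, hz1, hzz, ?_, ?_, ?_, ?_⟩, hZc⟩
  · intro x hx
    exact (hCz x (hQC hx)).symm
  · intro x hx y hy
    have hcm : ⁅(⟨x, hx⟩ : ↥Q), (⟨y, hy⟩ : ↥Q)⁆ ∈ commutator ↥Q := by
      rw [commutator_def]
      exact Subgroup.commutator_mem_commutator (Subgroup.mem_top _) (Subgroup.mem_top _)
    rw [hQ.1.2.2] at hcm
    have h1 := hcenter _ hcm
    have h2 : ((⁅(⟨x, hx⟩ : ↥Q), (⟨y, hy⟩ : ↥Q)⁆ : ↥Q) : G) = x * y * x⁻¹ * y⁻¹ := rfl
    rw [h2] at h1
    rcases h1 with h1 | h1
    · left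
      calc x * y = (x * y * x⁻¹ * y⁻¹) * (y * x) := by group
        _ = y * x := by rw [h1, one_mul]
    · right
      calc x * y = (x * y * x⁻¹ * y⁻¹) * (y * x) := by group
        _ = z * (y * x) := by rw [h1]
  · intro c hc
    have hcz : z * c = c * z := (hc z hzQ).symm
    have hcQ := hcentQ c hc hcz
    apply hcenter ⟨c, hcQ⟩
    rw [Subgroup.mem_center_iff]
    intro q
    apply Subtype.ext
    exact (hc q q.2).symm
  · intro c hc x hx
    have hcC := hmemC c hc.symm
    have hxC := hQC hx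
    have hxF := (hFQ ⟨x, hxC⟩).2 hx
    have hn : (Cfsg.generalizedFittingSubgroup ↥(Subgroup.centralizer ({z} : Set G))).Normal :=
      inferInstance
    have := hn.conj_mem ⟨x, hxC⟩ hxF ⟨c, hcC⟩
    exact (hFQ _).1 this

section Consequences

variable {Q : Subgroup G} {z : G}

theorem L2 (hES : ES Q z) (hZc : ∀ x, x ∈ (Subgroup.center ↥Q).map Q.subtype ↔ x = 1 ∨ x = z) :
    Subgroup.centralizer (Q : Set G) = (Subgroup.center ↥Q).map Q.subtype := by
  ext x
  rw [hZc, Subgroup.mem_centralizer_iff]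
  constructor
  · intro hx
    exact hES.cent x (fun q hq => (hx q hq).symm)
  · rintro (rfl | rfl)
    · intro q _
      rw [one_mul, mul_one]
    · intro q hq
      exact hES.cen q hq

theorem L3 (hES : ES Q z) (hZc : ∀ x, x ∈ (Subgroup.center ↥Q).map Q.subtype ↔ x = 1 ∨ x = z) :
    Subgroup.centralizer (((Subgroup.center ↥Q).map Q.subtype : Subgroup G) : Set G)
      ≤ Subgroup.normalizer (Q : Set G) := by
  intro x hx
  have hxz : x * z = z * x := ((Subgroup.mem_centralizer_iff.1 hx) z ((hZc z).2 (Or.inr rfl))).symm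
  have hxz' : x⁻¹ * z = z * x⁻¹ := by
    calc x⁻¹ * z = x⁻¹ * (z * x) * x⁻¹ := by group
      _ = x⁻¹ * (x * z) * x⁻¹ := by rw [hxz]
      _ = z * x⁻¹ := by group
  rw [Subgroup.mem_normalizer_iff]
  intro q
  constructor
  · intro hq
    exact hES.norm x hxz q hq
  · intro hq
    have := hES.norm x⁻¹ hxz' _ hq
    have e : x⁻¹ * (x * q * x⁻¹) * x⁻¹⁻¹ = q := by group
    rwa [e] at this

theorem large_of_conj [Finite G] (hES : ES Q z)
    (hZc : ∀ x, x ∈ (Subgroup.center ↥Q).map Q.subtype ↔ x = 1 ∨ x = z)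
    (hL1 : Cfsg.IsExtraspecial 2 ↥Q) (w : ℕ) (hw : 2 ≤ w) (hcard : Nat.card ↥Q = 2 ^ (2 * w + 1))
    (g : G) (hgQ : g * z * g⁻¹ ∈ Q) (hgz : g * z * g⁻¹ ≠ z) : Cfsg.IsLargeExtraspecial Q := by
  refine (Cfsg.Agent.S5422.result Q hL1 (L2 hES hZc) (L3 hES hZc) w hw hcard g ?_ ?_).2.2
  · intro hg
    rw [Subgroup.mem_normalizer_iff] at hg
    have h1 := (hg z).1 ((hZc z).2 (Or.inr rfl))
    rcases (hZc _).1 h1 with h | h
    · apply hES.z1
      calc z = g⁻¹ * (g * z * g⁻¹) * g := by group
        _ = 1 := by rw [h]; group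
    · exact hgz h
  · rintro _ ⟨x, hx, rfl⟩
    rcases (hZc x).1 hx with rfl | rfl
    · rw [map_one]
      exact Q.one_mem
    · exact hgQ

theorem normalizer_le_cent (hES : ES Q z) :
    Subgroup.normalizer (Q : Set G) ≤ Subgroup.centralizer ({z} : Set G) := by
  intro x hx
  rw [Subgroup.mem_normalizer_iff] at hx
  have hxinv : ∀ q ∈ Q, x⁻¹ * q * x ∈ Q := by
    intro q hq
    rw [hx]
    have e : x * (x⁻¹ * q * x) * x⁻¹ = q := by group
    rw [e]
    exact hq
  have h1 : x * z * x⁻¹ ∈ Q := (hx z).1 hES.zQ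
  have h2 : ∀ q ∈ Q, (x * z * x⁻¹) * q = q * (x * z * x⁻¹) := by
    intro q hq
    have h3 := hES.cen _ (hxinv q hq)
    calc (x * z * x⁻¹) * q = x * (z * (x⁻¹ * q * x)) * x⁻¹ := by group
      _ = x * ((x⁻¹ * q * x) * z) * x⁻¹ := by rw [h3]
      _ = q * (x * z * x⁻¹) := by group
  rw [Subgroup.mem_centralizer_iff]
  intro y hy
  rw [Set.mem_singleton_iff] at hy
  rw [hy]
  rcases hES.cent _ h2 with h | h
  · exfalso
    apply hES.z1
    calc z = x⁻¹ * (x * z * x⁻¹) * x := by group
      _ = 1 := by rw [h]; group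
  · calc z * x = (x * z * x⁻¹) * x := by rw [h]
      _ = x * z := by group

theorem normalClosure_top_of [Finite G] (hES : ES Q z) (hLarge : Cfsg.IsLargeExtraspecial Q)
    (hCM : Subgroup.centralizer ({z} : Set G) ≤ Subgroup.normalClosure ({z} : Set G)) :
    Subgroup.normalClosure ({z} : Set G) = ⊤ := by
  have hQC : Q ≤ Subgroup.centralizer ({z} : Set G) := by
    intro q hq
    rw [Subgroup.mem_centralizer_iff]
    intro y hy
    rw [Set.mem_singleton_iff] at hy
    rw [hy]
    exact (hES.cen q hq).symm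
  have h1 := Cfsg.Agent.S5433.result Q hLarge (Subgroup.normalClosure ({z} : Set G))
    (hQC.trans hCM)
  rw [← h1]
  exact (sup_eq_left.2 ((normalizer_le_cent hES).trans hCM)).symm

theorem simple_of_large [Finite G] (hES : ES Q z) (hLarge : Cfsg.IsLargeExtraspecial Q)
    (hM : Subgroup.normalClosure ({z} : Set G) = ⊤) : IsSimpleGroup G := by
  haveI : Nontrivial G := ⟨⟨z, 1, hES.z1⟩⟩
  refine ⟨fun N hN => ?_⟩
  by_cases hzN : z ∈ N
  · right
    rw [eq_top_iff, ← hM]
    exact Subgroup.normalClosure_le_normal (Set.singleton_subset_iff.2 hzN)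
  · left
    have hQN : ∀ x ∈ Q, x ∈ N → x = 1 := by
      intro x hxQ hxN
      by_contra hx1
      have hxz : x ≠ z := fun h => hzN (h ▸ hxN)
      obtain ⟨u, huQ, hu⟩ := hES.exists_swap x hxQ hx1 hxz
      apply hzN
      have : z = (u * x * u⁻¹) * x⁻¹ := by rw [hu]; group
      rw [this]
      exact N.mul_mem (hN.conj_mem x hxN u) (N.inv_mem hxN)
    have hCN : ∀ y ∈ N, y * z = z * y → y = 1 := by
      intro y hyN hyz
      have hcent : ∀ q ∈ Q, y * q = q * y := by
        intro q hq
        have h1 : y * q * y⁻¹ * q⁻¹ = 1 := by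
          apply hQN
          · exact Q.mul_mem (hES.norm y hyz q hq) (Q.inv_mem hq)
          · have : y * q * y⁻¹ * q⁻¹ = y * (q * y⁻¹ * q⁻¹) := by group
            rw [this]
            exact N.mul_mem hyN (hN.conj_mem _ (N.inv_mem hyN) q)
        calc y * q = (y * q * y⁻¹ * q⁻¹) * (q * y) := by group
          _ = q * y := by rw [h1, one_mul]
      rcases hES.cent y hcent with h | h
      · exact h
      · exact absurd (h ▸ hyN) hzN
    have hodd : Odd (Nat.card N) := by
      classical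
      letI := Fintype.ofFinite ↥N
      let f : Function.End ↥N := fun n => ⟨z * n * z⁻¹, hN.conj_mem n n.2 z⟩
      have hf : f ^ 2 ^ 1 = 1 := by
        rw [pow_one, pow_two]
        funext n
        apply Subtype.ext
        show z * (z * n * z⁻¹) * z⁻¹ = n
        calc z * (z * n * z⁻¹) * z⁻¹ = (z * z) * n * (z * z)⁻¹ := by group
          _ = n := by rw [hES.zz]; group
      haveI : Fact (Nat.Prime 2) := ⟨Nat.prime_two⟩
      have h1 := Equiv.Perm.card_fixedPoints_modEq hf
      have h2 : Fintype.card (Function.fixedPoints f) = 1 := by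
        rw [Fintype.card_eq_one_iff]
        refine ⟨⟨1, ?_⟩, ?_⟩
        · show f 1 = 1
          apply Subtype.ext
          show z * 1 * z⁻¹ = 1
          group
        · rintro ⟨y, hy⟩
          apply Subtype.ext
          have hy' : f y = y := hy
          have h3 : z * (y : G) * z⁻¹ = y := congrArg Subtype.val hy'
          have h4 : (y : G) * z = z * y := by
            calc (y : G) * z = (z * (y : G) * z⁻¹) * z := by rw [h3]
              _ = z * y := by group
          exact Subtype.ext (hCN y y.2 h4)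
      rw [h2] at h1
      rw [Nat.card_eq_fintype_card]
      exact Nat.odd_iff.2 h1
    have hnorm : Q ≤ Subgroup.normalizer (N : Set G) := by
      rw [Subgroup.normalizer_eq_top_iff.2 hN]
      exact le_top
    exact hLarge.2.2.2 N hodd hnorm

end Consequences

section Mains

theorem mem_zpowers_of_sq {z : G} (hzz : z * z = 1) {x : G} (hx : x ∈ Subgroup.zpowers z) :
    x = 1 ∨ x = z := by
  obtain ⟨k, rfl⟩ := hx
  rcases Int.even_or_odd k with ⟨m, rfl⟩ | ⟨m, rfl⟩
  · left
    show z ^ (m + m) = 1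
    rw [← two_mul, zpow_mul, zpow_two, hzz, one_zpow]
  · right
    show z ^ (2 * m + 1) = z
    rw [zpow_add, zpow_mul, zpow_two, hzz, one_zpow, one_mul, zpow_one]

theorem main27 [Finite G] (z : G) (hz : orderOf z = 2) (Q : Subgroup G)
    (hQC : Q ≤ Subgroup.centralizer ({z} : Set G))
    (hF : (Cfsg.generalizedFittingSubgroup ↥(Subgroup.centralizer ({z} : Set G))).map
      (Subgroup.centralizer ({z} : Set G)).subtype = Q)
    (hQ : Cfsg.IsExtraspecial 2 ↥Q) (w : ℕ) (hw : 2 ≤ w) (hcard : Nat.card ↥Q = 2 ^ (2 * w + 1))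
    (K U : Subgroup G) (hU : U = Subgroup.closure {x : G | ∃ k ∈ K, x = k * z * k⁻¹})
    (hUab : IsMulCommutative ↥U)
    (hgen : Subgroup.closure {x : G | ∃ c ∈ Subgroup.centralizer ({z} : Set G), ∃ u ∈ U,
      x = c * u * c⁻¹} = Subgroup.centralizer ({z} : Set G))
    (h3 : (∃ k ∈ K, k * z * k⁻¹ ∈ Q ∧ k * z * k⁻¹ ≠ z) ∨ ∃ u ∈ U ⊓ Q, u ∉ Subgroup.zpowers z ∧
      (∃ hz' : z ∈ Subgroup.centralizer ({u} : Set G),
        (⟨z, hz'⟩ : ↥(Subgroup.centralizer ({u} : Set G))) ∈
          Cfsg.pCore 2 ↥(Subgroup.centralizer ({u} : Set G)))) :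
    IsSimpleGroup G ∧ Cfsg.IsLargeExtraspecial Q := by
  obtain ⟨hES, hZc⟩ := es_of_fstar z hz Q hQC hF hQ
  have hLarge : Cfsg.IsLargeExtraspecial Q := by
    rcases h3 with ⟨k, _, hkQ, hkz⟩ | ⟨u, hu, huz, hz', hmem⟩
    · exact large_of_conj hES hZc hQ w hw hcard k hkQ hkz
    · have hsq : ∀ x ∈ U, x * x = 1 := by
        subst hU
        intro x hx
        induction hx using Subgroup.closure_induction with
        | mem x hx =>
          obtain ⟨k, _, rfl⟩ := hx
          calc k * z * k⁻¹ * (k * z * k⁻¹) = k * (z * z) * k⁻¹ := by group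
            _ = 1 := by rw [hES.zz]; group
        | one => rw [mul_one]
        | mul x y hx hy ihx ihy =>
          have hc : x * y = y * x := congrArg Subtype.val (hUab.is_comm.comm ⟨x, hx⟩ ⟨y, hy⟩)
          calc x * y * (x * y) = x * (y * x) * y := by group
            _ = x * (x * y) * y := by rw [hc]
            _ = (x * x) * (y * y) := by group
            _ = 1 := by rw [ihx, ihy, one_mul]
        | inv x hx ihx =>
          calc x⁻¹ * x⁻¹ = (x * x)⁻¹ := by group
            _ = 1 := by rw [ihx, inv_one]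
      have hu1 : u ≠ 1 := fun h => huz (h ▸ Subgroup.one_mem _)
      have hord : orderOf u = 2 := orderOf_eq_prime (by rw [pow_two]; exact hsq u hu.1) hu1
      refine Cfsg.Agent.S5421.result Q hQ (L2 hES hZc) (L3 hES hZc) u hu.2 ?_ hord ?_
      · intro h
        rcases (hZc u).1 h with h | h
        · exact hu1 h
        · exact huz (h ▸ Subgroup.mem_zpowers z)
      · intro x hx
        rcases (hZc x).1 hx with rfl | rfl
        · exact Subgroup.one_mem _
        · exact ⟨⟨x, hz'⟩, hmem, rfl⟩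
  refine ⟨?_, hLarge⟩
  apply simple_of_large hES hLarge
  apply normalClosure_top_of hES hLarge
  have hzM : z ∈ Subgroup.normalClosure ({z} : Set G) :=
    Subgroup.subset_normalClosure (Set.mem_singleton z)
  have hUM : U ≤ Subgroup.normalClosure ({z} : Set G) := by
    rw [hU, Subgroup.closure_le]
    rintro _ ⟨k, _, rfl⟩
    exact Subgroup.normalClosure_normal.conj_mem z hzM k
  have h1 : Subgroup.closure {x : G | ∃ c ∈ Subgroup.centralizer ({z} : Set G), ∃ u ∈ U,
      x = c * u * c⁻¹} ≤ Subgroup.normalClosure ({z} : Set G) := by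
    rw [Subgroup.closure_le]
    rintro _ ⟨c, _, u, hu, rfl⟩
    exact Subgroup.normalClosure_normal.conj_mem u (hUM hu) c
  exact (le_of_eq hgen.symm).trans h1

theorem main36 [Finite G] (z : G) (hz : orderOf z = 2)
    (Q : Subgroup (Subgroup.centralizer ({z} : Set G))) [Q.Normal]
    (hF : Cfsg.generalizedFittingSubgroup ↥(Subgroup.centralizer ({z} : Set G)) = Q)
    (hQ : Cfsg.IsExtraspecial 2 ↥Q) (w : ℕ) (hw : 2 ≤ w) (hcard : Nat.card ↥Q = 2 ^ (2 * w + 1))
    (hnwc : ∃ g : G, (∃ hq : g * z * g⁻¹ ∈ Subgroup.centralizer ({z} : Set G),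
      (⟨g * z * g⁻¹, hq⟩ : Subgroup.centralizer ({z} : Set G)) ∈ Q) ∧ g * z * g⁻¹ ≠ z)
    (hsimp : IsSimpleGroup (↥(Subgroup.centralizer ({z} : Set G)) ⧸ Q))
    (hirr : ∀ W : Subgroup (Subgroup.centralizer ({z} : Set G)), W.Normal → W ≤ Q →
      (W = Q ∨ ∀ x ∈ W, (x : G) ∈ Subgroup.zpowers z))
    (hwcl : Subgroup.closure {x : Subgroup.centralizer ({z} : Set G) | IsConj z (x : G)} ≠ Q) :
    IsSimpleGroup G := by
  have hQC' : Q.map (Subgroup.centralizer ({z} : Set G)).subtype
      ≤ Subgroup.centralizer ({z} : Set G) := Subgroup.map_subtype_le Q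
  have hF' : (Cfsg.generalizedFittingSubgroup ↥(Subgroup.centralizer ({z} : Set G))).map
      (Subgroup.centralizer ({z} : Set G)).subtype
      = Q.map (Subgroup.centralizer ({z} : Set G)).subtype := by rw [hF]
  have eQ : ↥Q ≃* ↥(Q.map (Subgroup.centralizer ({z} : Set G)).subtype) :=
    Q.equivMapOfInjective _ (Subgroup.subtype_injective _)
  have hQ' : Cfsg.IsExtraspecial 2 ↥(Q.map (Subgroup.centralizer ({z} : Set G)).subtype) :=
    Cfsg.Agent.Lib.helper6.AffLarge.extraspecial_of_equiv eQ.symm hQ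
  have hcard' : Nat.card ↥(Q.map (Subgroup.centralizer ({z} : Set G)).subtype)
      = 2 ^ (2 * w + 1) := (Nat.card_congr eQ.toEquiv).symm.trans hcard
  obtain ⟨hES, hZc⟩ := es_of_fstar z hz _ hQC' hF' hQ'
  obtain ⟨g, ⟨hq, hgQ⟩, hgz⟩ := hnwc
  have hgQ' : g * z * g⁻¹ ∈ Q.map (Subgroup.centralizer ({z} : Set G)).subtype :=
    ⟨⟨g * z * g⁻¹, hq⟩, hgQ, rfl⟩
  have hLarge := large_of_conj hES hZc hQ' w hw hcard' g hgQ' hgz
  apply simple_of_large hES hLarge
  apply normalClosure_top_of hES hLarge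
  -- `C ≤ M`
  have hMn : (Subgroup.normalClosure ({z} : Set G)).Normal := Subgroup.normalClosure_normal
  have hzM : z ∈ Subgroup.normalClosure ({z} : Set G) :=
    Subgroup.subset_normalClosure (Set.mem_singleton z)
  have hMCn : ((Subgroup.normalClosure ({z} : Set G)).subgroupOf
      (Subgroup.centralizer ({z} : Set G))).Normal := hMn.subgroupOf _
  have htM : (⟨g * z * g⁻¹, hq⟩ : Subgroup.centralizer ({z} : Set G)) ∈
      (Subgroup.normalClosure ({z} : Set G)).subgroupOf (Subgroup.centralizer ({z} : Set G)) := by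
    rw [Subgroup.mem_subgroupOf]
    exact hMn.conj_mem z hzM g
  have htz : g * z * g⁻¹ ∉ Subgroup.zpowers z := by
    intro h
    rcases mem_zpowers_of_sq hES.zz h with h | h
    · apply hES.z1
      calc z = g⁻¹ * (g * z * g⁻¹) * g := by group
        _ = 1 := by rw [h]; group
    · exact hgz h
  -- `Q ≤ M ∩ C`
  have hQM : Q ≤ (Subgroup.normalClosure ({z} : Set G)).subgroupOf
      (Subgroup.centralizer ({z} : Set G)) := by
    have hn : (Q ⊓ (Subgroup.normalClosure ({z} : Set G)).subgroupOf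
        (Subgroup.centralizer ({z} : Set G))).Normal := Subgroup.normal_inf_normal _ _
    rcases hirr _ hn inf_le_left with h | h
    · exact inf_eq_left.1 h
    · exact absurd (h _ ⟨hgQ, htM⟩) htz
  have hMCtop : (Subgroup.normalClosure ({z} : Set G)).subgroupOf
      (Subgroup.centralizer ({z} : Set G)) = ⊤ := by
    have hN : (((Subgroup.normalClosure ({z} : Set G)).subgroupOf
        (Subgroup.centralizer ({z} : Set G))).map (QuotientGroup.mk' Q)).Normal :=
      Subgroup.Normal.map hMCn _ (QuotientGroup.mk'_surjective Q)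
    rcases hsimp.eq_bot_or_eq_top_of_normal _ hN with hb | ht
    · exfalso
      have hMCQ : (Subgroup.normalClosure ({z} : Set G)).subgroupOf
          (Subgroup.centralizer ({z} : Set G)) ≤ Q := by
        have := (Subgroup.map_eq_bot_iff _).1 hb
        rwa [QuotientGroup.ker_mk'] at this
      have hWn : (Subgroup.closure {x : Subgroup.centralizer ({z} : Set G) |
          IsConj z (x : G)}).Normal := by
        constructor
        intro n hn c
        induction hn using Subgroup.closure_induction with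
        | mem x hx =>
          apply Subgroup.subset_closure
          obtain ⟨d, hd⟩ := isConj_iff.1 hx
          apply isConj_iff.2
          refine ⟨(c : G) * d, ?_⟩
          rw [Subgroup.coe_mul, Subgroup.coe_mul, Subgroup.coe_inv, ← hd]
          group
        | one =>
          rw [mul_one, mul_inv_cancel]
          exact Subgroup.one_mem _
        | mul x y _ _ ihx ihy =>
          have e : c * (x * y) * c⁻¹ = (c * x * c⁻¹) * (c * y * c⁻¹) := by group
          rw [e]
          exact Subgroup.mul_mem _ ihx ihy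
        | inv x _ ihx =>
          have e : c * x⁻¹ * c⁻¹ = (c * x * c⁻¹)⁻¹ := by group
          rw [e]
          exact Subgroup.inv_mem _ ihx
      have hWM : Subgroup.closure {x : Subgroup.centralizer ({z} : Set G) | IsConj z (x : G)}
          ≤ (Subgroup.normalClosure ({z} : Set G)).subgroupOf
            (Subgroup.centralizer ({z} : Set G)) := by
        rw [Subgroup.closure_le]
        intro x hx
        obtain ⟨d, hd⟩ := isConj_iff.1 hx
        rw [SetLike.mem_coe, Subgroup.mem_subgroupOf, ← hd]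
        exact hMn.conj_mem z hzM d
      have htW : (⟨g * z * g⁻¹, hq⟩ : Subgroup.centralizer ({z} : Set G)) ∈
          Subgroup.closure {x : Subgroup.centralizer ({z} : Set G) | IsConj z (x : G)} :=
        Subgroup.subset_closure (isConj_iff.2 ⟨g, rfl⟩)
      rcases hirr _ hWn (hWM.trans hMCQ) with h | h
      · exact hwcl h
      · exact htz (h _ htW)
    · have h1 := Subgroup.comap_map_eq (QuotientGroup.mk' Q)
        ((Subgroup.normalClosure ({z} : Set G)).subgroupOf (Subgroup.centralizer ({z} : Set G)))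
      rw [ht, Subgroup.comap_top, QuotientGroup.ker_mk', sup_eq_left.2 hQM] at h1
      exact h1.symm
  intro x hx
  have h1 : (⟨x, hx⟩ : Subgroup.centralizer ({z} : Set G)) ∈
      (Subgroup.normalClosure ({z} : Set G)).subgroupOf (Subgroup.centralizer ({z} : Set G)) := by
    rw [hMCtop]
    exact Subgroup.mem_top _
  exact Subgroup.mem_subgroupOf.1 h1

end Mains

end Cfsg.Agent.Lib.helper6.ESCent
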