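import Mathlib
import Cfsg.Agent.Lib.helper6.ESCent
import Cfsg.Agent.Lib.helper14.LES4
import Cfsg.Agent.Lib.helper20.Extraspecial

set_option autoImplicit false

namespace Cfsg.Agent.Lib.helper6.ESQuot

open Cfsg
open Cfsg.Agent.Lib.helper6.ESCent
open scoped commutatorElement

variable {G : Type*} [Group G]

section Basic

variable {Q : Subgroup G} {z : G}

/-- squares are central -/
theorem ES_sq (h : ES Q z) (x : G) (hx : x ∈ Q) : x * x = 1 ∨ x * x = z := by
  apply h.cent
  intro y hy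
  rcases h.comm x hx y hy with e | e
  · calc x * x * y = x * (x * y) := by group
      _ = x * (y * x) := by rw [e]
      _ = (x * y) * x := by group
      _ = y * x * x := by rw [e]
      _ = y * (x * x) := by group
  · calc x * x * y = x * (x * y) := by group
      _ = x * (z * (y * x)) := by rw [e]
      _ = (x * z) * (y * x) := by group
      _ = z * x * (y * x) := by rw [h.cen x hx]
      _ = z * ((x * y) * x) := by group
      _ = z * (z * (y * x) * x) := by rw [e]
      _ = (z * z) * (y * (x * x)) := by group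
      _ = y * (x * x) := by rw [h.zz, one_mul]

theorem ES_Zc (h : ES Q z) :
    ∀ x, x ∈ (Subgroup.center ↥Q).map Q.subtype ↔ x = 1 ∨ x = z := by
  intro x
  constructor
  · rintro ⟨q, hq, rfl⟩
    apply h.cent
    intro y hy
    have := Subgroup.mem_center_iff.1 hq ⟨y, hy⟩
    exact (congrArg Subtype.val this).symm
  · rintro (rfl | rfl)
    · exact Subgroup.one_mem _
    · refine ⟨⟨x, h.zQ⟩, Subgroup.mem_center_iff.2 ?_, rfl⟩
      intro q
      apply Subtype.ext
      exact h.cen q q.2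

theorem extraspecial_of_ES [Finite G] (h : ES Q z) (hna : ∃ a ∈ Q, ∃ b ∈ Q, a * b ≠ b * a) :
    Cfsg.IsExtraspecial 2 ↥Q := by
  haveI : Fact (Nat.Prime 2) := ⟨Nat.prime_two⟩
  have hcen : ∀ q : ↥Q, q ∈ Subgroup.center ↥Q ↔ (q : G) = 1 ∨ (q : G) = z := by
    intro q
    constructor
    · intro hq
      exact (ES_Zc h _).1 ⟨q, hq, rfl⟩
    · intro hq
      rw [Subgroup.mem_center_iff]
      intro y
      apply Subtype.ext
      show (y : G) * q = q * y
      rcases hq with hq | hq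
      · rw [hq, mul_one, one_mul]
      · rw [hq]
        exact h.cen y y.2
  apply Cfsg.Agent.Lib.helper20.Extraspecial.extraspecial_of
  · intro q
    refine ⟨2, ?_⟩
    apply Subtype.ext
    show ((q ^ (2 ^ 2) : ↥Q) : G) = 1
    rw [Subgroup.coe_pow, show (2 : ℕ) ^ 2 = 2 * 2 from rfl, pow_mul, pow_two, pow_two]
    rcases ES_sq h q q.2 with e | e
    · rw [e, one_mul]
    · rw [e, h.zz]
  · rw [Nat.card_eq_two_iff]
    refine ⟨1, ⟨⟨z, h.zQ⟩, (hcen _).2 (Or.inr rfl)⟩, ?_, ?_⟩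
    · intro h1
      exact h.z1 (congrArg (fun t : ↥(Subgroup.center ↥Q) => ((t : ↥Q) : G)) h1).symm
    · ext x
      simp only [Set.mem_insert_iff, Set.mem_singleton_iff, Set.mem_univ, iff_true]
      rcases (hcen x.1).1 x.2 with e | e
      · left
        exact Subtype.ext (Subtype.ext e)
      · right
        exact Subtype.ext (Subtype.ext e)
  · rw [commutator_def, Subgroup.commutator_le]
    intro x _ y _
    rw [hcen]
    show (x : G) * y * (x : G)⁻¹ * (y : G)⁻¹ = 1 ∨ (x : G) * y * (x : G)⁻¹ * (y : G)⁻¹ = z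
    rcases h.comm x x.2 y y.2 with e | e
    · left
      rw [e]
      group
    · right
      rw [e]
      group
  · obtain ⟨a, ha, b, hb, hab⟩ := hna
    exact ⟨⟨a, ha⟩, ⟨b, hb⟩, fun e => hab (congrArg Subtype.val e)⟩
  · intro x
    rw [hcen]
    show ((x ^ 2 : ↥Q) : G) = 1 ∨ ((x ^ 2 : ↥Q) : G) = z
    rw [Subgroup.coe_pow, pow_two]
    exact ES_sq h x x.2

theorem mem_conj (g x : G) : x ∈ Q.map (MulAut.conj g).toMonoidHom ↔ g⁻¹ * x * g ∈ Q := by
  constructor
  · rintro ⟨q, hq, rfl⟩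
    show g⁻¹ * (g * q * g⁻¹) * g ∈ Q
    have e : g⁻¹ * (g * q * g⁻¹) * g = q := by group
    rw [e]
    exact hq
  · intro hx
    exact ⟨g⁻¹ * x * g, hx, by show g * (g⁻¹ * x * g) * g⁻¹ = x; group⟩

theorem ES_conj (h : ES Q z) (g : G) :
    ES (Q.map (MulAut.conj g).toMonoidHom) (g * z * g⁻¹) := by
  refine ⟨?_, ?_, ?_, ?_, ?_, ?_, ?_⟩
  · rw [mem_conj]
    have e : g⁻¹ * (g * z * g⁻¹) * g = z := by group
    rw [e]
    exact h.zQ
  · intro e
    apply h.z1
    calc z = g⁻¹ * (g * z * g⁻¹) * g := by group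
      _ = 1 := by rw [e]; group
  · calc g * z * g⁻¹ * (g * z * g⁻¹) = g * (z * z) * g⁻¹ := by group
      _ = 1 := by rw [h.zz]; group
  · intro x hx
    rw [mem_conj] at hx
    have := h.cen _ hx
    calc x * (g * z * g⁻¹) = g * ((g⁻¹ * x * g) * z) * g⁻¹ := by group
      _ = g * (z * (g⁻¹ * x * g)) * g⁻¹ := by rw [this]
      _ = g * z * g⁻¹ * x := by group
  · intro x hx y hy
    rw [mem_conj] at hx hy
    rcases h.comm _ hx _ hy with e | e
    · left
      calc x * y = g * ((g⁻¹ * x * g) * (g⁻¹ * y * g)) * g⁻¹ := by group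
        _ = g * ((g⁻¹ * y * g) * (g⁻¹ * x * g)) * g⁻¹ := by rw [e]
        _ = y * x := by group
    · right
      calc x * y = g * ((g⁻¹ * x * g) * (g⁻¹ * y * g)) * g⁻¹ := by group
        _ = g * (z * ((g⁻¹ * y * g) * (g⁻¹ * x * g))) * g⁻¹ := by rw [e]
        _ = g * z * g⁻¹ * (y * x) := by group
  · intro c hc
    have hc' : ∀ q ∈ Q, (g⁻¹ * c * g) * q = q * (g⁻¹ * c * g) := by
      intro q hq
      have h1 := hc (g * q * g⁻¹) ((mem_conj g _).2 (by
        have e : g⁻¹ * (g * q * g⁻¹) * g = q := by group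
        rw [e]
        exact hq))
      calc (g⁻¹ * c * g) * q = g⁻¹ * (c * (g * q * g⁻¹)) * g := by group
        _ = g⁻¹ * ((g * q * g⁻¹) * c) * g := by rw [h1]
        _ = q * (g⁻¹ * c * g) := by group
    rcases h.cent _ hc' with e | e
    · left
      calc c = g * (g⁻¹ * c * g) * g⁻¹ := by group
        _ = 1 := by rw [e]; group
    · right
      calc c = g * (g⁻¹ * c * g) * g⁻¹ := by group
        _ = g * z * g⁻¹ := by rw [e]
  · intro c hc x hx
    rw [mem_conj] at hx ⊢
    have hc' : (g⁻¹ * c * g) * z = z * (g⁻¹ * c * g) := by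
      calc (g⁻¹ * c * g) * z = g⁻¹ * (c * (g * z * g⁻¹)) * g := by group
        _ = g⁻¹ * ((g * z * g⁻¹) * c) * g := by rw [hc]
        _ = z * (g⁻¹ * c * g) := by group
    have h1 := h.norm _ hc' _ hx
    have e : g⁻¹ * (c * x * c⁻¹) * g = (g⁻¹ * c * g) * (g⁻¹ * x * g) * (g⁻¹ * c * g)⁻¹ := by
      group
    rw [e]
    exact h1

/-- the double centraliser of a non-central involution -/
theorem DC (h : ES Q z) (t : G) (ht : t ∈ Q) (ht2 : t * t = 1) (e : G) (he : e ∈ Q)
    (hc : ∀ r ∈ Q, r * t = t * r → e * r = r * e) : e = 1 ∨ e = z ∨ e = t ∨ e = z * t := by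
  by_cases hall : ∀ q ∈ Q, e * q = q * e
  · rcases h.cent e hall with h1 | h1
    · exact Or.inl h1
    · exact Or.inr (Or.inl h1)
  · push Not at hall
    obtain ⟨q₀, hq₀, hq₀e⟩ := hall
    have hq₀t : q₀ * t ≠ t * q₀ := fun hh => hq₀e (hc q₀ hq₀ hh)
    have hq₀t' : q₀ * t = z * (t * q₀) := (h.comm q₀ hq₀ t ht).resolve_left hq₀t
    have hcl : ∀ q ∈ Q, (e * t) * q = q * (e * t) := by
      intro q hq
      by_cases hqt : q * t = t * q
      · have h1 := hc q hq hqt
        calc (e * t) * q = e * (t * q) := by group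
          _ = e * (q * t) := by rw [hqt]
          _ = (e * q) * t := by group
          _ = (q * e) * t := by rw [h1]
          _ = q * (e * t) := by group
      · have hqt' : q * t = z * (t * q) := (h.comm q hq t ht).resolve_left hqt
        have heq : e * q = z * (q * e) := by
          rcases h.comm e he q hq with h1 | h1
          · exfalso
            have h3 : q₀⁻¹ * t = z * (t * q₀⁻¹) := by
              have hz : q₀⁻¹ * z = z * q₀⁻¹ := h.cen _ (Q.inv_mem hq₀)
              have h4 : t * q₀⁻¹ = z * (q₀⁻¹ * t) := by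
                calc t * q₀⁻¹ = q₀⁻¹ * (q₀ * t) * q₀⁻¹ := by group
                  _ = q₀⁻¹ * (z * (t * q₀)) * q₀⁻¹ := by rw [hq₀t']
                  _ = (q₀⁻¹ * z) * t := by group
                  _ = (z * q₀⁻¹) * t := by rw [hz]
                  _ = z * (q₀⁻¹ * t) := by group
              calc q₀⁻¹ * t = (z * z) * (q₀⁻¹ * t) := by rw [h.zz, one_mul]
                _ = z * (z * (q₀⁻¹ * t)) := by group
                _ = z * (t * q₀⁻¹) := by rw [← h4]
            have h2 : (q * q₀⁻¹) * t = t * (q * q₀⁻¹) := by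
              calc (q * q₀⁻¹) * t = q * (q₀⁻¹ * t) := by group
                _ = q * (z * (t * q₀⁻¹)) := by rw [h3]
                _ = (q * z) * (t * q₀⁻¹) := by group
                _ = (z * q) * (t * q₀⁻¹) := by rw [h.cen q hq]
                _ = z * (q * t) * q₀⁻¹ := by group
                _ = z * (z * (t * q)) * q₀⁻¹ := by rw [hqt']
                _ = (z * z) * (t * (q * q₀⁻¹)) := by group
                _ = t * (q * q₀⁻¹) := by rw [h.zz, one_mul]
            have h5 := hc _ (Q.mul_mem hq (Q.inv_mem hq₀)) h2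
            apply hq₀e
            have hw : e * (q * q₀⁻¹)⁻¹ = (q * q₀⁻¹)⁻¹ * e := by
              calc e * (q * q₀⁻¹)⁻¹ = (q * q₀⁻¹)⁻¹ * ((q * q₀⁻¹) * e) * (q * q₀⁻¹)⁻¹ := by group
                _ = (q * q₀⁻¹)⁻¹ * (e * (q * q₀⁻¹)) * (q * q₀⁻¹)⁻¹ := by rw [h5]
                _ = (q * q₀⁻¹)⁻¹ * e := by group
            calc e * q₀ = (e * (q * q₀⁻¹)⁻¹) * q := by group
              _ = ((q * q₀⁻¹)⁻¹ * e) * q := by rw [hw]
              _ = (q * q₀⁻¹)⁻¹ * (e * q) := by group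
              _ = (q * q₀⁻¹)⁻¹ * (q * e) := by rw [h1]
              _ = q₀ * e := by group
          · exact h1
        have htq : t * q = z * (q * t) := by
          calc t * q = (z * z) * (t * q) := by rw [h.zz, one_mul]
            _ = z * (z * (t * q)) := by group
            _ = z * (q * t) := by rw [← hqt']
        calc (e * t) * q = e * (t * q) := by group
          _ = e * (z * (q * t)) := by rw [htq]
          _ = (e * z) * (q * t) := by group
          _ = (z * e) * (q * t) := by rw [h.cen e he]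
          _ = z * (e * q) * t := by group
          _ = z * (z * (q * e)) * t := by rw [heq]
          _ = (z * z) * (q * (e * t)) := by group
          _ = q * (e * t) := by rw [h.zz, one_mul]
    rcases h.cent _ hcl with h1 | h1
    · right; right; left
      calc e = (e * t) * t := by rw [mul_assoc, ht2, mul_one]
        _ = t := by rw [h1, one_mul]
    · right; right; right
      calc e = (e * t) * t := by rw [mul_assoc, ht2, mul_one]
        _ = z * t := by rw [h1]

theorem large_of_conj' [Finite G] (hES : ES Q z) (hL1 : Cfsg.IsExtraspecial 2 ↥Q) (g : G)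
    (hgQ : g * z * g⁻¹ ∈ Q) (hgz : g * z * g⁻¹ ≠ z) :
    z ∈ Q.map (MulAut.conj g).toMonoidHom ∧ Cfsg.IsLargeExtraspecial Q := by
  have hZc := ES_Zc hES
  have key := Cfsg.Agent.Lib.helper14.s5422_aux Q hL1 (L2 hES hZc) (L3 hES hZc) g (by
    intro hg
    rw [Subgroup.mem_normalizer_iff] at hg
    have h1 := (hg z).1 ((hZc z).2 (Or.inr rfl))
    rcases (hZc _).1 h1 with h | h
    · apply hES.z1
      calc z = g⁻¹ * (g * z * g⁻¹) * g := by group
        _ = 1 := by rw [h]; group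
    · exact hgz h) (by
    rintro _ ⟨x, hx, rfl⟩
    rcases (hZc x).1 hx with rfl | rfl
    · rw [map_one]
      exact Q.one_mem
    · exact hgQ)
  exact ⟨key.1 ((hZc z).2 (Or.inr rfl)), key.2.2⟩

end Basic

section Quot

theorem memN (t : G) (ht2 : t * t = 1) (h : ↥(Subgroup.centralizer ({t} : Set G))) :
    h ∈ (Subgroup.zpowers t).subgroupOf (Subgroup.centralizer ({t} : Set G)) ↔
      (h : G) = 1 ∨ (h : G) = t := by
  rw [Subgroup.mem_subgroupOf]
  constructor
  · intro hh
    exact mem_zpowers_of_sq ht2 hh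
  · rintro (e | e)
    · rw [e]; exact Subgroup.one_mem _
    · rw [e]; exact Subgroup.mem_zpowers t

theorem eqπ (t : G) (ht2 : t * t = 1)
    [hn : ((Subgroup.zpowers t).subgroupOf (Subgroup.centralizer ({t} : Set G))).Normal]
    (a b : ↥(Subgroup.centralizer ({t} : Set G))) :
    (QuotientGroup.mk' ((Subgroup.zpowers t).subgroupOf (Subgroup.centralizer ({t} : Set G))) a =
      QuotientGroup.mk' ((Subgroup.zpowers t).subgroupOf (Subgroup.centralizer ({t} : Set G))) b) ↔
      (b : G) = a ∨ (b : G) = a * t := by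
  rw [QuotientGroup.mk'_apply, QuotientGroup.mk'_apply, QuotientGroup.eq, memN t ht2]
  show (a : G)⁻¹ * (b : G) = 1 ∨ (a : G)⁻¹ * (b : G) = t ↔ _
  constructor
  · rintro (e | e)
    · left
      calc (b : G) = a * ((a : G)⁻¹ * b) := by group
        _ = a := by rw [e, mul_one]
    · right
      calc (b : G) = a * ((a : G)⁻¹ * b) := by group
        _ = a * t := by rw [e]
  · rintro (e | e)
    · left; rw [e]; group
    · right; rw [e]; group

theorem quot_ES (t : G) (ht2 : t * t = 1) {P : Subgroup G} {z : G}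
    [hn : ((Subgroup.zpowers t).subgroupOf (Subgroup.centralizer ({t} : Set G))).Normal]
    (hPC : P ≤ Subgroup.centralizer ({t} : Set G))
    (hzP : z ∈ P) (hz1 : z ≠ 1) (hzt : z ≠ t) (hzz : z * z = 1)
    (hcen : ∀ x ∈ P, x * z = z * x)
    (hcomm : ∀ x ∈ P, ∀ y ∈ P, x * y = y * x ∨ x * y = z * (y * x))
    (hcent : ∀ c ∈ Subgroup.centralizer ({t} : Set G),
      (∀ x ∈ P, x * c = c * x ∨ x * c = c * x * t) → c = 1 ∨ c = z ∨ c = t ∨ c = z * t)
    (hnorm : ∀ c ∈ Subgroup.centralizer ({t} : Set G),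
      (z * c = c * z ∨ z * c = c * z * t) → ∀ x ∈ P, c * x * c⁻¹ ∈ P) :
    ES ((P.subgroupOf (Subgroup.centralizer ({t} : Set G))).map
        (QuotientGroup.mk' ((Subgroup.zpowers t).subgroupOf (Subgroup.centralizer ({t} : Set G)))))
      (QuotientGroup.mk' ((Subgroup.zpowers t).subgroupOf (Subgroup.centralizer ({t} : Set G)))
        ⟨z, hPC hzP⟩) := by
  refine ⟨?_, ?_, ?_, ?_, ?_, ?_, ?_⟩
  · exact ⟨⟨z, hPC hzP⟩, Subgroup.mem_subgroupOf.2 hzP, rfl⟩
  · intro e
    have h1 : QuotientGroup.mk' ((Subgroup.zpowers t).subgroupOf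
        (Subgroup.centralizer ({t} : Set G))) 1 =
        QuotientGroup.mk' ((Subgroup.zpowers t).subgroupOf
        (Subgroup.centralizer ({t} : Set G))) ⟨z, hPC hzP⟩ := by
      rw [map_one, e]
    rw [eqπ t ht2] at h1
    rcases h1 with h1 | h1
    · exact hz1 h1
    · have h1' : z = 1 * t := h1
      rw [one_mul] at h1'
      exact hzt h1'
  · rw [← map_mul]
    have : (⟨z, hPC hzP⟩ * ⟨z, hPC hzP⟩ : ↥(Subgroup.centralizer ({t} : Set G))) = 1 :=
      Subtype.ext hzz
    rw [this, map_one]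
  · rintro _ ⟨x, hx, rfl⟩
    rw [← map_mul, ← map_mul]
    congr 1
    apply Subtype.ext
    exact hcen x (Subgroup.mem_subgroupOf.1 hx)
  · rintro _ ⟨x, hx, rfl⟩ _ ⟨y, hy, rfl⟩
    rcases hcomm x (Subgroup.mem_subgroupOf.1 hx) y (Subgroup.mem_subgroupOf.1 hy) with e | e
    · left
      rw [← map_mul, ← map_mul]
      congr 1
      exact Subtype.ext e
    · right
      rw [← map_mul, ← map_mul, ← map_mul]
      congr 1
      exact Subtype.ext e
  · intro cb hcb
    obtain ⟨c, rfl⟩ := QuotientGroup.mk'_surjective ((Subgroup.zpowers t).subgroupOf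
        (Subgroup.centralizer ({t} : Set G))) cb
    have key : ∀ x ∈ P, x * (c : G) = c * x ∨ x * (c : G) = c * x * t := by
      intro x hx
      have h1 := hcb (QuotientGroup.mk' ((Subgroup.zpowers t).subgroupOf
        (Subgroup.centralizer ({t} : Set G))) ⟨x, hPC hx⟩)
        ⟨⟨x, hPC hx⟩, Subgroup.mem_subgroupOf.2 hx, rfl⟩
      rw [← map_mul, ← map_mul, eqπ t ht2] at h1
      exact h1
    rcases hcent c c.2 key with e | e | e | e
    · left
      have : c = 1 := Subtype.ext e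
      rw [this, map_one]
    · right
      congr 1
      exact Subtype.ext e
    · left
      rw [QuotientGroup.mk'_apply, QuotientGroup.eq_one_iff, memN t ht2]
      exact Or.inr e
    · right
      symm
      rw [eqπ t ht2]
      exact Or.inr e
  · intro cb hcb xb hxb
    obtain ⟨c, rfl⟩ := QuotientGroup.mk'_surjective ((Subgroup.zpowers t).subgroupOf
        (Subgroup.centralizer ({t} : Set G))) cb
    obtain ⟨x, hx, rfl⟩ := hxb
    have h1 : z * (c : G) = c * z ∨ z * (c : G) = c * z * t := by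
      rw [← map_mul, ← map_mul, eqπ t ht2] at hcb
      exact hcb
    have h2 := hnorm c c.2 h1 x (Subgroup.mem_subgroupOf.1 hx)
    refine ⟨c * x * c⁻¹, Subgroup.mem_subgroupOf.2 h2, ?_⟩
    rw [map_mul, map_mul, map_inv]

theorem aux_tz {Q : Subgroup G} {z : G} (hES : ES Q z) (y : G) (hy : y ∈ Q) (t : G)
    (e : y = z * y * t) : t = z := by
  have h1 : y * z = z * y := hES.cen y hy
  calc t = (z * y)⁻¹ * (z * y * t) := by group
    _ = (z * y)⁻¹ * y := by rw [← e]
    _ = y⁻¹ * z⁻¹ * y := by group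
    _ = y⁻¹ * (z * y) := by rw [hES.zinv]; group
    _ = y⁻¹ * (y * z) := by rw [h1]
    _ = z := by group

theorem main29 [Finite G] (z : G) (hz : orderOf z = 2) (Q : Subgroup G)
    (hQC : Q ≤ Subgroup.centralizer ({z} : Set G))
    (hF : (Cfsg.generalizedFittingSubgroup ↥(Subgroup.centralizer ({z} : Set G))).map
      (Subgroup.centralizer ({z} : Set G)).subtype = Q)
    (hQ : Cfsg.IsExtraspecial 2 ↥Q)
    (g : G) (hgQ : g * z * g⁻¹ ∈ Q) (hgZ : g * z * g⁻¹ ∉ ((Subgroup.center ↥Q).map Q.subtype))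
    (t : G) (ht : orderOf t = 2) (htQ : t ∈ Q ⊓ (Q).map (MulAut.conj g).toMonoidHom)
    (htz : ¬ IsConj z t) (P : Subgroup G) (hP : P = Q ⊓ Subgroup.centralizer ({t} : Set G))
    (hCP : ∀ c ∈ Subgroup.centralizer ({z} : Set G),
      (∀ x ∈ P, ∃ y ∈ Subgroup.closure ({t, z} : Set G), c * x * c⁻¹ = x * y) ↔ c ∈ Q)
    [hn : ((Subgroup.zpowers t).subgroupOf (Subgroup.centralizer ({t} : Set G))).Normal] :
    Cfsg.IsLargeExtraspecial ((P.subgroupOf (Subgroup.centralizer ({t} : Set G))).map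
      (QuotientGroup.mk' ((Subgroup.zpowers t).subgroupOf (Subgroup.centralizer ({t} : Set G))))) ∧
    ∃ x ∈ P ⊔ ((Q).map (MulAut.conj g).toMonoidHom ⊓ Subgroup.centralizer ({t} : Set G)),
      x * (g * z * g⁻¹) * x⁻¹ = z := by
  obtain ⟨hES, hZc⟩ := es_of_fstar z hz Q hQC hF hQ
  subst hP
  have haz : g * z * g⁻¹ ≠ z := fun e => hgZ ((hZc _).2 (Or.inr e))
  have ha1 : g * z * g⁻¹ ≠ 1 := fun e => hgZ ((hZc _).2 (Or.inl e))
  obtain ⟨hzQa, -⟩ := large_of_conj' hES hQ g hgQ haz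
  have hESa : ES (Q.map (MulAut.conj g).toMonoidHom) (g * z * g⁻¹) := ES_conj hES g
  obtain ⟨htQ1, htQa⟩ := htQ
  have ht2 : t * t = 1 := by rw [← pow_two, ← ht, pow_orderOf_eq_one]
  have ht1 : t ≠ 1 := by
    intro e
    rw [e, orderOf_one] at ht
    norm_num at ht
  have htz' : t ≠ z := fun e => htz (e ▸ IsConj.refl _)
  have hconj : ∀ c : G, c * z * c⁻¹ ≠ t := fun c e => htz (isConj_iff.2 ⟨c, e⟩)
  have hta : t ≠ g * z * g⁻¹ := fun e => hconj g e.symm
  obtain ⟨u₀, hu₀, hu₀t⟩ := hES.exists_swap t htQ1 ht1 htz'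
  have hzt_conj : ∀ c : G, c * z * c⁻¹ ≠ z * t := by
    intro c e
    apply hconj (u₀⁻¹ * c)
    calc u₀⁻¹ * c * z * (u₀⁻¹ * c)⁻¹ = u₀⁻¹ * (c * z * c⁻¹) * u₀ := by group
      _ = u₀⁻¹ * (z * t) * u₀ := by rw [e]
      _ = u₀⁻¹ * (u₀ * t * u₀⁻¹) * u₀ := by rw [hu₀t]
      _ = t := by group
  obtain ⟨u₁, hu₁, hu₁t⟩ := hESa.exists_swap t htQa ht1 hta
  have hat_conj : ∀ c : G, c * z * c⁻¹ ≠ g * z * g⁻¹ * t := by
    intro c e
    apply hconj (u₁⁻¹ * c)
    calc u₁⁻¹ * c * z * (u₁⁻¹ * c)⁻¹ = u₁⁻¹ * (c * z * c⁻¹) * u₁ := by group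
      _ = u₁⁻¹ * (g * z * g⁻¹ * t) * u₁ := by rw [e]
      _ = u₁⁻¹ * (u₁ * t * u₁⁻¹) * u₁ := by rw [hu₁t]
      _ = t := by group
  have hazt : g * z * g⁻¹ ≠ z * t := fun e => hzt_conj g e
  have hzat : z ≠ g * z * g⁻¹ * t := fun e =>
    hat_conj 1 (by rw [one_mul, inv_one, mul_one]; exact e)
  have hu : ∃ u ∈ Q, u * t = t * u ∧ g * z * g⁻¹ * u ≠ u * (g * z * g⁻¹) := by
    by_contra hno
    push Not at hno
    rcases DC hES t htQ1 ht2 (g * z * g⁻¹) hgQ (fun r hr hrt => hno r hr hrt) with e | e | e | e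
    · exact ha1 e
    · exact haz e
    · exact hta e.symm
    · exact hazt e
  obtain ⟨u, huQ, hut, hua⟩ := hu
  have hua' : g * z * g⁻¹ * u = z * (u * (g * z * g⁻¹)) :=
    (hES.comm _ hgQ u huQ).resolve_left hua
  have hx' : ∃ x' ∈ Q.map (MulAut.conj g).toMonoidHom, x' * t = t * x' ∧ z * x' ≠ x' * z := by
    by_contra hno
    push Not at hno
    rcases DC hESa t htQa ht2 z hzQa (fun r hr hrt => hno r hr hrt) with e | e | e | e
    · exact hES.z1 e
    · exact haz e.symm
    · exact htz' e.symm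
    · exact hzat e
  obtain ⟨x', hx'Q, hx't, hx'z⟩ := hx'
  have hx'z' : z * x' = g * z * g⁻¹ * (x' * z) := (hESa.comm z hzQa x' hx'Q).resolve_left hx'z
  have h1 : u * (g * z * g⁻¹) * u⁻¹ = z * (g * z * g⁻¹) := hES.conj_of_anti hua'
  have h2 : x' * z * x'⁻¹ = g * z * g⁻¹ * z := hESa.conj_of_anti hx'z'
  have hxa : (x' * u) * (g * z * g⁻¹) * (x' * u)⁻¹ = z := by
    calc (x' * u) * (g * z * g⁻¹) * (x' * u)⁻¹
        = x' * (u * (g * z * g⁻¹) * u⁻¹) * x'⁻¹ := by group
      _ = x' * (z * (g * z * g⁻¹)) * x'⁻¹ := by rw [h1]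
      _ = (x' * z * x'⁻¹) * (x' * (g * z * g⁻¹)) * x'⁻¹ := by group
      _ = (g * z * g⁻¹ * z) * (g * z * g⁻¹ * x') * x'⁻¹ := by rw [h2, hESa.cen x' hx'Q]
      _ = (g * z * g⁻¹ * z) * (g * z * g⁻¹) := by group
      _ = (z * (g * z * g⁻¹)) * (g * z * g⁻¹) := by rw [hES.cen _ hgQ]
      _ = z := by rw [mul_assoc, hESa.zz, mul_one]
  have huC : u ∈ Subgroup.centralizer ({t} : Set G) :=
    Subgroup.mem_centralizer_singleton_iff.2 hut
  have hx'C : x' ∈ Subgroup.centralizer ({t} : Set G) :=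
    Subgroup.mem_centralizer_singleton_iff.2 hx't
  have hzC : z ∈ Subgroup.centralizer ({t} : Set G) :=
    Subgroup.mem_centralizer_singleton_iff.2 (hES.cen t htQ1).symm
  have haC : g * z * g⁻¹ ∈ Subgroup.centralizer ({t} : Set G) :=
    Subgroup.mem_centralizer_singleton_iff.2 (hESa.cen t htQa).symm
  have hzP : z ∈ Q ⊓ Subgroup.centralizer ({t} : Set G) := ⟨hES.zQ, hzC⟩
  have hPC : Q ⊓ Subgroup.centralizer ({t} : Set G) ≤ Subgroup.centralizer ({t} : Set G) :=
    inf_le_right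
  refine ⟨?_, x' * u, Subgroup.mul_mem _ (Subgroup.mem_sup_right ⟨hx'Q, hx'C⟩)
    (Subgroup.mem_sup_left ⟨huQ, huC⟩), hxa⟩
  -- z commutes with anything that commutes with it modulo t
  have hcz : ∀ c ∈ Subgroup.centralizer ({t} : Set G),
      (z * c = c * z ∨ z * c = c * z * t) → z * c = c * z := by
    intro c hc h
    rcases h with h | h
    · exact h
    · exfalso
      apply hzt_conj c⁻¹
      calc c⁻¹ * z * c⁻¹⁻¹ = c⁻¹ * (z * c) := by group
        _ = c⁻¹ * (c * z * t) := by rw [h]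
        _ = z * t := by group
  have hcent : ∀ c ∈ Subgroup.centralizer ({t} : Set G),
      (∀ x ∈ Q ⊓ Subgroup.centralizer ({t} : Set G), x * c = c * x ∨ x * c = c * x * t) →
        c = 1 ∨ c = z ∨ c = t ∨ c = z * t := by
    intro c hc hall
    have hct : c * t = t * c := Subgroup.mem_centralizer_singleton_iff.1 hc
    have hzc : z * c = c * z := hcz c hc (hall z hzP)
    have hcC : c ∈ Subgroup.centralizer ({z} : Set G) :=
      Subgroup.mem_centralizer_singleton_iff.2 hzc.symm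
    have hcQ : c ∈ Q := by
      apply (hCP c hcC).1
      intro x hx
      rcases hall x hx with e | e
      · refine ⟨1, Subgroup.one_mem _, ?_⟩
        rw [← e]
        group
      · refine ⟨t, Subgroup.subset_closure (Set.mem_insert _ _), ?_⟩
        have e' : c * x = x * c * t := by
          calc c * x = c * x * (t * t) := by rw [ht2, mul_one]
            _ = (c * x * t) * t := by group
            _ = x * c * t := by rw [← e]
        calc c * x * c⁻¹ = (x * c * t) * c⁻¹ := by rw [e']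
          _ = x * (c * t) * c⁻¹ := by group
          _ = x * (t * c) * c⁻¹ := by rw [hct]
          _ = x * t := by group
    apply DC hES t htQ1 ht2 c hcQ
    intro r hr hrt
    have hrP : r ∈ Q ⊓ Subgroup.centralizer ({t} : Set G) :=
      ⟨hr, Subgroup.mem_centralizer_singleton_iff.2 hrt⟩
    rcases hall r hrP with e | e
    · exact e.symm
    · rcases hES.comm c hcQ r hr with e2 | e2
      · exact e2
      · exfalso
        apply htz'
        apply aux_tz hES (r * c) (Q.mul_mem hr hcQ) t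
        calc r * c = c * r * t := e
          _ = z * (r * c) * t := by rw [e2]
  have hnorm : ∀ c ∈ Subgroup.centralizer ({t} : Set G),
      (z * c = c * z ∨ z * c = c * z * t) →
        ∀ x ∈ Q ⊓ Subgroup.centralizer ({t} : Set G),
          c * x * c⁻¹ ∈ Q ⊓ Subgroup.centralizer ({t} : Set G) := by
    intro c hc h x hx
    have hzc : z * c = c * z := hcz c hc h
    exact ⟨hES.norm c hzc.symm x hx.1,
      Subgroup.mul_mem _ (Subgroup.mul_mem _ hc hx.2) (Subgroup.inv_mem _ hc)⟩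
  have hESq := quot_ES t ht2 hPC hzP hES.z1 htz'.symm hES.zz (fun x hx => hES.cen x hx.1)
    (fun x hx y hy => hES.comm x hx.1 y hy.1) hcent hnorm
  have haP : g * z * g⁻¹ ∈ Q ⊓ Subgroup.centralizer ({t} : Set G) := ⟨hgQ, haC⟩
  have hna : ∃ a ∈ ((Q ⊓ Subgroup.centralizer ({t} : Set G)).subgroupOf
        (Subgroup.centralizer ({t} : Set G))).map
        (QuotientGroup.mk' ((Subgroup.zpowers t).subgroupOf (Subgroup.centralizer ({t} : Set G)))),
      ∃ b ∈ ((Q ⊓ Subgroup.centralizer ({t} : Set G)).subgroupOf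
        (Subgroup.centralizer ({t} : Set G))).map
        (QuotientGroup.mk' ((Subgroup.zpowers t).subgroupOf (Subgroup.centralizer ({t} : Set G)))),
        a * b ≠ b * a := by
    refine ⟨_, ⟨⟨g * z * g⁻¹, haC⟩, Subgroup.mem_subgroupOf.2 haP, rfl⟩,
      _, ⟨⟨u, huC⟩, Subgroup.mem_subgroupOf.2 ⟨huQ, huC⟩, rfl⟩, ?_⟩
    intro e
    rw [← map_mul, ← map_mul, eqπ t ht2] at e
    have e' : u * (g * z * g⁻¹) = g * z * g⁻¹ * u ∨ u * (g * z * g⁻¹) = g * z * g⁻¹ * u * t := e
    rcases e' with e' | e'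
    · apply hES.z1
      calc z = z * (u * (g * z * g⁻¹)) * (u * (g * z * g⁻¹))⁻¹ := by group
        _ = (g * z * g⁻¹ * u) * (u * (g * z * g⁻¹))⁻¹ := by rw [← hua']
        _ = 1 := by rw [← e']; group
    · apply htz'
      apply aux_tz hES (u * (g * z * g⁻¹)) (Q.mul_mem huQ hgQ) t
      calc u * (g * z * g⁻¹) = g * z * g⁻¹ * u * t := e'
        _ = z * (u * (g * z * g⁻¹)) * t := by rw [hua']
  have hL1q := extraspecial_of_ES hESq hna
  have hxC : (x' * u)⁻¹ ∈ Subgroup.centralizer ({t} : Set G) :=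
    Subgroup.inv_mem _ (Subgroup.mul_mem _ hx'C huC)
  have hgbar : QuotientGroup.mk' ((Subgroup.zpowers t).subgroupOf
        (Subgroup.centralizer ({t} : Set G))) ⟨(x' * u)⁻¹, hxC⟩ *
      QuotientGroup.mk' ((Subgroup.zpowers t).subgroupOf
        (Subgroup.centralizer ({t} : Set G))) ⟨z, hPC hzP⟩ *
      (QuotientGroup.mk' ((Subgroup.zpowers t).subgroupOf
        (Subgroup.centralizer ({t} : Set G))) ⟨(x' * u)⁻¹, hxC⟩)⁻¹ =
      QuotientGroup.mk' ((Subgroup.zpowers t).subgroupOf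
        (Subgroup.centralizer ({t} : Set G))) ⟨g * z * g⁻¹, haC⟩ := by
    rw [← map_inv, ← map_mul, ← map_mul]
    have hsub : ((⟨(x' * u)⁻¹, hxC⟩ : ↥(Subgroup.centralizer ({t} : Set G))) * ⟨z, hPC hzP⟩ *
        (⟨(x' * u)⁻¹, hxC⟩ : ↥(Subgroup.centralizer ({t} : Set G)))⁻¹) = ⟨g * z * g⁻¹, haC⟩ := by
      apply Subtype.ext
      show (x' * u)⁻¹ * z * (x' * u)⁻¹⁻¹ = g * z * g⁻¹
      have e3 : (x' * u)⁻¹ * z * (x' * u)⁻¹⁻¹ =
          (x' * u)⁻¹ * ((x' * u) * (g * z * g⁻¹) * (x' * u)⁻¹) * (x' * u) := by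
        rw [hxa]
        group
      rw [e3]
      group
    rw [hsub]
  refine (large_of_conj' hESq hL1q (QuotientGroup.mk' ((Subgroup.zpowers t).subgroupOf
        (Subgroup.centralizer ({t} : Set G))) ⟨(x' * u)⁻¹, hxC⟩) ?_ ?_).2
  · rw [hgbar]
    exact ⟨⟨g * z * g⁻¹, haC⟩, Subgroup.mem_subgroupOf.2 haP, rfl⟩
  · rw [hgbar]
    intro e
    rw [eqπ t ht2] at e
    rcases e with e | e
    · exact haz e.symm
    · exact hzat e

end Quot

end Cfsg.Agent.Lib.helper6.ESQuot
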