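import Mathlib
import Cfsg.Agent.Lib.helper6.ESQuot

set_option autoImplicit false

namespace Cfsg.Agent.Lib.helper6.ESOdd

open Cfsg
open Cfsg.Agent.Lib.helper6.ESCent
open Cfsg.Agent.Lib.helper6.ESQuot

variable {G : Type*} [Group G]

section Lists

variable {Q : Subgroup G} {z : G}

theorem perm_prod (hES : ES Q z) {l₁ l₂ : List G} (hp : l₁.Perm l₂) (hl : ∀ x ∈ l₁, x ∈ Q) :
    l₁.prod = l₂.prod ∨ l₁.prod = z * l₂.prod := by
  induction hp with
  | nil => left; rfl
  | cons x _ ih =>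
    rw [List.prod_cons, List.prod_cons]
    rcases ih (fun y hy => hl y (List.mem_cons_of_mem _ hy)) with e | e
    · left; rw [e]
    · right
      rw [e, ← mul_assoc, hES.cen x (hl x List.mem_cons_self), mul_assoc]
  | swap x y l =>
    rw [List.prod_cons, List.prod_cons, List.prod_cons, List.prod_cons]
    have hy : y ∈ Q := hl y List.mem_cons_self
    have hx : x ∈ Q := hl x (List.mem_cons_of_mem _ List.mem_cons_self)
    rcases hES.comm y hy x hx with e | e
    · left
      rw [← mul_assoc, e, mul_assoc]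
    · right
      rw [← mul_assoc, e]
      group
  | trans h₁ _ ih₁ ih₂ =>
    have hl2 := fun x hx => hl x (h₁.mem_iff.2 hx)
    rcases ih₁ hl with e1 | e1 <;> rcases ih₂ hl2 with e2 | e2
    · left; rw [e1, e2]
    · right; rw [e1, e2]
    · right; rw [e1, e2]
    · left; rw [e1, e2, ← mul_assoc, hES.zz, one_mul]

theorem z_pow_odd (hES : ES Q z) {n : ℕ} (hn : Odd n) : z ^ n = z := by
  obtain ⟨k, rfl⟩ := hn
  rw [pow_succ, pow_mul, pow_two, hES.zz, one_pow, one_mul]

theorem anti_prod (hES : ES Q z) (a : G) (l : List G)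
    (hl : ∀ x ∈ l, x ∈ Q ∧ a * x = z * (x * a)) :
    a * l.prod = z ^ l.length * (l.prod * a) := by
  induction l with
  | nil => simp
  | cons x l ih =>
    have hx := hl x List.mem_cons_self
    have ih' := ih (fun y hy => hl y (List.mem_cons_of_mem _ hy))
    have hc : x * z ^ l.length = z ^ l.length * x :=
      (Commute.pow_right (show Commute x z from hES.cen x hx.1) l.length).eq
    rw [List.prod_cons, List.length_cons, pow_succ']
    calc a * (x * l.prod) = (a * x) * l.prod := by group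
      _ = z * (x * a) * l.prod := by rw [hx.2]
      _ = z * x * (a * l.prod) := by group
      _ = z * x * (z ^ l.length * (l.prod * a)) := by rw [ih']
      _ = z * (x * z ^ l.length) * (l.prod * a) := by group
      _ = z * (z ^ l.length * x) * (l.prod * a) := by rw [hc]
      _ = z * z ^ l.length * (x * l.prod * a) := by group

theorem conj_odd (hES : ES Q z) (β p : G) (hβz : β * z = z * β) (n : ℕ) (hn : Odd n)
    (hβn : β ^ n = 1) (h : β * p * β⁻¹ = p ∨ β * p * β⁻¹ = z * p) : β * p * β⁻¹ = p := by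
  rcases h with h | h
  · exact h
  · exfalso
    have key : ∀ k : ℕ, β ^ k * p * (β ^ k)⁻¹ = z ^ k * p := by
      intro k
      induction k with
      | zero => simp
      | succ k ih =>
        have hc : β * z ^ k = z ^ k * β := (Commute.pow_right (show Commute β z from hβz) k).eq
        calc β ^ (k + 1) * p * (β ^ (k + 1))⁻¹ = β * (β ^ k * p * (β ^ k)⁻¹) * β⁻¹ := by
              rw [pow_succ']; group
          _ = β * (z ^ k * p) * β⁻¹ := by rw [ih]
          _ = (β * z ^ k) * p * β⁻¹ := by group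
          _ = (z ^ k * β) * p * β⁻¹ := by rw [hc]
          _ = z ^ k * (β * p * β⁻¹) := by group
          _ = z ^ k * (z * p) := by rw [h]
          _ = z ^ (k + 1) * p := by rw [pow_succ]; group
    have h1 := key n
    rw [hβn, z_pow_odd hES hn] at h1
    apply hES.z1
    calc z = (z * p) * p⁻¹ := by group
      _ = (1 * p * 1⁻¹) * p⁻¹ := by rw [h1]
      _ = 1 := by group

/-- the centre of the fixed points of an odd-order group of automorphisms is central -/
theorem center_fixed [Finite G] (hES : ES Q z) (A : Subgroup G)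
    (hA : ∀ α ∈ A, α * z = z * α) (hAodd : Odd (Nat.card ↥A))
    (a : G) (haQ : a ∈ Q) (haA : ∀ α ∈ A, α * a = a * α)
    (hR : ∀ r ∈ Q, (∀ α ∈ A, α * r = r * α) → a * r = r * a) :
    ∀ q ∈ Q, a * q = q * a := by
  intro q hq
  by_contra hne
  have hanti : a * q = z * (q * a) := (hES.comm a haQ q hq).resolve_left hne
  haveI : Fintype ↥A := Fintype.ofFinite _
  have hLQ : ∀ x ∈ (Finset.univ : Finset ↥A).toList.map
      (fun α : ↥A => (α : G) * q * (α : G)⁻¹), x ∈ Q ∧ a * x = z * (x * a) := by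
    intro x hx
    obtain ⟨α, -, rfl⟩ := List.mem_map.1 hx
    refine ⟨hES.norm α (hA α α.2) q hq, ?_⟩
    have h1 : (α : G) * a = a * α := haA α α.2
    have h2 : (α : G) * z = z * α := hA α α.2
    have h3 : a * (α : G)⁻¹ = (α : G)⁻¹ * a := by
      calc a * (α : G)⁻¹ = (α : G)⁻¹ * ((α : G) * a) * (α : G)⁻¹ := by group
        _ = (α : G)⁻¹ * (a * α) * (α : G)⁻¹ := by rw [h1]
        _ = (α : G)⁻¹ * a := by group
    calc a * ((α : G) * q * (α : G)⁻¹) = (a * α) * q * (α : G)⁻¹ := by group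
      _ = ((α : G) * a) * q * (α : G)⁻¹ := by rw [h1]
      _ = (α : G) * (a * q) * (α : G)⁻¹ := by group
      _ = (α : G) * (z * (q * a)) * (α : G)⁻¹ := by rw [hanti]
      _ = ((α : G) * z) * q * (a * (α : G)⁻¹) := by group
      _ = (z * (α : G)) * q * ((α : G)⁻¹ * a) := by rw [h2, h3]
      _ = z * ((α : G) * q * (α : G)⁻¹ * a) := by group
  have hlen : ((Finset.univ : Finset ↥A).toList.map
      (fun α : ↥A => (α : G) * q * (α : G)⁻¹)).length = Nat.card ↥A := by
    rw [List.length_map, Finset.length_toList, Finset.card_univ, Nat.card_eq_fintype_card]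
  have hp := anti_prod hES a _ hLQ
  rw [hlen, z_pow_odd hES hAodd] at hp
  have hpQ := Subgroup.list_prod_mem Q (fun x hx => (hLQ x hx).1)
  have hpA : ∀ β ∈ A, β * ((Finset.univ : Finset ↥A).toList.map
      (fun α : ↥A => (α : G) * q * (α : G)⁻¹)).prod = ((Finset.univ : Finset ↥A).toList.map
      (fun α : ↥A => (α : G) * q * (α : G)⁻¹)).prod * β := by
    intro β hβ
    have hconj := map_list_prod (MulAut.conj β) ((Finset.univ : Finset ↥A).toList.map
      (fun α : ↥A => (α : G) * q * (α : G)⁻¹))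
    rw [MulAut.conj_apply] at hconj
    have hperm0 : ((Finset.univ : Finset ↥A).toList.map
        (fun α : ↥A => (⟨β, hβ⟩ : ↥A) * α)).Perm (Finset.univ : Finset ↥A).toList := by
      rw [← Multiset.coe_eq_coe, ← Multiset.map_coe, Finset.coe_toList]
      exact Multiset.map_univ_val_equiv (Equiv.mulLeft (⟨β, hβ⟩ : ↥A))
    have hmap : List.map (⇑(MulAut.conj β)) ((Finset.univ : Finset ↥A).toList.map
        (fun α : ↥A => (α : G) * q * (α : G)⁻¹)) =
        (((Finset.univ : Finset ↥A).toList.map (fun α : ↥A => (⟨β, hβ⟩ : ↥A) * α)).map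
          (fun α : ↥A => (α : G) * q * (α : G)⁻¹)) := by
      rw [List.map_map, List.map_map]
      apply List.map_congr_left
      intro α _
      show β * ((α : G) * q * (α : G)⁻¹) * β⁻¹ = (β * (α : G)) * q * (β * (α : G))⁻¹
      group
    have hperm := hperm0.map (fun α : ↥A => (α : G) * q * (α : G)⁻¹)
    rw [← hmap] at hperm
    have h1 := perm_prod hES hperm (by
      intro x hx
      exact (hLQ x ((hperm.mem_iff).1 hx)).1)
    rw [← hconj] at h1
    have hodd : Odd (orderOf β) :=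
      Odd.of_dvd_nat hAodd (Subgroup.orderOf_dvd_natCard A hβ)
    have h2 := conj_odd hES β _ (hA β hβ) (orderOf β) hodd (pow_orderOf_eq_one β) h1
    calc β * _ = (β * ((Finset.univ : Finset ↥A).toList.map
          (fun α : ↥A => (α : G) * q * (α : G)⁻¹)).prod * β⁻¹) * β := by group
      _ = _ := by rw [h2]
  have hcomm := hR _ hpQ hpA
  apply hES.z1
  calc z = (z * (((Finset.univ : Finset ↥A).toList.map
          (fun α : ↥A => (α : G) * q * (α : G)⁻¹)).prod * a)) *
          (((Finset.univ : Finset ↥A).toList.map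
          (fun α : ↥A => (α : G) * q * (α : G)⁻¹)).prod * a)⁻¹ := by group
    _ = (a * ((Finset.univ : Finset ↥A).toList.map
          (fun α : ↥A => (α : G) * q * (α : G)⁻¹)).prod) *
          (((Finset.univ : Finset ↥A).toList.map
          (fun α : ↥A => (α : G) * q * (α : G)⁻¹)).prod * a)⁻¹ := by rw [← hp]
    _ = 1 := by rw [hcomm]; group

end Lists

section Split

theorem two_odd_split {D : Type*} [Group D] [Finite D] (z : D) (hz : orderOf z = 2)
    (hzc : ∀ d : D, d * z = z * d) (h4 : ¬ 4 ∣ Nat.card D) :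
    ∃ K : Subgroup D, K.Normal ∧ Odd (Nat.card K) ∧ ∀ d : D, d ∈ K ∨ d * z ∈ K := by
  haveI : Fact (Nat.Prime 2) := ⟨Nat.prime_two⟩
  have hzz : z * z = 1 := by rw [← pow_two, ← hz, pow_orderOf_eq_one]
  have hcardP : Nat.card ↥(Subgroup.zpowers z) = 2 := by rw [Nat.card_zpowers, hz]
  have h2 : 2 ∣ Nat.card D := hz ▸ orderOf_dvd_natCard z
  have hfac : (Nat.card D).factorization 2 = 1 := by
    have hne : Nat.card D ≠ 0 := Nat.card_pos.ne'
    have h1 : 1 ≤ (Nat.card D).factorization 2 :=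
      (Nat.prime_two.pow_dvd_iff_le_factorization hne).1 (by simpa using h2)
    have h2' : ¬ 2 ≤ (Nat.card D).factorization 2 := fun h =>
      h4 ((Nat.prime_two.pow_dvd_iff_le_factorization hne).2 h)
    omega
  obtain ⟨P, hPcoe⟩ : ∃ P : Sylow 2 D, (P : Subgroup D) = Subgroup.zpowers z :=
    ⟨Sylow.ofCard (Subgroup.zpowers z) (by rw [hcardP, hfac, pow_one]), rfl⟩
  have hP : Subgroup.normalizer ((P : Subgroup D) : Set D) ≤
      Subgroup.centralizer ((P : Subgroup D) : Set D) := by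
    have : Subgroup.centralizer ((P : Subgroup D) : Set D) = ⊤ := by
      rw [Subgroup.centralizer_eq_top_iff_subset]
      intro x hx
      have hx' : x ∈ Subgroup.zpowers z := by
        rw [← hPcoe]
        exact hx
      rcases mem_zpowers_of_sq hzz hx' with rfl | rfl
      · exact Subgroup.one_mem _
      · exact Subgroup.mem_center_iff.2 hzc
    rw [this]
    exact le_top
  refine ⟨(MonoidHom.transferSylow P hP).ker, inferInstance, ?_, ?_⟩
  · have := MonoidHom.not_dvd_card_ker_transferSylow P hP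
    exact Nat.odd_iff.2 (by omega)
  · intro d
    have hcomp := MonoidHom.ker_transferSylow_isComplement' P hP
    obtain ⟨⟨k, p⟩, hkp, -⟩ := Subgroup.IsComplement.existsUnique hcomp d
    have hp : (p : D) ∈ Subgroup.zpowers z := by
      rw [← hPcoe]
      exact p.2
    have hkp' : (k : D) * (p : D) = d := hkp
    rcases mem_zpowers_of_sq hzz hp with e | e
    · left
      rw [← hkp', e, mul_one]
      exact k.2
    · right
      rw [← hkp', e, mul_assoc, hzz, mul_one]
      exact k.2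

end Split

section QuotA

theorem eqA (M A : Subgroup G) [hn : (A.subgroupOf M).Normal] (x y : ↥M) :
    QuotientGroup.mk' (A.subgroupOf M) x = QuotientGroup.mk' (A.subgroupOf M) y ↔
      (x : G)⁻¹ * (y : G) ∈ A := by
  rw [QuotientGroup.mk'_apply, QuotientGroup.mk'_apply, QuotientGroup.eq, Subgroup.mem_subgroupOf]
  rfl

theorem quotA_ES (M A R : Subgroup G) [hn : (A.subgroupOf M).Normal] (z : G)
    (hRM : R ≤ M) (hzR : z ∈ R) (hzA : z ∉ A) (hzz : z * z = 1)
    (hcen : ∀ x ∈ R, x * z = z * x)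
    (hcomm : ∀ x ∈ R, ∀ y ∈ R, x * y = y * x ∨ x * y = z * (y * x))
    (C : Subgroup G) (hCM : C ≤ M) (hlift : ∀ m ∈ M, ∃ c ∈ C, c⁻¹ * m ∈ A)
    (hcent : ∀ c ∈ C, (∀ x ∈ R, (c * x)⁻¹ * (x * c) ∈ A) → c ∈ A ∨ z⁻¹ * c ∈ A)
    (hnorm : ∀ c ∈ C, (c * z)⁻¹ * (z * c) ∈ A → ∀ x ∈ R, c * x * c⁻¹ ∈ R) :
    ES ((R.subgroupOf M).map (QuotientGroup.mk' (A.subgroupOf M)))
      (QuotientGroup.mk' (A.subgroupOf M) ⟨z, hRM hzR⟩) := by
  have hsurj : ∀ cb : ↥M ⧸ A.subgroupOf M, ∃ c : ↥M, (c : G) ∈ C ∧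
      QuotientGroup.mk' (A.subgroupOf M) c = cb := by
    intro cb
    obtain ⟨m, rfl⟩ := QuotientGroup.mk'_surjective (A.subgroupOf M) cb
    obtain ⟨c, hc, hcm⟩ := hlift m m.2
    exact ⟨⟨c, hCM hc⟩, hc, (eqA M A _ _).2 hcm⟩
  refine ⟨?_, ?_, ?_, ?_, ?_, ?_, ?_⟩
  · exact ⟨⟨z, hRM hzR⟩, Subgroup.mem_subgroupOf.2 hzR, rfl⟩
  · intro e
    have h1 : QuotientGroup.mk' (A.subgroupOf M) 1 =
        QuotientGroup.mk' (A.subgroupOf M) ⟨z, hRM hzR⟩ := by
      rw [map_one, e]
    rw [eqA] at h1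
    apply hzA
    have h1' : (1 : G)⁻¹ * z ∈ A := h1
    rwa [inv_one, one_mul] at h1'
  · rw [← map_mul]
    have : (⟨z, hRM hzR⟩ * ⟨z, hRM hzR⟩ : ↥M) = 1 := Subtype.ext hzz
    rw [this, map_one]
  · rintro _ ⟨x, hx, rfl⟩
    rw [← map_mul, ← map_mul]
    have : (x * ⟨z, hRM hzR⟩ : ↥M) = ⟨z, hRM hzR⟩ * x :=
      Subtype.ext (hcen x (Subgroup.mem_subgroupOf.1 hx))
    rw [this]
  · rintro _ ⟨x, hx, rfl⟩ _ ⟨y, hy, rfl⟩
    rcases hcomm x (Subgroup.mem_subgroupOf.1 hx) y (Subgroup.mem_subgroupOf.1 hy) with e | e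
    · left
      rw [← map_mul, ← map_mul]
      have : x * y = y * x := Subtype.ext e
      rw [this]
    · right
      rw [← map_mul, ← map_mul, ← map_mul]
      have : x * y = ⟨z, hRM hzR⟩ * (y * x) := Subtype.ext e
      rw [this]
  · intro cb hcb
    obtain ⟨c, hcC, rfl⟩ := hsurj cb
    have key : ∀ x ∈ R, ((c : G) * x)⁻¹ * (x * (c : G)) ∈ A := by
      intro x hx
      have h1 := hcb (QuotientGroup.mk' (A.subgroupOf M) ⟨x, hRM hx⟩)
        ⟨⟨x, hRM hx⟩, Subgroup.mem_subgroupOf.2 hx, rfl⟩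
      rw [← map_mul, ← map_mul, eqA] at h1
      exact h1
    rcases hcent c hcC key with e | e
    · left
      rw [QuotientGroup.mk'_apply, QuotientGroup.eq_one_iff, Subgroup.mem_subgroupOf]
      exact e
    · right
      symm
      rw [eqA]
      exact e
  · intro cb hcb xb hxb
    obtain ⟨c, hcC, rfl⟩ := hsurj cb
    obtain ⟨x, hx, rfl⟩ := hxb
    have h1 : ((c : G) * z)⁻¹ * (z * (c : G)) ∈ A := by
      rw [← map_mul, ← map_mul, eqA] at hcb
      exact hcb
    have h2 := hnorm c hcC h1 x (Subgroup.mem_subgroupOf.1 hx)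
    refine ⟨c * x * c⁻¹, Subgroup.mem_subgroupOf.2 h2, ?_⟩
    rw [map_mul, map_mul, map_inv]

theorem pow4_of_ES {Q : Subgroup G} {z : G} (hES : ES Q z) (x : G) (hx : x ∈ Q) :
    x ^ 4 = 1 := by
  have : x ^ 4 = (x * x) * (x * x) := by
    rw [show (4 : ℕ) = 2 + 2 from rfl, pow_add, pow_two]
  rw [this]
  rcases ES_sq hES x hx with e | e
  · rw [e, one_mul]
  · rw [e, hES.zz]

theorem odd_pow4 [Finite G] (A : Subgroup G) (hAodd : Odd (Nat.card ↥A)) (x : G) (hx : x ∈ A)
    (h4 : x ^ 4 = 1) : x = 1 := by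
  have h1 : orderOf x ∣ 4 := orderOf_dvd_of_pow_eq_one h4
  have h2 : orderOf x ∣ Nat.card ↥A := Subgroup.orderOf_dvd_natCard A hx
  have hcop : Nat.Coprime 4 (Nat.card ↥A) := by
    have : Nat.Coprime (2 ^ 2) (Nat.card ↥A) :=
      Nat.Coprime.pow_left 2 (Nat.coprime_two_left.2 hAodd)
    simpa using this
  have h3 := Nat.dvd_gcd h1 h2
  rw [hcop.gcd_eq_one] at h3
  exact orderOf_eq_one_iff.1 (Nat.dvd_one.1 h3)

theorem comm_of_mod [Finite G] (A : Subgroup G) (hAodd : Odd (Nat.card ↥A)) (c r : G)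
    (hr4 : r ^ 4 = 1) (hrA : ∀ α ∈ A, α * r = r * α) (hb : (c * r)⁻¹ * (r * c) ∈ A) :
    c * r = r * c := by
  have hbr : Commute r ((c * r)⁻¹ * (r * c)) := (hrA _ hb).symm
  have e1 : c⁻¹ * r * c = r * ((c * r)⁻¹ * (r * c)) := by group
  have e2 : (c⁻¹ * r * c) ^ 4 = 1 := by
    have : (c⁻¹ * r * c) ^ 4 = c⁻¹ * r ^ 4 * c := by
      have h := conj_pow (a := c⁻¹) (b := r) (i := 4)
      rw [inv_inv] at h
      exact h
    rw [this, hr4]
    group
  rw [e1, hbr.mul_pow, hr4, one_mul] at e2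
  have hb1 := odd_pow4 A hAodd _ hb e2
  calc c * r = (c * r) * ((c * r)⁻¹ * (r * c)) := by rw [hb1, mul_one]
    _ = r * c := by group

end QuotA

section Main

theorem main28 [Finite G] (z : G) (hz : orderOf z = 2) (Q : Subgroup G)
    (hQC : Q ≤ Subgroup.centralizer ({z} : Set G))
    (hF : (Cfsg.generalizedFittingSubgroup ↥(Subgroup.centralizer ({z} : Set G))).map
      (Subgroup.centralizer ({z} : Set G)).subtype = Q)
    (hQ : Cfsg.IsExtraspecial 2 ↥Q) (A : Subgroup G)
    (hA : A ≤ Subgroup.centralizer ({z} : Set G))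
    (hAodd : Odd (Nat.card ↥A)) (R : Subgroup G)
    (hR : R = Q ⊓ Subgroup.centralizer (A : Set G))
    (hO : (Cfsg.oddCore ↥(Subgroup.centralizer ((A ⊔ R : Subgroup G) : Set G))).map
      (Subgroup.centralizer ((A ⊔ R : Subgroup G) : Set G)).subtype ≤ A)
    (h4 : ¬ 4 ∣ Nat.card ↥(Subgroup.centralizer ((A ⊔ R : Subgroup G) : Set G)))
    (g : G) (hgR : g * z * g⁻¹ ∈ R)
    (hgZ : g * z * g⁻¹ ∉ ((Subgroup.center ↥Q).map Q.subtype))
    (M : Subgroup G) (hM : M = Subgroup.centralizer (A : Set G) ⊔ A)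
    [hn : (A.subgroupOf M).Normal] :
    (M ⊓ Subgroup.centralizer ((R ⊔ A : Subgroup G) : Set G)) ⊔ A =
        A ⊔ ((Subgroup.center ↥Q).map Q.subtype) ∧
      Cfsg.IsLargeExtraspecial ((R.subgroupOf M).map (QuotientGroup.mk' (A.subgroupOf M))) ∧
      ∃ x ∈ R ⊔ ((Q).map (MulAut.conj g).toMonoidHom ⊓ Subgroup.centralizer (A : Set G)),
        x * (g * z * g⁻¹) * x⁻¹ = z := by
  obtain ⟨hES, hZc⟩ := es_of_fstar z hz Q hQC hF hQ
  have hAz : ∀ α ∈ A, α * z = z * α := fun α hα =>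
    Subgroup.mem_centralizer_singleton_iff.1 (hA hα)
  have hzCA : z ∈ Subgroup.centralizer (A : Set G) :=
    Subgroup.mem_centralizer_iff.2 (fun α hα => hAz α hα)
  subst hR
  subst hM
  have hzR : z ∈ Q ⊓ Subgroup.centralizer (A : Set G) := ⟨hES.zQ, hzCA⟩
  have haQ : g * z * g⁻¹ ∈ Q := hgR.1
  have haCA : g * z * g⁻¹ ∈ Subgroup.centralizer (A : Set G) := hgR.2
  have haA : ∀ α ∈ A, α * (g * z * g⁻¹) = g * z * g⁻¹ * α :=
    fun α hα => Subgroup.mem_centralizer_iff.1 haCA α hα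
  have haz : g * z * g⁻¹ ≠ z := fun e => hgZ ((hZc _).2 (Or.inr e))
  have ha1 : g * z * g⁻¹ ≠ 1 := fun e => hgZ ((hZc _).2 (Or.inl e))
  obtain ⟨hzQa, -⟩ := large_of_conj' hES hQ g haQ haz
  have hESa : ES (Q.map (MulAut.conj g).toMonoidHom) (g * z * g⁻¹) := ES_conj hES g
  have hu : ∃ u ∈ Q ⊓ Subgroup.centralizer (A : Set G),
      g * z * g⁻¹ * u ≠ u * (g * z * g⁻¹) := by
    by_contra hno
    push Not at hno
    have h1 := center_fixed hES A hAz hAodd (g * z * g⁻¹) haQ haA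
      (fun r hr hrA => hno r ⟨hr, Subgroup.mem_centralizer_iff.2 hrA⟩)
    rcases hES.cent _ h1 with e | e
    · exact ha1 e
    · exact haz e
  obtain ⟨u, huR, hua⟩ := hu
  have hua' : g * z * g⁻¹ * u = z * (u * (g * z * g⁻¹)) :=
    (hES.comm _ haQ u huR.1).resolve_left hua
  have hx' : ∃ x' ∈ Q.map (MulAut.conj g).toMonoidHom ⊓ Subgroup.centralizer (A : Set G),
      z * x' ≠ x' * z := by
    by_contra hno
    push Not at hno
    have h1 := center_fixed hESa A haA hAodd z hzQa hAz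
      (fun r hr hrA => hno r ⟨hr, Subgroup.mem_centralizer_iff.2 hrA⟩)
    rcases hESa.cent _ h1 with e | e
    · exact hES.z1 e
    · exact haz e.symm
  obtain ⟨x', hx'R, hx'z⟩ := hx'
  have hx'z' : z * x' = g * z * g⁻¹ * (x' * z) :=
    (hESa.comm z hzQa x' hx'R.1).resolve_left hx'z
  have h1 : u * (g * z * g⁻¹) * u⁻¹ = z * (g * z * g⁻¹) := hES.conj_of_anti hua'
  have h2 : x' * z * x'⁻¹ = g * z * g⁻¹ * z := hESa.conj_of_anti hx'z'
  have hxa : (x' * u) * (g * z * g⁻¹) * (x' * u)⁻¹ = z := by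
    calc (x' * u) * (g * z * g⁻¹) * (x' * u)⁻¹
        = x' * (u * (g * z * g⁻¹) * u⁻¹) * x'⁻¹ := by group
      _ = x' * (z * (g * z * g⁻¹)) * x'⁻¹ := by rw [h1]
      _ = (x' * z * x'⁻¹) * (x' * (g * z * g⁻¹)) * x'⁻¹ := by group
      _ = (g * z * g⁻¹ * z) * (g * z * g⁻¹ * x') * x'⁻¹ := by rw [h2, hESa.cen x' hx'R.1]
      _ = (g * z * g⁻¹ * z) * (g * z * g⁻¹) := by group
      _ = (z * (g * z * g⁻¹)) * (g * z * g⁻¹) := by rw [hES.cen _ haQ]
      _ = z := by rw [mul_assoc, hESa.zz, mul_one]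
  -- the structure of `D = C_G(A ⊔ R)`
  have hzD : z ∈ Subgroup.centralizer
      ((A ⊔ (Q ⊓ Subgroup.centralizer (A : Set G)) : Subgroup G) : Set G) := by
    rw [Subgroup.mem_centralizer_iff]
    intro h hh
    have hle : A ⊔ (Q ⊓ Subgroup.centralizer (A : Set G)) ≤
        Subgroup.centralizer ({z} : Set G) := sup_le hA (inf_le_left.trans hQC)
    exact Subgroup.mem_centralizer_singleton_iff.1 (hle hh)
  have hD : ∀ d ∈ Subgroup.centralizer
      ((A ⊔ (Q ⊓ Subgroup.centralizer (A : Set G)) : Subgroup G) : Set G),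
      d ∈ A ∨ d * z ∈ A := by
    intro d hd
    have hzc : ∀ d' : ↥(Subgroup.centralizer
        ((A ⊔ (Q ⊓ Subgroup.centralizer (A : Set G)) : Subgroup G) : Set G)),
        d' * ⟨z, hzD⟩ = ⟨z, hzD⟩ * d' := by
      intro d'
      apply Subtype.ext
      have := Subgroup.mem_centralizer_iff.1 d'.2 z (Subgroup.mem_sup_right hzR)
      exact this.symm
    have hz' : orderOf (⟨z, hzD⟩ : ↥(Subgroup.centralizer
        ((A ⊔ (Q ⊓ Subgroup.centralizer (A : Set G)) : Subgroup G) : Set G))) = 2 := by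
      rw [← hz]
      exact Subgroup.orderOf_mk z hzD
    obtain ⟨K, hKn, hKodd, hK⟩ := two_odd_split _ hz' hzc h4
    have hKO : K ≤ Cfsg.oddCore ↥(Subgroup.centralizer
        ((A ⊔ (Q ⊓ Subgroup.centralizer (A : Set G)) : Subgroup G) : Set G)) := by
      show K ≤ sSup {N : Subgroup ↥(Subgroup.centralizer
        ((A ⊔ (Q ⊓ Subgroup.centralizer (A : Set G)) : Subgroup G) : Set G)) |
          N.Normal ∧ (Nat.card N).Coprime 2}
      exact le_sSup ⟨hKn, Nat.coprime_two_right.2 hKodd⟩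
    have hKA : ∀ k : ↥(Subgroup.centralizer
        ((A ⊔ (Q ⊓ Subgroup.centralizer (A : Set G)) : Subgroup G) : Set G)),
        k ∈ K → (k : G) ∈ A := fun k hk => hO ⟨k, hKO hk, rfl⟩
    rcases hK ⟨d, hd⟩ with h | h
    · left
      exact hKA _ h
    · right
      exact hKA _ h
  refine ⟨?_, ?_, x' * u, Subgroup.mul_mem _ (Subgroup.mem_sup_right hx'R)
    (Subgroup.mem_sup_left huR), hxa⟩
  · apply le_antisymm
    · apply sup_le _ le_sup_left
      intro d hd
      have hd' : d ∈ Subgroup.centralizer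
          ((A ⊔ (Q ⊓ Subgroup.centralizer (A : Set G)) : Subgroup G) : Set G) := by
        rw [sup_comm]
        exact hd.2
      rcases hD d hd' with h | h
      · exact Subgroup.mem_sup_left h
      · have : d = (d * z) * z := by rw [mul_assoc, hES.zz, mul_one]
        rw [this]
        exact Subgroup.mul_mem _ (Subgroup.mem_sup_left h)
          (Subgroup.mem_sup_right ((hZc z).2 (Or.inr rfl)))
    · apply sup_le le_sup_right
      intro x hx
      rcases (hZc x).1 hx with rfl | rfl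
      · exact Subgroup.one_mem _
      · apply Subgroup.mem_sup_left
        refine ⟨Subgroup.mem_sup_left hzCA, ?_⟩
        rw [sup_comm]
        exact hzD
  · have hCM : Subgroup.centralizer (A : Set G) ≤ Subgroup.centralizer (A : Set G) ⊔ A :=
      le_sup_left
    have hRM : Q ⊓ Subgroup.centralizer (A : Set G) ≤ Subgroup.centralizer (A : Set G) ⊔ A :=
      inf_le_right.trans hCM
    have hzA : z ∉ A := fun h =>
      hES.z1 (odd_pow4 A hAodd z h (pow4_of_ES hES z hES.zQ))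
    have hlift : ∀ m ∈ Subgroup.centralizer (A : Set G) ⊔ A,
        ∃ c ∈ Subgroup.centralizer (A : Set G), c⁻¹ * m ∈ A := by
      intro m hm
      have hm' : m ∈ ((Subgroup.centralizer (A : Set G) ⊔ A : Subgroup G) : Set G) := hm
      rw [Subgroup.coe_mul_of_left_le_normalizer_right _ _
        (Subgroup.centralizer_le_normalizer _)] at hm'
      obtain ⟨c, hc, α, hα, rfl⟩ := hm'
      refine ⟨c, hc, ?_⟩
      have : c⁻¹ * (c * α) = α := by group
      rw [this]
      exact hα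
    have hcent : ∀ c ∈ Subgroup.centralizer (A : Set G),
        (∀ x ∈ Q ⊓ Subgroup.centralizer (A : Set G), (c * x)⁻¹ * (x * c) ∈ A) →
          c ∈ A ∨ z⁻¹ * c ∈ A := by
      intro c hc hall
      have hcR : ∀ x ∈ Q ⊓ Subgroup.centralizer (A : Set G), c * x = x * c := fun x hx =>
        comm_of_mod A hAodd c x (pow4_of_ES hES x hx.1)
          (fun α hα => Subgroup.mem_centralizer_iff.1 hx.2 α hα) (hall x hx)
      have hcD : c ∈ Subgroup.centralizer
          ((A ⊔ (Q ⊓ Subgroup.centralizer (A : Set G)) : Subgroup G) : Set G) := by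
        rw [Subgroup.mem_centralizer_iff]
        intro h hh
        have hle : A ⊔ (Q ⊓ Subgroup.centralizer (A : Set G)) ≤
            Subgroup.centralizer ({c} : Set G) := sup_le
          (fun α hα => Subgroup.mem_centralizer_singleton_iff.2
            (Subgroup.mem_centralizer_iff.1 hc α hα))
          (fun x hx => Subgroup.mem_centralizer_singleton_iff.2 (hcR x hx).symm)
        exact Subgroup.mem_centralizer_singleton_iff.1 (hle hh)
      rcases hD c hcD with h | h
      · exact Or.inl h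
      · right
        rw [hES.zinv, ← hcR z hzR]
        exact h
    have hnorm : ∀ c ∈ Subgroup.centralizer (A : Set G), (c * z)⁻¹ * (z * c) ∈ A →
        ∀ x ∈ Q ⊓ Subgroup.centralizer (A : Set G),
          c * x * c⁻¹ ∈ Q ⊓ Subgroup.centralizer (A : Set G) := by
      intro c hc h x hx
      have hcz : c * z = z * c :=
        comm_of_mod A hAodd c z (pow4_of_ES hES z hES.zQ) hAz h
      exact ⟨hES.norm c hcz x hx.1,
        Subgroup.mul_mem _ (Subgroup.mul_mem _ hc hx.2) (Subgroup.inv_mem _ hc)⟩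
    have hESq := quotA_ES (Subgroup.centralizer (A : Set G) ⊔ A) A
      (Q ⊓ Subgroup.centralizer (A : Set G)) z hRM hzR hzA hES.zz
      (fun x hx => hES.cen x hx.1) (fun x hx y hy => hES.comm x hx.1 y hy.1)
      (Subgroup.centralizer (A : Set G)) hCM hlift hcent hnorm
    have hna : ∃ a ∈ ((Q ⊓ Subgroup.centralizer (A : Set G)).subgroupOf
          (Subgroup.centralizer (A : Set G) ⊔ A)).map
          (QuotientGroup.mk' (A.subgroupOf (Subgroup.centralizer (A : Set G) ⊔ A))),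
        ∃ b ∈ ((Q ⊓ Subgroup.centralizer (A : Set G)).subgroupOf
          (Subgroup.centralizer (A : Set G) ⊔ A)).map
          (QuotientGroup.mk' (A.subgroupOf (Subgroup.centralizer (A : Set G) ⊔ A))),
          a * b ≠ b * a := by
      refine ⟨_, ⟨⟨g * z * g⁻¹, hRM hgR⟩, Subgroup.mem_subgroupOf.2 hgR, rfl⟩,
        _, ⟨⟨u, hRM huR⟩, Subgroup.mem_subgroupOf.2 huR, rfl⟩, ?_⟩
      intro e
      rw [← map_mul, ← map_mul, eqA] at e
      have e' : (g * z * g⁻¹ * u)⁻¹ * (u * (g * z * g⁻¹)) ∈ A := e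
      rw [hua'] at e'
      have e'' : (z * (u * (g * z * g⁻¹)))⁻¹ * (u * (g * z * g⁻¹)) = z := by
        have hc := hES.cen (u * (g * z * g⁻¹)) (Q.mul_mem huR.1 haQ)
        calc (z * (u * (g * z * g⁻¹)))⁻¹ * (u * (g * z * g⁻¹))
            = (u * (g * z * g⁻¹))⁻¹ * z⁻¹ * (u * (g * z * g⁻¹)) := by group
          _ = (u * (g * z * g⁻¹))⁻¹ * (z * (u * (g * z * g⁻¹))) := by rw [hES.zinv]; group
          _ = (u * (g * z * g⁻¹))⁻¹ * ((u * (g * z * g⁻¹)) * z) := by rw [hc]
          _ = z := by group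
      rw [e''] at e'
      exact hzA e'
    have hL1q := extraspecial_of_ES hESq hna
    have hxM : (x' * u)⁻¹ ∈ Subgroup.centralizer (A : Set G) ⊔ A :=
      hCM (Subgroup.inv_mem _ (Subgroup.mul_mem _ hx'R.2 huR.2))
    have hgbar : QuotientGroup.mk' (A.subgroupOf (Subgroup.centralizer (A : Set G) ⊔ A))
          ⟨(x' * u)⁻¹, hxM⟩ *
        QuotientGroup.mk' (A.subgroupOf (Subgroup.centralizer (A : Set G) ⊔ A))
          ⟨z, hRM hzR⟩ *
        (QuotientGroup.mk' (A.subgroupOf (Subgroup.centralizer (A : Set G) ⊔ A))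
          ⟨(x' * u)⁻¹, hxM⟩)⁻¹ =
        QuotientGroup.mk' (A.subgroupOf (Subgroup.centralizer (A : Set G) ⊔ A))
          ⟨g * z * g⁻¹, hRM hgR⟩ := by
      rw [← map_inv, ← map_mul, ← map_mul]
      have hsub : ((⟨(x' * u)⁻¹, hxM⟩ : ↥(Subgroup.centralizer (A : Set G) ⊔ A)) *
          ⟨z, hRM hzR⟩ *
          (⟨(x' * u)⁻¹, hxM⟩ : ↥(Subgroup.centralizer (A : Set G) ⊔ A))⁻¹) =
          ⟨g * z * g⁻¹, hRM hgR⟩ := by
        apply Subtype.ext
        show (x' * u)⁻¹ * z * (x' * u)⁻¹⁻¹ = g * z * g⁻¹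
        have e3 : (x' * u)⁻¹ * z * (x' * u)⁻¹⁻¹ =
            (x' * u)⁻¹ * ((x' * u) * (g * z * g⁻¹) * (x' * u)⁻¹) * (x' * u) := by
          rw [hxa]
          group
        rw [e3]
        group
      rw [hsub]
    refine (large_of_conj' hESq hL1q
      (QuotientGroup.mk' (A.subgroupOf (Subgroup.centralizer (A : Set G) ⊔ A))
        ⟨(x' * u)⁻¹, hxM⟩) ?_ ?_).2
    · rw [hgbar]
      exact ⟨⟨g * z * g⁻¹, hRM hgR⟩, Subgroup.mem_subgroupOf.2 hgR, rfl⟩
    · rw [hgbar]
      intro e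
      rw [eqA] at e
      have e' : (g * z * g⁻¹)⁻¹ * z ∈ A := e
      have h4' := pow4_of_ES hES _ (Q.mul_mem (Q.inv_mem haQ) hES.zQ)
      have h5 := odd_pow4 A hAodd _ e' h4'
      apply haz
      calc g * z * g⁻¹ = (g * z * g⁻¹) * ((g * z * g⁻¹)⁻¹ * z) := by rw [h5, mul_one]
        _ = z := by group

end Main

end Cfsg.Agent.Lib.helper6.ESOdd
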