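import Mathlib
import Cfsg.Prelude.Def_Transfer
import Cfsg.Prelude.Def_KGroupFacts
import Cfsg.Prelude.Def_Classical

set_option autoImplicit false

namespace Cfsg.Agent.Lib.helper6.ESOut

open scoped commutatorElement

variable {E : Type*} [Group E]

/-- elementwise description of an extraspecial 2-group with central involution `z` -/
structure XS (z : E) : Prop where
  z1 : z ≠ 1
  zz : z * z = 1
  cen : ∀ x : E, x * z = z * x
  comm : ∀ x y : E, x * y = y * x ∨ x * y = z * (y * x)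
  cent : ∀ c : E, (∀ x : E, c * x = x * c) → c = 1 ∨ c = z

open Classical in
/-- the commutator form -/
noncomputable def Bf (x y : E) : ZMod 2 := if x * y = y * x then 0 else 1

open Classical in
/-- the squaring form -/
noncomputable def qf (x : E) : ZMod 2 := if x * x = 1 then 0 else 1

theorem z2_cases : ∀ a : ZMod 2, a = 0 ∨ a = 1 := by decide

theorem z2_add_self : ∀ a : ZMod 2, a + a = 0 := by decide

theorem z2_cancel : ∀ a b : ZMod 2, 0 = a + b → b = a := by decide

theorem Bf_of_comm {x y : E} (e : x * y = y * x) : Bf x y = 0 := by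
  unfold Bf
  rw [if_pos e]

theorem Bf_of_not {x y : E} (e : x * y ≠ y * x) : Bf x y = 1 := by
  unfold Bf
  rw [if_neg e]

theorem Bf_eq_zero {x y : E} : Bf x y = 0 ↔ x * y = y * x := by
  constructor
  · intro hb
    by_contra e
    rw [Bf_of_not e] at hb
    exact absurd hb (by decide)
  · exact Bf_of_comm

variable {z : E}

theorem anti_ne (h : XS z) {x y : E} (e : x * y = z * (y * x)) : x * y ≠ y * x := by
  intro e'
  apply h.z1
  calc z = (z * (y * x)) * (y * x)⁻¹ := by group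
    _ = (x * y) * (y * x)⁻¹ := by rw [← e]
    _ = 1 := by rw [e']; group

theorem Bf_of_anti (h : XS z) {x y : E} (e : x * y = z * (y * x)) : Bf x y = 1 :=
  Bf_of_not (anti_ne h e)

theorem Bf_cases (h : XS z) (x y : E) :
    (x * y = y * x ∧ Bf x y = 0) ∨ (x * y = z * (y * x) ∧ Bf x y = 1) := by
  rcases h.comm x y with e | e
  · exact Or.inl ⟨e, Bf_of_comm e⟩
  · exact Or.inr ⟨e, Bf_of_anti h e⟩

theorem Bf_eq_one (h : XS z) {x y : E} : Bf x y = 1 ↔ x * y = z * (y * x) := by
  constructor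
  · intro hb
    rcases Bf_cases h x y with ⟨_, b⟩ | ⟨e, _⟩
    · rw [b] at hb
      exact absurd hb (by decide)
    · exact e
  · exact Bf_of_anti h

theorem Bf_symm (x y : E) : Bf x y = Bf y x := by
  by_cases e : x * y = y * x
  · rw [Bf_of_comm e, Bf_of_comm e.symm]
  · rw [Bf_of_not e, Bf_of_not (fun e' => e e'.symm)]

theorem Bf_self (x : E) : Bf x x = 0 := Bf_of_comm rfl

theorem Bf_one_right (x : E) : Bf x 1 = 0 := Bf_of_comm (by rw [mul_one, one_mul])

theorem Bf_one_left (x : E) : Bf 1 x = 0 := Bf_of_comm (by rw [mul_one, one_mul])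

theorem Bf_z_right (h : XS z) (x : E) : Bf x z = 0 := Bf_of_comm (h.cen x)

theorem Bf_z_left (h : XS z) (x : E) : Bf z x = 0 := Bf_of_comm (h.cen x).symm

theorem Bf_mul_left (h : XS z) (x y w : E) : Bf (x * y) w = Bf x w + Bf y w := by
  rcases Bf_cases h x w with ⟨e1, b1⟩ | ⟨e1, b1⟩ <;>
    rcases Bf_cases h y w with ⟨e2, b2⟩ | ⟨e2, b2⟩ <;> rw [b1, b2]
  · have : (x * y) * w = w * (x * y) := by
      calc (x * y) * w = x * (y * w) := by group
        _ = x * (w * y) := by rw [e2]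
        _ = (x * w) * y := by group
        _ = (w * x) * y := by rw [e1]
        _ = w * (x * y) := by group
    rw [Bf_of_comm this]
    decide
  · have : (x * y) * w = z * (w * (x * y)) := by
      calc (x * y) * w = x * (y * w) := by group
        _ = x * (z * (w * y)) := by rw [e2]
        _ = (x * z) * (w * y) := by group
        _ = (z * x) * (w * y) := by rw [h.cen x]
        _ = z * ((x * w) * y) := by group
        _ = z * ((w * x) * y) := by rw [e1]
        _ = z * (w * (x * y)) := by group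
    rw [Bf_of_anti h this]
    decide
  · have : (x * y) * w = z * (w * (x * y)) := by
      calc (x * y) * w = x * (y * w) := by group
        _ = x * (w * y) := by rw [e2]
        _ = (x * w) * y := by group
        _ = (z * (w * x)) * y := by rw [e1]
        _ = z * (w * (x * y)) := by group
    rw [Bf_of_anti h this]
    decide
  · have : (x * y) * w = w * (x * y) := by
      calc (x * y) * w = x * (y * w) := by group
        _ = x * (z * (w * y)) := by rw [e2]
        _ = (x * z) * (w * y) := by group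
        _ = (z * x) * (w * y) := by rw [h.cen x]
        _ = z * ((x * w) * y) := by group
        _ = z * ((z * (w * x)) * y) := by rw [e1]
        _ = (z * z) * (w * (x * y)) := by group
        _ = w * (x * y) := by rw [h.zz, one_mul]
    rw [Bf_of_comm this]
    decide

theorem Bf_mul_right (h : XS z) (w x y : E) : Bf w (x * y) = Bf w x + Bf w y := by
  rw [Bf_symm, Bf_mul_left h, Bf_symm x, Bf_symm y]

theorem Bf_inv_left (h : XS z) (x w : E) : Bf x⁻¹ w = Bf x w := by
  have := Bf_mul_left h x x⁻¹ w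
  rw [mul_inv_cancel, Bf_one_left] at this
  exact z2_cancel _ _ this

theorem Bf_inv_right (h : XS z) (w x : E) : Bf w x⁻¹ = Bf w x := by
  rw [Bf_symm, Bf_inv_left h, Bf_symm]

theorem sq_cases (h : XS z) (x : E) : x * x = 1 ∨ x * x = z := by
  apply h.cent
  intro y
  rcases h.comm x y with e | e
  · calc x * x * y = x * (x * y) := by group
      _ = x * (y * x) := by rw [e]
      _ = (x * y) * x := by group
      _ = y * x * x := by rw [e]
      _ = y * (x * x) := by group
  · calc x * x * y = x * (x * y) := by group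
      _ = x * (z * (y * x)) := by rw [e]
      _ = (x * z) * (y * x) := by group
      _ = z * x * (y * x) := by rw [h.cen x]
      _ = z * ((x * y) * x) := by group
      _ = z * (z * (y * x) * x) := by rw [e]
      _ = (z * z) * (y * (x * x)) := by group
      _ = y * (x * x) := by rw [h.zz, one_mul]

theorem qf_of_one {x : E} (e : x * x = 1) : qf x = 0 := by
  unfold qf
  rw [if_pos e]

theorem qf_of_not {x : E} (e : x * x ≠ 1) : qf x = 1 := by
  unfold qf
  rw [if_neg e]

theorem qf_of_z (h : XS z) {x : E} (e : x * x = z) : qf x = 1 :=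
  qf_of_not (fun e' => h.z1 (e.symm.trans e'))

theorem qf_cases (h : XS z) (x : E) :
    (x * x = 1 ∧ qf x = 0) ∨ (x * x = z ∧ qf x = 1) := by
  rcases sq_cases h x with e | e
  · exact Or.inl ⟨e, qf_of_one e⟩
  · exact Or.inr ⟨e, qf_of_z h e⟩

theorem qf_eq_zero {x : E} : qf x = 0 ↔ x * x = 1 := by
  constructor
  · intro hb
    by_contra e
    rw [qf_of_not e] at hb
    exact absurd hb (by decide)
  · exact qf_of_one

theorem qf_one : qf (1 : E) = 0 := qf_of_one (mul_one 1)

theorem qf_z (h : XS z) : qf z = 0 := qf_of_one h.zz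

theorem sq_mul_comm {x y : E} (e : x * y = y * x) : (x * y) * (x * y) = (x * x) * (y * y) := by
  calc (x * y) * (x * y) = x * (y * x) * y := by group
    _ = x * (x * y) * y := by rw [e]
    _ = (x * x) * (y * y) := by group

theorem sq_mul_anti (h : XS z) {x y : E} (e : x * y = z * (y * x)) :
    (x * y) * (x * y) = z * ((x * x) * (y * y)) := by
  have e' : y * x = z * (x * y) := by rw [e, ← mul_assoc, h.zz, one_mul]
  calc (x * y) * (x * y) = x * (y * x) * y := by group
    _ = x * (z * (x * y)) * y := by rw [e']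
    _ = (x * z) * (x * y) * y := by group
    _ = (z * x) * (x * y) * y := by rw [h.cen x]
    _ = z * ((x * x) * (y * y)) := by group

theorem qf_mul (h : XS z) (x y : E) : qf (x * y) = qf x + qf y + Bf x y := by
  rcases qf_cases h x with ⟨ex, qx⟩ | ⟨ex, qx⟩ <;>
    rcases qf_cases h y with ⟨ey, qy⟩ | ⟨ey, qy⟩ <;>
    rcases Bf_cases h x y with ⟨e, b⟩ | ⟨e, b⟩ <;> rw [qx, qy, b]
  · rw [qf_of_one (by rw [sq_mul_comm e, ex, ey, one_mul])]
    decide
  · rw [qf_of_z h (by rw [sq_mul_anti h e, ex, ey, one_mul, mul_one])]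
    decide
  · rw [qf_of_z h (by rw [sq_mul_comm e, ex, ey, one_mul])]
    decide
  · rw [qf_of_one (by rw [sq_mul_anti h e, ex, ey, one_mul, h.zz])]
    decide
  · rw [qf_of_z h (by rw [sq_mul_comm e, ex, ey, mul_one])]
    decide
  · rw [qf_of_one (by rw [sq_mul_anti h e, ex, ey, mul_one, h.zz])]
    decide
  · rw [qf_of_one (by rw [sq_mul_comm e, ex, ey, h.zz])]
    decide
  · rw [qf_of_z h (by rw [sq_mul_anti h e, ex, ey, h.zz, mul_one])]
    decide

theorem exists_XS [Finite E] (hE : Cfsg.IsExtraspecial 2 E) : ∃ z : E, XS z := by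
  obtain ⟨y0, hy01, hy0u⟩ := (Nat.card_eq_two_iff' (1 : ↥(Subgroup.center E))).1 hE.2
  have hcen : ∀ c : E, c ∈ Subgroup.center E → c = 1 ∨ c = (y0 : E) := by
    intro c hc
    by_cases h1 : c = 1
    · exact Or.inl h1
    · right
      have := hy0u ⟨c, hc⟩ (fun h => h1 (congrArg Subtype.val h))
      exact congrArg Subtype.val this
  have hz1 : (y0 : E) ≠ 1 := fun h => hy01 (Subtype.ext h)
  have hzc : ∀ x : E, x * (y0 : E) = (y0 : E) * x :=
    fun x => Subgroup.mem_center_iff.1 y0.2 x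
  refine ⟨y0, hz1, ?_, hzc, ?_, ?_⟩
  · rcases hcen _ (Subgroup.mul_mem _ y0.2 y0.2) with e | e
    · exact e
    · exfalso
      apply hz1
      calc (y0 : E) = ((y0 : E) * y0) * (y0 : E)⁻¹ := by group
        _ = 1 := by rw [e]; group
  · intro x y
    have hcm : ⁅x, y⁆ ∈ commutator E := by
      rw [commutator_def]
      exact Subgroup.commutator_mem_commutator (Subgroup.mem_top _) (Subgroup.mem_top _)
    rw [hE.1.2.2] at hcm
    have h2 : ⁅x, y⁆ = x * y * x⁻¹ * y⁻¹ := rfl
    rw [h2] at hcm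
    rcases hcen _ hcm with h1 | h1
    · left
      calc x * y = (x * y * x⁻¹ * y⁻¹) * (y * x) := by group
        _ = y * x := by rw [h1, one_mul]
    · right
      calc x * y = (x * y * x⁻¹ * y⁻¹) * (y * x) := by group
        _ = (y0 : E) * (y * x) := by rw [h1]
  · intro c hc
    exact hcen c (Subgroup.mem_center_iff.2 (fun g => (hc g).symm))

section Coord

variable {z : E} {ι : Type} [Fintype ι] [DecidableEq ι]

/-- a hyperbolic basis of `E` modulo its centre -/
structure HB (z : E) (σ : ι → ι) (u : ι → E) : Prop where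
  σσ : ∀ k, σ (σ k) = k
  gram : ∀ k l, Bf (u k) (u l) = if l = σ k then 1 else 0
  complete : ∀ f : E, (∀ k, Bf f (u k) = 0) → f = 1 ∨ f = z

/-- coordinates with respect to a hyperbolic basis -/
noncomputable def cvec (σ : ι → ι) (u : ι → E) (e : E) : ι → ZMod 2 := fun k => Bf e (u (σ k))

variable {σ : ι → ι} {u : ι → E}

theorem cvec_mul (h : XS z) (e f : E) : cvec σ u (e * f) = cvec σ u e + cvec σ u f := by
  funext k
  exact Bf_mul_left h e f _

theorem cvec_one : cvec σ u (1 : E) = 0 := by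
  funext k
  exact Bf_one_left _

theorem cvec_z (h : XS z) : cvec σ u z = 0 := by
  funext k
  exact Bf_z_left h _

theorem cvec_inv (h : XS z) (e : E) : cvec σ u e⁻¹ = cvec σ u e := by
  funext k
  exact Bf_inv_left h e _

theorem cvec_eq_zero (h : XS z) (hb : HB z σ u) (e : E) : cvec σ u e = 0 ↔ e = 1 ∨ e = z := by
  constructor
  · intro he
    apply hb.complete
    intro k
    have h1 : cvec σ u e (σ k) = 0 := by rw [he]; rfl
    have h2 : cvec σ u e (σ k) = Bf e (u (σ (σ k))) := rfl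
    rw [h2, hb.σσ] at h1
    exact h1
  · rintro (rfl | rfl)
    · exact cvec_one
    · exact cvec_z h

theorem cvec_eq (h : XS z) (hb : HB z σ u) (e f : E) (hef : cvec σ u e = cvec σ u f) :
    f = e ∨ f = z * e := by
  have h0 : cvec σ u (f * e⁻¹) = 0 := by
    rw [cvec_mul h, cvec_inv h, hef]
    funext k
    exact z2_add_self _
  rcases (cvec_eq_zero h hb _).1 h0 with e1 | e1
  · left
    calc f = (f * e⁻¹) * e := by group
      _ = e := by rw [e1, one_mul]
  · right
    calc f = (f * e⁻¹) * e := by group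
      _ = z * e := by rw [e1]

theorem cvec_u (hb : HB z σ u) (k : ι) : cvec σ u (u k) = Pi.single k 1 := by
  funext l
  show Bf (u k) (u (σ l)) = _
  rw [hb.gram]
  by_cases hl : l = k
  · subst hl
    rw [if_pos rfl, Pi.single_eq_same]
  · rw [Pi.single_eq_of_ne hl, if_neg]
    intro e
    apply hl
    have := congrArg σ e
    rwa [hb.σσ, hb.σσ] at this

theorem surj'' (h : XS z) (hb : HB z σ u) (v : ι → ZMod 2) :
    ∃ e : E, cvec σ u e = v ∧ ∀ P : E → Prop, P 1 → (∀ k, P (u k)) →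
      (∀ a b, P a → P b → P (a * b)) → P e := by
  have key := Finset.sum_induction (s := Finset.univ) (fun i => Pi.single i (v i))
    (fun w : ι → ZMod 2 => ∃ e : E, cvec σ u e = w ∧ ∀ P : E → Prop, P 1 → (∀ k, P (u k)) →
      (∀ a b, P a → P b → P (a * b)) → P e) (by
      rintro a b ⟨ea, ha, pa⟩ ⟨eb, hb', pb⟩
      exact ⟨ea * eb, by rw [cvec_mul h, ha, hb'],
        fun P p1 pu pm => pm _ _ (pa P p1 pu pm) (pb P p1 pu pm)⟩)
    ⟨1, cvec_one, fun P p1 _ _ => p1⟩ (by
      intro k _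
      rcases z2_cases (v k) with e | e
      · rw [e, Pi.single_zero]
        exact ⟨1, cvec_one, fun P p1 _ _ => p1⟩
      · rw [e]
        exact ⟨u k, cvec_u hb k, fun P _ pu _ => pu k⟩)
  rwa [Finset.univ_sum_single] at key

theorem cvec_surj (h : XS z) (hb : HB z σ u) : Function.Surjective (cvec σ u) := by
  intro v
  obtain ⟨e, he, -⟩ := surj'' h hb v
  exact ⟨e, he⟩

theorem hb_ind (h : XS z) (hb : HB z σ u) (P : E → Prop) (p1 : P 1) (pz : P z)
    (pu : ∀ k, P (u k)) (pm : ∀ a b, P a → P b → P (a * b)) (e : E) : P e := by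
  obtain ⟨e', he', hP⟩ := surj'' h hb (cvec σ u e)
  rcases cvec_eq h hb e' e he' with e1 | e1
  · rw [e1]
    exact hP P p1 pu pm
  · rw [e1]
    exact pm _ _ pz (hP P p1 pu pm)

theorem Bf_coord (h : XS z) (hb : HB z σ u) (e f : E) :
    Bf e f = ∑ k, cvec σ u e k * cvec σ u f (σ k) := by
  have key : ∀ f : E, ∀ e : E, Bf e f = ∑ k, cvec σ u e k * cvec σ u f (σ k) := by
    apply hb_ind h hb (fun f => ∀ e : E, Bf e f = ∑ k, cvec σ u e k * cvec σ u f (σ k))
    · intro e
      rw [Bf_one_right, cvec_one]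
      simp
    · intro e
      rw [Bf_z_right h, cvec_z h]
      simp
    · intro l e
      rw [cvec_u hb l, Finset.sum_eq_single (σ l)]
      · rw [hb.σσ, Pi.single_eq_same, mul_one]
        show Bf e (u l) = Bf e (u (σ (σ l)))
        rw [hb.σσ]
      · intro k _ hk
        rw [Pi.single_eq_of_ne, mul_zero]
        intro e'
        apply hk
        rw [← e', hb.σσ]
      · intro hn
        exact absurd (Finset.mem_univ _) hn
    · intro a b ha hb' e
      rw [Bf_mul_right h, ha e, hb' e, ← Finset.sum_add_distrib]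
      apply Finset.sum_congr rfl
      intro k _
      rw [cvec_mul h, Pi.add_apply, mul_add]
  exact key f e

theorem qf_coord (h : XS z) (hb : HB z σ u) (Q : (ι → ZMod 2) → ZMod 2)
    (Q1 : ∀ v w, Q (v + w) = Q v + Q w + ∑ k, v k * w (σ k))
    (Q2 : ∀ k, Q (Pi.single k 1) = qf (u k)) (e : E) : qf e = Q (cvec σ u e) := by
  have Q0 : Q 0 = 0 := by
    have h1 := Q1 0 0
    have h2 : ∑ k : ι, (0 : ι → ZMod 2) k * (0 : ι → ZMod 2) (σ k) = 0 := by simp
    rw [h2, add_zero, add_zero, z2_add_self] at h1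
    exact h1
  apply hb_ind h hb (fun e => qf e = Q (cvec σ u e))
  · rw [qf_one, cvec_one, Q0]
  · rw [qf_z h, cvec_z h, Q0]
  · intro k
    rw [cvec_u hb, Q2]
  · intro a b ha hb'
    rw [qf_mul h, cvec_mul h, Q1, ha, hb', Bf_coord h hb]

theorem aut_z (h : XS z) (α : MulAut E) : α z = z := by
  have hc : ∀ x : E, α z * x = x * α z := by
    intro x
    have h1 := h.cen (α.symm x)
    have h2 := congrArg α h1
    rw [map_mul, map_mul, MulEquiv.apply_symm_apply] at h2
    exact h2.symm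
  rcases h.cent _ hc with e | e
  · exfalso
    apply h.z1
    have := congrArg α.symm e
    rwa [MulEquiv.symm_apply_apply, map_one] at this
  · exact e

theorem Bf_aut (α : MulAut E) (e f : E) : Bf (α e) (α f) = Bf e f := by
  by_cases c : e * f = f * e
  · rw [Bf_of_comm c, Bf_of_comm (by rw [← map_mul, ← map_mul, c])]
  · rw [Bf_of_not c, Bf_of_not]
    intro c'
    apply c
    apply α.injective
    rw [map_mul, map_mul, c']

theorem qf_aut (α : MulAut E) (e : E) : qf (α e) = qf e := by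
  by_cases c : e * e = 1
  · rw [qf_of_one c, qf_of_one (by rw [← map_mul, c, map_one])]
  · rw [qf_of_not c, qf_of_not]
    intro c'
    apply c
    apply α.injective
    rw [map_mul, c', map_one]

/-- the matrix of an automorphism in coordinates -/
noncomputable def Mat (σ : ι → ι) (u : ι → E) (α : MulAut E) : Matrix ι ι (ZMod 2) :=
  Matrix.of fun k l => cvec σ u (α (u l)) k

theorem Mat_mulVec (h : XS z) (hb : HB z σ u) (α : MulAut E) (e : E) :
    (Mat σ u α).mulVec (cvec σ u e) = cvec σ u (α e) := by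
  apply hb_ind h hb (fun e => (Mat σ u α).mulVec (cvec σ u e) = cvec σ u (α e))
  · rw [cvec_one, Matrix.mulVec_zero, map_one, cvec_one]
  · rw [cvec_z h, Matrix.mulVec_zero, aut_z h, cvec_z h]
  · intro l
    rw [cvec_u hb, Matrix.mulVec_single_one]
    rfl
  · intro a b ha hb'
    rw [cvec_mul h, Matrix.mulVec_add, ha, hb', map_mul, cvec_mul h]

theorem mat_ext {M N : Matrix ι ι (ZMod 2)} (hMN : ∀ v, M.mulVec v = N.mulVec v) : M = N := by
  ext i j
  have := congrFun (hMN (Pi.single j 1)) i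
  rw [Matrix.mulVec_single_one, Matrix.mulVec_single_one] at this
  exact this

/-- the matrix representation as a monoid homomorphism -/
noncomputable def MatHom (h : XS z) (hb : HB z σ u) : MulAut E →* Matrix ι ι (ZMod 2) where
  toFun := Mat σ u
  map_one' := by
    apply mat_ext
    intro v
    obtain ⟨e, rfl⟩ := cvec_surj h hb v
    rw [Mat_mulVec h hb, Matrix.one_mulVec]
    rfl
  map_mul' := by
    intro α β
    apply mat_ext
    intro v
    obtain ⟨e, rfl⟩ := cvec_surj h hb v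
    rw [Mat_mulVec h hb, ← Matrix.mulVec_mulVec, Mat_mulVec h hb, Mat_mulVec h hb]
    rfl

/-- the matrix representation into the general linear group -/
noncomputable def MatU (h : XS z) (hb : HB z σ u) : MulAut E →* GL ι (ZMod 2) :=
  (MatHom h hb).toHomUnits

theorem MatU_coe (h : XS z) (hb : HB z σ u) (α : MulAut E) :
    ((MatU h hb α : GL ι (ZMod 2)) : Matrix ι ι (ZMod 2)) = Mat σ u α :=
  MonoidHom.coe_toHomUnits _ _

theorem mem_iso (Q : (ι → ZMod 2) → ZMod 2) (g : GL ι (ZMod 2)) :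
    g ∈ Cfsg.isometryGroup (ZMod 2) Q ↔
      ∀ v, Q ((g : Matrix ι ι (ZMod 2)).mulVec v) = Q v := by
  constructor
  · intro hg v
    have hg' : ∀ u v : ι → ZMod 2, Q ((g : Matrix ι ι (ZMod 2)).mulVec u) = Q u := hg
    exact hg' v v
  · intro hg
    have hg' : ∀ u v : ι → ZMod 2, Q ((g : Matrix ι ι (ZMod 2)).mulVec u) = Q u :=
      fun u _ => hg u
    exact hg'

end Coord

section Lift

variable {z : E} {ι : Type} [Fintype ι] [DecidableEq ι] {σ : ι → ι} {u : ι → E}

theorem z2_polar : ∀ a b c d : ZMod 2, a = b + c + d → d = a + b + c := by decide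

theorem mem_zpowers_sq {G : Type*} [Group G] {d : G} (hd : d * d = 1) {x : G}
    (hx : x ∈ Subgroup.zpowers d) : x = 1 ∨ x = d := by
  obtain ⟨k, rfl⟩ := hx
  rcases Int.even_or_odd k with ⟨m, rfl⟩ | ⟨m, rfl⟩
  · left
    show d ^ (m + m) = 1
    rw [← two_mul, zpow_mul, zpow_two, hd, one_zpow]
  · right
    show d ^ (2 * m + 1) = d
    rw [zpow_add, zpow_mul, zpow_two, hd, one_zpow, one_mul, zpow_one]

theorem lift_exists [Finite E] (h : XS z) (hb : HB z σ u) (Q : (ι → ZMod 2) → ZMod 2)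
    (Q1 : ∀ v w, Q (v + w) = Q v + Q w + ∑ k, v k * w (σ k))
    (Q2 : ∀ k, Q (Pi.single k 1) = qf (u k)) (g : GL ι (ZMod 2))
    (hg : ∀ v, Q ((g : Matrix ι ι (ZMod 2)).mulVec v) = Q v) :
    ∃ α : MulAut E, ∀ e, cvec σ u (α e) = (g : Matrix ι ι (ZMod 2)).mulVec (cvec σ u e) := by
  have hq : ∀ x y : E, cvec σ u y = (g : Matrix ι ι (ZMod 2)).mulVec (cvec σ u x) →
      qf y = qf x := by
    intro x y hxy
    rw [qf_coord h hb Q Q1 Q2 y, hxy, hg, ← qf_coord h hb Q Q1 Q2 x]
  have hB : ∀ x y x' y' : E, cvec σ u y = (g : Matrix ι ι (ZMod 2)).mulVec (cvec σ u x) →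
      cvec σ u y' = (g : Matrix ι ι (ZMod 2)).mulVec (cvec σ u x') → Bf y y' = Bf x x' := by
    intro x y x' y' hxy hxy'
    have h1 : qf (y * y') = qf (x * x') := by
      apply hq
      rw [cvec_mul h, cvec_mul h, Matrix.mulVec_add, hxy, hxy']
    have h2 := qf_mul h y y'
    have h3 := qf_mul h x x'
    rw [z2_polar _ _ _ _ h2, z2_polar _ _ _ _ h3, h1, hq x y hxy, hq x' y' hxy']
  -- the fibre product
  let T : Subgroup (E × E) :=
    { carrier := {p | cvec σ u p.2 = (g : Matrix ι ι (ZMod 2)).mulVec (cvec σ u p.1)}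
      mul_mem' := by
        intro a b ha hb'
        show cvec σ u (a.2 * b.2) = (g : Matrix ι ι (ZMod 2)).mulVec (cvec σ u (a.1 * b.1))
        rw [cvec_mul h, cvec_mul h, Matrix.mulVec_add]
        have ha' : cvec σ u a.2 = (g : Matrix ι ι (ZMod 2)).mulVec (cvec σ u a.1) := ha
        have hb'' : cvec σ u b.2 = (g : Matrix ι ι (ZMod 2)).mulVec (cvec σ u b.1) := hb'
        rw [ha', hb'']
      one_mem' := by
        show cvec σ u (1 : E) = (g : Matrix ι ι (ZMod 2)).mulVec (cvec σ u (1 : E))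
        rw [cvec_one, Matrix.mulVec_zero]
      inv_mem' := by
        intro a ha
        show cvec σ u (a.2)⁻¹ = (g : Matrix ι ι (ZMod 2)).mulVec (cvec σ u (a.1)⁻¹)
        rw [cvec_inv h, cvec_inv h]
        exact ha }
  have hT : ∀ p : E × E, p ∈ T ↔
      cvec σ u p.2 = (g : Matrix ι ι (ZMod 2)).mulVec (cvec σ u p.1) := fun p => Iff.rfl
  have hδT : ((z, z) : E × E) ∈ T := by
    rw [hT]
    show cvec σ u z = (g : Matrix ι ι (ZMod 2)).mulVec (cvec σ u z)
    rw [cvec_z h, Matrix.mulVec_zero]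
  have hδδ : ((z, z) : E × E) * (z, z) = 1 := by
    show ((z * z, z * z) : E × E) = 1
    rw [h.zz]
    rfl
  have hδc : ∀ p : E × E, p * (z, z) = (z, z) * p := by
    intro p
    exact Prod.ext (h.cen p.1) (h.cen p.2)
  have hsq : ∀ t ∈ T, t * t = 1 ∨ t * t = (z, z) := by
    intro t ht
    have h1 := hq t.1 t.2 ((hT t).1 ht)
    rcases qf_cases h t.1 with ⟨e1, q1⟩ | ⟨e1, q1⟩
    · left
      rw [q1] at h1
      exact Prod.ext e1 (qf_eq_zero.1 h1)
    · right
      rw [q1] at h1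
      rcases qf_cases h t.2 with ⟨e2, q2⟩ | ⟨e2, q2⟩
      · rw [q2] at h1
        exact absurd h1 (by decide)
      · exact Prod.ext e1 e2
  have hcm : ∀ t ∈ T, ∀ s ∈ T, t * s = s * t ∨ t * s = (z, z) * (s * t) := by
    intro t ht s hs
    have h1 := hB t.1 t.2 s.1 s.2 ((hT t).1 ht) ((hT s).1 hs)
    rcases Bf_cases h t.1 s.1 with ⟨e1, b1⟩ | ⟨e1, b1⟩
    · left
      rw [b1] at h1
      exact Prod.ext e1 (Bf_eq_zero.1 h1)
    · right
      rw [b1] at h1
      exact Prod.ext e1 ((Bf_eq_one h).1 h1)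
  have hconj : ∀ t ∈ T, ∀ s ∈ T, (t⁻¹ * s * t = s ∨ t⁻¹ * s * t = (z, z) * s) ∧
      (t * s * t⁻¹ = s ∨ t * s * t⁻¹ = (z, z) * s) := by
    intro t ht s hs
    rcases hcm s hs t ht with e | e
    · constructor
      · left
        calc t⁻¹ * s * t = t⁻¹ * (s * t) := by group
          _ = t⁻¹ * (t * s) := by rw [e]
          _ = s := by group
      · left
        calc t * s * t⁻¹ = (t * s) * t⁻¹ := by group
          _ = (s * t) * t⁻¹ := by rw [e]
          _ = s := by group
    · constructor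
      · right
        calc t⁻¹ * s * t = t⁻¹ * (s * t) := by group
          _ = t⁻¹ * ((z, z) * (t * s)) := by rw [e]
          _ = (t⁻¹ * (z, z)) * (t * s) := by group
          _ = ((z, z) * t⁻¹) * (t * s) := by rw [hδc]
          _ = (z, z) * s := by group
      · right
        have e' : t * s = (z, z) * (s * t) := by
          rw [e, ← mul_assoc, hδδ, one_mul]
        calc t * s * t⁻¹ = (t * s) * t⁻¹ := by group
          _ = ((z, z) * (s * t)) * t⁻¹ := by rw [e']
          _ = (z, z) * s := by group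
  -- a maximal subgroup of `T` containing `(z,z)` and avoiding `(1,z)`
  have hP0 : (fun Γ : Subgroup (E × E) => Γ ≤ T ∧ ((z, z) : E × E) ∈ Γ ∧
      ((1, z) : E × E) ∉ Γ) (Subgroup.zpowers ((z, z) : E × E)) := by
    refine ⟨Subgroup.zpowers_le.2 hδT, Subgroup.mem_zpowers _, ?_⟩
    intro hm
    rcases mem_zpowers_sq hδδ hm with e | e
    · exact h.z1 (congrArg Prod.snd e)
    · exact h.z1 (congrArg Prod.fst e).symm
  obtain ⟨Γ, -, hmax⟩ := Finite.exists_le_maximal
    (p := fun Γ : Subgroup (E × E) => Γ ≤ T ∧ ((z, z) : E × E) ∈ Γ ∧ ((1, z) : E × E) ∉ Γ)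
    (a := Subgroup.zpowers ((z, z) : E × E)) hP0
  obtain ⟨hΓT, hδΓ, h1zΓ⟩ : Γ ≤ T ∧ ((z, z) : E × E) ∈ Γ ∧ ((1, z) : E × E) ∉ Γ := hmax.prop
  have hmax' : ∀ Γ' : Subgroup (E × E), (Γ' ≤ T ∧ ((z, z) : E × E) ∈ Γ' ∧
      ((1, z) : E × E) ∉ Γ') → Γ ≤ Γ' → Γ' ≤ Γ := fun Γ' hP hle => hmax.le_of_ge hP hle
  have hΓconj : ∀ t ∈ T, ∀ s ∈ Γ, t⁻¹ * s * t ∈ Γ ∧ t * s * t⁻¹ ∈ Γ := by
    intro t ht s hs
    obtain ⟨c1, c2⟩ := hconj t ht s (hΓT hs)
    constructor
    · rcases c1 with e | e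
      · rw [e]; exact hs
      · rw [e]; exact Γ.mul_mem hδΓ hs
    · rcases c2 with e | e
      · rw [e]; exact hs
      · rw [e]; exact Γ.mul_mem hδΓ hs
  have hΓsq : ∀ t ∈ T, t * t ∈ Γ := by
    intro t ht
    rcases hsq t ht with e | e
    · rw [e]; exact Γ.one_mem
    · rw [e]; exact hδΓ
  have key : ∀ t ∈ T, t ∈ Γ ∨ ((1, z) : E × E) * t ∈ Γ := by
    intro t ht
    by_contra hno
    push Not at hno
    obtain ⟨htΓ, h1ztΓ⟩ := hno
    let Γ' : Subgroup (E × E) :=
      { carrier := {s | s ∈ Γ ∨ s * t ∈ Γ}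
        mul_mem' := by
          intro a b ha hb'
          rcases ha with ha | ha <;> rcases hb' with hb' | hb'
          · left
            exact Γ.mul_mem ha hb'
          · right
            have : a * b * t = a * (b * t) := by group
            rw [this]
            exact Γ.mul_mem ha hb'
          · right
            have : a * b * t = (a * t) * (t⁻¹ * b * t) := by group
            rw [this]
            exact Γ.mul_mem ha (hΓconj t ht b hb').1
          · left
            have : a * b = (a * t) * (t⁻¹ * (b * t) * t) * (t * t)⁻¹ := by group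
            rw [this]
            exact Γ.mul_mem (Γ.mul_mem ha (hΓconj t ht _ hb').1) (Γ.inv_mem (hΓsq t ht))
        one_mem' := Or.inl Γ.one_mem
        inv_mem' := by
          intro a ha
          rcases ha with ha | ha
          · left
            exact Γ.inv_mem ha
          · right
            have : a⁻¹ * t = (t * (a * t)⁻¹ * t⁻¹) * (t * t) := by group
            rw [this]
            exact Γ.mul_mem (hΓconj t ht _ (Γ.inv_mem ha)).2 (hΓsq t ht) }
    have hΓ'mem : ∀ s : E × E, s ∈ Γ' ↔ (s ∈ Γ ∨ s * t ∈ Γ) := fun s => Iff.rfl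
    have hle : Γ ≤ Γ' := fun s hs => (hΓ'mem s).2 (Or.inl hs)
    have htΓ' : t ∈ Γ' := (hΓ'mem t).2 (Or.inr (hΓsq t ht))
    have hP' : Γ' ≤ T ∧ ((z, z) : E × E) ∈ Γ' ∧ ((1, z) : E × E) ∉ Γ' := by
      refine ⟨?_, hle hδΓ, ?_⟩
      · intro s hs
        rcases (hΓ'mem s).1 hs with hs | hs
        · exact hΓT hs
        · have : s = (s * t) * t⁻¹ := by group
          rw [this]
          exact T.mul_mem (hΓT hs) (T.inv_mem ht)
      · intro hm
        rcases (hΓ'mem _).1 hm with hm | hm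
        · exact h1zΓ hm
        · exact h1ztΓ hm
    exact htΓ (hmax' Γ' hP' hle htΓ')
  -- the graph of the automorphism
  have hex : ∀ x : E, ∃ y : E, ((x, y) : E × E) ∈ Γ := by
    intro x
    obtain ⟨y₀, hy₀⟩ := cvec_surj h hb ((g : Matrix ι ι (ZMod 2)).mulVec (cvec σ u x))
    have ht : ((x, y₀) : E × E) ∈ T := (hT _).2 hy₀
    rcases key _ ht with h1 | h1
    · exact ⟨y₀, h1⟩
    · refine ⟨z * y₀, ?_⟩
      have : ((1, z) : E × E) * (x, y₀) = (x, z * y₀) := by
        show ((1 * x, z * y₀) : E × E) = (x, z * y₀)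
        rw [one_mul]
      rw [this] at h1
      exact h1
  have huniq : ∀ x y y' : E, ((x, y) : E × E) ∈ Γ → ((x, y') : E × E) ∈ Γ → y = y' := by
    intro x y y' hy hy'
    have h1 : ((x, y) : E × E)⁻¹ * (x, y') ∈ Γ := Γ.mul_mem (Γ.inv_mem hy) hy'
    have h2 : ((x, y) : E × E)⁻¹ * (x, y') = (1, y⁻¹ * y') := by
      show ((x⁻¹ * x, y⁻¹ * y') : E × E) = (1, y⁻¹ * y')
      rw [inv_mul_cancel]
    rw [h2] at h1
    have h3 := (hT _).1 (hΓT h1)
    have h4 : cvec σ u (y⁻¹ * y') = 0 := by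
      have h5 : cvec σ u (y⁻¹ * y') =
          (g : Matrix ι ι (ZMod 2)).mulVec (cvec σ u (1 : E)) := h3
      rw [h5, cvec_one, Matrix.mulVec_zero]
    rcases (cvec_eq_zero h hb _).1 h4 with e | e
    · calc y = y * (y⁻¹ * y') := by rw [e, mul_one]
        _ = y' := by group
    · exfalso
      rw [e] at h1
      exact h1zΓ h1
  choose f hf using hex
  have hfc : ∀ x, cvec σ u (f x) = (g : Matrix ι ι (ZMod 2)).mulVec (cvec σ u x) :=
    fun x => (hT _).1 (hΓT (hf x))
  have hf1 : f 1 = 1 := (huniq 1 (f 1) 1 (hf 1) Γ.one_mem)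
  have hfm : ∀ x y, f (x * y) = f x * f y := by
    intro x y
    apply huniq (x * y) _ _ (hf (x * y))
    have : ((x * y, f x * f y) : E × E) = (x, f x) * (y, f y) := rfl
    rw [this]
    exact Γ.mul_mem (hf x) (hf y)
  have hginv : ∀ v : ι → ZMod 2, (g : Matrix ι ι (ZMod 2)).mulVec v = 0 → v = 0 := by
    intro v hv
    have h1 : ((g⁻¹ : GL ι (ZMod 2)) : Matrix ι ι (ZMod 2)).mulVec
        ((g : Matrix ι ι (ZMod 2)).mulVec v) = v := by
      rw [Matrix.mulVec_mulVec, ← Units.val_mul, inv_mul_cancel, Units.val_one,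
        Matrix.one_mulVec]
    rw [hv, Matrix.mulVec_zero] at h1
    exact h1.symm
  let fH : E →* E := { toFun := f, map_one' := hf1, map_mul' := hfm }
  have hinj : Function.Injective fH := by
    rw [injective_iff_map_eq_one]
    intro x hx
    have hx' : f x = 1 := hx
    have h1 := hfc x
    rw [hx', cvec_one] at h1
    have h2 := hginv _ h1.symm
    rcases (cvec_eq_zero h hb _).1 h2 with e | e
    · exact e
    · exfalso
      have h3 := hf x
      rw [hx', e] at h3
      apply h1zΓ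
      have : ((1, z) : E × E) = (z, 1) * (z, z) := by
        show ((1, z) : E × E) = (z * z, 1 * z)
        rw [h.zz, one_mul]
      rw [this]
      exact Γ.mul_mem h3 hδΓ
  have hbij : Function.Bijective fH := Finite.injective_iff_bijective.1 hinj
  exact ⟨MulEquiv.ofBijective fH hbij, fun e => hfc e⟩

theorem z2_aba : ∀ a b : ZMod 2, a + b + a = b := by decide

theorem ker_eq (h : XS z) (hb : HB z σ u) : (MatU h hb).ker = Cfsg.Inn E := by
  ext α
  rw [MonoidHom.mem_ker]
  constructor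
  · intro hα
    have hM : Mat σ u α = 1 := by
      rw [← MatU_coe h hb, hα]
      rfl
    have hfix : ∀ e : E, cvec σ u (α e) = cvec σ u e := by
      intro e
      rw [← Mat_mulVec h hb, hM, Matrix.one_mulVec]
    classical
    obtain ⟨a, ha⟩ := cvec_surj h hb (fun k => if α (u (σ k)) = u (σ k) then 0 else 1)
    have haB : ∀ l, Bf a (u l) = if α (u l) = u l then 0 else 1 := by
      intro l
      have h1 := congrFun ha (σ l)
      have h2 : cvec σ u a (σ l) = Bf a (u (σ (σ l))) := rfl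
      rw [h2] at h1
      simp only [hb.σσ] at h1
      exact h1
    have hconj : ∀ e : E, α e = a * e * a⁻¹ := by
      apply hb_ind h hb (fun e => α e = a * e * a⁻¹)
      · rw [map_one]
        group
      · rw [aut_z h]
        calc z = (z * a) * a⁻¹ := by group
          _ = a * z * a⁻¹ := by rw [h.cen a]
      · intro l
        have h1 := haB l
        by_cases c : α (u l) = u l
        · rw [if_pos c] at h1
          have h2 := Bf_eq_zero.1 h1
          rw [c, h2]
          group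
        · rw [if_neg c] at h1
          have h2 := (Bf_eq_one h).1 h1
          rcases cvec_eq h hb (u l) (α (u l)) (hfix (u l)).symm with e1 | e1
          · exact absurd e1 c
          · rw [e1, h2]
            group
      · intro x y hx hy
        rw [map_mul, hx, hy]
        group
    refine ⟨a, ?_⟩
    ext e
    rw [hconj e]
    rfl
  · rintro ⟨a, rfl⟩
    apply Units.ext
    rw [MatU_coe]
    apply mat_ext
    intro v
    obtain ⟨e, rfl⟩ := cvec_surj h hb v
    rw [Mat_mulVec h hb]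
    have h1 : (MulAut.conj a) e = a * e * a⁻¹ := rfl
    rw [h1, cvec_mul h, cvec_mul h, cvec_inv h]
    show _ = (1 : Matrix ι ι (ZMod 2)).mulVec _
    rw [Matrix.one_mulVec]
    funext k
    exact z2_aba _ _

theorem out_equiv [Finite E] (h : XS z) (hb : HB z σ u) (Q : (ι → ZMod 2) → ZMod 2)
    (Q1 : ∀ v w, Q (v + w) = Q v + Q w + ∑ k, v k * w (σ k))
    (Q2 : ∀ k, Q (Pi.single k 1) = qf (u k)) :
    Nonempty (Cfsg.Out E ≃* Cfsg.isometryGroup (ZMod 2) Q) := by
  have hker := ker_eq h hb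
  have hrange : (MatU h hb).range = Cfsg.isometryGroup (ZMod 2) Q := by
    ext g
    rw [mem_iso]
    constructor
    · rintro ⟨α, rfl⟩ v
      obtain ⟨e, rfl⟩ := cvec_surj h hb v
      rw [MatU_coe, Mat_mulVec h hb, ← qf_coord h hb Q Q1 Q2, ← qf_coord h hb Q Q1 Q2, qf_aut]
    · intro hg
      obtain ⟨α, hα⟩ := lift_exists h hb Q Q1 Q2 g hg
      refine ⟨α, ?_⟩
      apply Units.ext
      rw [MatU_coe]
      apply mat_ext
      intro v
      obtain ⟨e, rfl⟩ := cvec_surj h hb v
      rw [Mat_mulVec h hb, hα]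
  exact ⟨(QuotientGroup.quotientMulEquivOfEq hker.symm).trans
    ((QuotientGroup.quotientKerEquivRange (MatU h hb)).trans (MulEquiv.subgroupCongr hrange))⟩

end Lift

section Classify

variable {z : E}

/-- a family of commuting hyperbolic pairs of involutions -/
structure Sys (m : ℕ) (xs ys : Fin m → E) : Prop where
  xy : ∀ i j, Bf (xs i) (ys j) = if i = j then 1 else 0
  xx : ∀ i j, Bf (xs i) (xs j) = 0
  yy : ∀ i j, Bf (ys i) (ys j) = 0
  qx : ∀ i, qf (xs i) = 0
  qy : ∀ i, qf (ys i) = 0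

theorem Sys.cons {m : ℕ} {xs ys : Fin m → E} (hs : Sys m xs ys) (a b : E)
    (hab : Bf a b = 1) (qa : qf a = 0) (qb : qf b = 0)
    (ha : ∀ i, Bf a (xs i) = 0 ∧ Bf a (ys i) = 0)
    (hb : ∀ i, Bf b (xs i) = 0 ∧ Bf b (ys i) = 0) :
    Sys (m + 1) (Fin.cons a xs) (Fin.cons b ys) := by
  refine ⟨?_, ?_, ?_, ?_, ?_⟩
  · intro i j
    refine Fin.cases ?_ (fun i' => ?_) i <;> refine Fin.cases ?_ (fun j' => ?_) j
    · rw [Fin.cons_zero, Fin.cons_zero, if_pos rfl]
      exact hab
    · rw [Fin.cons_zero, Fin.cons_succ, if_neg (Fin.succ_ne_zero j').symm]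
      exact (ha j').2
    · rw [Fin.cons_succ, Fin.cons_zero, if_neg (Fin.succ_ne_zero i'), Bf_symm]
      exact (hb i').1
    · rw [Fin.cons_succ, Fin.cons_succ, hs.xy]
      by_cases e : i' = j'
      · rw [if_pos e, if_pos (by rw [e])]
      · rw [if_neg e, if_neg (fun e' => e (Fin.succ_injective _ e'))]
  · intro i j
    refine Fin.cases ?_ (fun i' => ?_) i <;> refine Fin.cases ?_ (fun j' => ?_) j
    · rw [Fin.cons_zero]
      exact Bf_self a
    · rw [Fin.cons_zero, Fin.cons_succ]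
      exact (ha j').1
    · rw [Fin.cons_succ, Fin.cons_zero, Bf_symm]
      exact (ha i').1
    · rw [Fin.cons_succ, Fin.cons_succ]
      exact hs.xx i' j'
  · intro i j
    refine Fin.cases ?_ (fun i' => ?_) i <;> refine Fin.cases ?_ (fun j' => ?_) j
    · rw [Fin.cons_zero]
      exact Bf_self b
    · rw [Fin.cons_zero, Fin.cons_succ]
      exact (hb j').2
    · rw [Fin.cons_succ, Fin.cons_zero, Bf_symm]
      exact (hb i').2
    · rw [Fin.cons_succ, Fin.cons_succ]
      exact hs.yy i' j'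
  · intro i
    refine Fin.cases ?_ (fun i' => ?_) i
    · rw [Fin.cons_zero]
      exact qa
    · rw [Fin.cons_succ]
      exact hs.qx i'
  · intro i
    refine Fin.cases ?_ (fun i' => ?_) i
    · rw [Fin.cons_zero]
      exact qb
    · rw [Fin.cons_succ]
      exact hs.qy i'

/-- plus-type data for a subgroup `F` -/
def PlusData (z : E) (F : Subgroup E) : Prop :=
  ∃ (m : ℕ) (xs ys : Fin m → E), Sys m xs ys ∧ (∀ i, xs i ∈ F ∧ ys i ∈ F) ∧
    ∀ f ∈ F, (∀ i, Bf f (xs i) = 0 ∧ Bf f (ys i) = 0) → f = 1 ∨ f = z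

/-- minus-type data for a subgroup `F` -/
def MinusData (z : E) (F : Subgroup E) : Prop :=
  ∃ (m : ℕ) (xs ys : Fin m → E) (x₀ y₀ : E), Sys m xs ys ∧ (∀ i, xs i ∈ F ∧ ys i ∈ F) ∧
    x₀ ∈ F ∧ y₀ ∈ F ∧ Bf x₀ y₀ = 1 ∧ qf x₀ = 1 ∧ qf y₀ = 1 ∧
    (∀ i, Bf x₀ (xs i) = 0 ∧ Bf x₀ (ys i) = 0) ∧ (∀ i, Bf y₀ (xs i) = 0 ∧ Bf y₀ (ys i) = 0) ∧
    ∀ f ∈ F, (∀ i, Bf f (xs i) = 0 ∧ Bf f (ys i) = 0) → Bf f x₀ = 0 → Bf f y₀ = 0 →
      f = 1 ∨ f = z

theorem z2_four : ∀ p r s t : ZMod 2, p + s = 0 → r + s = 0 → p + r + t = 0 →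
    p + r + s + t = 0 → p = 0 ∧ r = 0 ∧ s = 0 ∧ t = 0 := by decide

theorem classify [Finite E] (h : XS z) : ∀ (N : ℕ) (F : Subgroup E), Nat.card F ≤ N → z ∈ F →
    (∀ f ∈ F, (∀ g ∈ F, Bf f g = 0) → f = 1 ∨ f = z) → PlusData z F ∨ MinusData z F := by
  intro N
  induction N with
  | zero =>
    intro F hF
    exfalso
    have := Nat.card_pos (α := ↥F)
    omega
  | succ N ih =>
    intro F hF hzF hnd
    by_cases hsmall : ∀ f ∈ F, f = 1 ∨ f = z
    · left
      exact ⟨0, Fin.elim0, Fin.elim0, ⟨fun i => i.elim0, fun i => i.elim0, fun i => i.elim0,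
        fun i => i.elim0, fun i => i.elim0⟩, fun i => i.elim0, fun f hf _ => hsmall f hf⟩
    · push Not at hsmall
      obtain ⟨x, hxF, hx1, hxz⟩ := hsmall
      have hy : ∃ y ∈ F, Bf x y = 1 := by
        by_contra hno
        push Not at hno
        rcases hnd x hxF (fun g hg => by
          rcases z2_cases (Bf x g) with e | e
          · exact e
          · exact absurd e (hno g hg)) with e | e
        · exact hx1 e
        · exact hxz e
      obtain ⟨y, hyF, hxy⟩ := hy
      obtain ⟨a, b, haF, hbF, hab, htype⟩ : ∃ a b : E, a ∈ F ∧ b ∈ F ∧ Bf a b = 1 ∧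
          ((qf a = 0 ∧ qf b = 0) ∨ (qf a = 1 ∧ qf b = 1)) := by
        rcases z2_cases (qf x) with qx | qx <;> rcases z2_cases (qf y) with qy | qy
        · exact ⟨x, y, hxF, hyF, hxy, Or.inl ⟨qx, qy⟩⟩
        · refine ⟨x, x * y, hxF, F.mul_mem hxF hyF, ?_, Or.inl ⟨qx, ?_⟩⟩
          · rw [Bf_mul_right h, Bf_self, hxy]
            decide
          · rw [qf_mul h, qx, qy, hxy]
            decide
        · refine ⟨x * y, y, F.mul_mem hxF hyF, hyF, ?_, Or.inl ⟨?_, qy⟩⟩
          · rw [Bf_mul_left h, Bf_self, hxy]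
            decide
          · rw [qf_mul h, qx, qy, hxy]
            decide
        · exact ⟨x, y, hxF, hyF, hxy, Or.inr ⟨qx, qy⟩⟩
      have hba : Bf b a = 1 := by rw [Bf_symm]; exact hab
      let F₁ : Subgroup E :=
        { carrier := {f | f ∈ F ∧ Bf f a = 0 ∧ Bf f b = 0}
          mul_mem' := by
            rintro f g ⟨hf, hfa, hfb⟩ ⟨hg, hga, hgb⟩
            refine ⟨F.mul_mem hf hg, ?_, ?_⟩
            · rw [Bf_mul_left h, hfa, hga]
              decide
            · rw [Bf_mul_left h, hfb, hgb]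
              decide
          one_mem' := ⟨F.one_mem, Bf_one_left _, Bf_one_left _⟩
          inv_mem' := by
            rintro f ⟨hf, hfa, hfb⟩
            exact ⟨F.inv_mem hf, by rw [Bf_inv_left h, hfa], by rw [Bf_inv_left h, hfb]⟩ }
      have hF₁ : ∀ f, f ∈ F₁ ↔ (f ∈ F ∧ Bf f a = 0 ∧ Bf f b = 0) := fun f => Iff.rfl
      have hle : F₁ ≤ F := fun f hf => ((hF₁ f).1 hf).1
      have hlt : Nat.card F₁ ≤ N := by
        by_contra hc
        have h1 : Nat.card F ≤ Nat.card F₁ := by omega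
        have h2 := Subgroup.eq_of_le_of_card_ge hle h1
        have h3 : a ∈ F₁ := by rw [h2]; exact haF
        have h4 := ((hF₁ a).1 h3).2.2
        rw [hab] at h4
        exact absurd h4 (by decide)
      have hz₁ : z ∈ F₁ := (hF₁ z).2 ⟨hzF, Bf_z_left h _, Bf_z_left h _⟩
      have hnd₁ : ∀ f ∈ F₁, (∀ g ∈ F₁, Bf f g = 0) → f = 1 ∨ f = z := by
        intro f hf hfc
        obtain ⟨hfF, hfa, hfb⟩ := (hF₁ f).1 hf
        apply hnd f hfF
        intro g hg
        rcases z2_cases (Bf g a) with ga | ga <;> rcases z2_cases (Bf g b) with gb | gb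
        · exact hfc g ((hF₁ g).2 ⟨hg, ga, gb⟩)
        · have h1 : g * a ∈ F₁ := (hF₁ _).2 ⟨F.mul_mem hg haF,
            by rw [Bf_mul_left h, ga, Bf_self]; decide,
            by rw [Bf_mul_left h, gb, hab]; decide⟩
          have h2 := hfc _ h1
          rw [Bf_mul_right h, hfa, add_zero] at h2
          exact h2
        · have h1 : g * b ∈ F₁ := (hF₁ _).2 ⟨F.mul_mem hg hbF,
            by rw [Bf_mul_left h, ga, hba]; decide,
            by rw [Bf_mul_left h, gb, Bf_self]; decide⟩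
          have h2 := hfc _ h1
          rw [Bf_mul_right h, hfb, add_zero] at h2
          exact h2
        · have h1 : g * a * b ∈ F₁ := (hF₁ _).2 ⟨F.mul_mem (F.mul_mem hg haF) hbF,
            by rw [Bf_mul_left h, Bf_mul_left h, ga, Bf_self, hba]; decide,
            by rw [Bf_mul_left h, Bf_mul_left h, gb, hab, Bf_self]; decide⟩
          have h2 := hfc _ h1
          rw [Bf_mul_right h, Bf_mul_right h, hfa, hfb, add_zero, add_zero] at h2
          exact h2
      rcases ih F₁ hlt hz₁ hnd₁ with hplus | hminus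
      · obtain ⟨m, xs, ys, hs, hmem, hcomp⟩ := hplus
        have hxa : ∀ i, Bf a (xs i) = 0 ∧ Bf a (ys i) = 0 := fun i =>
          ⟨by rw [Bf_symm]; exact ((hF₁ _).1 (hmem i).1).2.1,
           by rw [Bf_symm]; exact ((hF₁ _).1 (hmem i).2).2.1⟩
        have hxb : ∀ i, Bf b (xs i) = 0 ∧ Bf b (ys i) = 0 := fun i =>
          ⟨by rw [Bf_symm]; exact ((hF₁ _).1 (hmem i).1).2.2,
           by rw [Bf_symm]; exact ((hF₁ _).1 (hmem i).2).2.2⟩
        rcases htype with ⟨qa, qb⟩ | ⟨qa, qb⟩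
        · left
          refine ⟨m + 1, Fin.cons a xs, Fin.cons b ys, hs.cons a b hab qa qb hxa hxb, ?_, ?_⟩
          · intro i
            refine Fin.cases ?_ (fun i' => ?_) i
            · rw [Fin.cons_zero, Fin.cons_zero]
              exact ⟨haF, hbF⟩
            · rw [Fin.cons_succ, Fin.cons_succ]
              exact ⟨hle (hmem i').1, hle (hmem i').2⟩
          · intro f hf hfc
            rw [Fin.forall_fin_succ] at hfc
            obtain ⟨h0, hrest⟩ := hfc
            rw [Fin.cons_zero, Fin.cons_zero] at h0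
            apply hcomp f ((hF₁ f).2 ⟨hf, h0.1, h0.2⟩)
            intro i
            have := hrest i
            rw [Fin.cons_succ, Fin.cons_succ] at this
            exact this
        · right
          refine ⟨m, xs, ys, a, b, hs, fun i => ⟨hle (hmem i).1, hle (hmem i).2⟩, haF, hbF,
            hab, qa, qb, hxa, hxb, ?_⟩
          intro f hf hfc hfa hfb
          exact hcomp f ((hF₁ f).2 ⟨hf, hfa, hfb⟩) hfc
      · obtain ⟨m, xs, ys, x₀, y₀, hs, hmem, hx₀, hy₀, hxy₀, qx₀, qy₀, hx₀c, hy₀c, hcomp⟩ :=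
          hminus
        have hxa : ∀ i, Bf a (xs i) = 0 ∧ Bf a (ys i) = 0 := fun i =>
          ⟨by rw [Bf_symm]; exact ((hF₁ _).1 (hmem i).1).2.1,
           by rw [Bf_symm]; exact ((hF₁ _).1 (hmem i).2).2.1⟩
        have hxb : ∀ i, Bf b (xs i) = 0 ∧ Bf b (ys i) = 0 := fun i =>
          ⟨by rw [Bf_symm]; exact ((hF₁ _).1 (hmem i).1).2.2,
           by rw [Bf_symm]; exact ((hF₁ _).1 (hmem i).2).2.2⟩
        have hx₀a : Bf x₀ a = 0 := ((hF₁ _).1 hx₀).2.1
        have hx₀b : Bf x₀ b = 0 := ((hF₁ _).1 hx₀).2.2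
        have hy₀a : Bf y₀ a = 0 := ((hF₁ _).1 hy₀).2.1
        have hy₀b : Bf y₀ b = 0 := ((hF₁ _).1 hy₀).2.2
        have hax₀ : Bf a x₀ = 0 := by rw [Bf_symm]; exact hx₀a
        have hbx₀ : Bf b x₀ = 0 := by rw [Bf_symm]; exact hx₀b
        have hay₀ : Bf a y₀ = 0 := by rw [Bf_symm]; exact hy₀a
        have hby₀ : Bf b y₀ = 0 := by rw [Bf_symm]; exact hy₀b
        have hyx₀ : Bf y₀ x₀ = 1 := by rw [Bf_symm]; exact hxy₀
        rcases htype with ⟨qa, qb⟩ | ⟨qa, qb⟩
        · right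
          refine ⟨m + 1, Fin.cons a xs, Fin.cons b ys, x₀, y₀, hs.cons a b hab qa qb hxa hxb,
            ?_, hle hx₀, hle hy₀, hxy₀, qx₀, qy₀, ?_, ?_, ?_⟩
          · intro i
            refine Fin.cases ?_ (fun i' => ?_) i
            · rw [Fin.cons_zero, Fin.cons_zero]
              exact ⟨haF, hbF⟩
            · rw [Fin.cons_succ, Fin.cons_succ]
              exact ⟨hle (hmem i').1, hle (hmem i').2⟩
          · intro i
            refine Fin.cases ?_ (fun i' => ?_) i
            · rw [Fin.cons_zero, Fin.cons_zero]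
              exact ⟨hx₀a, hx₀b⟩
            · rw [Fin.cons_succ, Fin.cons_succ]
              exact hx₀c i'
          · intro i
            refine Fin.cases ?_ (fun i' => ?_) i
            · rw [Fin.cons_zero, Fin.cons_zero]
              exact ⟨hy₀a, hy₀b⟩
            · rw [Fin.cons_succ, Fin.cons_succ]
              exact hy₀c i'
          · intro f hf hfc hfx hfy
            rw [Fin.forall_fin_succ] at hfc
            obtain ⟨h0, hrest⟩ := hfc
            rw [Fin.cons_zero, Fin.cons_zero] at h0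
            apply hcomp f ((hF₁ f).2 ⟨hf, h0.1, h0.2⟩) _ hfx hfy
            intro i
            have := hrest i
            rw [Fin.cons_succ, Fin.cons_succ] at this
            exact this
        · left
          have hs1 : Sys (m + 1) (Fin.cons (a * b * y₀) xs) (Fin.cons (a * b * x₀ * y₀) ys) := by
            apply hs.cons
            · simp only [Bf_mul_left h, Bf_mul_right h, Bf_self, hab, hba, hxy₀, hyx₀, hx₀a,
                hax₀, hx₀b, hbx₀, hy₀a, hay₀, hy₀b, hby₀]
              decide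
            · simp only [qf_mul h, Bf_mul_left h, Bf_mul_right h, Bf_self, hab, hba, hxy₀,
                hyx₀, hx₀a, hax₀, hx₀b, hbx₀, hy₀a, hay₀, hy₀b, hby₀, qa, qb, qx₀, qy₀]
              decide
            · simp only [qf_mul h, Bf_mul_left h, Bf_mul_right h, Bf_self, hab, hba, hxy₀,
                hyx₀, hx₀a, hax₀, hx₀b, hbx₀, hy₀a, hay₀, hy₀b, hby₀, qa, qb, qx₀, qy₀]
              decide
            · intro i
              simp only [Bf_mul_left h, (hxa i).1, (hxa i).2, (hxb i).1, (hxb i).2,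
                (hx₀c i).1, (hx₀c i).2, (hy₀c i).1, (hy₀c i).2]
              decide
            · intro i
              simp only [Bf_mul_left h, (hxa i).1, (hxa i).2, (hxb i).1, (hxb i).2,
                (hx₀c i).1, (hx₀c i).2, (hy₀c i).1, (hy₀c i).2]
              decide
          have hs2 : Sys (m + 1 + 1) (Fin.cons (a * x₀) (Fin.cons (a * b * y₀) xs))
              (Fin.cons (b * x₀) (Fin.cons (a * b * x₀ * y₀) ys)) := by
            apply hs1.cons
            · simp only [Bf_mul_left h, Bf_mul_right h, Bf_self, hab, hba, hxy₀, hyx₀, hx₀a,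
                hax₀, hx₀b, hbx₀, hy₀a, hay₀, hy₀b, hby₀]
              decide
            · simp only [qf_mul h, Bf_mul_left h, Bf_mul_right h, Bf_self, hab, hba, hxy₀,
                hyx₀, hx₀a, hax₀, hx₀b, hbx₀, hy₀a, hay₀, hy₀b, hby₀, qa, qb, qx₀, qy₀]
              decide
            · simp only [qf_mul h, Bf_mul_left h, Bf_mul_right h, Bf_self, hab, hba, hxy₀,
                hyx₀, hx₀a, hax₀, hx₀b, hbx₀, hy₀a, hay₀, hy₀b, hby₀, qa, qb, qx₀, qy₀]
              decide
            · intro i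
              refine Fin.cases ?_ (fun i' => ?_) i
              · rw [Fin.cons_zero, Fin.cons_zero]
                simp only [Bf_mul_left h, Bf_mul_right h, Bf_self, hab, hba, hxy₀, hyx₀, hx₀a,
                  hax₀, hx₀b, hbx₀, hy₀a, hay₀, hy₀b, hby₀]
                decide
              · rw [Fin.cons_succ, Fin.cons_succ]
                simp only [Bf_mul_left h, (hxa i').1, (hxa i').2, (hx₀c i').1, (hx₀c i').2]
                decide
            · intro i
              refine Fin.cases ?_ (fun i' => ?_) i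
              · rw [Fin.cons_zero, Fin.cons_zero]
                simp only [Bf_mul_left h, Bf_mul_right h, Bf_self, hab, hba, hxy₀, hyx₀, hx₀a,
                  hax₀, hx₀b, hbx₀, hy₀a, hay₀, hy₀b, hby₀]
                decide
              · rw [Fin.cons_succ, Fin.cons_succ]
                simp only [Bf_mul_left h, (hxb i').1, (hxb i').2, (hx₀c i').1, (hx₀c i').2]
                decide
          refine ⟨m + 1 + 1, _, _, hs2, ?_, ?_⟩
          · intro i
            refine Fin.cases ?_ (fun i' => ?_) i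
            · rw [Fin.cons_zero, Fin.cons_zero]
              exact ⟨F.mul_mem haF (hle hx₀), F.mul_mem hbF (hle hx₀)⟩
            · rw [Fin.cons_succ, Fin.cons_succ]
              refine Fin.cases ?_ (fun i'' => ?_) i'
              · rw [Fin.cons_zero, Fin.cons_zero]
                exact ⟨F.mul_mem (F.mul_mem haF hbF) (hle hy₀),
                  F.mul_mem (F.mul_mem (F.mul_mem haF hbF) (hle hx₀)) (hle hy₀)⟩
              · rw [Fin.cons_succ, Fin.cons_succ]
                exact ⟨hle (hmem i'').1, hle (hmem i'').2⟩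
          · intro f hf hfc
            rw [Fin.forall_fin_succ] at hfc
            obtain ⟨h0, hrest⟩ := hfc
            rw [Fin.cons_zero, Fin.cons_zero] at h0
            rw [Fin.forall_fin_succ] at hrest
            obtain ⟨h1, hrest⟩ := hrest
            rw [Fin.cons_succ, Fin.cons_succ, Fin.cons_zero, Fin.cons_zero] at h1
            obtain ⟨h0a, h0b⟩ := h0
            obtain ⟨h1a, h1b⟩ := h1
            simp only [Bf_mul_right h] at h0a h0b h1a h1b
            obtain ⟨e1, e2, e3, e4⟩ := z2_four _ _ _ _ h0a h0b h1a h1b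
            apply hcomp f ((hF₁ f).2 ⟨hf, e1, e2⟩) _ e3 e4
            intro i
            have := hrest i
            rw [Fin.cons_succ, Fin.cons_succ, Fin.cons_succ, Fin.cons_succ] at this
            exact this

theorem classify_top [Finite E] (h : XS z) : PlusData z ⊤ ∨ MinusData z ⊤ :=
  classify h (Nat.card (⊤ : Subgroup E)) ⊤ le_rfl (Subgroup.mem_top _)
    (fun f _ hf => h.cent f (fun x => Bf_eq_zero.1 (hf x (Subgroup.mem_top _))))

end Classify

section Inst

variable {z : E}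

theorem gram_plus {m : ℕ} {xs ys : Fin m → E} (hs : Sys m xs ys) (k l : Fin m ⊕ Fin m) :
    Bf (Sum.elim xs ys k) (Sum.elim xs ys l) = if l = Sum.swap k then 1 else 0 := by
  rcases k with i | i <;> rcases l with j | j
  · show Bf (xs i) (xs j) = _
    rw [hs.xx, if_neg]
    exact Sum.inl_ne_inr
  · show Bf (xs i) (ys j) = _
    rw [hs.xy]
    by_cases e : i = j
    · rw [if_pos e, if_pos (by rw [e]; rfl)]
    · rw [if_neg e, if_neg]
      intro e'
      exact e (Sum.inr_injective e').symm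
  · show Bf (ys i) (xs j) = _
    rw [Bf_symm, hs.xy]
    by_cases e : j = i
    · rw [if_pos e, if_pos (by rw [e]; rfl)]
    · rw [if_neg e, if_neg]
      intro e'
      exact e (Sum.inl_injective e')
  · show Bf (ys i) (ys j) = _
    rw [hs.yy, if_neg]
    exact Sum.inr_ne_inl

theorem HB_plus {m : ℕ} {xs ys : Fin m → E} (hs : Sys m xs ys)
    (hcomp : ∀ f : E, (∀ i, Bf f (xs i) = 0 ∧ Bf f (ys i) = 0) → f = 1 ∨ f = z) :
    HB z (Sum.swap : Fin m ⊕ Fin m → Fin m ⊕ Fin m) (Sum.elim xs ys) := by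
  refine ⟨?_, gram_plus hs, ?_⟩
  · intro k
    exact Sum.swap_swap k
  · intro f hf
    apply hcomp
    intro i
    exact ⟨hf (Sum.inl i), hf (Sum.inr i)⟩

theorem Q1_plus (m : ℕ) (v w : Fin m ⊕ Fin m → ZMod 2) :
    Cfsg.quadFormPlus m (ZMod 2) (v + w) = Cfsg.quadFormPlus m (ZMod 2) v +
      Cfsg.quadFormPlus m (ZMod 2) w + ∑ k, v k * w (Sum.swap k) := by
  unfold Cfsg.quadFormPlus
  rw [Fintype.sum_sum_type]
  simp only [Sum.swap_inl, Sum.swap_inr]
  rw [← Finset.sum_add_distrib, ← Finset.sum_add_distrib, ← Finset.sum_add_distrib]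
  apply Finset.sum_congr rfl
  intro i _
  simp only [Pi.add_apply]
  ring

theorem Q2_plus (m : ℕ) (k : Fin m ⊕ Fin m) :
    Cfsg.quadFormPlus m (ZMod 2) (Pi.single k 1) = 0 := by
  unfold Cfsg.quadFormPlus
  apply Finset.sum_eq_zero
  intro i _
  rcases k with j | j
  · rw [Pi.single_eq_of_ne (show (Sum.inr i : Fin m ⊕ Fin m) ≠ Sum.inl j from Sum.inr_ne_inl),
      mul_zero]
  · rw [Pi.single_eq_of_ne (show (Sum.inl i : Fin m ⊕ Fin m) ≠ Sum.inr j from Sum.inl_ne_inr),
      zero_mul]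

theorem card_of_HB [Finite E] {ι : Type} [Fintype ι] [DecidableEq ι] {σ : ι → ι} {u : ι → E}
    (h : XS z) (hb : HB z σ u) : Nat.card E = 2 * 2 ^ Fintype.card ι := by
  let φ : E →* Multiplicative (ι → ZMod 2) :=
    { toFun := fun e => Multiplicative.ofAdd (cvec σ u e)
      map_one' := by rw [cvec_one]; rfl
      map_mul' := fun a b => by rw [cvec_mul h]; rfl }
  have hφ : ∀ e, φ e = Multiplicative.ofAdd (cvec σ u e) := fun e => rfl
  have hker : ∀ e, e ∈ φ.ker ↔ (e = 1 ∨ e = z) := by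
    intro e
    rw [MonoidHom.mem_ker, hφ, ← cvec_eq_zero h hb]
    exact Iff.rfl
  have hk2 : Nat.card ↥φ.ker = 2 := by
    rw [Nat.card_eq_two_iff]
    refine ⟨⟨1, (hker 1).2 (Or.inl rfl)⟩, ⟨z, (hker z).2 (Or.inr rfl)⟩, ?_, ?_⟩
    · intro e
      exact h.z1 (congrArg Subtype.val e).symm
    · ext x
      simp only [Set.mem_insert_iff, Set.mem_singleton_iff, Set.mem_univ, iff_true]
      rcases (hker x.1).1 x.2 with e | e
      · left
        exact Subtype.ext e
      · right
        exact Subtype.ext e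
  have hr : φ.range = ⊤ := by
    rw [MonoidHom.range_eq_top]
    intro v
    obtain ⟨e, he⟩ := cvec_surj h hb (Multiplicative.toAdd v)
    exact ⟨e, by rw [hφ, he]; rfl⟩
  have h1 := Subgroup.card_mul_index φ.ker
  rw [Subgroup.index_ker, hr, Subgroup.card_top, hk2] at h1
  rw [← h1]
  congr 1
  rw [Nat.card_eq_fintype_card]
  simp [ZMod.card]

theorem out_plus [Finite E] (h : XS z) (n : ℕ) (hcard : Nat.card E = 2 ^ (2 * n + 1))
    {m : ℕ} {xs ys : Fin m → E} (hs : Sys m xs ys)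
    (hcomp : ∀ f : E, (∀ i, Bf f (xs i) = 0 ∧ Bf f (ys i) = 0) → f = 1 ∨ f = z) :
    m = n ∧ Nonempty (Cfsg.Out E ≃* Cfsg.isometryGroup (ZMod 2)
      (Cfsg.quadFormPlus m (ZMod 2))) := by
  have hb : HB z (Sum.swap : Fin m ⊕ Fin m → Fin m ⊕ Fin m) (Sum.elim xs ys) :=
    HB_plus hs hcomp
  have hc := card_of_HB h hb
  have hm : m = n := by
    rw [hcard] at hc
    simp only [Fintype.card_sum, Fintype.card_fin] at hc
    have h2 : 2 ^ (2 * n + 1) = 2 ^ (m + m + 1) := by
      rw [hc]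
      ring
    have h3 := Nat.pow_right_injective (le_refl 2) h2
    omega
  refine ⟨hm, out_equiv h hb _ (Q1_plus m) ?_⟩
  intro k
  rw [Q2_plus]
  rcases k with i | i
  · exact (hs.qx i).symm
  · exact (hs.qy i).symm

/-- the partner map for minus type -/
def sigM (m : ℕ) : (Fin m ⊕ Fin m) ⊕ Fin 2 → (Fin m ⊕ Fin m) ⊕ Fin 2 :=
  Sum.elim (fun k => Sum.inl (Sum.swap k)) (fun j => Sum.inr (Fin.rev j))

/-- the basis for minus type -/
def uM {m : ℕ} (xs ys : Fin m → E) (x₀ y₀ : E) : (Fin m ⊕ Fin m) ⊕ Fin 2 → E :=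
  Sum.elim (Sum.elim xs ys) (fun j : Fin 2 => if j = 0 then x₀ else y₀)

theorem uM0 {m : ℕ} (xs ys : Fin m → E) (x₀ y₀ : E) : uM xs ys x₀ y₀ (Sum.inr 0) = x₀ := by
  show (if (0 : Fin 2) = 0 then x₀ else y₀) = x₀
  rw [if_pos rfl]

theorem uM1 {m : ℕ} (xs ys : Fin m → E) (x₀ y₀ : E) : uM xs ys x₀ y₀ (Sum.inr 1) = y₀ := by
  show (if (1 : Fin 2) = 0 then x₀ else y₀) = y₀
  rw [if_neg (by decide)]

theorem HB_minus {m : ℕ} {xs ys : Fin m → E} (hs : Sys m xs ys) (x₀ y₀ : E)
    (hxy₀ : Bf x₀ y₀ = 1)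
    (hx₀c : ∀ i, Bf x₀ (xs i) = 0 ∧ Bf x₀ (ys i) = 0)
    (hy₀c : ∀ i, Bf y₀ (xs i) = 0 ∧ Bf y₀ (ys i) = 0)
    (hcomp : ∀ f : E, (∀ i, Bf f (xs i) = 0 ∧ Bf f (ys i) = 0) → Bf f x₀ = 0 →
      Bf f y₀ = 0 → f = 1 ∨ f = z) :
    HB z (sigM m) (uM xs ys x₀ y₀) := by
  have hu0 := uM0 xs ys x₀ y₀
  have hu1 := uM1 xs ys x₀ y₀
  have hul : ∀ k, uM xs ys x₀ y₀ (Sum.inl k) = Sum.elim xs ys k := fun k => rfl
  have hcross : ∀ (k : Fin m ⊕ Fin m),
      Bf x₀ (Sum.elim xs ys k) = 0 ∧ Bf y₀ (Sum.elim xs ys k) = 0 := by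
    intro k
    rcases k with i | i
    · exact ⟨(hx₀c i).1, (hy₀c i).1⟩
    · exact ⟨(hx₀c i).2, (hy₀c i).2⟩
  refine ⟨?_, ?_, ?_⟩
  · intro k
    rcases k with k | j
    · show Sum.inl (Sum.swap (Sum.swap k)) = Sum.inl k
      rw [Sum.swap_swap]
    · show Sum.inr (Fin.rev (Fin.rev j)) = Sum.inr j
      rw [Fin.rev_rev]
  · intro k l
    rcases k with k | j <;> rcases l with l | j'
    · rw [hul, hul, gram_plus hs]
      show (if l = Sum.swap k then (1 : ZMod 2) else 0) =
        if (Sum.inl l : (Fin m ⊕ Fin m) ⊕ Fin 2) = Sum.inl (Sum.swap k) then 1 else 0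
      by_cases e : l = Sum.swap k
      · rw [if_pos e, if_pos (by rw [e])]
      · rw [if_neg e, if_neg (fun e' => e (Sum.inl_injective e'))]
    · rw [hul, if_neg (show ¬ (Sum.inr j' : (Fin m ⊕ Fin m) ⊕ Fin 2) = sigM m (Sum.inl k) from
        Sum.inr_ne_inl)]
      revert j'
      rw [Fin.forall_fin_two]
      refine ⟨?_, ?_⟩
      · rw [hu0, Bf_symm]
        exact (hcross k).1
      · rw [hu1, Bf_symm]
        exact (hcross k).2
    · rw [hul, if_neg (show ¬ (Sum.inl l : (Fin m ⊕ Fin m) ⊕ Fin 2) = sigM m (Sum.inr j) from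
        Sum.inl_ne_inr)]
      revert j
      rw [Fin.forall_fin_two]
      refine ⟨?_, ?_⟩
      · rw [hu0]
        exact (hcross l).1
      · rw [hu1]
        exact (hcross l).2
    · revert j j'
      rw [Fin.forall_fin_two]
      refine ⟨?_, ?_⟩ <;> rw [Fin.forall_fin_two] <;> refine ⟨?_, ?_⟩
      · rw [hu0, Bf_self, if_neg]
        intro e
        exact absurd (Sum.inr_injective e) (by decide)
      · rw [hu0, hu1, hxy₀, if_pos]
        rfl
      · rw [hu1, hu0, Bf_symm, hxy₀, if_pos]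
        rfl
      · rw [hu1, Bf_self, if_neg]
        intro e
        exact absurd (Sum.inr_injective e) (by decide)
  · intro f hf
    apply hcomp
    · intro i
      exact ⟨hf (Sum.inl (Sum.inl i)), hf (Sum.inl (Sum.inr i))⟩
    · have := hf (Sum.inr 0)
      rwa [hu0] at this
    · have := hf (Sum.inr 1)
      rwa [hu1] at this

theorem z2_N : ∀ a a' b b' : ZMod 2,
    (a + a') ^ 2 + 1 * (a + a') * (b + b') + 1 * (b + b') ^ 2 =
    (a ^ 2 + 1 * a * b + 1 * b ^ 2) + (a' ^ 2 + 1 * a' * b' + 1 * b' ^ 2) +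
      (a * b' + b * a') := by decide

theorem Q1_minus (m : ℕ) (v w : (Fin m ⊕ Fin m) ⊕ Fin 2 → ZMod 2) :
    Cfsg.quadFormMinus m (ZMod 2) 1 1 (v + w) = Cfsg.quadFormMinus m (ZMod 2) 1 1 v +
      Cfsg.quadFormMinus m (ZMod 2) 1 1 w + ∑ k, v k * w (sigM m k) := by
  unfold Cfsg.quadFormMinus
  rw [Fintype.sum_sum_type, Fintype.sum_sum_type, Fin.sum_univ_two]
  have e1 : ∑ i : Fin m, (v + w) (Sum.inl (Sum.inl i)) * (v + w) (Sum.inl (Sum.inr i)) =
      ∑ i : Fin m, v (Sum.inl (Sum.inl i)) * v (Sum.inl (Sum.inr i)) +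
      ∑ i : Fin m, w (Sum.inl (Sum.inl i)) * w (Sum.inl (Sum.inr i)) +
      (∑ i : Fin m, v (Sum.inl (Sum.inl i)) * w (Sum.inl (Sum.inr i)) +
       ∑ i : Fin m, v (Sum.inl (Sum.inr i)) * w (Sum.inl (Sum.inl i))) := by
    rw [← Finset.sum_add_distrib, ← Finset.sum_add_distrib, ← Finset.sum_add_distrib]
    apply Finset.sum_congr rfl
    intro i _
    simp only [Pi.add_apply]
    ring
  have e2 := z2_N (v (Sum.inr 0)) (w (Sum.inr 0)) (v (Sum.inr 1)) (w (Sum.inr 1))
  have e3 : (∑ a₁ : Fin m, v (Sum.inl (Sum.inl a₁)) * w (sigM m (Sum.inl (Sum.inl a₁))) +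
      ∑ a₂ : Fin m, v (Sum.inl (Sum.inr a₂)) * w (sigM m (Sum.inl (Sum.inr a₂))) +
      (v (Sum.inr 0) * w (sigM m (Sum.inr 0)) + v (Sum.inr 1) * w (sigM m (Sum.inr 1)))) =
      (∑ i : Fin m, v (Sum.inl (Sum.inl i)) * w (Sum.inl (Sum.inr i)) +
       ∑ i : Fin m, v (Sum.inl (Sum.inr i)) * w (Sum.inl (Sum.inl i))) +
      (v (Sum.inr 0) * w (Sum.inr 1) + v (Sum.inr 1) * w (Sum.inr 0)) := rfl
  rw [e1, e3]
  simp only [Pi.add_apply]
  rw [e2]
  ring

theorem Q2_minus_inl (m : ℕ) (k : Fin m ⊕ Fin m) :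
    Cfsg.quadFormMinus m (ZMod 2) 1 1 (Pi.single (Sum.inl k) 1) = 0 := by
  unfold Cfsg.quadFormMinus
  have h0 : ∀ j : Fin 2, (Pi.single (Sum.inl k) (1 : ZMod 2) :
      (Fin m ⊕ Fin m) ⊕ Fin 2 → ZMod 2) (Sum.inr j) = 0 :=
    fun j => Pi.single_eq_of_ne Sum.inr_ne_inl _
  rw [h0, h0, Finset.sum_eq_zero]
  · decide
  · intro i _
    rcases k with j | j
    · rw [Pi.single_eq_of_ne (show (Sum.inl (Sum.inr i) : (Fin m ⊕ Fin m) ⊕ Fin 2) ≠
        Sum.inl (Sum.inl j) from fun e => Sum.inr_ne_inl (Sum.inl_injective e)), mul_zero]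
    · rw [Pi.single_eq_of_ne (show (Sum.inl (Sum.inl i) : (Fin m ⊕ Fin m) ⊕ Fin 2) ≠
        Sum.inl (Sum.inr j) from fun e => Sum.inl_ne_inr (Sum.inl_injective e)), zero_mul]

theorem Q2_minus_inr (m : ℕ) (j : Fin 2) :
    Cfsg.quadFormMinus m (ZMod 2) 1 1 (Pi.single (Sum.inr j) 1) = 1 := by
  unfold Cfsg.quadFormMinus
  have h0 : ∀ k : Fin m ⊕ Fin m, (Pi.single (Sum.inr j) (1 : ZMod 2) :
      (Fin m ⊕ Fin m) ⊕ Fin 2 → ZMod 2) (Sum.inl k) = 0 :=
    fun k => Pi.single_eq_of_ne Sum.inl_ne_inr _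
  rw [Finset.sum_eq_zero (fun i _ => by rw [h0, zero_mul])]
  revert j
  rw [Fin.forall_fin_two]
  refine ⟨?_, ?_⟩
  · intro _
    rw [Pi.single_eq_same, Pi.single_eq_of_ne (show (Sum.inr 1 : (Fin m ⊕ Fin m) ⊕ Fin 2) ≠
      Sum.inr 0 from fun e => absurd (Sum.inr_injective e) (by decide))]
    decide
  · intro _
    rw [Pi.single_eq_same, Pi.single_eq_of_ne (show (Sum.inr 0 : (Fin m ⊕ Fin m) ⊕ Fin 2) ≠
      Sum.inr 1 from fun e => absurd (Sum.inr_injective e) (by decide))]
    decide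

theorem out_minus [Finite E] (h : XS z) (n : ℕ) (hcard : Nat.card E = 2 ^ (2 * n + 1))
    {m : ℕ} {xs ys : Fin m → E} (hs : Sys m xs ys) (x₀ y₀ : E)
    (hxy₀ : Bf x₀ y₀ = 1) (qx₀ : qf x₀ = 1) (qy₀ : qf y₀ = 1)
    (hx₀c : ∀ i, Bf x₀ (xs i) = 0 ∧ Bf x₀ (ys i) = 0)
    (hy₀c : ∀ i, Bf y₀ (xs i) = 0 ∧ Bf y₀ (ys i) = 0)
    (hcomp : ∀ f : E, (∀ i, Bf f (xs i) = 0 ∧ Bf f (ys i) = 0) → Bf f x₀ = 0 →
      Bf f y₀ = 0 → f = 1 ∨ f = z) :
    m = n - 1 ∧ m + 1 = n ∧ Nonempty (Cfsg.Out E ≃* Cfsg.isometryGroup (ZMod 2)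
      (Cfsg.quadFormMinus m (ZMod 2) 1 1)) := by
  have hb : HB z (sigM m) (uM xs ys x₀ y₀) := HB_minus hs x₀ y₀ hxy₀ hx₀c hy₀c hcomp
  have hc := card_of_HB h hb
  have hm : m + 1 = n := by
    rw [hcard] at hc
    simp only [Fintype.card_sum, Fintype.card_fin] at hc
    have h2 : 2 ^ (2 * n + 1) = 2 ^ (m + m + 2 + 1) := by
      rw [hc]
      ring
    have h3 := Nat.pow_right_injective (le_refl 2) h2
    omega
  refine ⟨by omega, hm, out_equiv h hb _ (Q1_minus m) ?_⟩
  intro k
  rcases k with k | j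
  · rw [Q2_minus_inl]
    rcases k with i | i
    · exact (hs.qx i).symm
    · exact (hs.qy i).symm
  · rw [Q2_minus_inr]
    revert j
    rw [Fin.forall_fin_two]
    refine ⟨?_, ?_⟩
    · rw [uM0]
      exact qx₀.symm
    · rw [uM1]
      exact qy₀.symm

end Inst

section Discr

open Classical

variable {z : E}

/-- the sign character of `ZMod 2` -/
def chi (a : ZMod 2) : ℤ := if a = 0 then 1 else -1

theorem chi_add : ∀ a b : ZMod 2, chi (a + b) = chi a * chi b := by decide

theorem chi_zero : chi 0 = 1 := by decide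

theorem chi_one : chi 1 = -1 := by decide

theorem chi_N : ∀ a b : ZMod 2,
    2 * chi (a ^ 2 + 1 * a * b + 1 * b ^ 2) = chi a + chi b + chi (a + b) - 1 := by decide

/-- the number of elements of a subgroup, as an indicator sum -/
noncomputable def cnt [Fintype E] (C : Subgroup E) : ℤ := ∑ e : E, if e ∈ C then 1 else 0

theorem cnt_eq [Fintype E] (C : Subgroup E) : cnt C = (Nat.card ↥C : ℤ) := by
  unfold cnt
  rw [Finset.sum_boole, Nat.card_eq_fintype_card, Fintype.card_subtype]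

theorem orth1 [Fintype E] (C : Subgroup E) (lam : E → ZMod 2)
    (hl : ∀ a b, lam (a * b) = lam a + lam b) (a₀ : E) (ha₀ : a₀ ∈ C) (h1 : lam a₀ = 1) :
    (∑ e : E, if e ∈ C then chi (lam e) else 0) = 0 := by
  have h2 : (∑ e : E, if e ∈ C then chi (lam e) else 0) =
      ∑ e : E, if a₀ * e ∈ C then chi (lam (a₀ * e)) else 0 :=
    (Fintype.sum_equiv (Equiv.mulLeft a₀)
      (fun e => if a₀ * e ∈ C then chi (lam (a₀ * e)) else 0)
      (fun e => if e ∈ C then chi (lam e) else 0) (fun e => rfl)).symm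
  have h3 : (∑ e : E, if a₀ * e ∈ C then chi (lam (a₀ * e)) else 0) =
      - ∑ e : E, if e ∈ C then chi (lam e) else 0 := by
    rw [← Finset.sum_neg_distrib]
    apply Finset.sum_congr rfl
    intro e _
    by_cases he : e ∈ C
    · rw [if_pos he, if_pos (C.mul_mem ha₀ he), hl, h1, chi_add, chi_one]
      ring
    · rw [if_neg he, if_neg]
      · ring
      · intro hh
        apply he
        have : e = a₀⁻¹ * (a₀ * e) := by group
        rw [this]
        exact C.mul_mem (C.inv_mem ha₀) hh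
  linarith

theorem orth0 [Fintype E] (C : Subgroup E) (lam : E → ZMod 2) (hl0 : ∀ e ∈ C, lam e = 0) :
    (∑ e : E, if e ∈ C then chi (lam e) else 0) = cnt C := by
  unfold cnt
  apply Finset.sum_congr rfl
  intro e _
  by_cases he : e ∈ C
  · rw [if_pos he, if_pos he, hl0 e he, chi_zero]
  · rw [if_neg he, if_neg he]

theorem lemL [Fintype E] (h : XS z) (A : Subgroup E) (hq : ∀ a ∈ A, qf a = 0) :
    cnt A * ∑ e : E, chi (qf e) =
      cnt A * ∑ e : E, (if (∀ a ∈ A, Bf e a = 0) then chi (qf e) else 0) := by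
  have h1 : (∑ a : E, if a ∈ A then ∑ e : E, chi (qf (e * a)) else 0) =
      cnt A * ∑ e : E, chi (qf e) := by
    unfold cnt
    rw [Finset.sum_mul]
    apply Finset.sum_congr rfl
    intro a _
    by_cases ha : a ∈ A
    · rw [if_pos ha, if_pos ha, one_mul]
      exact Fintype.sum_equiv (Equiv.mulRight a) _ _ (fun e => rfl)
    · rw [if_neg ha, if_neg ha, zero_mul]
  have h3 : ∀ e : E, (∑ a : E, if a ∈ A then chi (Bf e a) else 0) =
      if (∀ a ∈ A, Bf e a = 0) then cnt A else 0 := by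
    intro e
    by_cases hc : ∀ a ∈ A, Bf e a = 0
    · rw [if_pos hc]
      exact orth0 A (fun a => Bf e a) hc
    · rw [if_neg hc]
      push Not at hc
      obtain ⟨a₀, ha₀, hne⟩ := hc
      exact orth1 A (fun a => Bf e a) (fun a b => Bf_mul_right h e a b) a₀ ha₀
        ((z2_cases _).resolve_left hne)
  have h2 : (∑ a : E, if a ∈ A then ∑ e : E, chi (qf (e * a)) else 0) =
      ∑ e : E, chi (qf e) * ∑ a : E, if a ∈ A then chi (Bf e a) else 0 := by
    have hh : ∀ a : E, (if a ∈ A then ∑ e : E, chi (qf (e * a)) else 0) =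
        ∑ e : E, if a ∈ A then chi (qf e) * chi (Bf e a) else 0 := by
      intro a
      by_cases ha : a ∈ A
      · rw [if_pos ha]
        apply Finset.sum_congr rfl
        intro e _
        rw [if_pos ha, qf_mul h, hq a ha, add_zero, chi_add]
      · rw [if_neg ha]
        symm
        apply Finset.sum_eq_zero
        intro e _
        rw [if_neg ha]
    rw [Finset.sum_congr rfl (fun a _ => hh a), Finset.sum_comm]
    apply Finset.sum_congr rfl
    intro e _
    rw [Finset.mul_sum]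
    apply Finset.sum_congr rfl
    intro a _
    by_cases ha : a ∈ A
    · rw [if_pos ha, if_pos ha]
    · rw [if_neg ha, if_neg ha, mul_zero]
  rw [← h1, h2, Finset.mul_sum]
  apply Finset.sum_congr rfl
  intro e _
  rw [h3]
  by_cases hc : ∀ a ∈ A, Bf e a = 0
  · rw [if_pos hc, if_pos hc]
    ring
  · rw [if_neg hc, if_neg hc]
    ring

theorem lemC [Fintype E] (h : XS z) (A CA : Subgroup E)
    (hCA : ∀ e, e ∈ CA ↔ ∀ a ∈ A, Bf e a = 0) :
    cnt CA * cnt A ≤ 2 * (Fintype.card E : ℤ) := by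
  have h3 : ∀ e : E, (∑ a : E, if a ∈ A then chi (Bf e a) else 0) =
      if e ∈ CA then cnt A else 0 := by
    intro e
    by_cases hc : e ∈ CA
    · rw [if_pos hc]
      exact orth0 A (fun a => Bf e a) ((hCA e).1 hc)
    · rw [if_neg hc]
      have hc' : ¬ ∀ a ∈ A, Bf e a = 0 := fun hh => hc ((hCA e).2 hh)
      push Not at hc'
      obtain ⟨a₀, ha₀, hne⟩ := hc'
      exact orth1 A (fun a => Bf e a) (fun a b => Bf_mul_right h e a b) a₀ ha₀
        ((z2_cases _).resolve_left hne)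
  have h4 : ∀ a : E, (∑ e : E, chi (Bf e a)) =
      if (a = 1 ∨ a = z) then (Fintype.card E : ℤ) else 0 := by
    intro a
    by_cases ha : a = 1 ∨ a = z
    · rw [if_pos ha]
      have hone : ∀ e : E, chi (Bf e a) = 1 := by
        intro e
        rcases ha with rfl | rfl
        · rw [Bf_one_right, chi_zero]
        · rw [Bf_z_right h, chi_zero]
      rw [Finset.sum_congr rfl (fun e _ => hone e), Finset.sum_const, Finset.card_univ]
      simp
    · rw [if_neg ha]
      have hex : ∃ e₀ : E, Bf e₀ a = 1 := by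
        by_contra hno
        push Not at hno
        apply ha
        apply h.cent
        intro x
        have h0 : Bf x a = 0 := (z2_cases _).resolve_right (hno x)
        exact (Bf_eq_zero.1 h0).symm
      obtain ⟨e₀, he₀⟩ := hex
      have h5 := orth1 (⊤ : Subgroup E) (fun e => Bf e a) (fun x y => Bf_mul_left h x y a) e₀
        (Subgroup.mem_top _) he₀
      rw [← h5]
      apply Finset.sum_congr rfl
      intro e _
      rw [if_pos (Subgroup.mem_top e)]
  have h5 : cnt CA * cnt A = ∑ e : E, ∑ a : E, if a ∈ A then chi (Bf e a) else 0 := by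
    rw [Finset.sum_congr rfl (fun e _ => h3 e)]
    unfold cnt
    rw [Finset.sum_mul]
    apply Finset.sum_congr rfl
    intro e _
    by_cases hc : e ∈ CA
    · rw [if_pos hc, if_pos hc, one_mul]
    · rw [if_neg hc, if_neg hc, zero_mul]
  rw [h5, Finset.sum_comm]
  have h6 : ∀ a : E, (∑ e : E, if a ∈ A then chi (Bf e a) else 0) ≤
      (if a = 1 then (Fintype.card E : ℤ) else 0) +
      (if a = z then (Fintype.card E : ℤ) else 0) := by
    intro a
    have hnn : (0 : ℤ) ≤ Fintype.card E := Int.natCast_nonneg _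
    by_cases ha : a ∈ A
    · rw [Finset.sum_congr rfl (fun e _ => if_pos ha), h4]
      by_cases h1 : a = 1
      · rw [if_pos (Or.inl h1), if_pos h1]
        by_cases h2 : a = z
        · rw [if_pos h2]
          linarith
        · rw [if_neg h2]
          linarith
      · by_cases h2 : a = z
        · rw [if_pos (Or.inr h2), if_neg h1, if_pos h2]
          linarith
        · rw [if_neg (fun hh => hh.elim h1 h2), if_neg h1, if_neg h2]
          linarith
    · rw [Finset.sum_congr rfl (fun e _ => if_neg ha), Finset.sum_const_zero]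
      by_cases h1 : a = 1
      · rw [if_pos h1]
        by_cases h2 : a = z
        · rw [if_pos h2]
          linarith
        · rw [if_neg h2]
          linarith
      · rw [if_neg h1]
        by_cases h2 : a = z
        · rw [if_pos h2]
          linarith
        · rw [if_neg h2]
          linarith
  calc (∑ a : E, ∑ e : E, if a ∈ A then chi (Bf e a) else 0)
      ≤ ∑ a : E, ((if a = 1 then (Fintype.card E : ℤ) else 0) +
        (if a = z then (Fintype.card E : ℤ) else 0)) := Finset.sum_le_sum (fun a _ => h6 a)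
    _ = 2 * (Fintype.card E : ℤ) := by
      rw [Finset.sum_add_distrib, Finset.sum_ite_eq', Finset.sum_ite_eq',
        if_pos (Finset.mem_univ _), if_pos (Finset.mem_univ _)]
      ring

theorem exists_elem_abelian [Finite E] (h : XS z) {m : ℕ} {xs ys : Fin m → E}
    (hs : Sys m xs ys)
    (hcomp : ∀ f : E, (∀ i, Bf f (xs i) = 0 ∧ Bf f (ys i) = 0) → f = 1 ∨ f = z) :
    ∃ A : Subgroup E, Cfsg.IsElementaryAbelian 2 A ∧ Nat.card ↥A = 2 ^ (m + 1) := by
  have hb : HB z (Sum.swap : Fin m ⊕ Fin m → Fin m ⊕ Fin m) (Sum.elim xs ys) :=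
    HB_plus hs hcomp
  let A : Subgroup E :=
    { carrier := {e | ∀ i, Bf e (xs i) = 0}
      mul_mem' := by
        intro x y hx hy i
        have hx' : Bf x (xs i) = 0 := hx i
        have hy' : Bf y (xs i) = 0 := hy i
        show Bf (x * y) (xs i) = 0
        rw [Bf_mul_left h, hx', hy']
        decide
      one_mem' := fun i => Bf_one_left _
      inv_mem' := by
        intro x hx i
        show Bf x⁻¹ (xs i) = 0
        rw [Bf_inv_left h]
        exact hx i }
  have hAm : ∀ e, e ∈ A ↔ ∀ i, Bf e (xs i) = 0 := fun e => Iff.rfl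
  have hcr : ∀ e ∈ A, ∀ i, cvec Sum.swap (Sum.elim xs ys) e (Sum.inr i) = 0 :=
    fun e he i => (hAm e).1 he i
  have hAB : ∀ e ∈ A, ∀ f ∈ A, Bf e f = 0 := by
    intro e he f hf
    rw [Bf_coord h hb, Fintype.sum_sum_type]
    have s1 : ∑ i : Fin m, cvec Sum.swap (Sum.elim xs ys) e (Sum.inl i) *
        cvec Sum.swap (Sum.elim xs ys) f (Sum.swap (Sum.inl i)) = 0 :=
      Finset.sum_eq_zero (fun i _ => by
        show _ * cvec Sum.swap (Sum.elim xs ys) f (Sum.inr i) = 0
        rw [hcr f hf i, mul_zero])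
    have s2 : ∑ i : Fin m, cvec Sum.swap (Sum.elim xs ys) e (Sum.inr i) *
        cvec Sum.swap (Sum.elim xs ys) f (Sum.swap (Sum.inr i)) = 0 :=
      Finset.sum_eq_zero (fun i _ => by rw [hcr e he i, zero_mul])
    rw [s1, s2, add_zero]
  have hAq : ∀ e ∈ A, qf e = 0 := by
    intro e he
    rw [qf_coord h hb (Cfsg.quadFormPlus m (ZMod 2)) (Q1_plus m) (fun k => by
      rw [Q2_plus]
      rcases k with i | i
      · exact (hs.qx i).symm
      · exact (hs.qy i).symm)]
    unfold Cfsg.quadFormPlus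
    apply Finset.sum_eq_zero
    intro i _
    rw [hcr e he i, mul_zero]
  refine ⟨A, ⟨⟨⟨fun a b => Subtype.ext (Bf_eq_zero.1 (hAB a a.2 b b.2))⟩⟩, fun a ha => by
    rw [pow_two]
    exact qf_eq_zero.1 (hAq a ha)⟩, ?_⟩
  let ψ : ↥A →* Multiplicative (Fin m → ZMod 2) :=
    { toFun := fun a => Multiplicative.ofAdd (fun i => Bf (a : E) (ys i))
      map_one' := by
        have h0 : (fun i => Bf ((1 : ↥A) : E) (ys i)) = 0 := by
          funext i
          exact Bf_one_left _
        rw [h0]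
        rfl
      map_mul' := fun a b => by
        have h0 : (fun i => Bf ((a * b : ↥A) : E) (ys i)) =
            (fun i => Bf (a : E) (ys i)) + (fun i => Bf (b : E) (ys i)) := by
          funext i
          exact Bf_mul_left h _ _ _
        rw [h0]
        rfl }
  have hψ : ∀ a : ↥A, ψ a = Multiplicative.ofAdd (fun i => Bf (a : E) (ys i)) := fun a => rfl
  have hker : ∀ a : ↥A, a ∈ ψ.ker ↔ ((a : E) = 1 ∨ (a : E) = z) := by
    intro a
    rw [MonoidHom.mem_ker, hψ]
    constructor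
    · intro ha
      apply hcomp
      intro i
      refine ⟨(hAm a).1 a.2 i, ?_⟩
      have h1 : (fun i => Bf (a : E) (ys i)) = 0 := ha
      exact congrFun h1 i
    · intro ha
      have h1 : (fun i => Bf (a : E) (ys i)) = 0 := by
        funext i
        rcases ha with e | e
        · rw [e]
          exact Bf_one_left _
        · rw [e]
          exact Bf_z_left h _
      rw [h1]
      rfl
  have hzA : z ∈ A := (hAm z).2 (fun i => Bf_z_left h _)
  have hk2 : Nat.card ↥ψ.ker = 2 := by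
    rw [Nat.card_eq_two_iff]
    refine ⟨⟨1, (hker 1).2 (Or.inl rfl)⟩, ⟨⟨z, hzA⟩, (hker ⟨z, hzA⟩).2 (Or.inr rfl)⟩, ?_, ?_⟩
    · intro e
      exact h.z1 (congrArg (fun t : ↥ψ.ker => ((t : ↥A) : E)) e).symm
    · ext x
      simp only [Set.mem_insert_iff, Set.mem_singleton_iff, Set.mem_univ, iff_true]
      rcases (hker x.1).1 x.2 with e | e
      · left
        exact Subtype.ext (Subtype.ext e)
      · right
        exact Subtype.ext (Subtype.ext e)
  have hr : ψ.range = ⊤ := by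
    rw [MonoidHom.range_eq_top]
    intro w
    obtain ⟨e, he⟩ := cvec_surj h hb (Sum.elim (Multiplicative.toAdd w) 0)
    have heA : e ∈ A := by
      rw [hAm]
      intro i
      have h1 := congrFun he (Sum.inr i)
      exact h1
    refine ⟨⟨e, heA⟩, ?_⟩
    rw [hψ]
    have h2 : (fun i => Bf e (ys i)) = Multiplicative.toAdd w := by
      funext i
      have h1 := congrFun he (Sum.inl i)
      exact h1
    show Multiplicative.ofAdd (fun i => Bf e (ys i)) = w
    rw [h2]
    rfl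
  have h1 := Subgroup.card_mul_index ψ.ker
  rw [Subgroup.index_ker, hr, Subgroup.card_top, hk2] at h1
  rw [← h1, pow_succ, mul_comm]
  congr 1
  rw [Nat.card_eq_fintype_card]
  simp [ZMod.card]

theorem Q2_minus_u {m : ℕ} {xs ys : Fin m → E} (hs : Sys m xs ys) (x₀ y₀ : E)
    (qx₀ : qf x₀ = 1) (qy₀ : qf y₀ = 1) (k : (Fin m ⊕ Fin m) ⊕ Fin 2) :
    Cfsg.quadFormMinus m (ZMod 2) 1 1 (Pi.single k 1) = qf (uM xs ys x₀ y₀ k) := by
  rcases k with k | j
  · rw [Q2_minus_inl]
    rcases k with i | i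
    · exact (hs.qx i).symm
    · exact (hs.qy i).symm
  · rw [Q2_minus_inr]
    revert j
    rw [Fin.forall_fin_two]
    refine ⟨?_, ?_⟩
    · rw [uM0]
      exact qx₀.symm
    · rw [uM1]
      exact qy₀.symm

theorem no_elem_abelian [Finite E] (h : XS z) (n : ℕ) (hcard : Nat.card E = 2 ^ (2 * n + 1))
    {m : ℕ} {xs ys : Fin m → E} (hs : Sys m xs ys) (x₀ y₀ : E)
    (hxy₀ : Bf x₀ y₀ = 1) (qx₀ : qf x₀ = 1) (qy₀ : qf y₀ = 1)
    (hx₀c : ∀ i, Bf x₀ (xs i) = 0 ∧ Bf x₀ (ys i) = 0)
    (hy₀c : ∀ i, Bf y₀ (xs i) = 0 ∧ Bf y₀ (ys i) = 0)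
    (hcomp : ∀ f : E, (∀ i, Bf f (xs i) = 0 ∧ Bf f (ys i) = 0) → Bf f x₀ = 0 →
      Bf f y₀ = 0 → f = 1 ∨ f = z)
    (A : Subgroup E) (hA : Cfsg.IsElementaryAbelian 2 A) (hAcard : Nat.card ↥A = 2 ^ (n + 1)) :
    False := by
  haveI : Fintype E := Fintype.ofFinite E
  have hAq : ∀ a ∈ A, qf a = 0 := by
    intro a ha
    apply qf_of_one
    rw [← pow_two]
    exact hA.2 a ha
  have hAB : ∀ a ∈ A, ∀ b ∈ A, Bf a b = 0 := by
    intro a ha b hb'
    apply Bf_of_comm
    have h1 : (⟨a, ha⟩ : ↥A) * ⟨b, hb'⟩ = ⟨b, hb'⟩ * ⟨a, ha⟩ := hA.1.is_comm.comm _ _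
    exact congrArg Subtype.val h1
  let CA : Subgroup E :=
    { carrier := {e | ∀ a ∈ A, Bf e a = 0}
      mul_mem' := by
        intro x y hx hy a ha
        have hx' : Bf x a = 0 := hx a ha
        have hy' : Bf y a = 0 := hy a ha
        show Bf (x * y) a = 0
        rw [Bf_mul_left h, hx', hy']
        decide
      one_mem' := fun a _ => Bf_one_left a
      inv_mem' := by
        intro x hx a ha
        show Bf x⁻¹ a = 0
        rw [Bf_inv_left h]
        exact hx a ha }
  have hCA : ∀ e, e ∈ CA ↔ ∀ a ∈ A, Bf e a = 0 := fun e => Iff.rfl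
  have hACA : A ≤ CA := fun a ha b hb' => hAB a ha b hb'
  have hC := lemC h A CA hCA
  rw [cnt_eq, cnt_eq, hAcard] at hC
  have hE : (Fintype.card E : ℤ) = 2 ^ (2 * n + 1) := by
    rw [← Nat.card_eq_fintype_card, hcard]
    push_cast
    rfl
  have hCAle : Nat.card ↥CA ≤ Nat.card ↥A := by
    rw [hAcard]
    have h1 : (Nat.card ↥CA : ℤ) * 2 ^ (n + 1) ≤ 2 ^ (n + 1) * 2 ^ (n + 1) := by
      calc (Nat.card ↥CA : ℤ) * 2 ^ (n + 1) ≤ 2 * (Fintype.card E : ℤ) := by
            exact_mod_cast hC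
        _ = 2 ^ (n + 1) * 2 ^ (n + 1) := by
            rw [hE]
            ring
    have h2 : (Nat.card ↥CA : ℤ) ≤ 2 ^ (n + 1) := le_of_mul_le_mul_right h1 (by positivity)
    exact_mod_cast h2
  have hAeq : A = CA := Subgroup.eq_of_le_of_card_ge hACA hCAle
  have hL := lemL h A hAq
  have hpos : 0 < ∑ e : E, (if (∀ a ∈ A, Bf e a = 0) then chi (qf e) else 0) := by
    have hterm : ∀ e : E, 0 ≤ (if (∀ a ∈ A, Bf e a = 0) then chi (qf e) else 0) := by
      intro e
      by_cases hc : ∀ a ∈ A, Bf e a = 0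
      · rw [if_pos hc]
        have heA : e ∈ A := by
          rw [hAeq]
          exact hc
        rw [hAq e heA, chi_zero]
        norm_num
      · rw [if_neg hc]
    have h1 := Finset.single_le_sum (fun e _ => hterm e) (Finset.mem_univ (1 : E))
    have h2 : (if (∀ a ∈ A, Bf (1 : E) a = 0) then chi (qf (1 : E)) else 0) = 1 := by
      rw [if_pos (fun a _ => Bf_one_left a), qf_one, chi_zero]
    rw [h2] at h1
    linarith
  have hcA : 0 < cnt A := by
    rw [cnt_eq, hAcard]
    positivity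
  have hSpos : 0 < ∑ e : E, chi (qf e) := by
    by_contra hn
    push Not at hn
    have h1 := mul_pos hcA hpos
    rw [← hL] at h1
    have h2 := mul_nonneg hcA.le (neg_nonneg.2 hn)
    linarith
  -- the minus system gives the opposite sign
  have hb := HB_minus hs x₀ y₀ hxy₀ hx₀c hy₀c hcomp
  have hqc := qf_coord h hb (Cfsg.quadFormMinus m (ZMod 2) 1 1) (Q1_minus m)
    (Q2_minus_u hs x₀ y₀ qx₀ qy₀)
  have hqN : ∀ e : E, (∀ i, Bf e (xs i) = 0) →
      qf e = (Bf e y₀) ^ 2 + 1 * (Bf e y₀) * (Bf e x₀) + 1 * (Bf e x₀) ^ 2 := by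
    intro e he
    rw [hqc e]
    unfold Cfsg.quadFormMinus
    have c0 : cvec (sigM m) (uM xs ys x₀ y₀) e (Sum.inr 0) = Bf e y₀ := by
      show Bf e (uM xs ys x₀ y₀ (Sum.inr 1)) = _
      rw [uM1]
    have c1 : cvec (sigM m) (uM xs ys x₀ y₀) e (Sum.inr 1) = Bf e x₀ := by
      show Bf e (uM xs ys x₀ y₀ (Sum.inr 0)) = _
      rw [uM0]
    have cs : ∑ i : Fin m, cvec (sigM m) (uM xs ys x₀ y₀) e (Sum.inl (Sum.inl i)) *
        cvec (sigM m) (uM xs ys x₀ y₀) e (Sum.inl (Sum.inr i)) = 0 :=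
      Finset.sum_eq_zero (fun i _ => by
        have c2 : cvec (sigM m) (uM xs ys x₀ y₀) e (Sum.inl (Sum.inr i)) = Bf e (xs i) := rfl
        rw [c2, he i, mul_zero])
    rw [cs, c0, c1, zero_add]
  let A₁ : Subgroup E :=
    { carrier := {e | (∀ i, Bf e (xs i) = 0) ∧ Bf e x₀ = 0 ∧ Bf e y₀ = 0}
      mul_mem' := by
        rintro x y ⟨hx1, hx2, hx3⟩ ⟨hy1, hy2, hy3⟩
        refine ⟨fun i => ?_, ?_, ?_⟩
        · rw [Bf_mul_left h, hx1 i, hy1 i]
          decide
        · rw [Bf_mul_left h, hx2, hy2]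
          decide
        · rw [Bf_mul_left h, hx3, hy3]
          decide
      one_mem' := ⟨fun i => Bf_one_left _, Bf_one_left _, Bf_one_left _⟩
      inv_mem' := by
        rintro x ⟨hx1, hx2, hx3⟩
        exact ⟨fun i => by rw [Bf_inv_left h]; exact hx1 i, by rw [Bf_inv_left h]; exact hx2,
          by rw [Bf_inv_left h]; exact hx3⟩ }
  have hA₁ : ∀ e, e ∈ A₁ ↔ ((∀ i, Bf e (xs i) = 0) ∧ Bf e x₀ = 0 ∧ Bf e y₀ = 0) :=
    fun e => Iff.rfl
  have hA₁q : ∀ a ∈ A₁, qf a = 0 := by
    intro a ha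
    obtain ⟨h1, h2, h3⟩ := (hA₁ a).1 ha
    rw [hqN a h1, h2, h3]
    decide
  have hxsA₁ : ∀ i, xs i ∈ A₁ := by
    intro i
    rw [hA₁]
    refine ⟨fun j => hs.xx i j, ?_, ?_⟩
    · rw [Bf_symm]
      exact (hx₀c i).1
    · rw [Bf_symm]
      exact (hy₀c i).1
  have hL₁ := lemL h A₁ hA₁q
  have hcA₁ : 0 < cnt A₁ := by
    rw [cnt_eq]
    exact_mod_cast Nat.card_pos
  let C₁ : Subgroup E :=
    { carrier := {e | ∀ a ∈ A₁, Bf e a = 0}
      mul_mem' := by
        intro x y hx hy a ha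
        have hx' : Bf x a = 0 := hx a ha
        have hy' : Bf y a = 0 := hy a ha
        show Bf (x * y) a = 0
        rw [Bf_mul_left h, hx', hy']
        decide
      one_mem' := fun a _ => Bf_one_left a
      inv_mem' := by
        intro x hx a ha
        show Bf x⁻¹ a = 0
        rw [Bf_inv_left h]
        exact hx a ha }
  have hC₁ : ∀ e, e ∈ C₁ ↔ ∀ a ∈ A₁, Bf e a = 0 := fun e => Iff.rfl
  have hx₀C : x₀ ∈ C₁ := by
    rw [hC₁]
    intro a ha
    rw [Bf_symm]
    exact ((hA₁ a).1 ha).2.1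
  have hy₀C : y₀ ∈ C₁ := by
    rw [hC₁]
    intro a ha
    rw [Bf_symm]
    exact ((hA₁ a).1 ha).2.2
  have hT : 2 * ∑ e : E, (if (∀ a ∈ A₁, Bf e a = 0) then chi (qf e) else 0) = - cnt C₁ := by
    have s1 := orth1 C₁ (fun e => Bf e y₀) (fun x y => Bf_mul_left h x y y₀) x₀ hx₀C hxy₀
    have s2 := orth1 C₁ (fun e => Bf e x₀) (fun x y => Bf_mul_left h x y x₀) y₀ hy₀C
      (by rw [Bf_symm]; exact hxy₀)
    have s3 := orth1 C₁ (fun e => Bf e (y₀ * x₀)) (fun x y => Bf_mul_left h x y (y₀ * x₀)) x₀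
      hx₀C (by rw [Bf_mul_right h, hxy₀, Bf_self]; decide)
    have key : 2 * ∑ e : E, (if (∀ a ∈ A₁, Bf e a = 0) then chi (qf e) else 0) =
        (∑ e : E, if e ∈ C₁ then chi (Bf e y₀) else 0) +
        (∑ e : E, if e ∈ C₁ then chi (Bf e x₀) else 0) +
        (∑ e : E, if e ∈ C₁ then chi (Bf e (y₀ * x₀)) else 0) - cnt C₁ := by
      unfold cnt
      rw [Finset.mul_sum, ← Finset.sum_add_distrib, ← Finset.sum_add_distrib,
        ← Finset.sum_sub_distrib]
      apply Finset.sum_congr rfl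
      intro e _
      by_cases hc : ∀ a ∈ A₁, Bf e a = 0
      · have hc' : e ∈ C₁ := (hC₁ e).2 hc
        rw [if_pos hc, if_pos hc', if_pos hc', if_pos hc', if_pos hc',
          hqN e (fun i => hc _ (hxsA₁ i)), chi_N, Bf_mul_right h]
      · have hc' : ¬ e ∈ C₁ := fun hh => hc ((hC₁ e).1 hh)
        rw [if_neg hc, if_neg hc', if_neg hc', if_neg hc', if_neg hc']
        ring
    rw [key, s1, s2, s3]
    ring
  have hcC₁ : 0 < cnt C₁ := by
    rw [cnt_eq]
    exact_mod_cast Nat.card_pos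
  have hTneg : ∑ e : E, (if (∀ a ∈ A₁, Bf e a = 0) then chi (qf e) else 0) < 0 := by
    linarith
  have h1 := mul_pos hcA₁ hSpos
  rw [hL₁] at h1
  have h2 := mul_nonneg hcA₁.le (neg_nonneg.2 hTneg.le)
  have h3 : cnt A₁ * ∑ e : E, (if (∀ a ∈ A₁, Bf e a = 0) then chi (qf e) else 0) < 0 :=
    mul_neg_of_pos_of_neg hcA₁ hTneg
  linarith

theorem main32 [Finite E] (hE : Cfsg.IsExtraspecial 2 E) (n : ℕ)
    (hcard : Nat.card E = 2 ^ (2 * n + 1)) :
    ((∃ A : Subgroup E, Cfsg.IsElementaryAbelian 2 A ∧ Nat.card ↥A = 2 ^ (n + 1)) →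
      Nonempty (Cfsg.Out E ≃* Cfsg.isometryGroup (ZMod 2) (Cfsg.quadFormPlus n (ZMod 2)))) ∧
    ((¬ ∃ A : Subgroup E, Cfsg.IsElementaryAbelian 2 A ∧ Nat.card ↥A = 2 ^ (n + 1)) →
      Nonempty (Cfsg.Out E ≃* Cfsg.isometryGroup (ZMod 2)
        (Cfsg.quadFormMinus (n - 1) (ZMod 2) 1 1))) := by
  obtain ⟨z, h⟩ := exists_XS hE
  rcases classify_top h with hp | hm
  · obtain ⟨m, xs, ys, hs, -, hcomp⟩ := hp
    have hcomp' : ∀ f : E, (∀ i, Bf f (xs i) = 0 ∧ Bf f (ys i) = 0) → f = 1 ∨ f = z :=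
      fun f hf => hcomp f (Subgroup.mem_top _) hf
    obtain ⟨hmn, hiso⟩ := out_plus h n hcard hs hcomp'
    subst hmn
    refine ⟨fun _ => hiso, fun hno => ?_⟩
    exact absurd (exists_elem_abelian h hs hcomp') hno
  · obtain ⟨m, xs, ys, x₀, y₀, hs, -, -, -, hxy₀, qx₀, qy₀, hx₀c, hy₀c, hcomp⟩ := hm
    have hcomp' : ∀ f : E, (∀ i, Bf f (xs i) = 0 ∧ Bf f (ys i) = 0) → Bf f x₀ = 0 →
        Bf f y₀ = 0 → f = 1 ∨ f = z := fun f hf hx hy => hcomp f (Subgroup.mem_top _) hf hx hy
    obtain ⟨hmn, -, hiso⟩ := out_minus h n hcard hs x₀ y₀ hxy₀ qx₀ qy₀ hx₀c hy₀c hcomp'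
    subst hmn
    refine ⟨fun hex => ?_, fun _ => hiso⟩
    obtain ⟨A, hA, hAc⟩ := hex
    exact (no_elem_abelian h n hcard hs x₀ y₀ hxy₀ qx₀ qy₀ hx₀c hy₀c hcomp' A hA hAc).elim

end Discr

end Cfsg.Agent.Lib.helper6.ESOut
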