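import Mathlib

set_option autoImplicit false

namespace Cfsg.Agent.Lib.helper6

section FieldAdd

variable {F : Type*} [Field F]

/-- A ring automorphism as an additive map. -/
def autAdd (σ : F ≃+* F) : F →+ F := (σ : F →+* F).toAddMonoidHom

theorem autAdd_apply (σ : F ≃+* F) (x : F) : autAdd σ x = σ x := rfl

theorem aut_linearIndependent_fun :
    LinearIndependent F (fun σ : F ≃+* F => ((σ : F →+* F) : F → F)) := by
  have h := linearIndependent_monoidHom F F
  have hinj : Function.Injective (fun σ : F ≃+* F => ((σ : F →+* F) : F →* F)) := by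
    intro σ τ h
    ext x
    exact congrArg (fun f : F →* F => f x) h
  exact h.comp _ hinj

theorem autAdd_linearIndependent : LinearIndependent F (autAdd : (F ≃+* F) → (F →+ F)) := by
  let coeL : (F →+ F) →ₗ[F] (F → F) :=
    { toFun := fun f => f, map_add' := fun _ _ => rfl, map_smul' := fun _ _ => rfl }
  exact LinearIndependent.of_comp coeL aut_linearIndependent_fun

variable [Finite F] [CharP F 2]

instance finite_ringAut : Finite (F ≃+* F) :=
  Finite.of_injective (fun σ : F ≃+* F => (σ : F → F)) DFunLike.coe_injective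

instance finite_addHom : Finite (F →+ F) :=
  Finite.of_injective (fun σ : F →+ F => (σ : F → F)) DFunLike.coe_injective

theorem finrank_addHom : Module.finrank F (F →+ F) = Nat.card (F ≃+* F) := by
  let _ : Algebra (ZMod 2) F := ZMod.algebra F 2
  let e : (F →+ F) ≃ₗ[F] (F →ₗ[ZMod 2] F) :=
    { (AddMonoidHom.toZModLinearMapEquiv 2 : (F →+ F) ≃+ (F →ₗ[ZMod 2] F)) with
      map_smul' := fun c f => by ext x; rfl }
  rw [e.finrank_eq, Module.finrank_linearMap, Module.finrank_self, mul_one,
    ← IsGalois.card_aut_eq_finrank (ZMod 2) F]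
  apply Nat.card_congr
  exact
    { toFun := fun σ => σ.toRingEquiv
      invFun := fun σ => AlgEquiv.ofRingEquiv (f := σ) (fun x =>
        RingHom.congr_fun (Subsingleton.elim ((σ : F →+* F).comp (algebraMap (ZMod 2) F))
          (algebraMap (ZMod 2) F)) x)
      left_inv := fun σ => by ext x; rfl
      right_inv := fun σ => by ext x; rfl }

/-- Every additive endomorphism of a finite field of characteristic 2 is a combination of
automorphisms. -/
theorem addHom_eq_sum [Fintype (F ≃+* F)] (f : F →+ F) :
    ∃ c : (F ≃+* F) → F, ∀ x, f x = ∑ σ, c σ * σ x := by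
  have hcard : Fintype.card (F ≃+* F) = Module.finrank F (F →+ F) := by
    rw [finrank_addHom, Nat.card_eq_fintype_card]
  have hspan := (autAdd_linearIndependent (F := F)).span_eq_top_of_card_eq_finrank' hcard
  have hf : f ∈ Submodule.span F (Set.range (autAdd : (F ≃+* F) → (F →+ F))) := by
    rw [hspan]; trivial
  obtain ⟨c, hc⟩ := (Submodule.mem_span_range_iff_exists_fun F).mp hf
  refine ⟨c, fun x => ?_⟩
  rw [← hc]
  simp [autAdd_apply]

/-- Every biadditive map is a combination of the maps `(x, y) ↦ σ x * τ y`. -/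
theorem biadd_eq_sum [Fintype (F ≃+* F)] (B : F →+ F →+ F) :
    ∃ c : (F ≃+* F) × (F ≃+* F) → F, ∀ x y, B x y = ∑ p, c p * (p.1 x * p.2 y) := by
  have hcard : Fintype.card (F ≃+* F) = Module.finrank F (F →+ F) := by
    rw [finrank_addHom, Nat.card_eq_fintype_card]
  let b : Module.Basis (F ≃+* F) F (F →+ F) :=
    basisOfLinearIndependentOfCardEqFinrank' autAdd autAdd_linearIndependent hcard
  have hb : ∀ σ, b σ = autAdd σ := fun σ => by
    simp [b]
  let g : (F ≃+* F) → (F →+ F) := fun τ =>
    { toFun := fun x => b.repr (B x) τ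
      map_zero' := by simp
      map_add' := fun x y => by simp }
  have hg : ∀ τ, ∃ c : (F ≃+* F) → F, ∀ x, g τ x = ∑ σ, c σ * σ x := fun τ => addHom_eq_sum (g τ)
  choose d hd using hg
  refine ⟨fun p => d p.2 p.1, fun x y => ?_⟩
  have h1 : B x = ∑ τ, b.repr (B x) τ • b τ := (b.sum_repr (B x)).symm
  have h2 : B x y = ∑ τ, b.repr (B x) τ * τ y := by
    conv_lhs => rw [h1]
    simp [hb, autAdd_apply]
  rw [h2, Fintype.sum_prod_type, Finset.sum_comm]
  apply Finset.sum_congr rfl
  intro τ _
  have h3 : b.repr (B x) τ = ∑ σ, d τ σ * σ x := hd τ x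
  rw [h3, Finset.sum_mul]
  apply Finset.sum_congr rfl
  intro σ _
  ring

end FieldAdd

end Cfsg.Agent.Lib.helper6
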