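import Mathlib
import Cfsg.Agent.Lib.helper6.FieldAdd

set_option autoImplicit false

namespace Cfsg.Agent.Lib.helper6

section FieldQuad

variable {F : Type*} [Field F] [Finite F] [CharP F 2]

/-- `h` is an `F`-combination of the maps `x ↦ σ x * τ x`. -/
def IsAutQuad [Fintype (F ≃+* F)] (h : F → F) : Prop :=
  ∃ c : (F ≃+* F) × (F ≃+* F) → F, ∀ x, h x = ∑ p, c p * (p.1 x * p.2 x)

omit [Finite F] [CharP F 2] in
theorem isAutQuad_add [Fintype (F ≃+* F)] {h₁ h₂ : F → F} (H₁ : IsAutQuad h₁)
    (H₂ : IsAutQuad h₂) : IsAutQuad (fun x => h₁ x + h₂ x) := by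
  obtain ⟨c₁, hc₁⟩ := H₁
  obtain ⟨c₂, hc₂⟩ := H₂
  refine ⟨fun p => c₁ p + c₂ p, fun x => ?_⟩
  show h₁ x + h₂ x = ∑ p, (c₁ p + c₂ p) * (p.1 x * p.2 x)
  rw [hc₁, hc₂, ← Finset.sum_add_distrib]
  apply Finset.sum_congr rfl
  intro p _
  ring

theorem isAutQuad_mul [Fintype (F ≃+* F)] (a : F) (f g : F →+ F) :
    IsAutQuad (fun x => a * (f x * g x)) := by
  obtain ⟨u, hu⟩ := addHom_eq_sum f
  obtain ⟨v, hv⟩ := addHom_eq_sum g
  refine ⟨fun p => a * u p.1 * v p.2, fun x => ?_⟩
  show a * (f x * g x) = ∑ p : (F ≃+* F) × (F ≃+* F), (a * u p.1 * v p.2) * (p.1 x * p.2 x)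
  rw [hu, hv, Fintype.sum_prod_type, Finset.sum_mul_sum, Finset.mul_sum]
  apply Finset.sum_congr rfl
  intro σ _
  rw [Finset.mul_sum]
  apply Finset.sum_congr rfl
  intro τ _
  ring

/-- A map quadratic over the prime field is an `F`-combination of the maps `x ↦ σ x * τ x`. -/
theorem quad_isAutQuad [Fintype (F ≃+* F)] (q : F → F)
    (hq : ∀ x y z : F, q (x + y + z) + q (x + y) + q (x + z) + q (y + z) + q x + q y + q z = 0) :
    IsAutQuad q := by
  classical
  have h2 : ∀ a : F, a + a = 0 := fun a => CharTwo.add_self_eq_zero a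
  have hq0 : q 0 = 0 := by
    have h := hq 0 0 0
    simp only [add_zero] at h
    have e : q 0 + q 0 + q 0 + q 0 + q 0 + q 0 + q 0 = q 0 := by
      have := h2 (q 0)
      calc q 0 + q 0 + q 0 + q 0 + q 0 + q 0 + q 0
          = (q 0 + q 0) + (q 0 + q 0) + (q 0 + q 0) + q 0 := by ring
        _ = q 0 := by rw [this]; ring
    rw [e] at h
    exact h
  -- the polar map in the first variable
  let g : F → (F →+ F) := fun b =>
    { toFun := fun u => q (u + b) + q u + q b
      map_zero' := by
        simp only [zero_add, hq0, add_zero]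
        exact h2 (q b)
      map_add' := fun u u' => by
        have h := hq u u' b
        apply CharTwo.add_eq_zero.mp
        have e : q (u + u' + b) + q (u + u') + q b +
            ((q (u + b) + q u + q b) + (q (u' + b) + q u' + q b)) =
            (q (u + u' + b) + q (u + u') + q (u + b) + q (u' + b) + q u + q u' + q b) +
              (q b + q b) := by ring
        rw [e, h, h2, add_zero] }
  have hg : ∀ b u, g b u = q (u + b) + q u + q b := fun b u => rfl
  let _ : Algebra (ZMod 2) F := ZMod.algebra F 2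
  let b := Module.finBasis (ZMod 2) F
  let ℓ : Fin (Module.finrank (ZMod 2) F) → (F →+ F) := fun i =>
    { toFun := fun x => algebraMap (ZMod 2) F (b.repr x i)
      map_zero' := by simp
      map_add' := fun x y => by simp }
  have hℓ : ∀ i x, ℓ i x = algebraMap (ZMod 2) F (b.repr x i) := fun i x => rfl
  have h01 : ∀ ε : ZMod 2, ε = 0 ∨ ε = 1 := by decide
  have hℓ01 : ∀ i x, ℓ i x = 0 ∨ ℓ i x = 1 := by
    intro i x
    rcases h01 (b.repr x i) with h | h
    · left; rw [hℓ, h, map_zero]
    · right; rw [hℓ, h, map_one]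
  have hsum : ∀ x : F, ∑ i, ℓ i x * b i = x := by
    intro x
    conv_rhs => rw [← b.sum_repr x]
    apply Finset.sum_congr rfl
    intro i _
    rw [hℓ, Algebra.smul_def]
  -- partial sums
  let S : Finset (Fin (Module.finrank (ZMod 2) F)) → (F →+ F) := fun s =>
    ∑ i ∈ s, (AddMonoidHom.mulRight (b i)).comp (ℓ i)
  have hS : ∀ s x, S s x = ∑ i ∈ s, ℓ i x * b i := by
    intro s x
    simp [S, AddMonoidHom.finsetSum_apply]
  have key : ∀ s : Finset (Fin (Module.finrank (ZMod 2) F)), IsAutQuad (fun x => q (S s x)) := by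
    intro s
    induction s using Finset.induction_on with
    | empty =>
      refine ⟨fun _ => 0, fun x => ?_⟩
      simp [hS, hq0]
    | insert i s his ih =>
      have e : ∀ x, q (S (insert i s) x) =
          (q (S s x) + q (b i) * (ℓ i x * ℓ i x)) + 1 * (ℓ i x * ((g (b i)).comp (S s)) x) := by
        intro x
        have e1 : S (insert i s) x = S s x + ℓ i x * b i := by
          rw [hS, hS, Finset.sum_insert his, add_comm]
        rw [e1, AddMonoidHom.comp_apply, hg]
        rcases hℓ01 i x with h | h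
        · rw [h]; simp
        · rw [h]
          simp only [one_mul, mul_one]
          apply CharTwo.add_eq_zero.mp
          have e2 : q (S s x + b i) +
              (q (S s x) + q (b i) + (q (S s x + b i) + q (S s x) + q (b i))) =
              (q (S s x + b i) + q (S s x + b i)) + (q (S s x) + q (S s x)) +
                (q (b i) + q (b i)) := by ring
          rw [e2]; simp only [h2]
      have h1 : IsAutQuad (fun x => q (b i) * (ℓ i x * ℓ i x)) := isAutQuad_mul _ (ℓ i) (ℓ i)
      have h3 : IsAutQuad (fun x => 1 * (ℓ i x * ((g (b i)).comp (S s)) x)) :=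
        isAutQuad_mul 1 (ℓ i) ((g (b i)).comp (S s))
      have h4 := isAutQuad_add (isAutQuad_add ih h1) h3
      obtain ⟨c, hc⟩ := h4
      exact ⟨c, fun x => (e x).trans (hc x)⟩
  obtain ⟨c, hc⟩ := key Finset.univ
  refine ⟨c, fun x => ?_⟩
  have h5 : q (S Finset.univ x) = ∑ p, c p * (p.1 x * p.2 x) := hc x
  rw [hS, hsum] at h5
  exact h5

end FieldQuad

end Cfsg.Agent.Lib.helper6
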