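import Mathlib
import Cfsg.Agent.Lib.helper4.UPerp

set_option autoImplicit false

/-! Stabiliser of a non-degenerate subspace in `GU_n(q)`. -/

namespace Cfsg.Agent.Lib.helper6.GUStab

open Matrix Cfsg.Agent.Lib.helper4

variable {F : Type*} [Field F] [Fintype F] {q : ℕ} {n k m : ℕ}

/-- block-diagonal matrix transported to `Fin n`. -/
def blk (e : Fin k ⊕ Fin m ≃ Fin n) (A : Matrix (Fin k) (Fin k) F)
    (D : Matrix (Fin m) (Fin m) F) : Matrix (Fin n) (Fin n) F :=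
  (Matrix.fromBlocks A 0 0 D).submatrix e.symm e.symm

omit [Fintype F] in
theorem blk_mul (e : Fin k ⊕ Fin m ≃ Fin n) (A A' : Matrix (Fin k) (Fin k) F)
    (D D' : Matrix (Fin m) (Fin m) F) : blk e (A * A') (D * D') = blk e A D * blk e A' D' := by
  unfold blk
  rw [Matrix.submatrix_mul_equiv, Matrix.fromBlocks_multiply]
  simp

omit [Fintype F] in
theorem blk_one (e : Fin k ⊕ Fin m ≃ Fin n) :
    blk e (1 : Matrix (Fin k) (Fin k) F) (1 : Matrix (Fin m) (Fin m) F) = 1 := by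
  unfold blk
  rw [Matrix.fromBlocks_one, Matrix.submatrix_one_equiv]

omit [Fintype F] in
theorem blk_apply_ll (e : Fin k ⊕ Fin m ≃ Fin n) (A : Matrix (Fin k) (Fin k) F)
    (D : Matrix (Fin m) (Fin m) F) (i i' : Fin k) :
    blk e A D (e (Sum.inl i)) (e (Sum.inl i')) = A i i' := by simp [blk]

omit [Fintype F] in
theorem blk_apply_rr (e : Fin k ⊕ Fin m ≃ Fin n) (A : Matrix (Fin k) (Fin k) F)
    (D : Matrix (Fin m) (Fin m) F) (j j' : Fin m) :
    blk e A D (e (Sum.inr j)) (e (Sum.inr j')) = D j j' := by simp [blk]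

omit [Fintype F] in
theorem blk_apply_lr (e : Fin k ⊕ Fin m ≃ Fin n) (A : Matrix (Fin k) (Fin k) F)
    (D : Matrix (Fin m) (Fin m) F) (i : Fin k) (j : Fin m) :
    blk e A D (e (Sum.inl i)) (e (Sum.inr j)) = 0 := by simp [blk]

omit [Fintype F] in
theorem blk_apply_rl (e : Fin k ⊕ Fin m ≃ Fin n) (A : Matrix (Fin k) (Fin k) F)
    (D : Matrix (Fin m) (Fin m) F) (i : Fin k) (j : Fin m) :
    blk e A D (e (Sum.inr j)) (e (Sum.inl i)) = 0 := by simp [blk]

omit [Fintype F] in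
theorem blk_mulVec_l (e : Fin k ⊕ Fin m ≃ Fin n) (A : Matrix (Fin k) (Fin k) F)
    (D : Matrix (Fin m) (Fin m) F) (u : Fin n → F) (i : Fin k) :
    (blk e A D *ᵥ u) (e (Sum.inl i)) = (A *ᵥ fun i' => u (e (Sum.inl i'))) i := by
  simp only [Matrix.mulVec, dotProduct]
  rw [← e.sum_comp, Fintype.sum_sum_type]
  simp only [blk_apply_ll, blk_apply_lr, zero_mul, Finset.sum_const_zero, add_zero]

omit [Fintype F] in
theorem blk_mulVec_r (e : Fin k ⊕ Fin m ≃ Fin n) (A : Matrix (Fin k) (Fin k) F)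
    (D : Matrix (Fin m) (Fin m) F) (u : Fin n → F) (j : Fin m) :
    (blk e A D *ᵥ u) (e (Sum.inr j)) = (D *ᵥ fun j' => u (e (Sum.inr j'))) j := by
  simp only [Matrix.mulVec, dotProduct]
  rw [← e.sum_comp, Fintype.sum_sum_type]
  simp only [blk_apply_rr, blk_apply_rl, zero_mul, Finset.sum_const_zero, zero_add]

omit [Fintype F] in
theorem herm_split (e : Fin k ⊕ Fin m ≃ Fin n) (u v : Fin n → F) :
    Cfsg.hermForm n F q u v
      = Cfsg.hermForm k F q (fun i => u (e (Sum.inl i))) (fun i => v (e (Sum.inl i)))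
        + Cfsg.hermForm m F q (fun j => u (e (Sum.inr j))) (fun j => v (e (Sum.inr j))) := by
  unfold Cfsg.hermForm
  rw [← e.sum_comp, Fintype.sum_sum_type]

omit [Fintype F] in
theorem blk_pres (e : Fin k ⊕ Fin m ≃ Fin n) (A : Matrix (Fin k) (Fin k) F)
    (D : Matrix (Fin m) (Fin m) F)
    (hA : ∀ u v, Cfsg.hermForm k F q (A *ᵥ u) (A *ᵥ v) = Cfsg.hermForm k F q u v)
    (hD : ∀ u v, Cfsg.hermForm m F q (D *ᵥ u) (D *ᵥ v) = Cfsg.hermForm m F q u v) :
    ∀ u v, Cfsg.hermForm n F q (blk e A D *ᵥ u) (blk e A D *ᵥ v) = Cfsg.hermForm n F q u v := by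
  intro u v
  rw [herm_split e, herm_split e u v]
  simp only [blk_mulVec_l, blk_mulVec_r]
  exact congrArg₂ (· + ·) (hA _ _) (hD _ _)

/-- block-diagonal embedding as a monoid hom on matrices. -/
def blkMon (e : Fin k ⊕ Fin m ≃ Fin n) :
    Matrix (Fin k) (Fin k) F × Matrix (Fin m) (Fin m) F →* Matrix (Fin n) (Fin n) F where
  toFun p := blk e p.1 p.2
  map_one' := blk_one e
  map_mul' p p' := blk_mul e _ _ _ _

/-- block-diagonal embedding of general linear groups. -/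
def blkGL (e : Fin k ⊕ Fin m ≃ Fin n) :
    Matrix.GeneralLinearGroup (Fin k) F × Matrix.GeneralLinearGroup (Fin m) F →*
      Matrix.GeneralLinearGroup (Fin n) F :=
  (Units.map (blkMon e)).comp (MulEquiv.prodUnits.symm.toMonoidHom)

omit [Fintype F] in
theorem blkGL_val (e : Fin k ⊕ Fin m ≃ Fin n)
    (p : Matrix.GeneralLinearGroup (Fin k) F × Matrix.GeneralLinearGroup (Fin m) F) :
    ((blkGL e p : Matrix.GeneralLinearGroup (Fin n) F) : Matrix (Fin n) (Fin n) F)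
      = blk e (p.1 : Matrix (Fin k) (Fin k) F) (p.2 : Matrix (Fin m) (Fin m) F) := rfl

theorem block_of_stab (hF : Fintype.card F = q ^ 2) (e : Fin k ⊕ Fin m ≃ Fin n)
    (g : Matrix.GeneralLinearGroup (Fin n) F) (hg : g ∈ Cfsg.GU n F q)
    (hs : ∀ x : Fin n → F, (∀ j, x (e (Sum.inr j)) = 0) ↔
      ∀ j, ((g : Matrix (Fin n) (Fin n) F) *ᵥ x) (e (Sum.inr j)) = 0) :
    ∃ (A : Cfsg.GU k F q) (D : Cfsg.GU m F q), (g : Matrix (Fin n) (Fin n) F)
      = blk e ((A : Matrix.GeneralLinearGroup (Fin k) F) : Matrix (Fin k) (Fin k) F)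
          ((D : Matrix.GeneralLinearGroup (Fin m) F) : Matrix (Fin m) (Fin m) F) := by
  classical
  have hq := uq_ge_two hF
  have hMu := (mem_GU_iff g).mp hg
  have ha : ∀ i j, (g : Matrix (Fin n) (Fin n) F) (e (Sum.inr j)) (e (Sum.inl i)) = 0 := by
    intro i j
    have h1 := (hs (Pi.single (e (Sum.inl i)) 1)).mp (fun j' => by simp)
    have h2 := h1 j
    rwa [Matrix.mulVec_single_one] at h2
  have hgh : ∀ y, (g : Matrix (Fin n) (Fin n) F) *ᵥ
      (((g⁻¹ : Matrix.GeneralLinearGroup (Fin n) F) : Matrix (Fin n) (Fin n) F) *ᵥ y) = y := by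
    intro y
    rw [Matrix.mulVec_mulVec, ← Units.val_mul, mul_inv_cancel, Units.val_one, Matrix.one_mulVec]
  have hhs : ∀ y : Fin n → F, (∀ j, y (e (Sum.inr j)) = 0) →
      ∀ j, (((g⁻¹ : Matrix.GeneralLinearGroup (Fin n) F) : Matrix (Fin n) (Fin n) F) *ᵥ y)
        (e (Sum.inr j)) = 0 := by
    intro y hy
    refine (hs _).mpr ?_
    rw [hgh]
    exact hy
  have hb : ∀ i j, (g : Matrix (Fin n) (Fin n) F) (e (Sum.inl i)) (e (Sum.inr j)) = 0 := by
    intro i j
    have h1 : Cfsg.hermForm n F q ((g : Matrix (Fin n) (Fin n) F) *ᵥ Pi.single (e (Sum.inr j)) 1)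
        (Pi.single (e (Sum.inl i)) 1)
        = Cfsg.hermForm n F q (Pi.single (e (Sum.inr j)) 1)
          (((g⁻¹ : Matrix.GeneralLinearGroup (Fin n) F) : Matrix (Fin n) (Fin n) F) *ᵥ
            Pi.single (e (Sum.inl i)) 1) := by
      rw [← hMu (Pi.single (e (Sum.inr j)) 1), hgh]
    rw [herm_single_right hF, herm_single_left hF, hhs _ (fun j' => by simp) j,
      zero_pow (by omega)] at h1
    rwa [Matrix.mulVec_single_one] at h1
  obtain ⟨A, hA⟩ : ∃ A : Matrix (Fin k) (Fin k) F,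
      A = fun i i' => (g : Matrix (Fin n) (Fin n) F) (e (Sum.inl i)) (e (Sum.inl i')) := ⟨_, rfl⟩
  obtain ⟨D, hD⟩ : ∃ D : Matrix (Fin m) (Fin m) F,
      D = fun j j' => (g : Matrix (Fin n) (Fin n) F) (e (Sum.inr j)) (e (Sum.inr j')) := ⟨_, rfl⟩
  have hMblk : (g : Matrix (Fin n) (Fin n) F) = blk e A D := by
    refine Matrix.ext (fun a b => ?_)
    obtain ⟨a', rfl⟩ := e.surjective a
    obtain ⟨b', rfl⟩ := e.surjective b
    rcases a' with i | j <;> rcases b' with i' | j'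
    · rw [blk_apply_ll, hA]
    · rw [blk_apply_lr, hb]
    · rw [blk_apply_rl, ha]
    · rw [blk_apply_rr, hD]
  have h0k : Cfsg.hermForm k F q 0 0 = 0 := by simp [Cfsg.hermForm]
  have h0m : Cfsg.hermForm m F q 0 0 = 0 := by simp [Cfsg.hermForm]
  have hAp : ∀ a b : Fin k → F, Cfsg.hermForm k F q (A *ᵥ a) (A *ᵥ b) = Cfsg.hermForm k F q a b := by
    intro a b
    have h1 := hMu (fun x => Sum.elim a 0 (e.symm x)) (fun x => Sum.elim b 0 (e.symm x))
    rw [hMblk, herm_split e, herm_split e (fun x => Sum.elim a 0 (e.symm x))] at h1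
    simp only [blk_mulVec_l, blk_mulVec_r, Equiv.symm_apply_apply, Sum.elim_inl, Sum.elim_inr,
      Pi.zero_apply] at h1
    have e2 : (fun j' : Fin m => (0 : F)) = 0 := rfl
    rw [e2, Matrix.mulVec_zero] at h1
    have e3 : (fun j : Fin m => (0 : Fin m → F) j) = 0 := rfl
    rw [e3, h0m, add_zero, add_zero] at h1
    exact h1
  have hDp : ∀ a b : Fin m → F, Cfsg.hermForm m F q (D *ᵥ a) (D *ᵥ b) = Cfsg.hermForm m F q a b := by
    intro a b
    have h1 := hMu (fun x => Sum.elim 0 a (e.symm x)) (fun x => Sum.elim 0 b (e.symm x))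
    rw [hMblk, herm_split e, herm_split e (fun x => Sum.elim 0 a (e.symm x))] at h1
    simp only [blk_mulVec_l, blk_mulVec_r, Equiv.symm_apply_apply, Sum.elim_inl, Sum.elim_inr,
      Pi.zero_apply] at h1
    have e2 : (fun j' : Fin k => (0 : F)) = 0 := rfl
    rw [e2, Matrix.mulVec_zero] at h1
    have e3 : (fun j : Fin k => (0 : Fin k → F) j) = 0 := rfl
    rw [e3, h0k, zero_add, zero_add] at h1
    exact h1
  obtain ⟨A', hA', hA'M⟩ := gu_mk hF A hAp
  obtain ⟨D', hD', hD'M⟩ := gu_mk hF D hDp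
  exact ⟨⟨A', hA'⟩, ⟨D', hD'⟩, by rw [hA'M, hD'M]; exact hMblk⟩

theorem stab_equiv (hF : Fintype.card F = q ^ 2) (e : Fin k ⊕ Fin m ≃ Fin n)
    (W : Submodule F (Fin n → F)) (P : Matrix.GeneralLinearGroup (Fin n) F)
    (hP : P ∈ Cfsg.GU n F q)
    (hPW : ∀ x : Fin n → F, (P : Matrix (Fin n) (Fin n) F) *ᵥ x ∈ W ↔
      ∀ j, x (e (Sum.inr j)) = 0) :
    Nonempty (↥((Cfsg.stabilizing (Cfsg.glToMat (Fin n) F) (W : Set (Fin n → F))).subgroupOf
      (Cfsg.GU n F q)) ≃* ↥(Cfsg.GU k F q) × ↥(Cfsg.GU m F q)) := by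
  classical
  obtain ⟨Φ, hΦv⟩ : ∃ Φ : ↥(Cfsg.GU k F q) × ↥(Cfsg.GU m F q) →*
      Matrix.GeneralLinearGroup (Fin n) F, ∀ p, Φ p = P * blkGL e (p.1.1, p.2.1) * P⁻¹ :=
    ⟨(MulAut.conj P).toMonoidHom.comp ((blkGL e).comp
      (MonoidHom.prodMap (Subgroup.subtype _) (Subgroup.subtype _))), fun p => rfl⟩
  have hinj : Function.Injective Φ := by
    intro p p' h
    rw [hΦv, hΦv] at h
    have h1 : blkGL e (p.1.1, p.2.1) = blkGL e (p'.1.1, p'.2.1) := by
      have := congrArg (fun x => P⁻¹ * x * P) h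
      simpa [mul_assoc] using this
    have h2 : blk e (p.1.1 : Matrix (Fin k) (Fin k) F) (p.2.1 : Matrix (Fin m) (Fin m) F)
        = blk e (p'.1.1 : Matrix (Fin k) (Fin k) F) (p'.2.1 : Matrix (Fin m) (Fin m) F) :=
      congrArg Units.val h1
    apply Prod.ext
    · apply Subtype.ext
      apply Units.ext
      refine Matrix.ext (fun i i' => ?_)
      have := congrFun (congrFun h2 (e (Sum.inl i))) (e (Sum.inl i'))
      rwa [blk_apply_ll, blk_apply_ll] at this
    · apply Subtype.ext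
      apply Units.ext
      refine Matrix.ext (fun i i' => ?_)
      have := congrFun (congrFun h2 (e (Sum.inr i))) (e (Sum.inr i'))
      rwa [blk_apply_rr, blk_apply_rr] at this
  have hPinv : ∀ y, (P : Matrix (Fin n) (Fin n) F) *ᵥ
      (((P⁻¹ : Matrix.GeneralLinearGroup (Fin n) F) : Matrix (Fin n) (Fin n) F) *ᵥ y) = y := by
    intro y
    rw [Matrix.mulVec_mulVec, ← Units.val_mul, mul_inv_cancel, Units.val_one, Matrix.one_mulVec]
  have hrange : Φ.range = Cfsg.stabilizing (Cfsg.glToMat (Fin n) F) (W : Set (Fin n → F)) ⊓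
      Cfsg.GU n F q := by
    ext g
    constructor
    · rintro ⟨p, rfl⟩
      rw [hΦv]
      have hb : blkGL e (p.1.1, p.2.1) ∈ Cfsg.GU n F q := by
        rw [mem_GU_iff, blkGL_val]
        exact blk_pres e _ _ ((mem_GU_iff _).mp p.1.2) ((mem_GU_iff _).mp p.2.2)
      refine ⟨?_, Subgroup.mul_mem _ (Subgroup.mul_mem _ hP hb) (Subgroup.inv_mem _ hP)⟩
      intro v
      show v ∈ W ↔ ((P * blkGL e (p.1.1, p.2.1) * P⁻¹ : Matrix.GeneralLinearGroup (Fin n) F) :
        Matrix (Fin n) (Fin n) F) *ᵥ v ∈ W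
      obtain ⟨x, rfl⟩ : ∃ x, (P : Matrix (Fin n) (Fin n) F) *ᵥ x = v := ⟨_, hPinv v⟩
      have h3 : ((P * blkGL e (p.1.1, p.2.1) * P⁻¹ : Matrix.GeneralLinearGroup (Fin n) F) :
          Matrix (Fin n) (Fin n) F) *ᵥ ((P : Matrix (Fin n) (Fin n) F) *ᵥ x)
          = (P : Matrix (Fin n) (Fin n) F) *ᵥ (blk e (p.1.1 : Matrix (Fin k) (Fin k) F)
            (p.2.1 : Matrix (Fin m) (Fin m) F) *ᵥ x) := by
        rw [Matrix.mulVec_mulVec, Matrix.mulVec_mulVec, ← blkGL_val e (p.1.1, p.2.1),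
          ← Units.val_mul, ← Units.val_mul, inv_mul_cancel_right]
      rw [h3, hPW, hPW]
      simp only [blk_mulVec_r]
      constructor
      · intro h j
        have h4 : (fun j' => x (e (Sum.inr j'))) = 0 := funext h
        rw [h4, Matrix.mulVec_zero]
        rfl
      · intro h j
        have h0 : (p.2.1 : Matrix (Fin m) (Fin m) F) *ᵥ (fun j' => x (e (Sum.inr j')))
            = (p.2.1 : Matrix (Fin m) (Fin m) F) *ᵥ 0 := by
          rw [Matrix.mulVec_zero]
          exact funext h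
        exact congrFun (gl_mulVec_injective p.2.1 h0) j
    · rintro ⟨hgs, hgu⟩
      obtain ⟨g', hg'⟩ : ∃ g' : Matrix.GeneralLinearGroup (Fin n) F, g' = P⁻¹ * g * P := ⟨_, rfl⟩
      have hg'u : g' ∈ Cfsg.GU n F q := by
        rw [hg']
        exact Subgroup.mul_mem _ (Subgroup.mul_mem _ (Subgroup.inv_mem _ hP) hgu) hP
      have hg's : ∀ x : Fin n → F, (∀ j, x (e (Sum.inr j)) = 0) ↔
          ∀ j, ((g' : Matrix (Fin n) (Fin n) F) *ᵥ x) (e (Sum.inr j)) = 0 := by
        intro x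
        rw [← hPW, ← hPW]
        have h3 : (P : Matrix (Fin n) (Fin n) F) *ᵥ ((g' : Matrix (Fin n) (Fin n) F) *ᵥ x)
            = (g : Matrix (Fin n) (Fin n) F) *ᵥ ((P : Matrix (Fin n) (Fin n) F) *ᵥ x) := by
          rw [Matrix.mulVec_mulVec, Matrix.mulVec_mulVec, ← Units.val_mul, ← Units.val_mul, hg']
          congr 2
          group
        rw [h3]
        exact hgs _
      obtain ⟨A, D, hAD⟩ := block_of_stab hF e g' hg'u hg's
      refine ⟨(A, D), ?_⟩
      rw [hΦv]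
      have h5 : blkGL e ((A, D).1.1, (A, D).2.1) = g' := Units.ext hAD.symm
      rw [h5, hg']
      group
  exact ⟨(MulEquiv.subgroupCongr (Subgroup.inf_subgroupOf_right _ _).symm).trans
    ((Subgroup.subgroupOfEquivOfLe inf_le_right).trans
      ((MulEquiv.subgroupCongr hrange.symm).trans (MonoidHom.ofInjective hinj).symm))⟩

end Cfsg.Agent.Lib.helper6.GUStab
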