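import Mathlib
import Cfsg.Prelude.Def_TwoFusion
import Cfsg.Agent.Lib.helper6.Invol
import Cfsg.Agent.Lib.helper6.Isolated
import Cfsg.Agent.S1184
import Cfsg.Agent.S1185

set_option autoImplicit false

namespace Cfsg.Agent.Lib.helper6

section IsoOrder

variable {G : Type*} [Group G]

theorem odd_sqrt {x : G} (hx : Odd (orderOf x)) : ∃ n : ℕ, x ^ n * x ^ n = x := by
  obtain ⟨e, he⟩ := hx
  refine ⟨e + 1, ?_⟩
  rw [← pow_add]
  have : e + 1 + (e + 1) = orderOf x + 1 := by omega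
  rw [this, pow_succ, pow_orderOf_eq_one, one_mul]

theorem odd_pow {x : G} (hx : Odd (orderOf x)) (n : ℕ) : Odd (orderOf (x ^ n)) :=
  Odd.of_dvd_nat hx (orderOf_pow_dvd n)

theorem inv_pow_of_inv {z x : G} (h : z * x * z⁻¹ = x⁻¹) (n : ℕ) :
    z * x ^ n * z⁻¹ = (x ^ n)⁻¹ := by
  rw [← conj_pow, h, inv_pow]

theorem inv_inv_of_inv {z x : G} (h : z * x * z⁻¹ = x⁻¹) : z * x⁻¹ * z⁻¹ = x := by
  have : z * x⁻¹ * z⁻¹ = (z * x * z⁻¹)⁻¹ := by group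
  rw [this, h, inv_inv]

/-- If `z` is an involution inverting `j` then `j z j⁻¹ = j² z`. -/
theorem sq_mul_eq_conj {z j : G} (hz : z * z = 1) (hj : z * j * z⁻¹ = j⁻¹) :
    (j * j) * z = j * z * j⁻¹ := by
  have hzi : z⁻¹ = z := inv_eq_self_of_mul_self hz
  have h1 : z * j⁻¹ * z⁻¹ = j := inv_inv_of_inv hj
  calc j * j * z = j * (z * j⁻¹ * z⁻¹) * z := by rw [h1]
    _ = j * z * j⁻¹ := by rw [hzi]; simp only [mul_assoc]; rw [hz, mul_one]

/-- An odd-order element inverted by the involution `z`, times `z`, is a conjugate of `z`. -/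
theorem exists_conj_of_invOdd {z k : G} (hz : z * z = 1) (hk : Odd (orderOf k))
    (hinv : z * k * z⁻¹ = k⁻¹) : ∃ g : G, k * z = g * z * g⁻¹ := by
  obtain ⟨n, hn⟩ := odd_sqrt hk
  refine ⟨k ^ n, ?_⟩
  calc k * z = (k ^ n * k ^ n) * z := by rw [hn]
    _ = k ^ n * z * (k ^ n)⁻¹ := sq_mul_eq_conj hz (inv_pow_of_inv hinv n)

/-- A conjugate of the isolated involution `z`, times `z`, has odd order and is inverted by `z`. -/
theorem invOdd_conj_mul [Finite G] {z : G} (hz : Cfsg.IsIsolatedInvolution z) (g : G) :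
    Odd (orderOf (g * z * g⁻¹ * z)) ∧ z * (g * z * g⁻¹ * z) * z⁻¹ = (g * z * g⁻¹ * z)⁻¹ := by
  have hz1 := iso_mul_self hz
  have hzi : z⁻¹ = z := inv_eq_self_of_mul_self hz1
  have hu1 := conj_mul_self hz1 g
  have hui : (g * z * g⁻¹)⁻¹ = g * z * g⁻¹ := inv_eq_self_of_mul_self hu1
  constructor
  · have h1 : g * z * g⁻¹ * z = z⁻¹ * (z * (g * z * g⁻¹)) * z⁻¹⁻¹ := by group
    have h2 : orderOf (z⁻¹ * (z * (g * z * g⁻¹)) * z⁻¹⁻¹) = orderOf (z * (g * z * g⁻¹)) :=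
      (MulAut.conj z⁻¹).orderOf_eq _
    rw [h1, h2]; exact iso_odd hz g
  · rw [mul_inv_rev, hui, hzi]
    simp only [mul_assoc]; rw [hz1, mul_one]

/-- Two involutions with product of odd order are conjugate by a conjugate of the first. -/
theorem invol_midpoint {u u' : G} (hu : u * u = 1) (hu' : u' * u' = 1)
    (hodd : Odd (orderOf (u * u'))) :
    ∃ x : G, (x * u * x⁻¹) * u * (x * u * x⁻¹)⁻¹ = u' := by
  have hui : u⁻¹ = u := inv_eq_self_of_mul_self hu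
  have hu'i : u'⁻¹ = u' := inv_eq_self_of_mul_self hu'
  have hud : u * (u * u') * u⁻¹ = (u * u')⁻¹ := by
    rw [mul_inv_rev, hui, hu'i, ← mul_assoc, hu, one_mul]
  obtain ⟨n, hn⟩ := odd_sqrt hodd
  have hur := inv_pow_of_inv hud n
  have hrodd := odd_pow hodd n
  have hdinv : (u * u')⁻¹ * u = u' := by
    rw [mul_inv_rev, hui, hu'i, mul_assoc, hu, mul_one]
  generalize (u * u') ^ n = r at hn hur hrodd
  obtain ⟨n', hn'⟩ := odd_sqrt hrodd
  have hur' := inv_pow_of_inv hur n'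
  generalize r ^ n' = r' at hn' hur'
  refine ⟨r'⁻¹, ?_⟩
  have h1 : r'⁻¹ * u * r'⁻¹⁻¹ = r⁻¹ * u := by
    rw [inv_inv]
    calc r'⁻¹ * u * r' = r'⁻¹ * (u * r' * u⁻¹) * u := by rw [hui]; simp only [mul_assoc]; rw [hu, mul_one]
      _ = r'⁻¹ * r'⁻¹ * u := by rw [hur']
      _ = r⁻¹ * u := by rw [← hn', mul_inv_rev]
  rw [h1]
  calc r⁻¹ * u * u * (r⁻¹ * u)⁻¹ = r⁻¹ * (u * r * u⁻¹) * u := by
        rw [mul_inv_rev, inv_inv, hui]; simp only [mul_assoc]; rw [← mul_assoc u u, hu, one_mul, mul_one]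
    _ = r⁻¹ * r⁻¹ * u := by rw [hur]
    _ = (u * u')⁻¹ * u := by rw [← hn, mul_inv_rev]
    _ = u' := hdinv

theorem midpoint_exists [Finite G] {z u u' : G} (hz : Cfsg.IsIsolatedInvolution z)
    (hu : ∃ g, u = g * z * g⁻¹) (hu' : ∃ g, u' = g * z * g⁻¹) :
    ∃ w, (∃ g, w = g * z * g⁻¹) ∧ w * u * w⁻¹ = u' := by
  obtain ⟨g₀, rfl⟩ := hu
  obtain ⟨g₁, rfl⟩ := hu'
  have hz1 := iso_mul_self hz
  have hisu := iso_conj hz g₀
  have e : g₁ * z * g₁⁻¹ = (g₁ * g₀⁻¹) * (g₀ * z * g₀⁻¹) * (g₁ * g₀⁻¹)⁻¹ := by group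
  have hodd : Odd (orderOf ((g₀ * z * g₀⁻¹) * (g₁ * z * g₁⁻¹))) := by
    have := iso_odd hisu (g₁ * g₀⁻¹)
    rwa [← e] at this
  obtain ⟨x, hx⟩ := invol_midpoint (conj_mul_self hz1 g₀) (conj_mul_self hz1 g₁) hodd
  refine ⟨x * (g₀ * z * g₀⁻¹) * x⁻¹, ⟨x * g₀, by group⟩, hx⟩

theorem midpoint_unique [Finite G] {z u w₁ w₂ : G} (hz : Cfsg.IsIsolatedInvolution z)
    (hu : ∃ g, u = g * z * g⁻¹) (hw₁ : ∃ g, w₁ = g * z * g⁻¹) (hw₂ : ∃ g, w₂ = g * z * g⁻¹)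
    (h : w₁ * u * w₁⁻¹ = w₂ * u * w₂⁻¹) : w₁ = w₂ := by
  obtain ⟨g₀, rfl⟩ := hu
  obtain ⟨g₁, rfl⟩ := hw₁
  obtain ⟨g₂, rfl⟩ := hw₂
  by_contra hne
  have hu := iso_conj hz g₀
  have e1 : g₁ * z * g₁⁻¹ = (g₁ * g₀⁻¹) * (g₀ * z * g₀⁻¹) * (g₁ * g₀⁻¹)⁻¹ := by group
  have e2 : g₂ * z * g₂⁻¹ = (g₂ * g₀⁻¹) * (g₀ * z * g₀⁻¹) * (g₂ * g₀⁻¹)⁻¹ := by group
  have hz1 := iso_mul_self hz
  have hw1 := conj_mul_self hz1 g₁
  have hw2 := conj_mul_self hz1 g₂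
  have hw1i := inv_eq_self_of_mul_self hw1
  have hw2i := inv_eq_self_of_mul_self hw2
  have hcomm : Commute ((g₂ * z * g₂⁻¹) * (g₁ * z * g₁⁻¹)) (g₀ * z * g₀⁻¹) := by
    rw [hw1i, hw2i] at h
    show (g₂ * z * g₂⁻¹) * (g₁ * z * g₁⁻¹) * (g₀ * z * g₀⁻¹) =
      (g₀ * z * g₀⁻¹) * ((g₂ * z * g₂⁻¹) * (g₁ * z * g₁⁻¹))
    generalize g₀ * z * g₀⁻¹ = u at h
    generalize g₁ * z * g₁⁻¹ = w₁ at h hw1
    generalize g₂ * z * g₂⁻¹ = w₂ at h hw2
    calc w₂ * w₁ * u = w₂ * (w₁ * u * w₁) * w₁ := by simp only [mul_assoc]; rw [hw1, mul_one]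
      _ = w₂ * (w₂ * u * w₂) * w₁ := by rw [h]
      _ = u * (w₂ * w₁) := by simp only [mul_assoc]; rw [← mul_assoc w₂ w₂, hw2, one_mul]
  have hne' : (g₂ * g₀⁻¹) * (g₀ * z * g₀⁻¹) * (g₂ * g₀⁻¹)⁻¹ ≠
      (g₁ * g₀⁻¹) * (g₀ * z * g₀⁻¹) * (g₁ * g₀⁻¹)⁻¹ := by
    rw [← e1, ← e2]; exact fun h' => hne h'.symm
  have := Cfsg.Agent.S1184.result (g₀ * z * g₀⁻¹) hu (g₂ * g₀⁻¹) (g₁ * g₀⁻¹) hne'
  rw [← e1, ← e2] at this
  exact this hcomm

variable [Finite G]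

theorem card_eq_centralizer_mul (z : G) (hz : Cfsg.IsIsolatedInvolution z) :
    Nat.card G = Nat.card (Subgroup.centralizer ({z} : Set G)) *
      Nat.card {k : G // Odd (orderOf k) ∧ z * k * z⁻¹ = k⁻¹} := by
  rw [← Nat.card_prod]
  symm
  apply Nat.card_eq_of_bijective
    (fun p : (Subgroup.centralizer ({z} : Set G)) ×
        {k : G // Odd (orderOf k) ∧ z * k * z⁻¹ = k⁻¹} => (p.2 : G) * (p.1 : G))
  constructor
  · rintro ⟨c, k⟩ ⟨c', k'⟩ h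
    have h' : (k : G) * (c : G) = (k' : G) * (c' : G) := h
    have hk1 : ((k : G) * (c : G))⁻¹ * (k : G) ∈ Subgroup.centralizer ({z} : Set G) := by
      have : ((k : G) * (c : G))⁻¹ * (k : G) = (c : G)⁻¹ := by group
      rw [this]; exact inv_mem c.2
    have hk2 : ((k : G) * (c : G))⁻¹ * (k' : G) ∈ Subgroup.centralizer ({z} : Set G) := by
      rw [h']
      have : ((k' : G) * (c' : G))⁻¹ * (k' : G) = (c' : G)⁻¹ := by group
      rw [this]; exact inv_mem c'.2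
    have hkk : (k : G) = k' :=
      (Cfsg.Agent.S1185.result z hz ((k : G) * c)).unique ⟨k.2, hk1⟩ ⟨k'.2, hk2⟩
    have hcc : (c : G) = c' := by
      rw [hkk] at h'
      exact mul_left_cancel h'
    exact Prod.ext (Subtype.ext hcc) (Subtype.ext hkk)
  · intro g
    obtain ⟨k, ⟨hk, hc⟩, -⟩ := Cfsg.Agent.S1185.result z hz g
    refine ⟨(⟨k⁻¹ * g, ?_⟩, ⟨k, hk⟩), ?_⟩
    · have : k⁻¹ * g = (g⁻¹ * k)⁻¹ := by group
      rw [this]; exact inv_mem hc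
    · simp

/-- `a b a` is again an odd-order element inverted by `z`. -/
theorem invOdd_mul_mul {z a b : G} (hz : Cfsg.IsIsolatedInvolution z)
    (ha : z * a * z⁻¹ = a⁻¹) (hbo : Odd (orderOf b)) (hb : z * b * z⁻¹ = b⁻¹) :
    Odd (orderOf (a * b * a)) ∧ z * (a * b * a) * z⁻¹ = (a * b * a)⁻¹ := by
  have hz1 := iso_mul_self hz
  have hzi : z⁻¹ = z := inv_eq_self_of_mul_self hz1
  obtain ⟨j, hj⟩ := exists_conj_of_invOdd hz1 hbo hb
  have hinv : z * (a * b * a) * z⁻¹ = (a * b * a)⁻¹ := by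
    have : z * (a * b * a) * z⁻¹ = (z * a * z⁻¹) * (z * b * z⁻¹) * (z * a * z⁻¹) := by group
    rw [this, ha, hb]; group
  refine ⟨?_, hinv⟩
  have h2 : z * a⁻¹ * z⁻¹ = a := inv_inv_of_inv ha
  have h1 : a * b * a = (a * j) * z * (a * j)⁻¹ * z := by
    calc a * b * a = a * b * (z * a⁻¹ * z⁻¹) := by rw [h2]
      _ = a * (b * z) * a⁻¹ * z := by rw [hzi]; simp only [mul_assoc]
      _ = a * (j * z * j⁻¹) * a⁻¹ * z := by rw [hj]
      _ = (a * j) * z * (a * j)⁻¹ * z := by group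
  rw [h1]; exact (invOdd_conj_mul hz (a * j)).1

theorem inv_of_commute_mul {z s b : G}
    (hb : z * b * z⁻¹ = b⁻¹) (hc : Commute b (s * z)) : s * b * s⁻¹ = b⁻¹ := by
  have h1 : (s * z) * b * (s * z)⁻¹ = b := by
    have := hc.eq
    rw [← this]; group
  have h2 : s * b⁻¹ * s⁻¹ = b := by
    have : (s * z) * b * (s * z)⁻¹ = s * (z * b * z⁻¹) * s⁻¹ := by group
    rw [this, hb] at h1; exact h1
  have : s * b * s⁻¹ = (s * b⁻¹ * s⁻¹)⁻¹ := by group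
  rw [this, h2]

theorem commute_mul_of_inv {z s b : G} (hb : z * b * z⁻¹ = b⁻¹) (hsb : s * b * s⁻¹ = b⁻¹) :
    Commute b (s * z) := by
  have h1 : (s * z) * b * (s * z)⁻¹ = b := by
    have e1 : (s * z) * b * (s * z)⁻¹ = s * (z * b * z⁻¹) * s⁻¹ := by group
    have e2 : s * b⁻¹ * s⁻¹ = (s * b * s⁻¹)⁻¹ := by group
    rw [e1, hb, e2, hsb, inv_inv]
  show b * (s * z) = s * z * b
  calc b * (s * z) = ((s * z) * b * (s * z)⁻¹) * (s * z) := by rw [h1]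
    _ = s * z * b := by group

theorem conj_conj_eq {z a k : G} (hz : z * z = 1) (ha : z * a * z⁻¹ = a⁻¹)
    (hk : z * k * z⁻¹ = k⁻¹) :
    (a * z * a⁻¹) * (k * z) * (a * z * a⁻¹)⁻¹ = (a * a * k⁻¹ * a * a) * z := by
  have hzi : z⁻¹ = z := inv_eq_self_of_mul_self hz
  have h1 : a * z * a⁻¹ = a * a * z := (sq_mul_eq_conj hz ha).symm
  have h2 : z * a⁻¹ * z⁻¹ = a := inv_inv_of_inv ha
  have hzk : z * k = k⁻¹ * z := by
    calc z * k = (z * k * z⁻¹) * z := by group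
      _ = k⁻¹ * z := by rw [hk]
  have hza : z * a⁻¹ = a * z := by
    calc z * a⁻¹ = (z * a⁻¹ * z⁻¹) * z := by group
      _ = a * z := by rw [h2]
  rw [h1]
  calc a * a * z * (k * z) * (a * a * z)⁻¹
      = a * a * (z * k) * (z * z) * a⁻¹ * a⁻¹ := by
        rw [mul_inv_rev, mul_inv_rev, hzi]; simp only [mul_assoc]
    _ = a * a * (k⁻¹ * z) * a⁻¹ * a⁻¹ := by rw [hzk, hz, mul_one]
    _ = a * a * k⁻¹ * (z * a⁻¹) * a⁻¹ := by simp only [mul_assoc]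
    _ = a * a * k⁻¹ * (a * z) * a⁻¹ := by rw [hza]
    _ = a * a * k⁻¹ * a * (z * a⁻¹) := by simp only [mul_assoc]
    _ = a * a * k⁻¹ * a * (a * z) := by rw [hza]
    _ = a * a * k⁻¹ * a * a * z := by simp only [mul_assoc]

theorem card_invOdd_eq (z : G) (hz : Cfsg.IsIsolatedInvolution z) (s : G) (hs : orderOf s = 2)
    (hsz : Commute s z) :
    Nat.card {k : G // Odd (orderOf k) ∧ z * k * z⁻¹ = k⁻¹} =
      Nat.card {k : G // Odd (orderOf k) ∧ z * k * z⁻¹ = k⁻¹ ∧ Commute k (s * z)} *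
        Nat.card {k : G // Odd (orderOf k) ∧ z * k * z⁻¹ = k⁻¹ ∧ Commute k s} := by
  have hz1 := iso_mul_self hz
  have hzi : z⁻¹ = z := inv_eq_self_of_mul_self hz1
  have hs1 := mul_self_of_orderOf_two hs
  have hsi : s⁻¹ = s := inv_eq_self_of_mul_self hs1
  rw [← Nat.card_prod]
  symm
  apply Nat.card_eq_of_bijective
    (fun p : {k : G // Odd (orderOf k) ∧ z * k * z⁻¹ = k⁻¹ ∧ Commute k (s * z)} ×
        {k : G // Odd (orderOf k) ∧ z * k * z⁻¹ = k⁻¹ ∧ Commute k s} =>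
      (⟨(p.2 : G) * (p.1 : G) * (p.2 : G), invOdd_mul_mul hz p.2.2.2.1 p.1.2.1 p.1.2.2.1⟩ :
        {k : G // Odd (orderOf k) ∧ z * k * z⁻¹ = k⁻¹}))
  constructor
  · rintro ⟨⟨b, hbo, hb, hbc⟩, ⟨a, hao, ha, hac⟩⟩ ⟨⟨b', hb'o, hb', hb'c⟩, ⟨a', ha'o, ha', ha'c⟩⟩ h
    have h' : a * b * a = a' * b' * a' := congrArg Subtype.val h
    have key : ∀ a b : G, z * a * z⁻¹ = a⁻¹ → Commute a s → z * b * z⁻¹ = b⁻¹ →
        Commute b (s * z) → s * (a * b * a) * s⁻¹ = a * a * (a * b * a)⁻¹ * a * a := by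
      intro a b ha hac hb hbc
      have hsb := inv_of_commute_mul hb hbc
      have hsa : s * a * s⁻¹ = a := by rw [← hac.eq]; group
      calc s * (a * b * a) * s⁻¹ = (s * a * s⁻¹) * (s * b * s⁻¹) * (s * a * s⁻¹) := by group
        _ = a * b⁻¹ * a := by rw [hsa, hsb]
        _ = a * a * (a * b * a)⁻¹ * a * a := by group
    obtain ⟨k, hk_def⟩ : ∃ k, k = a * b * a := ⟨_, rfl⟩
    have hk' : k = a' * b' * a' := hk_def.trans h'
    have hkK : Odd (orderOf k) ∧ z * k * z⁻¹ = k⁻¹ := by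
      rw [hk_def]; exact invOdd_mul_mul hz ha hbo hb
    have key1 : s * k * s⁻¹ = a * a * k⁻¹ * a * a := by
      rw [hk_def]; exact key a b ha hac hb hbc
    have key2 : s * k * s⁻¹ = a' * a' * k⁻¹ * a' * a' := by
      rw [hk']; exact key a' b' ha' ha'c hb' hb'c
    have e1 := conj_conj_eq hz1 ha hkK.2
    have e2 := conj_conj_eq hz1 ha' hkK.2
    rw [← key1] at e1
    rw [← key2] at e2
    have hmid := midpoint_unique hz (exists_conj_of_invOdd hz1 hkK.1 hkK.2) ⟨a, rfl⟩ ⟨a', rfl⟩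
      (e1.trans e2.symm)
    have hsq : a * a = a' * a' := by
      have := (sq_mul_eq_conj hz1 ha).trans (hmid.trans (sq_mul_eq_conj hz1 ha').symm)
      exact mul_right_cancel this
    have haa : a = a' := Cfsg.Agent.S1185.eq_of_sq_eq_of_odd hao ha'o hsq
    subst haa
    have hbb : b = b' := by
      have := hk_def.symm.trans hk'
      exact mul_left_cancel (mul_right_cancel this)
    subst hbb
    rfl
  · rintro ⟨k, hko, hk⟩
    obtain ⟨g₀, hg₀⟩ := exists_conj_of_invOdd hz1 hko hk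
    have hu' : ∃ g, s * (k * z) * s⁻¹ = g * z * g⁻¹ := ⟨s * g₀, by rw [hg₀]; group⟩
    obtain ⟨w, ⟨g, hwg⟩, hw⟩ := midpoint_exists hz ⟨g₀, hg₀⟩ hu'
    have hw1 : w * w = 1 := by rw [hwg]; exact conj_mul_self hz1 g
    have hwi := inv_eq_self_of_mul_self hw1
    have hsw : ∃ g', s * w * s⁻¹ = g' * z * g'⁻¹ := ⟨s * g, by rw [hwg]; group⟩
    obtain ⟨ha₀o, ha₀⟩ : Odd (orderOf (w * z)) ∧ z * (w * z) * z⁻¹ = (w * z)⁻¹ := by
      rw [hwg]; exact invOdd_conj_mul hz g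
    have hws : s * w * s⁻¹ = w := by
      apply midpoint_unique hz hu' hsw ⟨g, hwg⟩
      have L : (s * w * s⁻¹) * (s * (k * z) * s⁻¹) * (s * w * s⁻¹)⁻¹ = k * z := by
        calc (s * w * s⁻¹) * (s * (k * z) * s⁻¹) * (s * w * s⁻¹)⁻¹
            = s * (w * (k * z) * w⁻¹) * s⁻¹ := by group
          _ = s * (s * (k * z) * s⁻¹) * s⁻¹ := by rw [hw]
          _ = k * z := by
              rw [hsi]; simp only [mul_assoc]; rw [hs1, mul_one, ← mul_assoc, hs1, one_mul]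
      have R : w * (s * (k * z) * s⁻¹) * w⁻¹ = k * z := by
        calc w * (s * (k * z) * s⁻¹) * w⁻¹ = w * (w * (k * z) * w⁻¹) * w⁻¹ := by rw [hw]
          _ = k * z := by
              rw [hwi]; simp only [mul_assoc]; rw [hw1, mul_one, ← mul_assoc, hw1, one_mul]
      exact L.trans R.symm
    have ha₀s : Commute (w * z) s := by
      have h1 : s * w = w * s := by
        calc s * w = (s * w * s⁻¹) * s := by group
          _ = w * s := by rw [hws]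
      show w * z * s = s * (w * z)
      rw [← mul_assoc, h1, mul_assoc, mul_assoc, hsz.eq]
    obtain ⟨n, hn⟩ := odd_sqrt ha₀o
    have hao := odd_pow ha₀o n
    have ha := inv_pow_of_inv ha₀ n
    have hac : Commute ((w * z) ^ n) s := ha₀s.pow_left n
    generalize (w * z) ^ n = a at hn hao ha hac
    have haw : a * z * a⁻¹ = w := by
      rw [← sq_mul_eq_conj hz1 ha, hn, mul_assoc, hz1, mul_one]
    have ha_inv : z * a⁻¹ * z⁻¹ = (a⁻¹)⁻¹ := by rw [inv_inv]; exact inv_inv_of_inv ha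
    have hbK := invOdd_mul_mul hz ha_inv hko hk
    have e := conj_conj_eq hz1 ha hk
    rw [haw, hw] at e
    have hsk : s * k * s⁻¹ = a * a * k⁻¹ * a * a := by
      have hszs : s * z * s⁻¹ = z := by rw [hsz.eq]; group
      have : s * (k * z) * s⁻¹ = (s * k * s⁻¹) * (s * z * s⁻¹) := by group
      rw [this, hszs] at e
      exact mul_right_cancel e
    have hsb : s * (a⁻¹ * k * a⁻¹) * s⁻¹ = (a⁻¹ * k * a⁻¹)⁻¹ := by
      have hsa : s * a⁻¹ * s⁻¹ = a⁻¹ := by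
        have : s * a * s⁻¹ = a := by rw [← hac.eq]; group
        calc s * a⁻¹ * s⁻¹ = (s * a * s⁻¹)⁻¹ := by group
          _ = a⁻¹ := by rw [this]
      calc s * (a⁻¹ * k * a⁻¹) * s⁻¹ = (s * a⁻¹ * s⁻¹) * (s * k * s⁻¹) * (s * a⁻¹ * s⁻¹) := by
            group
        _ = a⁻¹ * (a * a * k⁻¹ * a * a) * a⁻¹ := by rw [hsa, hsk]
        _ = (a⁻¹ * k * a⁻¹)⁻¹ := by group
    have hbc : Commute (a⁻¹ * k * a⁻¹) (s * z) := commute_mul_of_inv hbK.2 hsb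
    refine ⟨(⟨a⁻¹ * k * a⁻¹, hbK.1, hbK.2, hbc⟩, ⟨a, hao, ha, hac⟩), ?_⟩
    apply Subtype.ext
    show a * (a⁻¹ * k * a⁻¹) * a = k
    group

theorem iso_order_formula (z : G) (hz : Cfsg.IsIsolatedInvolution z) (s : G)
    (hs : orderOf s = 2) (hsz : Commute s z) :
    Nat.card G = Nat.card (Subgroup.centralizer ({z} : Set G)) *
      Nat.card {k : G // Odd (orderOf k) ∧ z * k * z⁻¹ = k⁻¹ ∧ Commute k (s * z)} *
      Nat.card {k : G // Odd (orderOf k) ∧ z * k * z⁻¹ = k⁻¹ ∧ Commute k s} := by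
  rw [card_eq_centralizer_mul z hz, card_invOdd_eq z hz s hs hsz, mul_assoc]

end IsoOrder

end Cfsg.Agent.Lib.helper6
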