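import Mathlib
import Cfsg.Prelude.Def_LieRecognition
import Cfsg.Agent.Lib.helper6.Invol
import Cfsg.Agent.Lib.helper6.IsoOrder

set_option autoImplicit false

namespace Cfsg.Agent.Lib.helper6

section OddInv

variable {M : Type*} [Group M]

theorem odd_pow_card {X : Subgroup M} {k : ℕ} (hk : Nat.card X = 2 * k + 1) {x : M} (hx : x ∈ X) :
    x ^ (2 * k + 1) = 1 := by
  have h1 : orderOf (⟨x, hx⟩ : X) ∣ Nat.card X := orderOf_dvd_natCard _
  rw [Subgroup.orderOf_mk, hk] at h1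
  exact orderOf_dvd_iff_pow_eq_one.mp h1

theorem odd_sq_inj {X : Subgroup M} {k : ℕ} (hk : Nat.card X = 2 * k + 1) {x y : M} (hx : x ∈ X)
    (hy : y ∈ X) (h : x * x = y * y) : x = y := by
  have e : ∀ z ∈ X, z = (z * z) ^ (k + 1) := by
    intro z hz
    rw [← pow_two, ← pow_mul]
    have : 2 * (k + 1) = 2 * k + 1 + 1 := by ring
    rw [this, pow_succ, odd_pow_card hk hz, one_mul]
  rw [e x hx, e y hy, h]

/-- Existence of the factorisation `x = y z` with `y` centralised and `z` inverted by `t`. -/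
theorem odd_inv_exists {t : M} (ht : orderOf t = 2) {X : Subgroup M} {k : ℕ}
    (hk : Nat.card X = 2 * k + 1) (hnorm : ∀ x ∈ X, t * x * t⁻¹ ∈ X) {x : M} (hx : x ∈ X) :
    ∃ y z : M, y ∈ X ∧ t * y = y * t ∧ z ∈ X ∧ t * z * t⁻¹ = z⁻¹ ∧ x = y * z ∧
      z * z = (t * x * t⁻¹)⁻¹ * x := by
  have htt := mul_self_of_orderOf_two ht
  have hti : t⁻¹ = t := inv_eq_self_of_mul_self htt
  obtain ⟨w, hw⟩ : ∃ w : M, w = (t * x * t⁻¹)⁻¹ * x := ⟨_, rfl⟩
  have hwX : w ∈ X := by rw [hw]; exact mul_mem (inv_mem (hnorm x hx)) hx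
  have htt' : ∀ b : M, t * (t * b) = b := fun b => by rw [← mul_assoc, htt, one_mul]
  have hwinv : t * w * t⁻¹ = w⁻¹ := by
    rw [hw]
    simp only [mul_inv_rev, inv_inv, hti, mul_assoc, htt']
  have hzz : w ^ (k + 1) * w ^ (k + 1) = w := by
    rw [← pow_add]
    have : k + 1 + (k + 1) = 2 * k + 1 + 1 := by ring
    rw [this, pow_succ, odd_pow_card hk hwX, one_mul]
  have hzX : w ^ (k + 1) ∈ X := pow_mem hwX _
  have hzinv : t * w ^ (k + 1) * t⁻¹ = (w ^ (k + 1))⁻¹ := inv_pow_of_inv hwinv _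
  refine ⟨x * (w ^ (k + 1))⁻¹, w ^ (k + 1), mul_mem hx (inv_mem hzX), ?_, hzX, hzinv, by group,
    hzz.trans hw⟩
  have e3 : t * (x * (w ^ (k + 1))⁻¹) * t⁻¹ = x * (w ^ (k + 1))⁻¹ := by
    have e4 : t * (x * (w ^ (k + 1))⁻¹) * t⁻¹ = (t * x * t⁻¹) * (t * w ^ (k + 1) * t⁻¹)⁻¹ := by
      group
    rw [e4, hzinv, inv_inv]
    have e5 : (t * x * t⁻¹) * w ^ (k + 1) =
        (t * x * t⁻¹) * (w ^ (k + 1) * w ^ (k + 1)) * (w ^ (k + 1))⁻¹ := by group
    rw [e5, hzz, hw]; group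
  calc t * (x * (w ^ (k + 1))⁻¹) = (t * (x * (w ^ (k + 1))⁻¹) * t⁻¹) * t := by group
    _ = x * (w ^ (k + 1))⁻¹ * t := by rw [e3]

/-- Uniqueness of the factorisation. -/
theorem odd_inv_unique {t : M} {X : Subgroup M} {k : ℕ}
    (hk : Nat.card X = 2 * k + 1) {y z y' z' : M}
    (hy : t * y = y * t) (hz : z ∈ X) (hzi : t * z * t⁻¹ = z⁻¹)
    (hy' : t * y' = y' * t) (hz' : z' ∈ X) (hzi' : t * z' * t⁻¹ = z'⁻¹)
    (e : y * z = y' * z') : y = y' ∧ z = z' := by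
  have key : ∀ y z : M, t * y = y * t → t * z * t⁻¹ = z⁻¹ →
      (t * (y * z) * t⁻¹)⁻¹ * (y * z) = z * z := by
    intro y z hy hz
    have e1 : t * (y * z) * t⁻¹ = (t * y) * t⁻¹ * (t * z * t⁻¹) := by group
    rw [e1, hy, hz]; group
  have h1 := key y z hy hzi
  rw [e, key y' z' hy' hzi'] at h1
  have hzz : z = z' := (odd_sq_inj hk hz' hz h1).symm
  subst hzz
  exact ⟨mul_right_cancel e, rfl⟩

end OddInv

end Cfsg.Agent.Lib.helper6
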