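import Mathlib
import Cfsg.Prelude.Def_Classical
import Cfsg.Agent.Lib.helper6.GO2m
import Cfsg.Agent.Lib.helper6.OrthOrd
import Cfsg.Agent.Lib.helper4.OrthIdx
import Cfsg.Agent.Lib.helper4.OrthOddForm
import Cfsg.Agent.Lib.helper13.SLSimple
import Cfsg.Agent.Lib.helper12.SL2Cent
import Cfsg.Agent.Lib.helper2.SLCard

set_option autoImplicit false

namespace Cfsg.Agent.Lib.helper6.PO3

open Matrix

open scoped commutatorElement

variable {F : Type*} [Field F]

/-- a relation `g h = r • h g` with `h` the upper unitriangular matrix -/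
theorem sl2_upper (g : SpecialLinearGroup (Fin 2) F) (r : F)
    (h : (g.1 * !![1, 1; 0, 1] : Matrix (Fin 2) (Fin 2) F) = r • (!![1, 1; 0, 1] * g.1)) :
    g.1 1 0 = 0 ∧ g.1 0 0 = g.1 1 1 := by
  have hdet : g.1 0 0 * g.1 1 1 - g.1 0 1 * g.1 1 0 = 1 := by
    rw [← Matrix.det_fin_two]; exact g.2
  have e00 := congrFun (congrFun h 0) 0
  have e01 := congrFun (congrFun h 0) 1
  have e10 := congrFun (congrFun h 1) 0
  have e11 := congrFun (congrFun h 1) 1
  simp [Matrix.mul_apply, Fin.sum_univ_two, Matrix.vecMul, dotProduct] at e00 e01 e10 e11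
  have hc : g.1 1 0 = 0 := by
    by_contra hne
    have hr : r = 1 := by
      have : g.1 1 0 * (r - 1) = 0 := by linear_combination -e10
      rcases mul_eq_zero.mp this with h | h
      · exact absurd h hne
      · linear_combination h
    apply hne
    linear_combination -e00 - (g.1 0 0 + g.1 1 0) * hr
  have ha : g.1 0 0 ≠ 0 := by
    intro h0
    have : (0 : F) = 1 := by linear_combination hdet - g.1 1 1 * h0 + g.1 0 1 * hc
    exact zero_ne_one this
  have hr : r = 1 := by
    have : g.1 0 0 * (r - 1) = 0 := by linear_combination -e00 - r * hc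
    rcases mul_eq_zero.mp this with h | h
    · exact absurd h ha
    · linear_combination h
  refine ⟨hc, ?_⟩
  linear_combination e01 + (g.1 0 1 + g.1 1 1) * hr

theorem sl2_lower (g : SpecialLinearGroup (Fin 2) F) (r : F)
    (h : (g.1 * !![1, 0; 1, 1] : Matrix (Fin 2) (Fin 2) F) = r • (!![1, 0; 1, 1] * g.1)) :
    g.1 0 1 = 0 := by
  have e00 := congrFun (congrFun h 0) 0
  have e01 := congrFun (congrFun h 0) 1
  have e10 := congrFun (congrFun h 1) 0
  have e11 := congrFun (congrFun h 1) 1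
  simp [Matrix.mul_apply, Fin.sum_univ_two, Matrix.vecMul, dotProduct] at e00 e01 e10 e11
  by_contra hne
  have hr : r = 1 := by
    have : g.1 0 1 * (r - 1) = 0 := by linear_combination -e01
    rcases mul_eq_zero.mp this with h | h
    · exact absurd h hne
    · linear_combination h
  apply hne
  linear_combination -e11 - (g.1 0 1 + g.1 1 1) * hr

/-- the centre of `PSL₂(F)` is trivial -/
theorem center_PSL2 :
    Subgroup.center (Matrix.ProjectiveSpecialLinearGroup (Fin 2) F) = ⊥ := by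
  rw [eq_bot_iff]
  intro x hx
  obtain ⟨g, rfl⟩ := QuotientGroup.mk_surjective x
  rw [Subgroup.mem_bot, QuotientGroup.eq_one_iff]
  have key : ∀ h : SpecialLinearGroup (Fin 2) F, ∃ r : F,
      (g.1 * h.1 : Matrix (Fin 2) (Fin 2) F) = r • (h.1 * g.1) := by
    intro h
    have h1 := Subgroup.mem_center_iff.mp hx (QuotientGroup.mk h)
    rw [← QuotientGroup.mk_mul, ← QuotientGroup.mk_mul, QuotientGroup.eq] at h1
    obtain ⟨r, hr, hr2⟩ := Matrix.SpecialLinearGroup.mem_center_iff.mp h1
    refine ⟨r, ?_⟩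
    have h2 : (g * h) = (h * g) * ((h * g)⁻¹ * (g * h)) := by group
    have h3 : (g * h).1 = (h * g).1 * ((h * g)⁻¹ * (g * h)).1 := by
      conv_lhs => rw [h2]
      rfl
    rw [← hr2] at h3
    rw [show g.1 * h.1 = (g * h).1 from rfl, h3]
    ext i j
    simp [Matrix.mul_apply, Matrix.scalar_apply, Matrix.diagonal_apply, mul_comm]
  obtain ⟨r1, h1⟩ := key ⟨!![1, 1; 0, 1], by simp [Matrix.det_fin_two]⟩
  obtain ⟨r2, h2⟩ := key ⟨!![1, 0; 1, 1], by simp [Matrix.det_fin_two]⟩
  obtain ⟨hc, had⟩ := sl2_upper g r1 h1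
  have hb := sl2_lower g r2 h2
  have hdet : g.1 0 0 * g.1 1 1 - g.1 0 1 * g.1 1 0 = 1 := by
    rw [← Matrix.det_fin_two]; exact g.2
  rw [Matrix.SpecialLinearGroup.mem_center_iff]
  refine ⟨g.1 0 0, ?_, ?_⟩
  · rw [Fintype.card_fin]
    rw [hb, ← had] at hdet
    linear_combination hdet
  · ext i j
    fin_cases i <;> fin_cases j <;> simp [Matrix.scalar_apply, hb, hc, had]


/-- index type of `quadFormOdd 1` -/
abbrev I3 : Type := Unit ⊕ (Fin 1 ⊕ Fin 1)

/-- the adjoint action of a `2 × 2` matrix on trace-zero matrices `[[a,b],[c,-a]]` -/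
def R (α β γ δ : F) : Matrix I3 I3 F := Matrix.of fun i j =>
  match i, j with
  | .inl _, .inl _ => α * δ + β * γ
  | .inl _, .inr (.inl _) => -(α * γ)
  | .inl _, .inr (.inr _) => β * δ
  | .inr (.inl _), .inl _ => -(2 * α * β)
  | .inr (.inl _), .inr (.inl _) => α ^ 2
  | .inr (.inl _), .inr (.inr _) => -β ^ 2
  | .inr (.inr _), .inl _ => 2 * γ * δ
  | .inr (.inr _), .inr (.inl _) => -γ ^ 2
  | .inr (.inr _), .inr (.inr _) => δ ^ 2

theorem R_mul (a b c d a' b' c' d' : F) :
    R a b c d * R a' b' c' d' =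
      R (a * a' + b * c') (a * b' + b * d') (c * a' + d * c') (c * b' + d * d') := by
  ext i j
  rcases i with (_ | (i | i)) <;> rcases j with (_ | (j | j)) <;>
    simp [R, Matrix.mul_apply, Fintype.sum_sum_type] <;> ring

theorem R_one : R (1 : F) 0 0 1 = 1 := by
  ext i j
  rcases i with (_ | (i | i)) <;> rcases j with (_ | (j | j)) <;>
    simp [R, Matrix.one_apply] <;> exact Subsingleton.elim _ _

theorem R_Q (a b c d : F) (v : I3 → F) :
    Cfsg.quadFormOdd 1 F (R a b c d *ᵥ v) = (a * d - b * c) ^ 2 * Cfsg.quadFormOdd 1 F v := by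
  simp [Cfsg.quadFormOdd, R, Matrix.mulVec, dotProduct, Fintype.sum_sum_type]
  ring

/-- the monoid hom `SL₂(F) → M₃(F)` -/
def rho0 : SpecialLinearGroup (Fin 2) F →* Matrix I3 I3 F where
  toFun g := R (g.1 0 0) (g.1 0 1) (g.1 1 0) (g.1 1 1)
  map_one' := by simp [R_one]
  map_mul' g h := by
    rw [R_mul]
    simp [Matrix.mul_apply, Fin.sum_univ_two]

theorem rho0_apply (g : SpecialLinearGroup (Fin 2) F) :
    rho0 g = R (g.1 0 0) (g.1 0 1) (g.1 1 0) (g.1 1 1) := rfl

/-- the hom `SL₂(F) → GO₃(F)` -/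
def rho : SpecialLinearGroup (Fin 2) F →* Cfsg.isometryGroup F (Cfsg.quadFormOdd 1 F) :=
  (rho0 (F := F)).toHomUnits.codRestrict _ (fun g => by
    rw [Cfsg.Agent.Lib.helper6.mem_isometryGroup_iff]
    intro u
    rw [MonoidHom.coe_toHomUnits, rho0_apply, R_Q, ← Matrix.det_fin_two, g.2]
    ring)

theorem rho_coe (g : SpecialLinearGroup (Fin 2) F) :
    (((rho g : Cfsg.isometryGroup F (Cfsg.quadFormOdd 1 F)) : GL I3 F) : Matrix I3 I3 F) =
      R (g.1 0 0) (g.1 0 1) (g.1 1 0) (g.1 1 1) := rfl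


theorem R_eq_one_iff (h2 : (2 : F) ≠ 0) (a b c d : F) (hdet : a * d - b * c = 1) :
    R a b c d = 1 ↔ (b = 0 ∧ c = 0 ∧ a = d) := by
  constructor
  · intro h
    have e1 := congrFun (congrFun h (.inr (.inl 0))) (.inr (.inl 0))
    have e2 := congrFun (congrFun h (.inr (.inl 0))) (.inl ())
    have e3 := congrFun (congrFun h (.inr (.inr 0))) (.inr (.inr 0))
    have e4 := congrFun (congrFun h (.inr (.inr 0))) (.inl ())
    have e5 := congrFun (congrFun h (.inl ())) (.inl ())
    simp [R] at e1 e2 e3 e4 e5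
    have ha : a ≠ 0 := by
      intro h0; rw [h0] at e1; simp at e1
    have hd : d ≠ 0 := by
      intro h0; rw [h0] at e3; simp at e3
    have hb : b = 0 := by
      rcases e2 with h | h
      · rcases h with h | h
        · exact absurd h h2
        · exact absurd h ha
      · exact h
    have hc : c = 0 := by
      rcases e4 with h | h
      · rcases h with h | h
        · exact absurd h h2
        · exact h
      · exact absurd h hd
    refine ⟨hb, hc, ?_⟩
    have h5 : a * d = 1 := by rw [hb] at e5; simpa using e5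
    have ha2 : a ^ 2 = 1 := by rcases e1 with h | h <;> rw [h] <;> ring
    have h6 : a * (a - d) = 0 := by linear_combination ha2 - h5
    rcases mul_eq_zero.mp h6 with h | h
    · exact absurd h ha
    · linear_combination h
  · rintro ⟨rfl, rfl, rfl⟩
    have ha : a ^ 2 = 1 := by linear_combination hdet
    have ha' : a * a = 1 := by linear_combination hdet
    ext i j
    rcases i with (_ | (i | i)) <;> rcases j with (_ | (j | j)) <;>
      simp [R, Matrix.one_apply, ha, ha'] <;> exact Subsingleton.elim _ _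

theorem rho_ker (h2 : (2 : F) ≠ 0) :
    (rho (F := F)).ker = Subgroup.center (SpecialLinearGroup (Fin 2) F) := by
  ext g
  have hdet : g.1 0 0 * g.1 1 1 - g.1 0 1 * g.1 1 0 = 1 := by
    rw [← Matrix.det_fin_two]; exact g.2
  have h1 : g ∈ (rho (F := F)).ker ↔ R (g.1 0 0) (g.1 0 1) (g.1 1 0) (g.1 1 1) = 1 := by
    rw [MonoidHom.mem_ker, ← rho_coe]
    constructor
    · intro h; rw [h]; rfl
    · intro h
      apply Subtype.ext
      apply Units.ext
      exact h
  rw [h1, R_eq_one_iff h2 _ _ _ _ hdet, Matrix.SpecialLinearGroup.mem_center_iff]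
  constructor
  · rintro ⟨hb, hc, had⟩
    refine ⟨g.1 0 0, ?_, ?_⟩
    · rw [Fintype.card_fin]
      rw [hb, ← had] at hdet
      linear_combination hdet
    · ext i j
      fin_cases i <;> fin_cases j <;> simp [Matrix.scalar_apply, hb, hc, had]
  · rintro ⟨r, hr, hg⟩
    rw [← hg]
    simp [Matrix.scalar_apply]

theorem comm_of_eq {G : Type*} [Group G] (x y e : G) (h : x * y * e = e * y) : x = ⁅e, y⁆ := by
  rw [commutatorElement_def, ← h]
  group

/-- the image of `SL₂` lies in `Ω` -/
theorem rho_mem_omega (h2 : (2 : F) ≠ 0) (g : SpecialLinearGroup (Fin 2) F) :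
    rho g ∈ Cfsg.Omega F (Cfsg.quadFormOdd 1 F) := by
  have hEE : R (-1 : F) 0 0 1 * R (-1 : F) 0 0 1 = 1 := by
    rw [R_mul, ← R_one]; congr 1 <;> ring
  let E0 : GL I3 F := ⟨R (-1) 0 0 1, R (-1) 0 0 1, hEE, hEE⟩
  have hE0 : E0 ∈ Cfsg.isometryGroup F (Cfsg.quadFormOdd 1 F) := by
    rw [Cfsg.Agent.Lib.helper6.mem_isometryGroup_iff]
    intro u
    show Cfsg.quadFormOdd 1 F (R (-1) 0 0 1 *ᵥ u) = _
    rw [R_Q]; ring
  let E : Cfsg.isometryGroup F (Cfsg.quadFormOdd 1 F) := ⟨E0, hE0⟩
  have key : ∀ (x y : SpecialLinearGroup (Fin 2) F),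
      R (x.1 0 0) (x.1 0 1) (x.1 1 0) (x.1 1 1) * R (y.1 0 0) (y.1 0 1) (y.1 1 0) (y.1 1 1)
        * R (-1) 0 0 1 = R (-1) 0 0 1 * R (y.1 0 0) (y.1 0 1) (y.1 1 0) (y.1 1 1) →
      rho x ∈ Cfsg.Omega F (Cfsg.quadFormOdd 1 F) := by
    intro x y h
    have : rho x = ⁅E, rho y⁆ := by
      apply comm_of_eq
      apply Subtype.ext
      apply Units.ext
      rw [Subgroup.coe_mul, Subgroup.coe_mul, Units.val_mul, Units.val_mul, Subgroup.coe_mul,
        Units.val_mul, rho_coe, rho_coe]
      exact h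
    rw [this]
    exact Subgroup.commutator_mem_commutator (Subgroup.mem_top _) (Subgroup.mem_top _)
  refine Cfsg.Agent.Lib.helper13.SLSimple.transvection_induction
    (fun g => rho g ∈ Cfsg.Omega F (Cfsg.quadFormOdd 1 F)) ?_ ?_ g
  · intro i j hij a
    apply key _ (Matrix.SpecialLinearGroup.transvection hij (-a / 2))
    rw [R_mul, R_mul, R_mul]
    fin_cases i <;> fin_cases j
    · exact absurd rfl hij
    · simp [Matrix.SpecialLinearGroup.transvection_coe, Matrix.single_apply]
      congr 1 <;> field_simp <;> ring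
    · simp [Matrix.SpecialLinearGroup.transvection_coe, Matrix.single_apply]
      congr 1 <;> field_simp <;> ring
    · exact absurd rfl hij
  · intro A B hA hB
    show rho (A * B) ∈ _
    rw [map_mul]
    exact mul_mem hA hB


theorem two_ne_zero_of_odd [Fintype F] (hodd : Odd (Fintype.card F)) : (2 : F) ≠ 0 := by
  apply Ring.two_ne_zero
  intro h
  have := (FiniteField.even_card_iff_char_two (F := F)).mp h
  rw [Nat.odd_iff] at hodd
  omega

theorem rho_range [Fintype F] (hodd : Odd (Fintype.card F)) :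
    (rho (F := F)).range = Cfsg.Omega F (Cfsg.quadFormOdd 1 F) := by
  classical
  have h2 : (2 : F) ≠ 0 := two_ne_zero_of_odd hodd
  apply Subgroup.eq_of_le_of_card_ge
  · rintro _ ⟨g, rfl⟩
    exact rho_mem_omega h2 g
  · have hidx : (Cfsg.Omega F (Cfsg.quadFormOdd 1 F)).index = 4 := by
      have := Cfsg.Agent.Lib.helper4.omega_index_odd h2 (Cfsg.Agent.Lib.helper4.qOdd F 1)
        (Cfsg.Agent.Lib.helper4.nondeg_qOdd h2 1) (by simp)
      rwa [Cfsg.Agent.Lib.helper4.qOdd_coe] at this
    have hGO := Cfsg.Agent.Lib.helper6.card_GO_odd (F := F) rfl hodd 1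
    have h1 := Subgroup.card_mul_index (Cfsg.Omega F (Cfsg.quadFormOdd 1 F))
    have hSL := Cfsg.Agent.Lib.helper12.card_SL2 (F := F)
    have h3 : Nat.card (rho (F := F)).range * Nat.card (rho (F := F)).ker
        = Nat.card (SpecialLinearGroup (Fin 2) F) := by
      rw [← Subgroup.index_ker, mul_comm, Subgroup.card_mul_index]
    have h4 : Nat.card (rho (F := F)).ker ≤ 2 := by
      rw [rho_ker h2, Cfsg.Agent.Lib.helper2.SLCard.card_center_SL F 2 (by norm_num)]
      exact Nat.le_of_dvd (by norm_num) (Nat.gcd_dvd_left _ _)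
    rw [hidx, hGO] at h1
    simp only [Finset.prod_range_one, one_pow, pow_one, zero_add, mul_one] at h1
    rw [hSL] at h3
    have h5 : Nat.card (Cfsg.Omega F (Cfsg.quadFormOdd 1 F)) * 4
        = 2 * (Nat.card (rho (F := F)).range * Nat.card (rho (F := F)).ker) := by
      rw [h3, h1]; ring
    have h6 : Nat.card (rho (F := F)).range * Nat.card (rho (F := F)).ker
        ≤ Nat.card (rho (F := F)).range * 2 := Nat.mul_le_mul_left _ h4
    omega

/-- `PΩ₃(q) ≅ PSL₂(q)` for `q` odd -/
theorem pomega3 [Fintype F] (hodd : Odd (Fintype.card F)) :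
    Nonempty (Cfsg.POmega F (Cfsg.quadFormOdd 1 F) ≃*
      Matrix.ProjectiveSpecialLinearGroup (Fin 2) F) := by
  classical
  have h2 : (2 : F) ≠ 0 := two_ne_zero_of_odd hodd
  have e1 : Matrix.ProjectiveSpecialLinearGroup (Fin 2) F ≃* (rho (F := F)).range :=
    (QuotientGroup.quotientMulEquivOfEq (rho_ker h2).symm).trans
      (QuotientGroup.quotientKerEquivRange (rho (F := F)))
  have e2 : Matrix.ProjectiveSpecialLinearGroup (Fin 2) F ≃* Cfsg.Omega F (Cfsg.quadFormOdd 1 F) :=
    e1.trans (MulEquiv.subgroupCongr (rho_range hodd))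
  have hc : Subgroup.center (Cfsg.Omega F (Cfsg.quadFormOdd 1 F)) = ⊥ := by
    rw [eq_bot_iff]
    intro z hz
    rw [Subgroup.mem_bot]
    have : e2.symm z ∈ Subgroup.center (Matrix.ProjectiveSpecialLinearGroup (Fin 2) F) := by
      rw [Subgroup.mem_center_iff]
      intro g
      have := Subgroup.mem_center_iff.mp hz (e2 g)
      apply e2.injective
      simpa using this
    rw [center_PSL2, Subgroup.mem_bot] at this
    simpa using this
  exact ⟨((QuotientGroup.quotientMulEquivOfEq hc).trans QuotientGroup.quotientBot).trans e2.symm⟩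

end Cfsg.Agent.Lib.helper6.PO3
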