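import Mathlib
import Cfsg.Prelude.Def_Classical
import Cfsg.Agent.Lib.helper6.PO3
import Cfsg.Agent.Lib.helper4.OrthForms
import Cfsg.Agent.S2562

set_option autoImplicit false

namespace Cfsg.Agent.Lib.helper6.PO4

open Matrix

open scoped commutatorElement

open Cfsg.Agent.Lib.helper6.PO3

variable {F : Type*} [Field F]

/-- index type of `quadFormPlus 2` -/
abbrev I4 : Type := Fin 2 ⊕ Fin 2

/-- the action `M ↦ g M adj(h)` on `2 × 2` matrices `M = [[x₁, -x₂],[y₂, y₁]]`,
`g = [[a,b],[c,d]]`, `h = [[e,f],[k,l]]` -/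
def T (a b c d e f k l : F) : Matrix I4 I4 F :=
  Matrix.fromBlocks !![a * l, a * k; a * f, a * e] !![-(b * k), b * l; -(b * e), b * f]
    !![-(c * f), -(c * e); c * l, c * k] !![d * e, -(d * f); -(d * k), d * l]

theorem T_mul (a b c d e f k l a' b' c' d' e' f' k' l' : F) :
    T a b c d e f k l * T a' b' c' d' e' f' k' l' =
      T (a * a' + b * c') (a * b' + b * d') (c * a' + d * c') (c * b' + d * d')
        (e * e' + f * k') (e * f' + f * l') (k * e' + l * k') (k * f' + l * l') := by
  unfold T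
  rw [Matrix.fromBlocks_multiply]
  congr 1 <;>
  · ext i j
    fin_cases i <;> fin_cases j <;> simp [Matrix.mul_apply, Fin.sum_univ_two] <;> ring

theorem T_one : T (1 : F) 0 0 1 1 0 0 1 = 1 := by
  unfold T
  rw [← Matrix.fromBlocks_one]
  congr 1 <;>
  · ext i j
    fin_cases i <;> fin_cases j <;> simp

theorem T_Q (a b c d e f k l : F) (v : I4 → F) :
    Cfsg.quadFormPlus 2 F (T a b c d e f k l *ᵥ v) =
      (a * d - b * c) * (e * l - f * k) * Cfsg.quadFormPlus 2 F v := by
  simp [Cfsg.quadFormPlus, T, Matrix.fromBlocks_mulVec, Matrix.mulVec, dotProduct,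
    Fin.sum_univ_two]
  ring

/-- the monoid hom `SL₂(F) × SL₂(F) → M₄(F)` -/
def tau0 : SpecialLinearGroup (Fin 2) F × SpecialLinearGroup (Fin 2) F →* Matrix I4 I4 F where
  toFun p := T (p.1.1 0 0) (p.1.1 0 1) (p.1.1 1 0) (p.1.1 1 1)
    (p.2.1 0 0) (p.2.1 0 1) (p.2.1 1 0) (p.2.1 1 1)
  map_one' := by simp [T_one]
  map_mul' g h := by
    rw [T_mul]
    simp [Matrix.mul_apply, Fin.sum_univ_two]

theorem tau0_apply (p : SpecialLinearGroup (Fin 2) F × SpecialLinearGroup (Fin 2) F) :
    tau0 p = T (p.1.1 0 0) (p.1.1 0 1) (p.1.1 1 0) (p.1.1 1 1)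
      (p.2.1 0 0) (p.2.1 0 1) (p.2.1 1 0) (p.2.1 1 1) := rfl

/-- the hom `SL₂(F) × SL₂(F) → GO⁺₄(F)` -/
def tau : SpecialLinearGroup (Fin 2) F × SpecialLinearGroup (Fin 2) F →*
    Cfsg.isometryGroup F (Cfsg.quadFormPlus 2 F) :=
  (tau0 (F := F)).toHomUnits.codRestrict _ (fun p => by
    rw [Cfsg.Agent.Lib.helper6.mem_isometryGroup_iff]
    intro u
    rw [MonoidHom.coe_toHomUnits, tau0_apply, T_Q, ← Matrix.det_fin_two, ← Matrix.det_fin_two,
      p.1.2, p.2.2]
    ring)

theorem tau_coe (p : SpecialLinearGroup (Fin 2) F × SpecialLinearGroup (Fin 2) F) :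
    (((tau p : Cfsg.isometryGroup F (Cfsg.quadFormPlus 2 F)) : GL I4 F) : Matrix I4 I4 F) =
      T (p.1.1 0 0) (p.1.1 0 1) (p.1.1 1 0) (p.1.1 1 1)
      (p.2.1 0 0) (p.2.1 0 1) (p.2.1 1 0) (p.2.1 1 1) := rfl

theorem T_eq_one_iff (a b c d e f k l : F) (h1 : a * d - b * c = 1) (h2 : e * l - f * k = 1) :
    T a b c d e f k l = 1 ↔
      (b = 0 ∧ c = 0 ∧ f = 0 ∧ k = 0 ∧ a = d ∧ e = a ∧ l = a) := by
  constructor
  · intro h
    have e1 := congrFun (congrFun h (.inl 0)) (.inl 0)
    have e2 := congrFun (congrFun h (.inl 0)) (.inl 1)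
    have e3 := congrFun (congrFun h (.inl 1)) (.inl 0)
    have e4 := congrFun (congrFun h (.inl 1)) (.inl 1)
    have e5 := congrFun (congrFun h (.inl 0)) (.inr 1)
    have e6 := congrFun (congrFun h (.inr 1)) (.inl 0)
    have e7 := congrFun (congrFun h (.inr 0)) (.inr 0)
    simp [T] at e1 e2 e3 e4 e5 e6 e7
    have ha : a ≠ 0 := by
      intro h0; rw [h0] at e1; simp at e1
    have hl : l ≠ 0 := by
      intro h0; rw [h0] at e1; simp at e1
    have he : e ≠ 0 := by
      intro h0; rw [h0] at e4; simp at e4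
    have hk : k = 0 := by
      rcases e2 with h | h
      · exact absurd h ha
      · exact h
    have hf : f = 0 := by
      rcases e3 with h | h
      · exact absurd h ha
      · exact h
    have hb : b = 0 := by
      rcases e5 with h | h
      · exact h
      · exact absurd h hl
    have hc : c = 0 := by
      rcases e6 with h | h
      · exact h
      · exact absurd h hl
    have hda : a = d := by
      have : e * (a - d) = 0 := by linear_combination e4 - e7
      rcases mul_eq_zero.mp this with h | h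
      · exact absurd h he
      · linear_combination h
    have hla : l = e := by
      have : a * (l - e) = 0 := by linear_combination e1 - e4
      rcases mul_eq_zero.mp this with h | h
      · exact absurd h ha
      · linear_combination h
    have haa : a * a = 1 := by
      rw [hb, ← hda] at h1
      linear_combination h1
    have hea : e = a := by
      have : a * (e - a) = 0 := by linear_combination e4 - haa
      rcases mul_eq_zero.mp this with h | h
      · exact absurd h ha
      · linear_combination h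
    exact ⟨hb, hc, hf, hk, hda, hea, hla.trans hea⟩
  · rintro ⟨rfl, rfl, rfl, rfl, rfl, rfl, rfl⟩
    have ha' : l * l = 1 := by linear_combination h1
    rw [← T_one]
    unfold T
    congr 1 <;>
    · ext i j
      fin_cases i <;> fin_cases j <;> simp [ha']


theorem sl2_det (g : SpecialLinearGroup (Fin 2) F) :
    g.1 0 0 * g.1 1 1 - g.1 0 1 * g.1 1 0 = 1 := by
  rw [← Matrix.det_fin_two]; exact g.2

theorem mem_tau_ker (p : SpecialLinearGroup (Fin 2) F × SpecialLinearGroup (Fin 2) F) :
    p ∈ (tau (F := F)).ker ↔ T (p.1.1 0 0) (p.1.1 0 1) (p.1.1 1 0) (p.1.1 1 1)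
      (p.2.1 0 0) (p.2.1 0 1) (p.2.1 1 0) (p.2.1 1 1) = 1 := by
  rw [MonoidHom.mem_ker, ← tau_coe]
  constructor
  · intro h; rw [h]; rfl
  · intro h
    apply Subtype.ext
    apply Units.ext
    exact h

theorem tau_ker_fst (p : SpecialLinearGroup (Fin 2) F × SpecialLinearGroup (Fin 2) F)
    (hp : p ∈ (tau (F := F)).ker) :
    p.2 = p.1 ∧ p.1 ∈ Subgroup.center (SpecialLinearGroup (Fin 2) F) := by
  rw [mem_tau_ker, T_eq_one_iff _ _ _ _ _ _ _ _ (sl2_det p.1) (sl2_det p.2)] at hp
  obtain ⟨hb, hc, hf, hk, had, hea, hla⟩ := hp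
  constructor
  · ext i j
    fin_cases i <;> fin_cases j <;> simp [hb, hc, hf, hk, ← had, hea, hla]
  · rw [Matrix.SpecialLinearGroup.mem_center_iff]
    refine ⟨p.1.1 0 0, ?_, ?_⟩
    · rw [Fintype.card_fin]
      have hdet := sl2_det p.1
      rw [hb, ← had] at hdet
      linear_combination hdet
    · ext i j
      fin_cases i <;> fin_cases j <;> simp [Matrix.scalar_apply, hb, hc, had]

/-- the image of `SL₂ × SL₂` lies in `Ω` -/
theorem tau_mem_omega [Fintype F] (hF : 3 ≤ Fintype.card F)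
    (p : SpecialLinearGroup (Fin 2) F × SpecialLinearGroup (Fin 2) F) :
    tau p ∈ Cfsg.Omega F (Cfsg.quadFormPlus 2 F) := by
  classical
  obtain ⟨t, ht⟩ : ∃ t : F, t ∉ ({0, 1} : Finset F) := by
    by_contra h
    push Not at h
    have h1 : (Finset.univ : Finset F) ⊆ ({0, 1} : Finset F) := fun x _ => h x
    have h2 := Finset.card_le_card h1
    have h3 : ({0, 1} : Finset F).card ≤ 2 := Finset.card_le_two
    rw [Finset.card_univ] at h2
    omega
  simp only [Finset.mem_insert, Finset.mem_singleton, not_or] at ht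
  obtain ⟨ht0, ht1⟩ := ht
  have ht1' : t - 1 ≠ 0 := sub_ne_zero.mpr ht1
  have ht1'' : 1 - t ≠ 0 := sub_ne_zero.mpr (Ne.symm ht1)
  have hEE : T t 0 0 1 t⁻¹ 0 0 1 * T t⁻¹ 0 0 1 t 0 0 1 = 1 := by
    rw [T_mul, ← T_one]; congr 1 <;> field_simp <;> ring
  have hEE' : T t⁻¹ 0 0 1 t 0 0 1 * T t 0 0 1 t⁻¹ 0 0 1 = 1 := by
    rw [T_mul, ← T_one]; congr 1 <;> field_simp <;> ring
  let E0 : GL I4 F := ⟨T t 0 0 1 t⁻¹ 0 0 1, T t⁻¹ 0 0 1 t 0 0 1, hEE, hEE'⟩
  have hE0 : E0 ∈ Cfsg.isometryGroup F (Cfsg.quadFormPlus 2 F) := by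
    rw [Cfsg.Agent.Lib.helper6.mem_isometryGroup_iff]
    intro u
    show Cfsg.quadFormPlus 2 F (T t 0 0 1 t⁻¹ 0 0 1 *ᵥ u) = _
    rw [T_Q]; field_simp; ring
  let E : Cfsg.isometryGroup F (Cfsg.quadFormPlus 2 F) := ⟨E0, hE0⟩
  have key : ∀ (x y : SpecialLinearGroup (Fin 2) F × SpecialLinearGroup (Fin 2) F),
      T (x.1.1 0 0) (x.1.1 0 1) (x.1.1 1 0) (x.1.1 1 1)
          (x.2.1 0 0) (x.2.1 0 1) (x.2.1 1 0) (x.2.1 1 1) *
        T (y.1.1 0 0) (y.1.1 0 1) (y.1.1 1 0) (y.1.1 1 1)
          (y.2.1 0 0) (y.2.1 0 1) (y.2.1 1 0) (y.2.1 1 1) * T t 0 0 1 t⁻¹ 0 0 1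
        = T t 0 0 1 t⁻¹ 0 0 1 * T (y.1.1 0 0) (y.1.1 0 1) (y.1.1 1 0) (y.1.1 1 1)
          (y.2.1 0 0) (y.2.1 0 1) (y.2.1 1 0) (y.2.1 1 1) →
      tau x ∈ Cfsg.Omega F (Cfsg.quadFormPlus 2 F) := by
    intro x y h
    have : tau x = ⁅E, tau y⁆ := by
      apply comm_of_eq
      apply Subtype.ext
      apply Units.ext
      rw [Subgroup.coe_mul, Subgroup.coe_mul, Units.val_mul, Units.val_mul, Subgroup.coe_mul,
        Units.val_mul, tau_coe, tau_coe]
      exact h
    rw [this]
    exact Subgroup.commutator_mem_commutator (Subgroup.mem_top _) (Subgroup.mem_top _)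
  have hA : ∀ g : SpecialLinearGroup (Fin 2) F,
      tau (g, 1) ∈ Cfsg.Omega F (Cfsg.quadFormPlus 2 F) := by
    intro g
    refine Cfsg.Agent.Lib.helper13.SLSimple.transvection_induction
      (fun g => tau (g, (1 : SpecialLinearGroup (Fin 2) F)) ∈
        Cfsg.Omega F (Cfsg.quadFormPlus 2 F)) ?_ ?_ g
    · intro i j hij a
      fin_cases i <;> fin_cases j
      · exact absurd rfl hij
      · apply key _ (Matrix.SpecialLinearGroup.transvection hij (a / (t - 1)), 1)
        rw [T_mul, T_mul, T_mul]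
        simp [Matrix.SpecialLinearGroup.transvection_coe]
        congr 1; field_simp; ring
      · apply key _ (Matrix.SpecialLinearGroup.transvection hij (a * t / (1 - t)), 1)
        rw [T_mul, T_mul, T_mul]
        simp [Matrix.SpecialLinearGroup.transvection_coe]
        congr 1; field_simp; ring
      · exact absurd rfl hij
    · intro A B hA hB
      show tau (A * B, 1) ∈ _
      have : ((A * B, 1) : SpecialLinearGroup (Fin 2) F × SpecialLinearGroup (Fin 2) F)
          = (A, 1) * (B, 1) := by simp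
      rw [this, map_mul]
      exact mul_mem hA hB
  have hB : ∀ g : SpecialLinearGroup (Fin 2) F,
      tau (1, g) ∈ Cfsg.Omega F (Cfsg.quadFormPlus 2 F) := by
    intro g
    refine Cfsg.Agent.Lib.helper13.SLSimple.transvection_induction
      (fun g => tau ((1 : SpecialLinearGroup (Fin 2) F), g) ∈
        Cfsg.Omega F (Cfsg.quadFormPlus 2 F)) ?_ ?_ g
    · intro i j hij a
      fin_cases i <;> fin_cases j
      · exact absurd rfl hij
      · apply key _ (1, Matrix.SpecialLinearGroup.transvection hij (a * t / (1 - t)))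
        rw [T_mul, T_mul, T_mul]
        simp [Matrix.SpecialLinearGroup.transvection_coe]
        congr 1; field_simp; ring
      · apply key _ (1, Matrix.SpecialLinearGroup.transvection hij (a / (t - 1)))
        rw [T_mul, T_mul, T_mul]
        simp [Matrix.SpecialLinearGroup.transvection_coe]
        congr 1; field_simp; ring
      · exact absurd rfl hij
    · intro A B hA hB
      show tau (1, A * B) ∈ _
      have : ((1, A * B) : SpecialLinearGroup (Fin 2) F × SpecialLinearGroup (Fin 2) F)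
          = (1, A) * (1, B) := by simp
      rw [this, map_mul]
      exact mul_mem hA hB
  have : p = (p.1, 1) * (1, p.2) := by simp
  rw [this, map_mul]
  exact mul_mem (hA _) (hB _)


theorem tau_range [Fintype F] (hF : 3 ≤ Fintype.card F) :
    (tau (F := F)).range = Cfsg.Omega F (Cfsg.quadFormPlus 2 F) := by
  classical
  apply Subgroup.eq_of_le_of_card_ge
  · rintro _ ⟨g, rfl⟩
    exact tau_mem_omega hF g
  · have hGO := Cfsg.Agent.Lib.helper6.card_GO_plus (F := F) rfl 2 (by norm_num)
    have h1 := Subgroup.card_mul_index (Cfsg.Omega F (Cfsg.quadFormPlus 2 F))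
    have hSL := Cfsg.Agent.Lib.helper12.card_SL2 (F := F)
    have h3 : Nat.card (tau (F := F)).range * Nat.card (tau (F := F)).ker
        = Nat.card (SpecialLinearGroup (Fin 2) F × SpecialLinearGroup (Fin 2) F) := by
      rw [← Subgroup.index_ker, mul_comm, Subgroup.card_mul_index]
    have hker : Nat.card (tau (F := F)).ker
        ≤ Nat.card (Subgroup.center (SpecialLinearGroup (Fin 2) F)) := by
      apply Nat.card_le_card_of_injective
        (fun p : (tau (F := F)).ker => (⟨p.1.1, (tau_ker_fst p.1 p.2).2⟩ :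
          Subgroup.center (SpecialLinearGroup (Fin 2) F)))
      intro p p' h
      have h' : p.1.1 = p'.1.1 := congrArg Subtype.val h
      apply Subtype.ext
      apply Prod.ext h'
      rw [(tau_ker_fst p.1 p.2).1, (tau_ker_fst p'.1 p'.2).1, h']
    have hcen := Cfsg.Agent.Lib.helper2.SLCard.card_center_SL F 2 (by norm_num)
    rw [hcen] at hker
    rw [Nat.card_prod, hSL] at h3
    have hN : Nat.card (Cfsg.isometryGroup F (Cfsg.quadFormPlus 2 F)) =
        2 * ((Fintype.card F * (Fintype.card F ^ 2 - 1)) *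
          (Fintype.card F * (Fintype.card F ^ 2 - 1))) := by
      rw [hGO]
      norm_num [Finset.prod_range_one]
      ring
    rw [hN, ← h3] at h1
    by_cases h2 : (2 : F) = 0
    · haveI : CharP F 2 := CharTwo.of_one_ne_zero_of_two_eq_zero one_ne_zero h2
      have hidx : (Cfsg.Omega F (Cfsg.quadFormPlus 2 F)).index = 2 := by
        have := Cfsg.Agent.Lib.helper4.omega_index_c2 (F := F) (Or.inl (by omega))
          (Cfsg.Agent.S2562.qP F 2) (Cfsg.Agent.S2562.nondeg_qP 2) (Sum.inl 0)
        rwa [Cfsg.Agent.Lib.helper4.qP_coe] at this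
      have heven : Even (Fintype.card F) := Cfsg.Agent.Lib.helper4.even_card_of_two_eq_zero h2
      have hg : Nat.gcd 2 (Fintype.card F - 1) = 1 := by
        rw [← Nat.coprime_iff_gcd_eq_one, Nat.Prime.coprime_iff_not_dvd Nat.prime_two]
        obtain ⟨k, hk⟩ := heven
        omega
      rw [hg] at hker
      rw [hidx] at h1
      have h6 : Nat.card (tau (F := F)).range * Nat.card (tau (F := F)).ker
          ≤ Nat.card (tau (F := F)).range * 1 := Nat.mul_le_mul_left _ hker
      omega
    · have hidx : (Cfsg.Omega F (Cfsg.quadFormPlus 2 F)).index = 4 := by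
        have := Cfsg.Agent.Lib.helper4.omega_index_odd h2 (Cfsg.Agent.S2562.qP F 2)
          (Cfsg.Agent.S2562.nondeg_qP 2) (by simp)
        rwa [Cfsg.Agent.Lib.helper4.qP_coe] at this
      have hg : Nat.gcd 2 (Fintype.card F - 1) ≤ 2 :=
        Nat.le_of_dvd (by norm_num) (Nat.gcd_dvd_left _ _)
      rw [hidx] at h1
      have h6 : Nat.card (tau (F := F)).range * Nat.card (tau (F := F)).ker
          ≤ Nat.card (tau (F := F)).range * 2 := Nat.mul_le_mul_left _ (hker.trans hg)
      omega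

/-- a central quotient of `τ.range` mapping onto a centreless group -/
theorem quot_center_equiv {A B C : Type*} [Group A] [Group B] [Group C] (τ : A →* C) (π : A →* B)
    (hπ : Function.Surjective π) (h1 : τ.ker ≤ π.ker)
    (h2 : ∀ a ∈ π.ker, a ∈ Subgroup.center A) (hB : Subgroup.center B = ⊥)
    (H : Subgroup C) (hH : τ.range = H) :
    Nonempty (H ⧸ Subgroup.center H ≃* B) := by
  subst hH
  let e := QuotientGroup.quotientKerEquivRange τ
  let f : τ.range →* B := (QuotientGroup.lift τ.ker π h1).comp e.symm.toMonoidHom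
  have hf : ∀ a, f (τ.rangeRestrict a) = π a := by
    intro a
    have : e.symm (τ.rangeRestrict a) = QuotientGroup.mk a := by
      rw [MulEquiv.symm_apply_eq]; rfl
    show QuotientGroup.lift τ.ker π h1 (e.symm (τ.rangeRestrict a)) = π a
    rw [this]; rfl
  have hsurj : Function.Surjective f := by
    intro b
    obtain ⟨a, rfl⟩ := hπ b
    exact ⟨_, hf a⟩
  have hker : f.ker = Subgroup.center τ.range := by
    ext x
    obtain ⟨a, rfl⟩ : ∃ a, τ.rangeRestrict a = x := τ.rangeRestrict_surjective x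
    rw [MonoidHom.mem_ker, hf]
    constructor
    · intro h
      have := h2 a (MonoidHom.mem_ker.mpr h)
      rw [Subgroup.mem_center_iff]
      intro y
      obtain ⟨a', rfl⟩ := τ.rangeRestrict_surjective y
      rw [← map_mul, ← map_mul, Subgroup.mem_center_iff.mp this a']
    · intro h
      have : π a ∈ Subgroup.center B := by
        rw [Subgroup.mem_center_iff]
        intro b
        obtain ⟨a', rfl⟩ := hπ b
        have := Subgroup.mem_center_iff.mp h (τ.rangeRestrict a')
        rw [← hf, ← hf, ← map_mul f, ← map_mul f, this]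
      rw [hB] at this
      exact this
  exact ⟨(QuotientGroup.quotientMulEquivOfEq hker.symm).trans
    (QuotientGroup.quotientKerEquivOfSurjective f hsurj)⟩

/-- `PΩ⁺₄(q) ≅ PSL₂(q) × PSL₂(q)` for `q ≥ 3` -/
theorem pomega4 [Fintype F] (hF : 3 ≤ Fintype.card F) :
    Nonempty (Cfsg.POmega F (Cfsg.quadFormPlus 2 F) ≃*
      Matrix.ProjectiveSpecialLinearGroup (Fin 2) F ×
        Matrix.ProjectiveSpecialLinearGroup (Fin 2) F) := by
  let π : SpecialLinearGroup (Fin 2) F × SpecialLinearGroup (Fin 2) F →*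
      Matrix.ProjectiveSpecialLinearGroup (Fin 2) F ×
        Matrix.ProjectiveSpecialLinearGroup (Fin 2) F :=
    MonoidHom.prodMap (QuotientGroup.mk' _) (QuotientGroup.mk' _)
  have hπ : ∀ p, π p = (QuotientGroup.mk p.1, QuotientGroup.mk p.2) := fun p => rfl
  refine quot_center_equiv tau π ?_ ?_ ?_ ?_ _ (tau_range hF)
  · rintro ⟨x, y⟩
    obtain ⟨g, rfl⟩ := QuotientGroup.mk_surjective x
    obtain ⟨h, rfl⟩ := QuotientGroup.mk_surjective y
    exact ⟨(g, h), rfl⟩
  · intro p hp
    obtain ⟨h1, h2⟩ := tau_ker_fst p hp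
    rw [MonoidHom.mem_ker, hπ]
    exact Prod.ext ((QuotientGroup.eq_one_iff _).mpr h2)
      ((QuotientGroup.eq_one_iff _).mpr (h1 ▸ h2))
  · intro p hp
    rw [MonoidHom.mem_ker, hπ] at hp
    have h1 : p.1 ∈ Subgroup.center (SpecialLinearGroup (Fin 2) F) :=
      (QuotientGroup.eq_one_iff _).mp (congrArg Prod.fst hp)
    have h2 : p.2 ∈ Subgroup.center (SpecialLinearGroup (Fin 2) F) :=
      (QuotientGroup.eq_one_iff _).mp (congrArg Prod.snd hp)
    rw [Subgroup.center_prod]
    exact ⟨h1, h2⟩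
  · rw [Subgroup.center_prod, center_PSL2]
    simp

end Cfsg.Agent.Lib.helper6.PO4
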