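import Mathlib
import Cfsg.Agent.Lib.helper6.OrthOrd

set_option autoImplicit false

namespace Cfsg.Agent.Lib.helper6

open Matrix

section
variable {F : Type*} [Field F]

/-- second elementary symmetric function -/
def qn {n : ℕ} (x : Fin n → F) : F :=
  ∑ i : Fin n, ∑ j : Fin n, if i < j then x i * x j else 0

theorem qn_perm {n : ℕ} (x : Fin n → F) (σ : Equiv.Perm (Fin n)) : qn (x ∘ σ) = qn x := by
  unfold qn
  have h1 : (∑ i : Fin n, ∑ j : Fin n, if i < j then (x ∘ σ) i * (x ∘ σ) j else 0) =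
      ∑ a : Fin n, ∑ b : Fin n, if σ.symm a < σ.symm b then x a * x b else 0 := by
    rw [← Equiv.sum_comp σ (fun a => ∑ b : Fin n, if σ.symm a < σ.symm b then x a * x b else 0)]
    refine Finset.sum_congr rfl (fun i _ => ?_)
    rw [← Equiv.sum_comp σ (fun b => if σ.symm (σ i) < σ.symm b then x (σ i) * x b else 0)]
    simp
  rw [h1]
  have h2 : ∀ a b : Fin n, (if σ.symm a < σ.symm b then x a * x b else 0) =
      (if a < b ∧ σ.symm a < σ.symm b then x a * x b else 0) +
        (if b < a ∧ σ.symm a < σ.symm b then x a * x b else 0) := by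
    intro a b
    rcases lt_trichotomy a b with h | h | h
    · simp [h, not_lt_of_gt h]
    · subst h; simp
    · simp [h, not_lt_of_gt h]
  simp_rw [h2, Finset.sum_add_distrib]
  rw [Finset.sum_comm (f := fun a b => if b < a ∧ σ.symm a < σ.symm b then x a * x b else 0),
    ← Finset.sum_add_distrib]
  refine Finset.sum_congr rfl (fun a _ => ?_)
  rw [← Finset.sum_add_distrib]
  refine Finset.sum_congr rfl (fun b _ => ?_)
  by_cases h : a < b
  · have hne : σ.symm a ≠ σ.symm b := fun h' => (ne_of_lt h) (σ.symm.injective h')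
    rcases lt_or_gt_of_ne hne with h' | h'
    · simp [h, h', not_lt_of_gt h']
    · simp [h, h', not_lt_of_gt h', mul_comm]
  · simp [h]

/-- all-ones matrix -/
def allOnes (F : Type*) [Field F] (n : ℕ) : Matrix (Fin n) (Fin n) F := Matrix.of fun _ _ => 1

theorem allOnes_mulVec {n : ℕ} (x : Fin n → F) :
    allOnes F n *ᵥ x = (∑ i, x i) • (1 : Fin n → F) := by
  funext i
  simp [allOnes, Matrix.mulVec, dotProduct]

theorem perm_rep (h2 : (2 : F) = 0) {κ : Type} [Fintype κ] [DecidableEq κ] {n : ℕ} (hn : 5 ≤ n)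
    (A : Matrix κ (Fin n) F) (B : Matrix (Fin n) κ F) (L R : Matrix (Fin n) (Fin n) F)
    (g1 : A * B = 1) (g2 : allOnes F n * B = 0)
    (g3 : B * A = 1 + allOnes F n * L + R * allOnes F n)
    (g4 : A * allOnes F n = 0) (Q : (κ → F) → F) (g5 : ∀ v, Q v = qn (B *ᵥ v))
    (g6 : ∀ (x : Fin n → F) (c : F), ∑ i, x i = 0 → qn (x + c • (1 : Fin n → F)) = qn x) :
    ∃ φ : Equiv.Perm (Fin n) →* GL κ F, Function.Injective φ ∧
      ∀ σ, φ σ ∈ Cfsg.isometryGroup F Q := by
  classical
  have hsB : ∀ v : κ → F, ∑ i, (B *ᵥ v) i = 0 := by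
    intro v
    have h := congrArg (fun M => (M *ᵥ v)) g2
    simp only [← Matrix.mulVec_mulVec, Matrix.zero_mulVec, allOnes_mulVec] at h
    have h' := congrFun h ⟨0, by omega⟩
    simpa using h'
  have hA1 : A *ᵥ (1 : Fin n → F) = 0 := by
    have h := congrArg (fun M => M *ᵥ (Pi.single (⟨0, by omega⟩ : Fin n) (1 : F))) g4
    simp only [← Matrix.mulVec_mulVec, Matrix.zero_mulVec, allOnes_mulVec] at h
    simpa using h
  have hBA : ∀ x : Fin n → F, ∑ i, x i = 0 → ∃ c : F, B *ᵥ (A *ᵥ x) = x + c • (1 : Fin n → F) := by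
    intro x hx
    refine ⟨∑ i, (L *ᵥ x) i, ?_⟩
    rw [Matrix.mulVec_mulVec, g3, Matrix.add_mulVec, Matrix.add_mulVec, Matrix.one_mulVec,
      ← Matrix.mulVec_mulVec, ← Matrix.mulVec_mulVec, allOnes_mulVec, allOnes_mulVec, hx, zero_smul,
      Matrix.mulVec_zero, add_zero]
  set P : Equiv.Perm (Fin n) →* Matrix (Fin n) (Fin n) F := Matrix.permMatrixHom with hP
  have hPv : ∀ (σ : Equiv.Perm (Fin n)) (x : Fin n → F),
      P σ *ᵥ x = x ∘ (σ⁻¹ : Equiv.Perm (Fin n)) := by
    intro σ x
    rw [hP, Matrix.permMatrixHom_apply, Matrix.permMatrix_mulVec]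
  have hsum : ∀ (σ : Equiv.Perm (Fin n)) (x : Fin n → F), ∑ i, (P σ *ᵥ x) i = ∑ i, x i := by
    intro σ x
    rw [hPv]
    exact Equiv.sum_comp (σ⁻¹ : Equiv.Perm (Fin n)) x
  have hP1 : ∀ σ : Equiv.Perm (Fin n), P σ *ᵥ (1 : Fin n → F) = 1 := by
    intro σ
    rw [hPv]
    rfl
  have key : ∀ (σ : Equiv.Perm (Fin n)) (x : Fin n → F), ∑ i, x i = 0 →
      A *ᵥ (P σ *ᵥ (B *ᵥ (A *ᵥ x))) = A *ᵥ (P σ *ᵥ x) := by
    intro σ x hx
    obtain ⟨c, hc⟩ := hBA x hx
    rw [hc, Matrix.mulVec_add, Matrix.mulVec_smul, hP1, Matrix.mulVec_add, Matrix.mulVec_smul, hA1,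
      smul_zero, add_zero]
  let M : Equiv.Perm (Fin n) →* Matrix κ κ F :=
    { toFun := fun σ => A * P σ * B
      map_one' := by rw [map_one, Matrix.mul_one, g1]
      map_mul' := by
        intro σ τ
        apply Matrix.mulVec_injective
        funext v
        simp only [← Matrix.mulVec_mulVec]
        rw [map_mul, ← Matrix.mulVec_mulVec]
        exact (key σ (P τ *ᵥ (B *ᵥ v)) (by rw [hsum]; exact hsB v)).symm }
  have hM : ∀ (σ : Equiv.Perm (Fin n)) (v : κ → F), M σ *ᵥ v = A *ᵥ (P σ *ᵥ (B *ᵥ v)) := by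
    intro σ v
    show (A * P σ * B) *ᵥ v = _
    rw [← Matrix.mulVec_mulVec, ← Matrix.mulVec_mulVec]
  refine ⟨M.toHomUnits, ?_, ?_⟩
  · rw [injective_iff_map_eq_one]
    intro σ hσ
    have hσ' : M σ = 1 := by
      have h := congrArg (fun u : GL κ F => (u : Matrix κ κ F)) hσ
      exact h
    have h3 : ∀ x : Fin n → F, ∑ i, x i = 0 → ∃ c : F, P σ *ᵥ x = x + c • (1 : Fin n → F) := by
      intro x hx
      have h4 : A *ᵥ (P σ *ᵥ x) = A *ᵥ x := by
        rw [← key σ x hx, ← hM, hσ', Matrix.one_mulVec]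
      have hy : ∑ i, (P σ *ᵥ x - x) i = 0 := by
        simp only [Pi.sub_apply, Finset.sum_sub_distrib]
        rw [hsum, sub_self]
      obtain ⟨c, hc⟩ := hBA (P σ *ᵥ x - x) hy
      rw [Matrix.mulVec_sub, h4, sub_self, Matrix.mulVec_zero] at hc
      refine ⟨-c, ?_⟩
      have h5 : P σ *ᵥ x = x - c • (1 : Fin n → F) := by
        rw [eq_sub_iff_add_eq]
        have h6 : P σ *ᵥ x + c • (1 : Fin n → F) = x + (P σ *ᵥ x - x + c • (1 : Fin n → F)) := by
          abel
        rw [h6, ← hc, add_zero]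
      rw [h5, neg_smul, sub_eq_add_neg]
    have h5 : ∀ i j : Fin n, i ≠ j → σ i = i ∨ σ i = j := by
      intro i j hij
      have hx : ∑ k, (Pi.single i (1 : F) + Pi.single j (1 : F) : Fin n → F) k = 0 := by
        simp only [Pi.add_apply, Finset.sum_add_distrib, Finset.sum_pi_single', Finset.mem_univ,
          if_true]
        rw [one_add_one_eq_two, h2]
      obtain ⟨c, hc⟩ := h3 _ hx
      rw [hPv] at hc
      obtain ⟨m, hm⟩ : ∃ m : Fin n, m ∉ ({i, j, σ i, σ j} : Finset (Fin n)) := by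
        by_contra hcon
        push Not at hcon
        have h6 : (Finset.univ : Finset (Fin n)) ⊆ {i, j, σ i, σ j} := fun m _ => hcon m
        have h7 := Finset.card_le_card h6
        have h8 : ({i, j, σ i, σ j} : Finset (Fin n)).card ≤ 4 := Finset.card_le_four
        rw [Finset.card_univ, Fintype.card_fin] at h7
        omega
      simp only [Finset.mem_insert, Finset.mem_singleton, not_or] at hm
      obtain ⟨hmi, hmj, hmσi, hmσj⟩ := hm
      have e1 : ¬ ((σ⁻¹ : Equiv.Perm (Fin n)) m = i) := by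
        intro h
        apply hmσi
        rw [← h]
        simp
      have e2 : ¬ ((σ⁻¹ : Equiv.Perm (Fin n)) m = j) := by
        intro h
        apply hmσj
        rw [← h]
        simp
      have hcm := congrFun hc m
      simp only [Function.comp_apply, Pi.add_apply, Pi.single_apply, e1, e2, hmi, hmj, if_false,
        Pi.smul_apply, Pi.one_apply, smul_eq_mul, mul_one, add_zero, zero_add] at hcm
      have e3 : (σ⁻¹ : Equiv.Perm (Fin n)) (σ i) = i := by simp
      have hci := congrFun hc (σ i)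
      by_contra hcon
      push Not at hcon
      simp only [Function.comp_apply, Pi.add_apply, Pi.single_apply, e3, eq_self_iff_true,
        hij, if_true, if_false, hcon.1, hcon.2, ← hcm, Pi.smul_apply, Pi.one_apply, smul_eq_mul,
        mul_one, add_zero] at hci
      exact one_ne_zero hci
    ext i
    obtain ⟨j, hj⟩ : ∃ j : Fin n, j ≠ i := by
      by_contra hcon
      push Not at hcon
      have h6 : (Finset.univ : Finset (Fin n)) ⊆ {i} := fun m _ => by
        rw [Finset.mem_singleton]; exact hcon m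
      have h7 := Finset.card_le_card h6
      rw [Finset.card_univ, Fintype.card_fin, Finset.card_singleton] at h7
      omega
    obtain ⟨k, hk⟩ : ∃ k : Fin n, k ∉ ({i, j} : Finset (Fin n)) := by
      by_contra hcon
      push Not at hcon
      have h6 : (Finset.univ : Finset (Fin n)) ⊆ {i, j} := fun m _ => hcon m
      have h7 := Finset.card_le_card h6
      have h8 : ({i, j} : Finset (Fin n)).card ≤ 2 := Finset.card_le_two
      rw [Finset.card_univ, Fintype.card_fin] at h7
      omega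
    simp only [Finset.mem_insert, Finset.mem_singleton, not_or] at hk
    rcases h5 i j hj.symm with h | h
    · simp [h]
    · rcases h5 i k (Ne.symm hk.1) with h' | h'
      · simp [h']
      · exact absurd (h'.symm.trans h) hk.2
  · intro σ
    rw [mem_isometryGroup_iff]
    intro v
    have hcoe : ((M.toHomUnits σ : GL κ F) : Matrix κ κ F) = M σ := rfl
    rw [hcoe, hM, g5, g5]
    obtain ⟨c, hc⟩ := hBA (P σ *ᵥ (B *ᵥ v)) (by rw [hsum]; exact hsB v)
    rw [hc, g6 _ _ (by rw [hsum]; exact hsB v), hPv, qn_perm]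

end

end Cfsg.Agent.Lib.helper6
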