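import Mathlib
import Cfsg.Agent.Lib.helper6.PermRep

set_option autoImplicit false

namespace Cfsg.Agent.Lib.helper6

open Matrix

/-- coordinate matrix -/
def A8 : Matrix (Fin 6) (Fin 8) (ZMod 2) := !![0, 1, 1, 1, 1, 0, 0, 0; 0, 1, 1, 0, 0, 0, 1, 1; 0, 1, 0, 1, 0, 1, 1, 0; 0, 0, 0, 0, 1, 1, 1, 1; 0, 0, 1, 1, 0, 0, 1, 1; 0, 1, 0, 1, 0, 1, 0, 1]
/-- basis matrix -/
def B8 : Matrix (Fin 8) (Fin 6) (ZMod 2) := !![1, 1, 1, 0, 1, 0; 1, 1, 0, 1, 0, 1; 1, 0, 1, 1, 0, 0; 1, 0, 0, 1, 1, 1; 0, 1, 1, 1, 1, 0; 0, 1, 0, 0, 1, 1; 0, 0, 1, 0, 0, 1; 0, 0, 0, 0, 0, 0]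
/-- correction -/
def L8 : Matrix (Fin 8) (Fin 8) (ZMod 2) := Matrix.diagonal ![0, 0, 0, 0, 0, 0, 0, 1]
/-- correction -/
def R8 : Matrix (Fin 8) (Fin 8) (ZMod 2) := Matrix.diagonal ![1, 0, 0, 0, 0, 0, 0, 0]

theorem A8B8 : A8 * B8 = 1 := by decide
theorem J8B8 : allOnes (ZMod 2) 8 * B8 = 0 := by decide
theorem B8A8 : B8 * A8 = 1 + allOnes (ZMod 2) 8 * L8 + R8 * allOnes (ZMod 2) 8 := by decide
theorem A8J8 : A8 * allOnes (ZMod 2) 8 = 0 := by decide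


section
variable {F : Type*} [Field F] [CharP F 2]

/-- the cast from the prime field -/
def cast2 (F : Type*) [Field F] [CharP F 2] : ZMod 2 →+* F := ZMod.castHom (dvd_refl 2) F

theorem allOnes_map (n : ℕ) : (allOnes (ZMod 2) n).map (cast2 F) = allOnes F n := by
  ext i j
  simp [allOnes]

theorem B8_mulVec (v : Fin 6 → F) : (B8.map (cast2 F)) *ᵥ v =
    ![v 0 + v 1 + v 2 + v 4, v 0 + v 1 + v 3 + v 5, v 0 + v 2 + v 3, v 0 + v 3 + v 4 + v 5, v 1 + v 2 + v 3 + v 4, v 1 + v 4 + v 5, v 2 + v 5, 0] := by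
  funext i
  fin_cases i <;> simp [Matrix.mulVec, dotProduct, Fin.sum_univ_succ, B8] <;> ring

/-- index equivalence -/
def e8 : Fin 6 ≃ Fin 3 ⊕ Fin 3 where
  toFun := ![Sum.inl 0, Sum.inl 1, Sum.inl 2, Sum.inr 0, Sum.inr 1, Sum.inr 2]
  invFun := Sum.elim ![0, 1, 2] ![3, 4, 5]
  left_inv := by decide
  right_inv := by decide

omit [CharP F 2] in
theorem Q8_eq (v : Fin 6 → F) :
    Cfsg.quadFormPlus 3 F (v ∘ e8.symm) = v 0 * v 3 + v 1 * v 4 + v 2 * v 5 := by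
  simp [Cfsg.quadFormPlus, Fin.sum_univ_three, e8]

theorem g5_8 (h2 : (2 : F) = 0) (v : Fin 6 → F) :
    Cfsg.quadFormPlus 3 F (v ∘ e8.symm) = qn ((B8.map (cast2 F)) *ᵥ v) := by
  rw [Q8_eq, B8_mulVec]
  simp [qn, Fin.sum_univ_eight]
  linear_combination (-((3) * v 0 ^ 2 + (7) * v 0 * v 1 + (7) * v 0 * v 2 + (6) * v 0 * v 3 + (7) * v 0 * v 4 + (7) * v 0 * v 5 + (3) * v 1 ^ 2 + (7) * v 1 * v 2 + (7) * v 1 * v 3 + (6) * v 1 * v 4 + (7) * v 1 * v 5 + (3) * v 2 ^ 2 + (7) * v 2 * v 3 + (7) * v 2 * v 4 + (7) * v 2 * v 5 + (3) * v 3 ^ 2 + (7) * v 3 * v 4 + (7) * v 3 * v 5 + (3) * v 4 ^ 2 + (7) * v 4 * v 5 + (3) * v 5 ^ 2)) * h2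

omit [CharP F 2] in
theorem g6_8 (h2 : (2 : F) = 0) (x : Fin 8 → F) (c : F) (hx : ∑ i, x i = 0) :
    qn (x + c • (1 : Fin 8 → F)) = qn x := by
  rw [Fin.sum_univ_eight] at hx
  simp only [qn, Fin.sum_univ_eight, Pi.add_apply, Pi.smul_apply, Pi.one_apply, smul_eq_mul, mul_one]
  simp
  linear_combination (7 * c) * hx + (14 * c ^ 2) * h2

end

theorem go6_plus_perm8 {F : Type*} [Field F] [Fintype F] (hF : Fintype.card F = 2) :
    Nonempty (↥(Cfsg.isometryGroup F (Cfsg.quadFormPlus 3 F)) ≃* Equiv.Perm (Fin 8)) := by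
  classical
  have h2 : (2 : F) = 0 := by
    have h := Nat.cast_card_eq_zero F
    rw [hF] at h
    exact_mod_cast h
  haveI : CharP F 2 := CharTwo.of_one_ne_zero_of_two_eq_zero one_ne_zero h2
  have g1 : A8.map (cast2 F) * B8.map (cast2 F) = 1 := by
    rw [← Matrix.map_mul, A8B8, Matrix.map_one _ (map_zero _) (map_one _)]
  have g2 : allOnes F 8 * B8.map (cast2 F) = 0 := by
    rw [← allOnes_map, ← Matrix.map_mul, J8B8, Matrix.map_zero _ (map_zero _)]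
  have g3 : B8.map (cast2 F) * A8.map (cast2 F) =
      1 + allOnes F 8 * L8.map (cast2 F) + R8.map (cast2 F) * allOnes F 8 := by
    rw [← allOnes_map, ← Matrix.map_mul, ← Matrix.map_mul, ← Matrix.map_mul, B8A8,
      Matrix.map_add _ (map_add _), Matrix.map_add _ (map_add _),
      Matrix.map_one _ (map_zero _) (map_one _)]
  have g4 : A8.map (cast2 F) * allOnes F 8 = 0 := by
    rw [← allOnes_map, ← Matrix.map_mul, A8J8, Matrix.map_zero _ (map_zero _)]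
  obtain ⟨φ, hφinj, hφmem⟩ := perm_rep h2 (n := 8) (by norm_num) (A8.map (cast2 F))
    (B8.map (cast2 F)) (L8.map (cast2 F)) (R8.map (cast2 F)) g1 g2 g3 g4
    (fun v => Cfsg.quadFormPlus 3 F (v ∘ e8.symm)) (g5_8 h2) (g6_8 h2)
  obtain ⟨e₂⟩ := isometryGroup_reindex (F := F) e8 (Cfsg.quadFormPlus 3 F)
  let ψ : Equiv.Perm (Fin 8) →* Cfsg.isometryGroup F (Cfsg.quadFormPlus 3 F) :=
    e₂.toMonoidHom.comp (φ.codRestrict _ hφmem)
  have hψinj : Function.Injective ψ :=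
    e₂.injective.comp (fun a b h => hφinj (congrArg Subtype.val h))
  have hcard : Nat.card (Cfsg.isometryGroup F (Cfsg.quadFormPlus 3 F)) =
      Nat.card (Equiv.Perm (Fin 8)) := by
    rw [card_GO_plus hF 3 (by norm_num), Nat.card_perm, Nat.card_fin]
    simp [Finset.prod_range_succ]
    decide
  have hbij : Function.Bijective ψ :=
    (Nat.bijective_iff_injective_and_card ψ).mpr ⟨hψinj, hcard.symm⟩
  exact ⟨(MulEquiv.ofBijective ψ hbij).symm⟩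

end Cfsg.Agent.Lib.helper6
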