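import Mathlib
import Cfsg.Agent.Lib.helper6.Perm8

set_option autoImplicit false

namespace Cfsg.Agent.Lib.helper6

open Matrix

/-- coordinate matrix -/
def A5 : Matrix (Fin 4) (Fin 5) (ZMod 2) := !![1, 1, 1, 0, 1; 1, 1, 1, 1, 0; 0, 1, 1, 0, 0; 1, 1, 0, 0, 0]
/-- basis matrix -/
def B5 : Matrix (Fin 5) (Fin 4) (ZMod 2) := !![1, 1, 1, 0; 1, 1, 1, 1; 1, 1, 0, 1; 1, 0, 0, 0; 0, 1, 0, 0]

theorem A5B5 : A5 * B5 = 1 := by decide
theorem J5B5 : allOnes (ZMod 2) 5 * B5 = 0 := by decide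
theorem B5A5 : B5 * A5 = 1 + allOnes (ZMod 2) 5 * 1 + 0 * allOnes (ZMod 2) 5 := by decide
theorem A5J5 : A5 * allOnes (ZMod 2) 5 = 0 := by decide

section
variable {F : Type*} [Field F] [CharP F 2]

theorem B5_mulVec (v : Fin 4 → F) : (B5.map (cast2 F)) *ᵥ v =
    ![v 0 + v 1 + v 2, v 0 + v 1 + v 2 + v 3, v 0 + v 1 + v 3, v 0, v 1] := by
  funext i
  fin_cases i <;> simp [Matrix.mulVec, dotProduct, Fin.sum_univ_succ, B5] <;> ring

/-- index equivalence -/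
def e5 : Fin 4 ≃ (Fin 1 ⊕ Fin 1) ⊕ Fin 2 where
  toFun := ![Sum.inl (Sum.inl 0), Sum.inl (Sum.inr 0), Sum.inr 0, Sum.inr 1]
  invFun := Sum.elim (Sum.elim ![0] ![1]) ![2, 3]
  left_inv := by decide
  right_inv := by decide

omit [CharP F 2] in
theorem Q5_eq (v : Fin 4 → F) :
    Cfsg.quadFormMinus 1 F 1 1 (v ∘ e5.symm) = v 0 * v 1 + (v 2 ^ 2 + v 2 * v 3 + v 3 ^ 2) := by
  simp [Cfsg.quadFormMinus, e5]

theorem g5_5 (h2 : (2 : F) = 0) (v : Fin 4 → F) :
    Cfsg.quadFormMinus 1 F 1 1 (v ∘ e5.symm) = qn ((B5.map (cast2 F)) *ᵥ v) := by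
  rw [Q5_eq, B5_mulVec]
  simp [qn, Fin.sum_univ_five]
  linear_combination (-((3) * v 0 ^ 2 + (6) * v 0 * v 1 + (3) * v 0 * v 2 + (3) * v 0 * v 3 + (3) * v 1 ^ 2 + (3) * v 1 * v 2 + (3) * v 1 * v 3 + v 2 * v 3)) * h2

omit [CharP F 2] in
theorem g6_5 (h2 : (2 : F) = 0) (x : Fin 5 → F) (c : F) (hx : ∑ i, x i = 0) :
    qn (x + c • (1 : Fin 5 → F)) = qn x := by
  rw [Fin.sum_univ_five] at hx
  simp only [qn, Fin.sum_univ_five, Pi.add_apply, Pi.smul_apply, Pi.one_apply, smul_eq_mul, mul_one]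
  simp
  linear_combination (4 * c) * hx + (5 * c ^ 2) * h2

end

theorem go4_minus_perm5 {F : Type*} [Field F] [Fintype F] (hF : Fintype.card F = 2) :
    Nonempty (↥(Cfsg.isometryGroup F (Cfsg.quadFormMinus 1 F 1 1)) ≃* Equiv.Perm (Fin 5)) := by
  classical
  have h2 : (2 : F) = 0 := by
    have h := Nat.cast_card_eq_zero F
    rw [hF] at h
    exact_mod_cast h
  haveI : CharP F 2 := CharTwo.of_one_ne_zero_of_two_eq_zero one_ne_zero h2
  have h01 : ∀ z : F, z = 0 ∨ z = 1 := by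
    intro z
    by_cases hz : z = 0
    · exact Or.inl hz
    · right
      have h := FiniteField.pow_card_sub_one_eq_one z hz
      rw [hF] at h
      simpa using h
  have hab : ∀ z₁ z₂ : F, z₁ ^ 2 + 1 * z₁ * z₂ + 1 * z₂ ^ 2 = 0 → z₁ = 0 ∧ z₂ = 0 := by
    intro z₁ z₂ h
    rcases h01 z₁ with rfl | rfl <;> rcases h01 z₂ with rfl | rfl
    · exact ⟨rfl, rfl⟩
    · exfalso
      apply one_ne_zero (α := F)
      linear_combination h
    · exfalso
      apply one_ne_zero (α := F)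
      linear_combination h
    · exfalso
      apply one_ne_zero (α := F)
      linear_combination h - h2
  have g1 : A5.map (cast2 F) * B5.map (cast2 F) = 1 := by
    rw [← Matrix.map_mul, A5B5, Matrix.map_one _ (map_zero _) (map_one _)]
  have g2 : allOnes F 5 * B5.map (cast2 F) = 0 := by
    rw [← allOnes_map, ← Matrix.map_mul, J5B5, Matrix.map_zero _ (map_zero _)]
  have g3 : B5.map (cast2 F) * A5.map (cast2 F) =
      1 + allOnes F 5 * 1 + 0 * allOnes F 5 := by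
    rw [← Matrix.map_mul, B5A5, Matrix.map_add _ (map_add _), Matrix.map_add _ (map_add _),
      Matrix.map_one _ (map_zero _) (map_one _), Matrix.map_mul, Matrix.map_mul, allOnes_map,
      Matrix.map_one _ (map_zero _) (map_one _), Matrix.map_zero _ (map_zero _)]
  have g4 : A5.map (cast2 F) * allOnes F 5 = 0 := by
    rw [← allOnes_map, ← Matrix.map_mul, A5J5, Matrix.map_zero _ (map_zero _)]
  obtain ⟨φ, hφinj, hφmem⟩ := perm_rep h2 (n := 5) (by norm_num) (A5.map (cast2 F))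
    (B5.map (cast2 F)) 1 0 g1 g2 g3 g4
    (fun v => Cfsg.quadFormMinus 1 F 1 1 (v ∘ e5.symm)) (g5_5 h2) (g6_5 h2)
  obtain ⟨e₂⟩ := isometryGroup_reindex (F := F) e5 (Cfsg.quadFormMinus 1 F 1 1)
  let ψ : Equiv.Perm (Fin 5) →* Cfsg.isometryGroup F (Cfsg.quadFormMinus 1 F 1 1) :=
    e₂.toMonoidHom.comp (φ.codRestrict _ hφmem)
  have hψinj : Function.Injective ψ :=
    e₂.injective.comp (fun a b h => hφinj (congrArg Subtype.val h))
  have hc : Nat.card ↥(Cfsg.isometryGroup F (Cfsg.quadFormMinus 1 F 1 1)) =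
      2 * 2 ^ (2 * (2 - 1)) * (2 ^ 2 + 1) *
        ∏ i ∈ Finset.range (2 - 1), (2 ^ (2 * (i + 1)) - 1) :=
    card_GO_minus hF 2 (by norm_num) 1 1 hab
  have hcard : Nat.card (Cfsg.isometryGroup F (Cfsg.quadFormMinus 1 F 1 1)) =
      Nat.card (Equiv.Perm (Fin 5)) := by
    rw [hc, Nat.card_perm, Nat.card_fin]
    simp [Finset.prod_range_succ]
    decide
  have hbij : Function.Bijective ψ :=
    (Nat.bijective_iff_injective_and_card ψ).mpr ⟨hψinj, hcard.symm⟩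
  exact ⟨(MulEquiv.ofBijective ψ hbij).symm⟩

end Cfsg.Agent.Lib.helper6
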