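import Mathlib
import Cfsg.Prelude.Def_Classical
import Cfsg.Agent.Lib.helper6.PO4
import Cfsg.Agent.Lib.helper6.Perm5
import Cfsg.Agent.Lib.helper12.SL2Torus
import Cfsg.Agent.S2679

set_option autoImplicit false

namespace Cfsg.Agent.Lib.helper6.PO4m

open Matrix QuadraticAlgebra

open scoped commutatorElement

open Cfsg.Agent.Lib.helper6.PO3

variable {F : Type*} [Field F]

/-- index type of `quadFormMinus 1` -/
abbrev J4 : Type := (Fin 1 ⊕ Fin 1) ⊕ Fin 2

/-- the Hermitian matrix `[[x, z],[z̄, -y]]` of a vector -/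
def Mh (a b : F) (v : J4 → F) : Matrix (Fin 2) (Fin 2) (QuadraticAlgebra F (-b) a) :=
  !![algebraMap F _ (v (.inl (.inl 0))), ⟨v (.inr 0), v (.inr 1)⟩;
     star (⟨v (.inr 0), v (.inr 1)⟩ : QuadraticAlgebra F (-b) a),
       -algebraMap F _ (v (.inl (.inr 0)))]

/-- the matrix of `M ↦ g M gᴴ` in coordinates -/
def T (a b : F) (α β γ δ : QuadraticAlgebra F (-b) a) : Matrix J4 J4 F := Matrix.of fun i j =>
  match i, j with
  | .inl (.inl _), .inl (.inl _) => norm α
  | .inl (.inl _), .inl (.inr _) => -norm β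
  | .inl (.inl _), .inr k => ![trace (α * star β), trace (α * star β * ω)] k
  | .inl (.inr _), .inl (.inl _) => -norm γ
  | .inl (.inr _), .inl (.inr _) => norm δ
  | .inl (.inr _), .inr k => ![-trace (γ * star δ), -trace (γ * star δ * ω)] k
  | .inr k, .inl (.inl _) => ![(α * star γ).re, (α * star γ).im] k
  | .inr k, .inl (.inr _) => ![-(β * star δ).re, -(β * star δ).im] k
  | .inr k, .inr k' =>
      !![(α * star δ + β * star γ).re, (α * star δ * ω + β * star γ * star ω).re;
         (α * star δ + β * star γ).im, (α * star δ * ω + β * star γ * star ω).im] k k'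

set_option maxHeartbeats 1000000 in
theorem Mh_T (a b : F) (α β γ δ : QuadraticAlgebra F (-b) a) (v : J4 → F) :
    Mh a b (T a b α β γ δ *ᵥ v) = !![α, β; γ, δ] * Mh a b v * (!![α, β; γ, δ])ᴴ := by
  have h00 : (T a b α β γ δ *ᵥ v) (.inl (.inl 0)) = norm α * v (.inl (.inl 0))
      - norm β * v (.inl (.inr 0)) + trace (α * star β) * v (.inr 0)
      + trace (α * star β * ω) * v (.inr 1) := by
    simp [T, Matrix.mulVec, dotProduct, Fintype.sum_sum_type, Fin.sum_univ_two]
    ring
  have h01 : (T a b α β γ δ *ᵥ v) (.inl (.inr 0)) = -norm γ * v (.inl (.inl 0))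
      + norm δ * v (.inl (.inr 0)) - trace (γ * star δ) * v (.inr 0)
      - trace (γ * star δ * ω) * v (.inr 1) := by
    simp [T, Matrix.mulVec, dotProduct, Fintype.sum_sum_type, Fin.sum_univ_two]
    ring
  have h10 : (T a b α β γ δ *ᵥ v) (.inr 0) = (α * star γ).re * v (.inl (.inl 0))
      - (β * star δ).re * v (.inl (.inr 0)) + (α * star δ + β * star γ).re * v (.inr 0)
      + (α * star δ * ω + β * star γ * star ω).re * v (.inr 1) := by
    simp [T, Matrix.mulVec, dotProduct, Fintype.sum_sum_type, Fin.sum_univ_two]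
    ring
  have h11 : (T a b α β γ δ *ᵥ v) (.inr 1) = (α * star γ).im * v (.inl (.inl 0))
      - (β * star δ).im * v (.inl (.inr 0)) + (α * star δ + β * star γ).im * v (.inr 0)
      + (α * star δ * ω + β * star γ * star ω).im * v (.inr 1) := by
    simp [T, Matrix.mulVec, dotProduct, Fintype.sum_sum_type, Fin.sum_univ_two]
    ring
  unfold Mh
  rw [h00, h01, h10, h11]
  ext i j <;> fin_cases i <;> fin_cases j <;>
    simp [Matrix.mul_apply, Fin.sum_univ_two,
      QuadraticAlgebra.norm_def, QuadraticAlgebra.trace_def] <;> ring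


theorem Mh_injective (a b : F) : Function.Injective (Mh a b) := by
  intro v w h
  have e00 := congrArg QuadraticAlgebra.re (congrFun (congrFun h 0) 0)
  have e11 := congrArg QuadraticAlgebra.re (congrFun (congrFun h 1) 1)
  have e01r := congrArg QuadraticAlgebra.re (congrFun (congrFun h 0) 1)
  have e01i := congrArg QuadraticAlgebra.im (congrFun (congrFun h 0) 1)
  simp [Mh] at e00 e11 e01r e01i
  funext i
  rcases i with (i | i) | i
  · rw [Subsingleton.elim i 0]; exact e00
  · rw [Subsingleton.elim i 0]; exact e11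
  · fin_cases i
    · exact e01r
    · exact e01i

theorem T_mul (a b : F) (α β γ δ α' β' γ' δ' : QuadraticAlgebra F (-b) a) :
    T a b α β γ δ * T a b α' β' γ' δ' =
      T a b (α * α' + β * γ') (α * β' + β * δ') (γ * α' + δ * γ') (γ * β' + δ * δ') := by
  apply Matrix.mulVec_injective
  funext v
  apply Mh_injective a b
  rw [← Matrix.mulVec_mulVec, Mh_T, Mh_T, Mh_T]
  have : !![α * α' + β * γ', α * β' + β * δ'; γ * α' + δ * γ', γ * β' + δ * δ'] =
      !![α, β; γ, δ] * !![α', β'; γ', δ'] := by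
    rw [Matrix.mul_fin_two]
  rw [this, Matrix.conjTranspose_mul]
  simp only [Matrix.mul_assoc]

theorem T_one (a b : F) : T a b 1 0 0 1 = 1 := by
  apply Matrix.mulVec_injective
  funext v
  apply Mh_injective a b
  rw [Mh_T, Matrix.one_mulVec]
  have : (!![1, 0; 0, 1] : Matrix (Fin 2) (Fin 2) (QuadraticAlgebra F (-b) a)) = 1 :=
    Matrix.one_fin_two.symm
  rw [this]
  simp

theorem det_Mh (a b : F) (v : J4 → F) :
    (Mh a b v).det = algebraMap F (QuadraticAlgebra F (-b) a) (-(Cfsg.quadFormMinus 1 F a b v)) := by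
  rw [Matrix.det_fin_two, QuadraticAlgebra.algebraMap_eq]
  ext
  · simp [Mh, Cfsg.quadFormMinus]
    ring
  · simp [Mh]
    ring

theorem T_Q (a b : F) (α β γ δ : QuadraticAlgebra F (-b) a) (hdet : α * δ - β * γ = 1)
    (v : J4 → F) :
    Cfsg.quadFormMinus 1 F a b (T a b α β γ δ *ᵥ v) = Cfsg.quadFormMinus 1 F a b v := by
  have h1 := det_Mh a b (T a b α β γ δ *ᵥ v)
  rw [Mh_T, Matrix.det_mul, Matrix.det_mul, Matrix.det_conjTranspose, Matrix.det_fin_two_of,
    hdet, star_one, one_mul, mul_one, det_Mh] at h1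
  have h2 := QuadraticAlgebra.algebraMap_injective h1
  exact (neg_injective h2).symm

/-- the monoid hom `SL₂(L) → M₄(F)` -/
def rho0 (a b : F) : SpecialLinearGroup (Fin 2) (QuadraticAlgebra F (-b) a) →* Matrix J4 J4 F where
  toFun g := T a b (g.1 0 0) (g.1 0 1) (g.1 1 0) (g.1 1 1)
  map_one' := by simp [T_one]
  map_mul' g h := by
    rw [T_mul]
    simp [Matrix.mul_apply, Fin.sum_univ_two]

theorem rho0_apply (a b : F) (g : SpecialLinearGroup (Fin 2) (QuadraticAlgebra F (-b) a)) :
    rho0 a b g = T a b (g.1 0 0) (g.1 0 1) (g.1 1 0) (g.1 1 1) := rfl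

/-- the hom `SL₂(L) → GO⁻₄(F)` -/
def rho (a b : F) : SpecialLinearGroup (Fin 2) (QuadraticAlgebra F (-b) a) →*
    Cfsg.isometryGroup F (Cfsg.quadFormMinus 1 F a b) :=
  (rho0 a b).toHomUnits.codRestrict _ (fun g => by
    rw [Cfsg.Agent.Lib.helper6.mem_isometryGroup_iff]
    intro u
    rw [MonoidHom.coe_toHomUnits, rho0_apply]
    apply T_Q
    rw [← Matrix.det_fin_two]
    exact g.2)

theorem rho_coe (a b : F) (g : SpecialLinearGroup (Fin 2) (QuadraticAlgebra F (-b) a)) :
    (((rho a b g : Cfsg.isometryGroup F (Cfsg.quadFormMinus 1 F a b)) : GL J4 F) :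
      Matrix J4 J4 F) = T a b (g.1 0 0) (g.1 0 1) (g.1 1 0) (g.1 1 1) := rfl

theorem T_eq_one_iff (a b : F) [Fact (∀ r : F, r ^ 2 ≠ -b + a * r)]
    (α β γ δ : QuadraticAlgebra F (-b) a) (hdet : α * δ - β * γ = 1) :
    T a b α β γ δ = 1 ↔ (β = 0 ∧ γ = 0 ∧ α = δ) := by
  constructor
  · intro hT
    have key : ∀ v, Mh a b v = !![α, β; γ, δ] * Mh a b v * (!![α, β; γ, δ])ᴴ := by
      intro v
      rw [← Mh_T, hT, Matrix.one_mulVec]
    have k1 := key (Pi.single (.inl (.inl 0)) 1)
    have k2 := key (Pi.single (.inl (.inr 0)) 1)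
    have k3 := key (Pi.single (.inr 0) 1)
    have m1 : Mh a b (Pi.single (.inl (.inl 0)) 1) = !![1, 0; 0, 0] := by
      ext i j <;> fin_cases i <;> fin_cases j <;> simp [Mh]
    have m2 : Mh a b (Pi.single (.inl (.inr 0)) 1) = !![0, 0; 0, -1] := by
      ext i j <;> fin_cases i <;> fin_cases j <;> simp [Mh]
    have m3 : Mh a b (Pi.single (.inr 0) 1) = !![0, 1; 1, 0] := by
      ext i j <;> fin_cases i <;> fin_cases j <;> simp [Mh]
    rw [m1] at k1
    rw [m2] at k2
    rw [m3] at k3
    have e1 := congrFun (congrFun k1 0) 0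
    have e2 := congrFun (congrFun k1 0) 1
    have e3 := congrFun (congrFun k2 1) 1
    have e4 := congrFun (congrFun k2 0) 1
    have e5 := congrFun (congrFun k3 0) 1
    simp [Matrix.mul_apply, Fin.sum_univ_two] at e1 e2 e3 e4 e5
    have hα : α ≠ 0 := by
      rintro rfl
      simp at e1
    have hδ : δ ≠ 0 := by
      rintro rfl
      simp at e3
    have hγ : γ = 0 := e2.resolve_left hα
    have hβ : β = 0 := e4.resolve_right hδ
    refine ⟨hβ, hγ, ?_⟩
    rw [hβ, zero_mul, zero_add] at e5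
    have h6 : α * (star α - star δ) = 0 := by rw [mul_sub, ← e1, ← e5, sub_self]
    rcases mul_eq_zero.mp h6 with h | h
    · exact absurd h hα
    · exact star_injective (sub_eq_zero.mp h)
  · rintro ⟨rfl, rfl, rfl⟩
    have hα : α * α = 1 := by rw [← hdet]; ring
    apply Matrix.mulVec_injective
    funext v
    apply Mh_injective a b
    rw [Mh_T, Matrix.one_mulVec]
    rcases mul_self_eq_one_iff.mp hα with rfl | rfl
    · have : (!![1, 0; 0, 1] : Matrix (Fin 2) (Fin 2) (QuadraticAlgebra F (-b) a)) = 1 :=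
        Matrix.one_fin_two.symm
      rw [this]
      simp
    · have : (!![-1, 0; 0, -1] : Matrix (Fin 2) (Fin 2) (QuadraticAlgebra F (-b) a)) = -1 := by
        rw [Matrix.one_fin_two]
        simp
      rw [this]
      simp


section general

variable {K : Type*} [Field K]

theorem mem_center_SL2_iff (g : SpecialLinearGroup (Fin 2) K) :
    g ∈ Subgroup.center (SpecialLinearGroup (Fin 2) K) ↔
      (g.1 0 1 = 0 ∧ g.1 1 0 = 0 ∧ g.1 0 0 = g.1 1 1) := by
  have hdet : g.1 0 0 * g.1 1 1 - g.1 0 1 * g.1 1 0 = 1 := by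
    rw [← Matrix.det_fin_two]; exact g.2
  rw [Matrix.SpecialLinearGroup.mem_center_iff]
  constructor
  · rintro ⟨r, hr, hg⟩
    rw [← hg]
    simp [Matrix.scalar_apply]
  · rintro ⟨hb, hc, had⟩
    refine ⟨g.1 0 0, ?_, ?_⟩
    · rw [Fintype.card_fin]
      rw [hb, ← had] at hdet
      linear_combination hdet
    · ext i j
      fin_cases i <;> fin_cases j <;> simp [Matrix.scalar_apply, hb, hc, had]

/-- `SL₂(K)` is perfect as soon as `K` has an element `t ≠ 0` with `t² ≠ 1` -/
theorem SL2_perfect (t : K) (ht : t ≠ 0) (ht2 : t ^ 2 ≠ 1) :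
    commutator (SpecialLinearGroup (Fin 2) K) = ⊤ := by
  rw [eq_top_iff]
  intro g _
  have h1 : t ^ 2 - 1 ≠ 0 := sub_ne_zero.mpr ht2
  have h1' : 1 - t ^ 2 ≠ 0 := sub_ne_zero.mpr (Ne.symm ht2)
  let d : SpecialLinearGroup (Fin 2) K := ⟨!![t, 0; 0, t⁻¹], by simp [Matrix.det_fin_two, ht]⟩
  refine Cfsg.Agent.Lib.helper13.SLSimple.transvection_induction
    (fun g => g ∈ commutator (SpecialLinearGroup (Fin 2) K)) ?_ ?_ g
  · intro i j hij c
    fin_cases i <;> fin_cases j
    · exact absurd rfl hij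
    · have : Matrix.SpecialLinearGroup.transvection hij c =
          ⁅d, Matrix.SpecialLinearGroup.transvection hij (c / (t ^ 2 - 1))⁆ := by
        apply comm_of_eq
        apply Subtype.ext
        show (Matrix.SpecialLinearGroup.transvection hij c).1 *
            (Matrix.SpecialLinearGroup.transvection hij (c / (t ^ 2 - 1))).1 *
            (!![t, 0; 0, t⁻¹] : Matrix (Fin 2) (Fin 2) K) =
          !![t, 0; 0, t⁻¹] * (Matrix.SpecialLinearGroup.transvection hij (c / (t ^ 2 - 1))).1
        rw [Matrix.SpecialLinearGroup.transvection_coe, Matrix.SpecialLinearGroup.transvection_coe]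
        ext i j
        fin_cases i <;> fin_cases j <;>
          simp [Matrix.mul_apply, Fin.sum_univ_two, Matrix.one_apply] <;> field_simp <;> ring
      rw [this]
      exact Subgroup.commutator_mem_commutator (Subgroup.mem_top _) (Subgroup.mem_top _)
    · have : Matrix.SpecialLinearGroup.transvection hij c =
          ⁅d, Matrix.SpecialLinearGroup.transvection hij (c * t ^ 2 / (1 - t ^ 2))⁆ := by
        apply comm_of_eq
        apply Subtype.ext
        show (Matrix.SpecialLinearGroup.transvection hij c).1 *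
            (Matrix.SpecialLinearGroup.transvection hij (c * t ^ 2 / (1 - t ^ 2))).1 *
            (!![t, 0; 0, t⁻¹] : Matrix (Fin 2) (Fin 2) K) =
          !![t, 0; 0, t⁻¹] * (Matrix.SpecialLinearGroup.transvection hij (c * t ^ 2 / (1 - t ^ 2))).1
        rw [Matrix.SpecialLinearGroup.transvection_coe, Matrix.SpecialLinearGroup.transvection_coe]
        ext i j
        fin_cases i <;> fin_cases j <;>
          simp [Matrix.mul_apply, Fin.sum_univ_two, Matrix.one_apply] <;> field_simp <;> ring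
      rw [this]
      exact Subgroup.commutator_mem_commutator (Subgroup.mem_top _) (Subgroup.mem_top _)
    · exact absurd rfl hij
  · intro A B hA hB
    exact mul_mem hA hB

theorem map_mem_commutator {G H : Type*} [Group G] [Group H] (f : G →* H)
    (hG : commutator G = ⊤) (g : G) : f g ∈ commutator H := by
  have h1 : g ∈ commutator G := by rw [hG]; exact Subgroup.mem_top _
  have h2 : f g ∈ (commutator G).map f := Subgroup.mem_map_of_mem f h1
  rw [commutator_def, Subgroup.map_commutator] at h2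
  exact Subgroup.commutator_mono le_top le_top h2

end general


theorem index_commutator_perm5 {G : Type*} [Group G] (e : G ≃* Equiv.Perm (Fin 5)) :
    (commutator G).index = 2 := by
  have hmap : (commutator G).map (e : G →* Equiv.Perm (Fin 5)) = alternatingGroup (Fin 5) := by
    rw [commutator_def, Subgroup.map_commutator, ← MonoidHom.range_eq_map,
      MonoidHom.range_eq_top.mpr e.surjective, ← commutator_def,
      alternatingGroup.commutator_perm_eq (by simp)]
  have h1 := Subgroup.index_map_equiv (commutator G) e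
  rw [hmap, alternatingGroup.index_eq_two] at h1
  exact h1.symm

section final

variable {K : Type*} [Field K] [Fintype F] [Fintype K]

theorem omega_index_minus4 {q : ℕ} (hF : Fintype.card F = q) (a b : F)
    (hab : ∀ z₁ z₂ : F, z₁ ^ 2 + a * z₁ * z₂ + b * z₂ ^ 2 = 0 → z₁ = 0 ∧ z₂ = 0) :
    (Cfsg.Omega F (Cfsg.quadFormMinus 1 F a b)).index = 2 * Nat.gcd 2 (q ^ 2 - 1) := by
  classical
  have hq1 : 2 ≤ q := by rw [← hF]; exact Fintype.one_lt_card
  by_cases h2 : (2 : F) = 0
  · haveI : CharP F 2 := CharTwo.of_one_ne_zero_of_two_eq_zero one_ne_zero h2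
    have heven : Even (Fintype.card F) := Cfsg.Agent.Lib.helper4.even_card_of_two_eq_zero h2
    have hg : Nat.gcd 2 (q ^ 2 - 1) = 1 := by
      rw [← Nat.coprime_iff_gcd_eq_one, Nat.Prime.coprime_iff_not_dvd Nat.prime_two]
      rw [hF] at heven
      obtain ⟨k, hk⟩ := heven
      have hk1 : 1 ≤ k := by omega
      have : q ^ 2 = 2 * (2 * k * k) := by rw [hk]; ring
      have h3 : 1 ≤ 2 * k * k := by nlinarith
      omega
    rw [hg]
    by_cases hq : Fintype.card F = 2
    · have hone : ∀ z : F, z ≠ 0 → z = 1 := by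
        intro z hz
        have h1 : z ^ (Fintype.card F - 1) = 1 := FiniteField.pow_card_sub_one_eq_one z hz
        rw [hq] at h1
        simpa using h1
      have hb : b = 1 := by
        apply hone
        intro hb
        have := (hab 0 1 (by rw [hb]; ring)).2
        exact one_ne_zero this
      have ha : a = 1 := by
        apply hone
        intro ha
        have := (hab 1 1 (by rw [ha, hb]; linear_combination h2)).2
        exact one_ne_zero this
      subst ha hb
      obtain ⟨e⟩ := Cfsg.Agent.Lib.helper6.go4_minus_perm5 (F := F) hq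
      rw [index_commutator_perm5 e]
    · have := Cfsg.Agent.Lib.helper4.omega_index_c2 (F := F) (Or.inl hq)
        (Cfsg.Agent.S2679.qMg F 1 a b) (Cfsg.Agent.Lib.helper4.nondeg_qMg 1 a b hab)
        (Sum.inr 0)
      rw [Cfsg.Agent.Lib.helper4.qMg_coe] at this
      rw [this]
  · have hodd : Odd (Fintype.card F) := Cfsg.Agent.Lib.helper4.odd_card_of_two_ne_zero h2
    have hg : Nat.gcd 2 (q ^ 2 - 1) = 2 := by
      apply Nat.gcd_eq_left
      rw [hF] at hodd
      obtain ⟨k, hk⟩ := hodd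
      have : q ^ 2 = 2 * (2 * k * k + 2 * k) + 1 := by rw [hk]; ring
      omega
    rw [hg]
    have := Cfsg.Agent.Lib.helper4.omega_index_odd h2
      (Cfsg.Agent.S2679.qMg F 1 a b) (Cfsg.Agent.Lib.helper4.nondeg_qMg 1 a b hab) (by simp)
    rw [Cfsg.Agent.Lib.helper4.qMg_coe] at this
    rw [this]


/-- the hom `SL₂(K) → GO⁻₄(F)` -/
def sigma (a b : F) (ψ : K ≃+* QuadraticAlgebra F (-b) a) :
    SpecialLinearGroup (Fin 2) K →* Cfsg.isometryGroup F (Cfsg.quadFormMinus 1 F a b) :=
  (rho a b).comp (Matrix.SpecialLinearGroup.map ψ.toRingHom)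

omit [Fintype F] [Fintype K] in
theorem sigma_coe (a b : F) (ψ : K ≃+* QuadraticAlgebra F (-b) a)
    (g : SpecialLinearGroup (Fin 2) K) :
    (((sigma a b ψ g : Cfsg.isometryGroup F (Cfsg.quadFormMinus 1 F a b)) : GL J4 F) :
      Matrix J4 J4 F) = T a b (ψ (g.1 0 0)) (ψ (g.1 0 1)) (ψ (g.1 1 0)) (ψ (g.1 1 1)) := by
  rw [show sigma a b ψ g = rho a b (Matrix.SpecialLinearGroup.map ψ.toRingHom g) from rfl,
    rho_coe]
  rfl

/-- `PΩ⁻₄(q) ≅ PSL₂(q²)` -/
theorem pomega4m {q : ℕ} (hF : Fintype.card F = q) (hK : Fintype.card K = q ^ 2) (a b : F)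
    (hab : ∀ z₁ z₂ : F, z₁ ^ 2 + a * z₁ * z₂ + b * z₂ ^ 2 = 0 → z₁ = 0 ∧ z₂ = 0) :
    Nonempty (Cfsg.POmega F (Cfsg.quadFormMinus 1 F a b) ≃*
      Matrix.ProjectiveSpecialLinearGroup (Fin 2) K) := by
  classical
  haveI hfact : Fact (∀ r : F, r ^ 2 ≠ -b + a * r) :=
    ⟨Cfsg.Agent.Lib.helper6.noRoot_of_aniso a b hab⟩
  haveI : Finite (QuadraticAlgebra F (-b) a) := Cfsg.Agent.Lib.helper12.qa_finite
  letI : Fintype (QuadraticAlgebra F (-b) a) := Fintype.ofFinite _
  have hq1 : 2 ≤ q := by rw [← hF]; exact Fintype.one_lt_card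
  have hcardL : Fintype.card K = Fintype.card (QuadraticAlgebra F (-b) a) := by
    rw [hK, ← Nat.card_eq_fintype_card, Cfsg.Agent.Lib.helper12.qa_card, hF]
  obtain ⟨ψ⟩ : Nonempty (K ≃+* QuadraticAlgebra F (-b) a) :=
    ⟨FiniteField.ringEquivOfCardEq hcardL⟩
  obtain ⟨σ, hσcoe⟩ : ∃ σ : SpecialLinearGroup (Fin 2) K →*
      Cfsg.isometryGroup F (Cfsg.quadFormMinus 1 F a b), ∀ g : SpecialLinearGroup (Fin 2) K,
      (((σ g : Cfsg.isometryGroup F (Cfsg.quadFormMinus 1 F a b)) : GL J4 F) : Matrix J4 J4 F)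
        = T a b (ψ (g.1 0 0)) (ψ (g.1 0 1)) (ψ (g.1 1 0)) (ψ (g.1 1 1)) :=
    ⟨sigma a b ψ, sigma_coe a b ψ⟩
  have hσker : σ.ker = Subgroup.center (SpecialLinearGroup (Fin 2) K) := by
    ext g
    have hdet : g.1 0 0 * g.1 1 1 - g.1 0 1 * g.1 1 0 = 1 := by
      rw [← Matrix.det_fin_two]; exact g.2
    have hdet' : ψ (g.1 0 0) * ψ (g.1 1 1) - ψ (g.1 0 1) * ψ (g.1 1 0) = 1 := by
      rw [← map_mul, ← map_mul, ← map_sub, hdet, map_one]
    have h1 : g ∈ σ.ker ↔ T a b (ψ (g.1 0 0)) (ψ (g.1 0 1)) (ψ (g.1 1 0)) (ψ (g.1 1 1)) = 1 := by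
      rw [MonoidHom.mem_ker, ← hσcoe]
      constructor
      · intro h; rw [h]; rfl
      · intro h
        apply Subtype.ext
        apply Units.ext
        exact h
    rw [h1, T_eq_one_iff a b _ _ _ _ hdet', mem_center_SL2_iff, map_eq_zero_iff ψ ψ.injective,
      map_eq_zero_iff ψ ψ.injective, ψ.injective.eq_iff]
  obtain ⟨t, ht0, ht2⟩ : ∃ t : K, t ≠ 0 ∧ t ^ 2 ≠ 1 := by
    by_contra h
    push Not at h
    have h1 : (Finset.univ : Finset K) ⊆ ({0, 1, -1} : Finset K) := by
      intro x _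
      by_cases hx : x = 0
      · simp [hx]
      · have h3 := h x hx
        have h4 : (x - 1) * (x + 1) = 0 := by linear_combination h3
        rcases mul_eq_zero.mp h4 with h5 | h5
        · have : x = 1 := by linear_combination h5
          simp [this]
        · have : x = -1 := by linear_combination h5
          simp [this]
    have h2 := Finset.card_le_card h1
    have h3 : ({0, 1, -1} : Finset K).card ≤ 3 := Finset.card_le_three
    rw [Finset.card_univ, hK] at h2
    nlinarith
  have hperf := SL2_perfect t ht0 ht2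
  have hσrange : σ.range = Cfsg.Omega F (Cfsg.quadFormMinus 1 F a b) := by
    apply Subgroup.eq_of_le_of_card_ge
    · rintro _ ⟨g, rfl⟩
      exact map_mem_commutator σ hperf g
    · have hGO : Nat.card (Cfsg.isometryGroup F (Cfsg.quadFormMinus 1 F a b)) =
          2 * q ^ (2 * (2 - 1)) * (q ^ 2 + 1) *
            ∏ i ∈ Finset.range (2 - 1), (q ^ (2 * (i + 1)) - 1) :=
        Cfsg.Agent.Lib.helper6.card_GO_minus hF 2 (by norm_num) a b hab
      have hGO' : Nat.card (Cfsg.isometryGroup F (Cfsg.quadFormMinus 1 F a b)) =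
          2 * q ^ 2 * (q ^ 2 + 1) * (q ^ 2 - 1) := by
        rw [hGO]
        norm_num [Finset.prod_range_one]
      have h1 := Subgroup.card_mul_index (Cfsg.Omega F (Cfsg.quadFormMinus 1 F a b))
      have hSL := Cfsg.Agent.Lib.helper12.card_SL2 (F := K)
      have h3 : Nat.card σ.range * Nat.card σ.ker = Nat.card (SpecialLinearGroup (Fin 2) K) := by
        rw [← Subgroup.index_ker, mul_comm, Subgroup.card_mul_index]
      have hcen := Cfsg.Agent.Lib.helper2.SLCard.card_center_SL K 2 (by norm_num)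
      rw [hσker, hcen, hSL, hK] at h3
      rw [omega_index_minus4 hF a b hab, hGO'] at h1
      have hsq : (q ^ 2) ^ 2 - 1 = (q ^ 2 + 1) * (q ^ 2 - 1) := by
        obtain ⟨r, hr⟩ : ∃ r, q ^ 2 = r + 1 := ⟨q ^ 2 - 1, by
          have : 1 ≤ q ^ 2 := Nat.one_le_pow _ _ (by omega)
          omega⟩
        rw [hr, Nat.add_sub_cancel]
        apply Nat.sub_eq_of_eq_add
        ring
      rw [hsq] at h3
      have hgpos : 0 < Nat.gcd 2 (q ^ 2 - 1) := Nat.gcd_pos_of_pos_left _ (by norm_num)
      have h5 : Nat.card (Cfsg.Omega F (Cfsg.quadFormMinus 1 F a b)) * (2 * Nat.gcd 2 (q ^ 2 - 1))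
          = Nat.card σ.range * (2 * Nat.gcd 2 (q ^ 2 - 1)) := by
        rw [h1]
        calc 2 * q ^ 2 * (q ^ 2 + 1) * (q ^ 2 - 1)
            = 2 * (q ^ 2 * ((q ^ 2 + 1) * (q ^ 2 - 1))) := by ring
          _ = 2 * (Nat.card σ.range * Nat.gcd 2 (q ^ 2 - 1)) := by rw [h3]
          _ = Nat.card σ.range * (2 * Nat.gcd 2 (q ^ 2 - 1)) := by ring
      exact le_of_eq (Nat.eq_of_mul_eq_mul_right (by omega) h5)
  have e1 : Matrix.ProjectiveSpecialLinearGroup (Fin 2) K ≃* σ.range :=
    (QuotientGroup.quotientMulEquivOfEq hσker.symm).trans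
      (QuotientGroup.quotientKerEquivRange σ)
  have e2 : Matrix.ProjectiveSpecialLinearGroup (Fin 2) K ≃*
      Cfsg.Omega F (Cfsg.quadFormMinus 1 F a b) :=
    e1.trans (MulEquiv.subgroupCongr hσrange)
  have hc : Subgroup.center (Cfsg.Omega F (Cfsg.quadFormMinus 1 F a b)) = ⊥ := by
    rw [eq_bot_iff]
    intro z hz
    rw [Subgroup.mem_bot]
    have : e2.symm z ∈ Subgroup.center (Matrix.ProjectiveSpecialLinearGroup (Fin 2) K) := by
      rw [Subgroup.mem_center_iff]
      intro g
      have := Subgroup.mem_center_iff.mp hz (e2 g)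
      apply e2.injective
      simpa using this
    rw [center_PSL2, Subgroup.mem_bot] at this
    simpa using this
  exact ⟨((QuotientGroup.quotientMulEquivOfEq hc).trans QuotientGroup.quotientBot).trans e2.symm⟩

end final

end Cfsg.Agent.Lib.helper6.PO4m
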