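import Mathlib
import Cfsg.Prelude.Def_Classical
import Cfsg.Agent.Lib.helper6.PO4m
import Cfsg.Agent.Lib.helper13.SLSimple

set_option autoImplicit false

namespace Cfsg.Agent.Lib.helper6.PO6

open Matrix

open scoped commutatorElement

open Cfsg.Agent.Lib.helper6.PO3 Cfsg.Agent.Lib.helper6.PO4 Cfsg.Agent.Lib.helper6.PO4m

variable {F : Type*} [Field F]

/-- index type of `quadFormPlus 3` -/
abbrev I6 : Type := Fin 3 ⊕ Fin 3

theorem det4 (A : Matrix (Fin 4) (Fin 4) F) :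
    A.det = A 0 0 * (A 1 1 * A 2 2 * A 3 3 - A 1 1 * A 2 3 * A 3 2 - A 1 2 * A 2 1 * A 3 3
        + A 1 2 * A 2 3 * A 3 1 + A 1 3 * A 2 1 * A 3 2 - A 1 3 * A 2 2 * A 3 1)
      - A 0 1 * (A 1 0 * A 2 2 * A 3 3 - A 1 0 * A 2 3 * A 3 2 - A 1 2 * A 2 0 * A 3 3
        + A 1 2 * A 2 3 * A 3 0 + A 1 3 * A 2 0 * A 3 2 - A 1 3 * A 2 2 * A 3 0)
      + A 0 2 * (A 1 0 * A 2 1 * A 3 3 - A 1 0 * A 2 3 * A 3 1 - A 1 1 * A 2 0 * A 3 3
        + A 1 1 * A 2 3 * A 3 0 + A 1 3 * A 2 0 * A 3 1 - A 1 3 * A 2 1 * A 3 0)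
      - A 0 3 * (A 1 0 * A 2 1 * A 3 2 - A 1 0 * A 2 2 * A 3 1 - A 1 1 * A 2 0 * A 3 2
        + A 1 1 * A 2 2 * A 3 0 + A 1 2 * A 2 0 * A 3 1 - A 1 2 * A 2 1 * A 3 0) := by
  rw [Matrix.det_succ_row_zero]
  simp [Fin.sum_univ_succ, Matrix.det_fin_three, Fin.succAbove]
  ring

/-- the alternating matrix of a vector (Plücker coordinates) -/
def Ma (v : I6 → F) : Matrix (Fin 4) (Fin 4) F :=
  !![0, v (.inl 0), v (.inl 1), v (.inl 2);
     -v (.inl 0), 0, v (.inr 2), -v (.inr 1);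
     -v (.inl 1), -v (.inr 2), 0, v (.inr 0);
     -v (.inl 2), v (.inr 1), -v (.inr 0), 0]

/-- the second compound matrix in Plücker coordinates: the matrix of `A ↦ g A gᵀ` -/
def T (g : Matrix (Fin 4) (Fin 4) F) : Matrix I6 I6 F :=
  Matrix.fromBlocks
    !![g 0 0 * g 1 1 - g 0 1 * g 1 0, g 0 0 * g 1 2 - g 0 2 * g 1 0, g 0 0 * g 1 3 - g 0 3 * g 1 0;
      g 0 0 * g 2 1 - g 0 1 * g 2 0, g 0 0 * g 2 2 - g 0 2 * g 2 0, g 0 0 * g 2 3 - g 0 3 * g 2 0;
      g 0 0 * g 3 1 - g 0 1 * g 3 0, g 0 0 * g 3 2 - g 0 2 * g 3 0, g 0 0 * g 3 3 - g 0 3 * g 3 0]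
    !![g 0 2 * g 1 3 - g 0 3 * g 1 2, -(g 0 1 * g 1 3 - g 0 3 * g 1 1), g 0 1 * g 1 2 - g 0 2 * g 1 1;
      g 0 2 * g 2 3 - g 0 3 * g 2 2, -(g 0 1 * g 2 3 - g 0 3 * g 2 1), g 0 1 * g 2 2 - g 0 2 * g 2 1;
      g 0 2 * g 3 3 - g 0 3 * g 3 2, -(g 0 1 * g 3 3 - g 0 3 * g 3 1), g 0 1 * g 3 2 - g 0 2 * g 3 1]
    !![g 2 0 * g 3 1 - g 2 1 * g 3 0, g 2 0 * g 3 2 - g 2 2 * g 3 0, g 2 0 * g 3 3 - g 2 3 * g 3 0;
      -(g 1 0 * g 3 1 - g 1 1 * g 3 0), -(g 1 0 * g 3 2 - g 1 2 * g 3 0), -(g 1 0 * g 3 3 - g 1 3 * g 3 0);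
      g 1 0 * g 2 1 - g 1 1 * g 2 0, g 1 0 * g 2 2 - g 1 2 * g 2 0, g 1 0 * g 2 3 - g 1 3 * g 2 0]
    !![g 2 2 * g 3 3 - g 2 3 * g 3 2, -(g 2 1 * g 3 3 - g 2 3 * g 3 1), g 2 1 * g 3 2 - g 2 2 * g 3 1;
      -(g 1 2 * g 3 3 - g 1 3 * g 3 2), g 1 1 * g 3 3 - g 1 3 * g 3 1, -(g 1 1 * g 3 2 - g 1 2 * g 3 1);
      g 1 2 * g 2 3 - g 1 3 * g 2 2, -(g 1 1 * g 2 3 - g 1 3 * g 2 1), g 1 1 * g 2 2 - g 1 2 * g 2 1]

theorem T_coords (g : Matrix (Fin 4) (Fin 4) F) (v : I6 → F) :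
    ((T g *ᵥ v) (.inl 0) =
      (g 0 0 * g 1 1 - g 0 1 * g 1 0) * v (.inl 0) +
      (g 0 0 * g 1 2 - g 0 2 * g 1 0) * v (.inl 1) +
      (g 0 0 * g 1 3 - g 0 3 * g 1 0) * v (.inl 2) +
      (g 0 2 * g 1 3 - g 0 3 * g 1 2) * v (.inr 0) +
      (-(g 0 1 * g 1 3 - g 0 3 * g 1 1)) * v (.inr 1) +
      (g 0 1 * g 1 2 - g 0 2 * g 1 1) * v (.inr 2)) ∧
    ((T g *ᵥ v) (.inl 1) =
      (g 0 0 * g 2 1 - g 0 1 * g 2 0) * v (.inl 0) +
      (g 0 0 * g 2 2 - g 0 2 * g 2 0) * v (.inl 1) +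
      (g 0 0 * g 2 3 - g 0 3 * g 2 0) * v (.inl 2) +
      (g 0 2 * g 2 3 - g 0 3 * g 2 2) * v (.inr 0) +
      (-(g 0 1 * g 2 3 - g 0 3 * g 2 1)) * v (.inr 1) +
      (g 0 1 * g 2 2 - g 0 2 * g 2 1) * v (.inr 2)) ∧
    ((T g *ᵥ v) (.inl 2) =
      (g 0 0 * g 3 1 - g 0 1 * g 3 0) * v (.inl 0) +
      (g 0 0 * g 3 2 - g 0 2 * g 3 0) * v (.inl 1) +
      (g 0 0 * g 3 3 - g 0 3 * g 3 0) * v (.inl 2) +
      (g 0 2 * g 3 3 - g 0 3 * g 3 2) * v (.inr 0) +
      (-(g 0 1 * g 3 3 - g 0 3 * g 3 1)) * v (.inr 1) +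
      (g 0 1 * g 3 2 - g 0 2 * g 3 1) * v (.inr 2)) ∧
    ((T g *ᵥ v) (.inr 0) =
      (g 2 0 * g 3 1 - g 2 1 * g 3 0) * v (.inl 0) +
      (g 2 0 * g 3 2 - g 2 2 * g 3 0) * v (.inl 1) +
      (g 2 0 * g 3 3 - g 2 3 * g 3 0) * v (.inl 2) +
      (g 2 2 * g 3 3 - g 2 3 * g 3 2) * v (.inr 0) +
      (-(g 2 1 * g 3 3 - g 2 3 * g 3 1)) * v (.inr 1) +
      (g 2 1 * g 3 2 - g 2 2 * g 3 1) * v (.inr 2)) ∧
    ((T g *ᵥ v) (.inr 1) =
      (-(g 1 0 * g 3 1 - g 1 1 * g 3 0)) * v (.inl 0) +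
      (-(g 1 0 * g 3 2 - g 1 2 * g 3 0)) * v (.inl 1) +
      (-(g 1 0 * g 3 3 - g 1 3 * g 3 0)) * v (.inl 2) +
      (-(g 1 2 * g 3 3 - g 1 3 * g 3 2)) * v (.inr 0) +
      (g 1 1 * g 3 3 - g 1 3 * g 3 1) * v (.inr 1) +
      (-(g 1 1 * g 3 2 - g 1 2 * g 3 1)) * v (.inr 2)) ∧
    ((T g *ᵥ v) (.inr 2) =
      (g 1 0 * g 2 1 - g 1 1 * g 2 0) * v (.inl 0) +
      (g 1 0 * g 2 2 - g 1 2 * g 2 0) * v (.inl 1) +
      (g 1 0 * g 2 3 - g 1 3 * g 2 0) * v (.inl 2) +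
      (g 1 2 * g 2 3 - g 1 3 * g 2 2) * v (.inr 0) +
      (-(g 1 1 * g 2 3 - g 1 3 * g 2 1)) * v (.inr 1) +
      (g 1 1 * g 2 2 - g 1 2 * g 2 1) * v (.inr 2)) := by
  refine ⟨?_, ?_, ?_, ?_, ?_, ?_⟩ <;>
  · simp [T, Matrix.mulVec, dotProduct, Fintype.sum_sum_type, Fin.sum_univ_three]
    try ring

set_option maxHeartbeats 1000000 in
theorem Ma_T (g : Matrix (Fin 4) (Fin 4) F) (v : I6 → F) :
    Ma (T g *ᵥ v) = g * Ma v * gᵀ := by
  obtain ⟨h0, h1, h2, h3, h4, h5⟩ := T_coords g v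
  unfold Ma
  rw [h0, h1, h2, h3, h4, h5]
  ext k l
  fin_cases k <;> fin_cases l <;>
    simp [Matrix.mul_apply, Fin.sum_univ_four] <;> ring

set_option maxHeartbeats 1000000 in
theorem T_Q (g : Matrix (Fin 4) (Fin 4) F) (v : I6 → F) :
    Cfsg.quadFormPlus 3 F (T g *ᵥ v) = g.det * Cfsg.quadFormPlus 3 F v := by
  obtain ⟨h0, h1, h2, h3, h4, h5⟩ := T_coords g v
  unfold Cfsg.quadFormPlus
  rw [Fin.sum_univ_three, Fin.sum_univ_three, h0, h1, h2, h3, h4, h5, det4]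
  ring


theorem Ma_injective : Function.Injective (Ma (F := F)) := by
  intro v w h
  have e0 := congrFun (congrFun h 0) 1
  have e1 := congrFun (congrFun h 0) 2
  have e2 := congrFun (congrFun h 0) 3
  have e3 := congrFun (congrFun h 2) 3
  have e4 := congrFun (congrFun h 3) 1
  have e5 := congrFun (congrFun h 1) 2
  simp [Ma] at e0 e1 e2 e3 e4 e5
  funext i
  rcases i with i | i <;> fin_cases i
  · exact e0
  · exact e1
  · exact e2
  · exact e3
  · exact e4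
  · exact e5

theorem T_mul (g h : Matrix (Fin 4) (Fin 4) F) : T (g * h) = T g * T h := by
  apply Matrix.mulVec_injective
  funext v
  apply Ma_injective
  rw [← Matrix.mulVec_mulVec, Ma_T, Ma_T, Ma_T, Matrix.transpose_mul]
  simp only [Matrix.mul_assoc]

theorem T_one : T (1 : Matrix (Fin 4) (Fin 4) F) = 1 := by
  apply Matrix.mulVec_injective
  funext v
  apply Ma_injective
  rw [Ma_T, Matrix.one_mulVec]
  simp

/-- the monoid hom `SL₄(F) → M₆(F)` -/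
def tau0 : SpecialLinearGroup (Fin 4) F →* Matrix I6 I6 F where
  toFun g := T g.1
  map_one' := by simp [T_one]
  map_mul' g h := by
    rw [← T_mul]
    rfl

theorem tau0_apply (g : SpecialLinearGroup (Fin 4) F) : tau0 g = T g.1 := rfl

/-- the hom `SL₄(F) → GO⁺₆(F)` -/
def tau : SpecialLinearGroup (Fin 4) F →* Cfsg.isometryGroup F (Cfsg.quadFormPlus 3 F) :=
  (tau0 (F := F)).toHomUnits.codRestrict _ (fun g => by
    rw [Cfsg.Agent.Lib.helper6.mem_isometryGroup_iff]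
    intro u
    rw [MonoidHom.coe_toHomUnits, tau0_apply, T_Q, g.2, one_mul])

theorem tau_coe (g : SpecialLinearGroup (Fin 4) F) :
    (((tau g : Cfsg.isometryGroup F (Cfsg.quadFormPlus 3 F)) : GL I6 F) : Matrix I6 I6 F) =
      T g.1 := rfl

theorem mem_tau_ker (g : SpecialLinearGroup (Fin 4) F) :
    g ∈ (tau (F := F)).ker ↔ T g.1 = 1 := by
  rw [MonoidHom.mem_ker, ← tau_coe]
  constructor
  · intro h; rw [h]; rfl
  · intro h
    apply Subtype.ext
    apply Units.ext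
    exact h

set_option maxHeartbeats 1000000 in
theorem T_eq_one (g : SpecialLinearGroup (Fin 4) F) (hT : T g.1 = 1) :
    g.1 0 0 * g.1 0 0 = 1 ∧ g.1 = g.1 0 0 • (1 : Matrix (Fin 4) (Fin 4) F) := by
  set h : Matrix (Fin 4) (Fin 4) F := ((g⁻¹ : SpecialLinearGroup (Fin 4) F).1)ᵀ with hh
  have hgh : g.1ᵀ * h = 1 := by
    rw [hh, ← Matrix.transpose_mul]
    have : (g⁻¹ : SpecialLinearGroup (Fin 4) F).1 * g.1 = 1 := by
      have h1 : (g⁻¹ * g : SpecialLinearGroup (Fin 4) F) = 1 := inv_mul_cancel g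
      exact congrArg Subtype.val h1
    rw [this, Matrix.transpose_one]
  have key : ∀ (v : I6 → F) (k l : Fin 4), (g.1 * Ma v) k l = (Ma v * h) k l := by
    intro v k l
    have h1 : Ma v = g.1 * Ma v * g.1ᵀ := by
      rw [← Ma_T, hT, Matrix.one_mulVec]
    have h2 : g.1 * Ma v = Ma v * h := by
      conv_rhs => rw [h1]
      rw [Matrix.mul_assoc, hgh, Matrix.mul_one]
    rw [h2]
  have z10 : g.1 1 0 = 0 := by
    have := key (Pi.single (.inl 1) 1) 1 2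
    simpa [Ma, Matrix.mul_apply, Fin.sum_univ_four] using this
  have z20 : g.1 2 0 = 0 := by
    have := key (Pi.single (.inl 0) 1) 2 1
    simpa [Ma, Matrix.mul_apply, Fin.sum_univ_four] using this
  have z30 : g.1 3 0 = 0 := by
    have := key (Pi.single (.inl 0) 1) 3 1
    simpa [Ma, Matrix.mul_apply, Fin.sum_univ_four] using this
  have z01 : g.1 0 1 = 0 := by
    have := key (Pi.single (.inr 2) 1) 0 2
    simpa [Ma, Matrix.mul_apply, Fin.sum_univ_four] using this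
  have z21 : g.1 2 1 = 0 := by
    have := key (Pi.single (.inl 0) 1) 2 0
    simpa [Ma, Matrix.mul_apply, Fin.sum_univ_four] using this
  have z31 : g.1 3 1 = 0 := by
    have := key (Pi.single (.inl 0) 1) 3 0
    simpa [Ma, Matrix.mul_apply, Fin.sum_univ_four] using this
  have z02 : g.1 0 2 = 0 := by
    have := key (Pi.single (.inr 2) 1) 0 1
    simpa [Ma, Matrix.mul_apply, Fin.sum_univ_four] using this
  have z12 : g.1 1 2 = 0 := by
    have := key (Pi.single (.inl 1) 1) 1 0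
    simpa [Ma, Matrix.mul_apply, Fin.sum_univ_four] using this
  have z32 : g.1 3 2 = 0 := by
    have := key (Pi.single (.inl 1) 1) 3 0
    simpa [Ma, Matrix.mul_apply, Fin.sum_univ_four] using this
  have z03 : g.1 0 3 = 0 := by
    have := key (Pi.single (.inr 1) 1) 0 1
    simpa [Ma, Matrix.mul_apply, Fin.sum_univ_four] using this
  have z13 : g.1 1 3 = 0 := by
    have := key (Pi.single (.inl 2) 1) 1 0
    simpa [Ma, Matrix.mul_apply, Fin.sum_univ_four] using this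
  have z23 : g.1 2 3 = 0 := by
    have := key (Pi.single (.inl 2) 1) 2 0
    simpa [Ma, Matrix.mul_apply, Fin.sum_univ_four] using this
  have d01 : g.1 0 0 = h 1 1 := by
    have := key (Pi.single (.inl 0) 1) 0 1
    simpa [Ma, Matrix.mul_apply, Fin.sum_univ_four] using this
  have d21 : g.1 2 2 = h 1 1 := by
    have := key (Pi.single (.inr 2) 1) 2 1
    simpa [Ma, Matrix.mul_apply, Fin.sum_univ_four] using this
  have d31 : g.1 3 3 = h 1 1 := by
    have := key (Pi.single (.inr 1) 1) 3 1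
    simpa [Ma, Matrix.mul_apply, Fin.sum_univ_four] using this
  have d02 : g.1 0 0 = h 2 2 := by
    have := key (Pi.single (.inl 1) 1) 0 2
    simpa [Ma, Matrix.mul_apply, Fin.sum_univ_four] using this
  have d12 : g.1 1 1 = h 2 2 := by
    have := key (Pi.single (.inr 2) 1) 1 2
    simpa [Ma, Matrix.mul_apply, Fin.sum_univ_four] using this
  have h11 : g.1 1 1 = g.1 0 0 := by rw [d12, d02]
  have h22 : g.1 2 2 = g.1 0 0 := by rw [d21, d01]
  have h33 : g.1 3 3 = g.1 0 0 := by rw [d31, d01]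
  constructor
  · have e := congrFun (congrFun hT (.inl 0)) (.inl 0)
    simp [T, z01, z10, h11] at e
    exact e
  · ext i j
    fin_cases i <;> fin_cases j <;>
      simp [z01, z02, z03, z10, z12, z13, z20, z21, z23, z30, z31, z32, h11, h22, h33]


/-- the centre of `PSL₄(F)` is trivial -/
theorem center_PSL4 :
    Subgroup.center (Matrix.ProjectiveSpecialLinearGroup (Fin 4) F) = ⊥ := by
  haveI hs : IsSimpleGroup (Matrix.ProjectiveSpecialLinearGroup (Fin 4) F) :=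
    Cfsg.Agent.Lib.helper13.SLSimple.PSL_simple (by simp)
  rcases (inferInstance : (Subgroup.center
    (Matrix.ProjectiveSpecialLinearGroup (Fin 4) F)).Normal).eq_bot_or_eq_top with h | h
  · exact h
  · exfalso
    have h2 : commutator (Matrix.ProjectiveSpecialLinearGroup (Fin 4) F) = ⊥ :=
      (commutator_eq_bot_iff_center_eq_top _).mpr h
    have hperf : commutator (SpecialLinearGroup (Fin 4) F) = ⊤ :=
      Cfsg.Agent.Lib.helper13.SLSimple.commutator_eq_top (by simp)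
    have h1 : ∀ x : Matrix.ProjectiveSpecialLinearGroup (Fin 4) F, x = 1 := by
      intro x
      obtain ⟨g, rfl⟩ := QuotientGroup.mk_surjective x
      have := map_mem_commutator (QuotientGroup.mk' (Subgroup.center
        (SpecialLinearGroup (Fin 4) F))) hperf g
      rw [h2, Subgroup.mem_bot] at this
      exact this
    obtain ⟨x, hx⟩ := exists_ne (1 : Matrix.ProjectiveSpecialLinearGroup (Fin 4) F)
    exact hx (h1 x)

theorem tau_ker_le_center :
    (tau (F := F)).ker ≤ Subgroup.center (SpecialLinearGroup (Fin 4) F) := by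
  intro g hg
  rw [mem_tau_ker] at hg
  obtain ⟨hr, hg⟩ := T_eq_one g hg
  rw [Matrix.SpecialLinearGroup.mem_center_iff]
  refine ⟨g.1 0 0, ?_, ?_⟩
  · rw [Fintype.card_fin]
    calc g.1 0 0 ^ 4 = (g.1 0 0 * g.1 0 0) * (g.1 0 0 * g.1 0 0) := by ring
      _ = 1 := by rw [hr, one_mul]
  · rw [Matrix.scalar_apply]
    conv_rhs => rw [hg]
    rw [Matrix.smul_one_eq_diagonal]

theorem card_tau_ker_le [Finite F] :
    Nat.card (tau (F := F)).ker ≤ 2 ∧ ((2 : F) = 0 → Nat.card (tau (F := F)).ker = 1) := by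
  classical
  constructor
  · have : Nat.card (tau (F := F)).ker ≤ Nat.card Bool := by
      apply Nat.card_le_card_of_injective
        (fun p : (tau (F := F)).ker => decide (p.1.1 0 0 = 1))
      intro p p' h
      obtain ⟨hr, hg⟩ := T_eq_one p.1 ((mem_tau_ker _).mp p.2)
      obtain ⟨hr', hg'⟩ := T_eq_one p'.1 ((mem_tau_ker _).mp p'.2)
      have h1 : p.1.1 0 0 = 1 ∨ p.1.1 0 0 = -1 := mul_self_eq_one_iff.mp hr
      have h2 : p'.1.1 0 0 = 1 ∨ p'.1.1 0 0 = -1 := mul_self_eq_one_iff.mp hr'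
      have h3 : (p.1.1 0 0 = 1) ↔ (p'.1.1 0 0 = 1) := by
        simpa using h
      have h4 : p.1.1 0 0 = p'.1.1 0 0 := by
        rcases h1 with h1 | h1
        · rw [h1, h3.mp h1]
        · rcases h2 with h2 | h2
          · rw [h3.mpr h2, h2]
          · rw [h1, h2]
      apply Subtype.ext
      apply Subtype.ext
      rw [hg, hg', h4]
    simpa using this
  · intro h2
    have : (tau (F := F)).ker = ⊥ := by
      rw [eq_bot_iff]
      intro g hg
      rw [Subgroup.mem_bot]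
      obtain ⟨hr, hg⟩ := T_eq_one g ((mem_tau_ker _).mp hg)
      have h1 : g.1 0 0 = 1 := by
        have : (g.1 0 0 - 1) * (g.1 0 0 - 1) = 0 := by
          linear_combination hr - (g.1 0 0 - 1) * h2
        rcases mul_eq_zero.mp this with h | h <;> linear_combination h
      apply Subtype.ext
      rw [hg, h1, one_smul]
      rfl
    rw [this, Subgroup.card_bot]


theorem card_arith (q : ℕ) (hq : 2 ≤ q) (N : ℕ)
    (hN : (q - 1) * N = ∏ i : Fin 4, (q ^ 4 - q ^ (i : ℕ))) :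
    2 * q ^ (3 * (3 - 1)) * (q ^ 3 - 1) * ∏ i ∈ Finset.range (3 - 1), (q ^ (2 * (i + 1)) - 1)
      = 2 * N := by
  have h1 : q ^ 4 - q ^ 1 = q * (q ^ 3 - 1) := by
    rw [Nat.mul_sub, mul_one]; ring_nf
  have h2 : q ^ 4 - q ^ 2 = q ^ 2 * (q ^ 2 - 1) := by
    rw [Nat.mul_sub, mul_one]; ring_nf
  have h3 : q ^ 4 - q ^ 3 = q ^ 3 * (q - 1) := by
    rw [Nat.mul_sub, mul_one]; ring_nf
  have hpos : 0 < q - 1 := by omega
  apply Nat.eq_of_mul_eq_mul_left hpos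
  rw [show (q - 1) * (2 * N) = 2 * ((q - 1) * N) by ring, hN]
  simp only [Fin.prod_univ_four, Fin.val_zero, Fin.val_one, Fin.val_two, pow_zero]
  rw [show ((3 : Fin 4) : ℕ) = 3 from rfl, h1, h2, h3]
  norm_num [Finset.prod_range_succ]
  ring

theorem tau_range [Fintype F] :
    (tau (F := F)).range = Cfsg.Omega F (Cfsg.quadFormPlus 3 F) := by
  classical
  have hq : 2 ≤ Fintype.card F := Fintype.one_lt_card
  have hperf : commutator (SpecialLinearGroup (Fin 4) F) = ⊤ :=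
    Cfsg.Agent.Lib.helper13.SLSimple.commutator_eq_top (by simp)
  apply Subgroup.eq_of_le_of_card_ge
  · rintro _ ⟨g, rfl⟩
    exact map_mem_commutator tau hperf g
  · have hGO := Cfsg.Agent.Lib.helper6.card_GO_plus (F := F) rfl 3 (by norm_num)
    have h1 := Subgroup.card_mul_index (Cfsg.Omega F (Cfsg.quadFormPlus 3 F))
    have hSL := Cfsg.Agent.Lib.helper2.SLCard.card_SL F 4 (by norm_num)
    have h3 : Nat.card (tau (F := F)).range * Nat.card (tau (F := F)).ker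
        = Nat.card (SpecialLinearGroup (Fin 4) F) := by
      rw [← Subgroup.index_ker, mul_comm, Subgroup.card_mul_index]
    rw [card_arith _ hq _ hSL] at hGO
    rw [hGO, ← h3] at h1
    obtain ⟨hk2, hk1⟩ := card_tau_ker_le (F := F)
    by_cases h2 : (2 : F) = 0
    · haveI : CharP F 2 := CharTwo.of_one_ne_zero_of_two_eq_zero one_ne_zero h2
      have hidx : (Cfsg.Omega F (Cfsg.quadFormPlus 3 F)).index = 2 := by
        have := Cfsg.Agent.Lib.helper4.omega_index_c2 (F := F) (ι := Fin 3 ⊕ Fin 3)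
          (Or.inr (by simp))
          (Cfsg.Agent.S2562.qP F 3) (Cfsg.Agent.S2562.nondeg_qP 3) (Sum.inl 0)
        rwa [Cfsg.Agent.Lib.helper4.qP_coe] at this
      rw [hidx, hk1 h2] at h1
      omega
    · have hidx : (Cfsg.Omega F (Cfsg.quadFormPlus 3 F)).index = 4 := by
        have := Cfsg.Agent.Lib.helper4.omega_index_odd h2 (Cfsg.Agent.S2562.qP F 3)
          (Cfsg.Agent.S2562.nondeg_qP 3) (by simp)
        rwa [Cfsg.Agent.Lib.helper4.qP_coe] at this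
      rw [hidx] at h1
      have h6 : Nat.card (tau (F := F)).range * Nat.card (tau (F := F)).ker
          ≤ Nat.card (tau (F := F)).range * 2 := Nat.mul_le_mul_left _ hk2
      omega

/-- `PΩ⁺₆(q) ≅ PSL₄(q)` -/
theorem pomega6 [Fintype F] :
    Nonempty (Cfsg.POmega F (Cfsg.quadFormPlus 3 F) ≃*
      Matrix.ProjectiveSpecialLinearGroup (Fin 4) F) := by
  refine quot_center_equiv tau
    (QuotientGroup.mk' (Subgroup.center (SpecialLinearGroup (Fin 4) F)))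
    (QuotientGroup.mk'_surjective _) ?_ ?_ center_PSL4 _ tau_range
  · rw [QuotientGroup.ker_mk']
    exact tau_ker_le_center
  · intro a ha
    rw [QuotientGroup.ker_mk'] at ha
    exact ha

end Cfsg.Agent.Lib.helper6.PO6
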