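import Mathlib
import Cfsg.Prelude.Def_Classical
import Cfsg.Agent.Lib.helper6.PO6
import Cfsg.Agent.Lib.helper4.SpSimple
import Cfsg.Agent.Lib.helper4.SpCard

set_option autoImplicit false

namespace Cfsg.Agent.Lib.helper6.PO5

open Matrix

open Cfsg.Agent.Lib.helper6.PO4 (quot_center_equiv)
open Cfsg.Agent.Lib.helper6.PO4m (map_mem_commutator)
open Cfsg.Agent.Lib.helper6.PO6

variable {F : Type*} [Field F]

/-- index type of `quadFormOdd 2` -/
abbrev I5 : Type := Unit ⊕ (Fin 2 ⊕ Fin 2)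

/-- a simple perfect group has trivial centre -/
theorem center_eq_bot_of_simple {G : Type*} [Group G] [IsSimpleGroup G]
    (hperf : commutator G = ⊤) : Subgroup.center G = ⊥ := by
  rcases (inferInstance : (Subgroup.center G).Normal).eq_bot_or_eq_top with h | h
  · exact h
  · exfalso
    have h2 : commutator G = ⊥ := (commutator_eq_bot_iff_center_eq_top _).mpr h
    rw [hperf] at h2
    exact top_ne_bot h2

/-- the identification `Fin 4 ≃ Fin 2 ⊕ Fin 2` -/
def s4 : Fin 4 ≃ Fin 2 ⊕ Fin 2 where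
  toFun := ![.inl 0, .inl 1, .inr 0, .inr 1]
  invFun := Sum.elim ![0, 1] ![2, 3]
  left_inv := by intro i; fin_cases i <;> rfl
  right_inv := by rintro (i | i) <;> fin_cases i <;> rfl

/-- the vector of the symplectic form -/
def vJ : I6 → F := Sum.elim ![0, -1, 0] ![0, 1, 0]

theorem J_sub : (J (Fin 2) F).submatrix s4 s4 = Ma (vJ (F := F)) := by
  ext i j
  fin_cases i <;> fin_cases j <;> simp [J, Ma, vJ, s4]

/-- the embedding of the 5-space as `J^⊥` -/
def El : (I5 → F) →ₗ[F] (I6 → F) where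
  toFun u := Sum.elim ![u (.inr (.inl 0)), u (.inl ()), u (.inr (.inl 1))]
    ![u (.inr (.inr 0)), u (.inl ()), u (.inr (.inr 1))]
  map_add' u w := by
    ext i
    rcases i with i | i <;> fin_cases i <;> simp
  map_smul' c u := by
    ext i
    rcases i with i | i <;> fin_cases i <;> simp

/-- the coordinate projection -/
def Pl : (I6 → F) →ₗ[F] (I5 → F) where
  toFun w := Sum.elim (fun _ => w (.inl 1))
    (Sum.elim ![w (.inl 0), w (.inl 2)] ![w (.inr 0), w (.inr 2)])
  map_add' u w := by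
    ext i
    rcases i with i | i | i
    · simp
    · fin_cases i <;> simp
    · fin_cases i <;> simp
  map_smul' c u := by
    ext i
    rcases i with i | i | i
    · simp
    · fin_cases i <;> simp
    · fin_cases i <;> simp

theorem Pl_El (u : I5 → F) : Pl (El u) = u := by
  ext i
  rcases i with i | i | i
  · simp [Pl, El]
  · fin_cases i <;> simp [Pl, El]
  · fin_cases i <;> simp [Pl, El]

theorem El_Pl (w : I6 → F) (hw : w (.inl 1) = w (.inr 1)) : El (Pl w) = w := by
  ext i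
  rcases i with i | i <;> fin_cases i <;> simp [Pl, El, hw]

theorem El_beta (u : I5 → F) : El u (.inl 1) = El u (.inr 1) := by
  simp [El]

theorem Q_El (u : I5 → F) : Cfsg.quadFormPlus 3 F (El u) = Cfsg.quadFormOdd 2 F u := by
  simp [Cfsg.quadFormPlus, Cfsg.quadFormOdd, El, Fin.sum_univ_three, Fin.sum_univ_two]
  ring

theorem Q_add_vJ (w : I6 → F) :
    Cfsg.quadFormPlus 3 F (w + vJ) = Cfsg.quadFormPlus 3 F w - 1 + (w (.inl 1) - w (.inr 1)) := by
  simp [Cfsg.quadFormPlus, vJ, Fin.sum_univ_three]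
  ring

theorem Q_vJ : Cfsg.quadFormPlus 3 F (vJ (F := F)) = -1 := by
  simp [Cfsg.quadFormPlus, vJ, Fin.sum_univ_three]


/-- the `4 × 4` matrix over `Fin 4` of a symplectic matrix -/
def G4 (g : Matrix.symplecticGroup (Fin 2) F) : Matrix (Fin 4) (Fin 4) F :=
  g.1.submatrix s4 s4

theorem G4_mul (g h : Matrix.symplecticGroup (Fin 2) F) : G4 (g * h) = G4 g * G4 h := by
  unfold G4
  rw [Matrix.submatrix_mul_equiv]
  rfl

theorem G4_one : G4 (1 : Matrix.symplecticGroup (Fin 2) F) = 1 := by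
  unfold G4
  exact Matrix.submatrix_one_equiv s4

theorem G4_J (g : Matrix.symplecticGroup (Fin 2) F) :
    G4 g * Ma vJ * (G4 g)ᵀ = Ma (vJ (F := F)) := by
  rw [← J_sub]
  unfold G4
  rw [Matrix.transpose_submatrix, Matrix.submatrix_mul_equiv, Matrix.submatrix_mul_equiv]
  congr 1
  exact SymplecticGroup.mem_iff.mp g.2

theorem T_vJ (g : Matrix.symplecticGroup (Fin 2) F) : T (G4 g) *ᵥ vJ = vJ :=
  Ma_injective (by rw [Ma_T, G4_J])

theorem det_G4 (g : Matrix.symplecticGroup (Fin 2) F) : (G4 g).det = 1 := by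
  have h := T_Q (G4 g) vJ
  rw [T_vJ, Q_vJ] at h
  linear_combination h

theorem T_Q' (g : Matrix.symplecticGroup (Fin 2) F) (w : I6 → F) :
    Cfsg.quadFormPlus 3 F (T (G4 g) *ᵥ w) = Cfsg.quadFormPlus 3 F w := by
  rw [T_Q, det_G4, one_mul]

theorem T_beta (g : Matrix.symplecticGroup (Fin 2) F) (w : I6 → F) :
    (T (G4 g) *ᵥ w) (.inl 1) - (T (G4 g) *ᵥ w) (.inr 1) = w (.inl 1) - w (.inr 1) := by
  have h1 := Q_add_vJ (T (G4 g) *ᵥ w)
  have h2 := Q_add_vJ w
  have h3 : T (G4 g) *ᵥ w + vJ = T (G4 g) *ᵥ (w + vJ) := by rw [Matrix.mulVec_add, T_vJ]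
  rw [h3, T_Q', T_Q'] at h1
  linear_combination h2 - h1

/-- the `5 × 5` matrix of a symplectic matrix -/
noncomputable def R (g : Matrix.symplecticGroup (Fin 2) F) : Matrix I5 I5 F :=
  LinearMap.toMatrix' (Pl ∘ₗ (Matrix.mulVecLin (T (G4 g))) ∘ₗ El)

theorem R_mulVec (g : Matrix.symplecticGroup (Fin 2) F) (u : I5 → F) :
    R g *ᵥ u = Pl (T (G4 g) *ᵥ El u) := by
  unfold R
  rw [← Matrix.toLin'_apply, Matrix.toLin'_toMatrix']
  rfl

theorem El_R (g : Matrix.symplecticGroup (Fin 2) F) (u : I5 → F) :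
    El (R g *ᵥ u) = T (G4 g) *ᵥ El u := by
  rw [R_mulVec, El_Pl]
  have := T_beta g (El u)
  rw [El_beta u, sub_self] at this
  exact sub_eq_zero.mp this

theorem R_mul (g h : Matrix.symplecticGroup (Fin 2) F) : R (g * h) = R g * R h := by
  apply Matrix.mulVec_injective
  funext u
  rw [← Matrix.mulVec_mulVec, R_mulVec, R_mulVec g, El_R, G4_mul, T_mul, Matrix.mulVec_mulVec]

theorem R_one : R (1 : Matrix.symplecticGroup (Fin 2) F) = 1 := by
  apply Matrix.mulVec_injective
  funext u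
  rw [R_mulVec, G4_one, T_one, Matrix.one_mulVec, Matrix.one_mulVec, Pl_El]

theorem R_Q (g : Matrix.symplecticGroup (Fin 2) F) (u : I5 → F) :
    Cfsg.quadFormOdd 2 F (R g *ᵥ u) = Cfsg.quadFormOdd 2 F u := by
  rw [← Q_El, El_R, T_Q', Q_El]

/-- the monoid hom `Sp₄(F) → M₅(F)` -/
noncomputable def rho0 : Matrix.symplecticGroup (Fin 2) F →* Matrix I5 I5 F where
  toFun g := R g
  map_one' := R_one
  map_mul' g h := R_mul g h

theorem rho0_apply (g : Matrix.symplecticGroup (Fin 2) F) : rho0 g = R g := rfl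

/-- the hom `Sp₄(F) → GO₅(F)` -/
noncomputable def rho : Matrix.symplecticGroup (Fin 2) F →*
    Cfsg.isometryGroup F (Cfsg.quadFormOdd 2 F) :=
  (rho0 (F := F)).toHomUnits.codRestrict _ (fun g => by
    rw [Cfsg.Agent.Lib.helper6.mem_isometryGroup_iff]
    intro u
    rw [MonoidHom.coe_toHomUnits, rho0_apply, R_Q])

theorem rho_coe (g : Matrix.symplecticGroup (Fin 2) F) :
    (((rho g : Cfsg.isometryGroup F (Cfsg.quadFormOdd 2 F)) : GL I5 F) : Matrix I5 I5 F) =
      R g := rfl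

theorem mem_rho_ker (g : Matrix.symplecticGroup (Fin 2) F) :
    g ∈ (rho (F := F)).ker ↔ R g = 1 := by
  rw [MonoidHom.mem_ker, ← rho_coe]
  constructor
  · intro h; rw [h]; rfl
  · intro h
    apply Subtype.ext
    apply Units.ext
    exact h

theorem R_eq_one (h2 : (2 : F) ≠ 0) (g : Matrix.symplecticGroup (Fin 2) F) (hR : R g = 1) :
    g.1 = 1 ∨ g.1 = -1 := by
  have h1 : ∀ u, T (G4 g) *ᵥ El u = El u := by
    intro u
    rw [← El_R, hR, Matrix.one_mulVec]
  have hT : T (G4 g) = 1 := by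
    apply Matrix.mulVec_injective
    funext w
    rw [Matrix.one_mulVec]
    have hw : w = El (Pl (w + ((w (.inl 1) - w (.inr 1)) / 2) • vJ))
        - ((w (.inl 1) - w (.inr 1)) / 2) • vJ := by
      rw [El_Pl]
      · simp
      · simp [vJ]
        field_simp
        ring
    conv_lhs => rw [hw]
    rw [Matrix.mulVec_sub, h1, Matrix.mulVec_smul, T_vJ]
    exact hw.symm
  obtain ⟨hr, hg⟩ := T_eq_one ⟨G4 g, det_G4 g⟩ hT
  have hg1 : G4 g = G4 g 0 0 • (1 : Matrix (Fin 4) (Fin 4) F) := hg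
  have hg' : g.1 = (G4 g 0 0) • (1 : Matrix (Fin 2 ⊕ Fin 2) (Fin 2 ⊕ Fin 2) F) := by
    have h3 : g.1 = (G4 g).submatrix s4.symm s4.symm := by
      unfold G4
      simp
    rw [h3]
    conv_lhs => rw [hg1]
    ext i j
    simp [Matrix.one_apply, Matrix.submatrix_apply, Matrix.smul_apply]
  have hr' : G4 g 0 0 * G4 g 0 0 = 1 := hr
  rcases mul_self_eq_one_iff.mp hr' with h | h
  · left; rw [hg', h, one_smul]
  · right; rw [hg', h]; simp


theorem rho_ker_le_center (h2 : (2 : F) ≠ 0) :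
    (rho (F := F)).ker ≤ Subgroup.center (Matrix.symplecticGroup (Fin 2) F) := by
  intro g hg
  rw [mem_rho_ker] at hg
  exact (Cfsg.Agent.Lib.helper4.mem_center_sp_iff (by norm_num) g).mpr (R_eq_one h2 g hg)

theorem rho_range [Fintype F] (hodd : Odd (Fintype.card F)) :
    (rho (F := F)).range = Cfsg.Omega F (Cfsg.quadFormOdd 2 F) := by
  classical
  have h2 : (2 : F) ≠ 0 := Cfsg.Agent.Lib.helper6.PO3.two_ne_zero_of_odd hodd
  have hq : 3 ≤ Fintype.card F := by
    have h1 : 2 ≤ Fintype.card F := Fintype.one_lt_card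
    rcases hodd with ⟨k, hk⟩
    omega
  have hperf : commutator (Matrix.symplecticGroup (Fin 2) F) = ⊤ :=
    Cfsg.Agent.Lib.helper4.sp_perfect 2 (Or.inr (Or.inl ⟨rfl, hq⟩))
  apply Subgroup.eq_of_le_of_card_ge
  · rintro _ ⟨g, rfl⟩
    exact map_mem_commutator rho hperf g
  · have hidx : (Cfsg.Omega F (Cfsg.quadFormOdd 2 F)).index = 4 := by
      have := Cfsg.Agent.Lib.helper4.omega_index_odd h2 (Cfsg.Agent.Lib.helper4.qOdd F 2)
        (Cfsg.Agent.Lib.helper4.nondeg_qOdd h2 2) (by simp)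
      rwa [Cfsg.Agent.Lib.helper4.qOdd_coe] at this
    have hGO := Cfsg.Agent.Lib.helper6.card_GO_odd (F := F) rfl hodd 2
    have h1 := Subgroup.card_mul_index (Cfsg.Omega F (Cfsg.quadFormOdd 2 F))
    have hSp := Cfsg.Agent.Lib.helper4.card_sp (F := F) rfl 2
    have h3 : Nat.card (rho (F := F)).range * Nat.card (rho (F := F)).ker
        = Nat.card (Matrix.symplecticGroup (Fin 2) F) := by
      rw [← Subgroup.index_ker, mul_comm, Subgroup.card_mul_index]
    have h4 : Nat.card (rho (F := F)).ker ≤ 2 := by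
      have h5 : Nat.card (rho (F := F)).ker ≤
          Nat.card (Subgroup.center (Matrix.symplecticGroup (Fin 2) F)) :=
        Nat.card_le_card_of_injective (Subgroup.inclusion (rho_ker_le_center h2))
          (Subgroup.inclusion_injective _)
      rw [Cfsg.Agent.Lib.helper4.card_center_sp (F := F) rfl 2 (by norm_num)] at h5
      exact h5.trans (Nat.le_of_dvd (by norm_num) (Nat.gcd_dvd_left _ _))
    rw [hidx, hGO, mul_assoc, ← hSp, ← h3] at h1
    have h6 : Nat.card (rho (F := F)).range * Nat.card (rho (F := F)).ker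
        ≤ Nat.card (rho (F := F)).range * 2 := Nat.mul_le_mul_left _ h4
    omega

/-- `PΩ₅(q) ≅ PSp₄(q)` for `q` odd -/
theorem pomega5 [Fintype F] (hodd : Odd (Fintype.card F)) :
    Nonempty (Cfsg.POmega F (Cfsg.quadFormOdd 2 F) ≃* Cfsg.PSp 2 F) := by
  classical
  have h2 : (2 : F) ≠ 0 := Cfsg.Agent.Lib.helper6.PO3.two_ne_zero_of_odd hodd
  have hq : 3 ≤ Fintype.card F := by
    have h1 : 2 ≤ Fintype.card F := Fintype.one_lt_card
    rcases hodd with ⟨k, hk⟩
    omega
  have hperf : commutator (Matrix.symplecticGroup (Fin 2) F) = ⊤ :=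
    Cfsg.Agent.Lib.helper4.sp_perfect 2 (Or.inr (Or.inl ⟨rfl, hq⟩))
  haveI hs : IsSimpleGroup (Cfsg.PSp 2 F) :=
    Cfsg.Agent.Lib.helper4.psp_simple (by norm_num) hperf
  have hperf' : commutator (Cfsg.PSp 2 F) = ⊤ := by
    rw [eq_top_iff]
    intro x _
    obtain ⟨g, rfl⟩ := QuotientGroup.mk_surjective x
    exact map_mem_commutator (QuotientGroup.mk' (Subgroup.center
      (Matrix.symplecticGroup (Fin 2) F))) hperf g
  refine quot_center_equiv rho
    (QuotientGroup.mk' (Subgroup.center (Matrix.symplecticGroup (Fin 2) F)))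
    (QuotientGroup.mk'_surjective _) ?_ ?_ (center_eq_bot_of_simple hperf') _ (rho_range hodd)
  · rw [QuotientGroup.ker_mk']
    exact rho_ker_le_center h2
  · intro a ha
    rw [QuotientGroup.ker_mk'] at ha
    exact ha

end Cfsg.Agent.Lib.helper6.PO5
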