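import Mathlib
import Cfsg.Prelude.Def_Classical
import Cfsg.Agent.Lib.helper6.PO5
import Cfsg.Agent.Lib.helper4.USimple
import Cfsg.Agent.Lib.helper4.UCenter

set_option autoImplicit false

namespace Cfsg.Agent.Lib.helper6.PO6m

open Matrix QuadraticAlgebra

open Cfsg.Agent.Lib.helper6.PO4 (quot_center_equiv)
open Cfsg.Agent.Lib.helper6.PO4m (map_mem_commutator)
open Cfsg.Agent.Lib.helper6.PO5 (center_eq_bot_of_simple)
open Cfsg.Agent.Lib.helper6.PO6

variable {F : Type*} [Field F]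

/-- index type of `quadFormMinus 2` -/
abbrev J6 : Type := (Fin 2 ⊕ Fin 2) ⊕ Fin 2

section coords

variable (a b : F) (ε lam : QuadraticAlgebra F (-b) a)

/-- first coordinate from the hyperbolic pair `(t, w)` -/
def x1Of (t w : QuadraticAlgebra F (-b) a) : QuadraticAlgebra F (-b) a := (1 - lam) * t + w

/-- second coordinate from the hyperbolic pair `(t, w)` -/
def x2Of (t w : QuadraticAlgebra F (-b) a) : QuadraticAlgebra F (-b) a := ε * (w - lam * t)

/-- inverse: `t` -/
def tOf (x₁ x₂ : QuadraticAlgebra F (-b) a) : QuadraticAlgebra F (-b) a := x₁ + star ε * x₂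

/-- inverse: `w` -/
def wOf (x₁ x₂ : QuadraticAlgebra F (-b) a) : QuadraticAlgebra F (-b) a :=
  -(star ε * x₂) + lam * (x₁ + star ε * x₂)

variable {a b ε lam}

theorem tOf_x (hε : ε * star ε = -1) (t w : QuadraticAlgebra F (-b) a) :
    tOf a b ε (x1Of a b lam t w) (x2Of a b ε lam t w) = t := by
  unfold tOf x1Of x2Of
  linear_combination (w - lam * t) * hε

theorem wOf_x (hε : ε * star ε = -1) (t w : QuadraticAlgebra F (-b) a) :
    wOf a b ε lam (x1Of a b lam t w) (x2Of a b ε lam t w) = w := by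
  unfold wOf x1Of x2Of
  linear_combination (lam - 1) * (w - lam * t) * hε

theorem x1Of_t (x₁ x₂ : QuadraticAlgebra F (-b) a) :
    x1Of a b lam (tOf a b ε x₁ x₂) (wOf a b ε lam x₁ x₂) = x₁ := by
  unfold tOf wOf x1Of
  ring

theorem x2Of_t (hε : ε * star ε = -1) (x₁ x₂ : QuadraticAlgebra F (-b) a) :
    x2Of a b ε lam (tOf a b ε x₁ x₂) (wOf a b ε lam x₁ x₂) = x₂ := by
  unfold tOf wOf x2Of
  linear_combination (-x₂) * hε

theorem norm_x (hε : ε * star ε = -1) (hl : lam + star lam = 1)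
    (t w : QuadraticAlgebra F (-b) a) :
    x1Of a b lam t w * star (x1Of a b lam t w) + x2Of a b ε lam t w * star (x2Of a b ε lam t w)
      = t * star w + star t * w := by
  unfold x1Of x2Of
  simp only [star_add, star_mul', star_sub, star_one]
  linear_combination ((w - lam * t) * (star w - star lam * star t)) * hε - (t * star t) * hl

/-- `t` from coordinates -/
def tC (p q : F) : QuadraticAlgebra F (-b) a := ⟨p, q⟩

/-- `w` from dual coordinates -/
def wC (p q : F) : QuadraticAlgebra F (-b) a :=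
  ⟨(2 * b * p - a * q) / (4 * b - a ^ 2), (-a * p + 2 * q) / (4 * b - a ^ 2)⟩

theorem trace_tw (hD : 4 * b - a ^ 2 ≠ 0) (p q r s : F) :
    (tC p q : QuadraticAlgebra F (-b) a) * star (wC r s : QuadraticAlgebra F (-b) a)
      + star (tC p q : QuadraticAlgebra F (-b) a) * (wC r s : QuadraticAlgebra F (-b) a)
      = algebraMap F _ (p * r + q * s) := by
  have hD' : b * 4 - a ^ 2 ≠ 0 := by rw [mul_comm]; exact hD
  ext
  · simp [tC, wC]
    field_simp
    ring
  · simp [tC, wC]
    field_simp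
    ring

theorem wC_coords (hD : 4 * b - a ^ 2 ≠ 0) (w : QuadraticAlgebra F (-b) a) :
    (wC (2 * w.re + a * w.im) (a * w.re + 2 * b * w.im) : QuadraticAlgebra F (-b) a) = w := by
  have hD' : b * 4 - a ^ 2 ≠ 0 := by rw [mul_comm]; exact hD
  ext
  · simp [wC]
    field_simp
    ring
  · simp [wC]
    field_simp
    ring

theorem wC_re (hD : 4 * b - a ^ 2 ≠ 0) (r s : F) :
    2 * (wC r s : QuadraticAlgebra F (-b) a).re + a * (wC r s : QuadraticAlgebra F (-b) a).im
      = r := by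
  have hD' : b * 4 - a ^ 2 ≠ 0 := by rw [mul_comm]; exact hD
  simp [wC]
  field_simp
  ring

theorem wC_im (hD : 4 * b - a ^ 2 ≠ 0) (r s : F) :
    a * (wC r s : QuadraticAlgebra F (-b) a).re
      + 2 * b * (wC r s : QuadraticAlgebra F (-b) a).im = s := by
  have hD' : b * 4 - a ^ 2 ≠ 0 := by rw [mul_comm]; exact hD
  simp [wC]
  field_simp
  ring

end coords


section maps

variable (a b : F) (ε lam : QuadraticAlgebra F (-b) a)

set_option maxHeartbeats 2000000 in
/-- the embedding of `F⁶` as the fixed space of the semilinear involution -/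
def El : (J6 → F) →ₗ[F] (I6 → QuadraticAlgebra F (-b) a) where
  toFun u := Sum.elim
    ![x1Of a b lam (tC (u (.inl (.inl 0))) (u (.inl (.inl 1))))
        (wC (u (.inl (.inr 0))) (u (.inl (.inr 1)))),
      x2Of a b ε lam (tC (u (.inl (.inl 0))) (u (.inl (.inl 1))))
        (wC (u (.inl (.inr 0))) (u (.inl (.inr 1)))),
      ⟨u (.inr 0), u (.inr 1)⟩]
    ![star (x1Of a b lam (tC (u (.inl (.inl 0))) (u (.inl (.inl 1))))
        (wC (u (.inl (.inr 0))) (u (.inl (.inr 1))))),
      star (x2Of a b ε lam (tC (u (.inl (.inl 0))) (u (.inl (.inl 1))))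
        (wC (u (.inl (.inr 0))) (u (.inl (.inr 1))))),
      star (⟨u (.inr 0), u (.inr 1)⟩ : QuadraticAlgebra F (-b) a)]
  map_add' u w := by
    funext i
    rcases i with i | i <;> fin_cases i <;> apply QuadraticAlgebra.ext <;>
      simp [x1Of, x2Of, tC, wC] <;> ring
  map_smul' c u := by
    funext i
    rcases i with i | i <;> fin_cases i <;> apply QuadraticAlgebra.ext <;>
      simp [x1Of, x2Of, tC, wC] <;> ring

set_option maxHeartbeats 2000000 in
/-- the coordinate map -/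
def Pl : (I6 → QuadraticAlgebra F (-b) a) →ₗ[F] (J6 → F) where
  toFun w := Sum.elim
    (Sum.elim ![(tOf a b ε (w (.inl 0)) (w (.inl 1))).re, (tOf a b ε (w (.inl 0)) (w (.inl 1))).im]
      ![2 * (wOf a b ε lam (w (.inl 0)) (w (.inl 1))).re
          + a * (wOf a b ε lam (w (.inl 0)) (w (.inl 1))).im,
        a * (wOf a b ε lam (w (.inl 0)) (w (.inl 1))).re
          + 2 * b * (wOf a b ε lam (w (.inl 0)) (w (.inl 1))).im])
    ![(w (.inl 2)).re, (w (.inl 2)).im]
  map_add' u w := by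
    funext i
    rcases i with (i | i) | i <;> fin_cases i <;>
      simp [tOf, wOf] <;> ring
  map_smul' c u := by
    funext i
    rcases i with (i | i) | i <;> fin_cases i <;>
      simp [tOf, wOf] <;> ring

end maps


section props

variable {a b : F} {ε lam : QuadraticAlgebra F (-b) a}

theorem tC_eta (z : QuadraticAlgebra F (-b) a) : (tC z.re z.im : QuadraticAlgebra F (-b) a) = z :=
  rfl

theorem El_star (u : J6 → F) (i : Fin 3) :
    El a b ε lam u (.inr i) = star (El a b ε lam u (.inl i)) := by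
  fin_cases i <;> rfl

theorem Pl_El (hε : ε * star ε = -1) (hD : 4 * b - a ^ 2 ≠ 0) (u : J6 → F) :
    Pl a b ε lam (El a b ε lam u) = u := by
  have e0 : El a b ε lam u (.inl 0) = x1Of a b lam (tC (u (.inl (.inl 0))) (u (.inl (.inl 1))))
        (wC (u (.inl (.inr 0))) (u (.inl (.inr 1)))) := rfl
  have e1 : El a b ε lam u (.inl 1) = x2Of a b ε lam (tC (u (.inl (.inl 0))) (u (.inl (.inl 1))))
        (wC (u (.inl (.inr 0))) (u (.inl (.inr 1)))) := rfl
  have e2 : El a b ε lam u (.inl 2) = ⟨u (.inr 0), u (.inr 1)⟩ := rfl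
  funext i
  rcases i with (i | i) | i <;> fin_cases i
  · show (tOf a b ε (El a b ε lam u (.inl 0)) (El a b ε lam u (.inl 1))).re = _
    rw [e0, e1, tOf_x hε]; rfl
  · show (tOf a b ε (El a b ε lam u (.inl 0)) (El a b ε lam u (.inl 1))).im = _
    rw [e0, e1, tOf_x hε]; rfl
  · show 2 * (wOf a b ε lam (El a b ε lam u (.inl 0)) (El a b ε lam u (.inl 1))).re
      + a * (wOf a b ε lam (El a b ε lam u (.inl 0)) (El a b ε lam u (.inl 1))).im = _
    rw [e0, e1, wOf_x hε, wC_re hD]; rfl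
  · show a * (wOf a b ε lam (El a b ε lam u (.inl 0)) (El a b ε lam u (.inl 1))).re
      + 2 * b * (wOf a b ε lam (El a b ε lam u (.inl 0)) (El a b ε lam u (.inl 1))).im = _
    rw [e0, e1, wOf_x hε, wC_im hD]; rfl
  · show (El a b ε lam u (.inl 2)).re = _
    rw [e2]; rfl
  · show (El a b ε lam u (.inl 2)).im = _
    rw [e2]; rfl

theorem El_Pl (hε : ε * star ε = -1) (hD : 4 * b - a ^ 2 ≠ 0)
    (w : I6 → QuadraticAlgebra F (-b) a) (hw : ∀ i, w (.inr i) = star (w (.inl i))) :
    El a b ε lam (Pl a b ε lam w) = w := by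
  have p0 : (tC (Pl a b ε lam w (.inl (.inl 0))) (Pl a b ε lam w (.inl (.inl 1))) :
      QuadraticAlgebra F (-b) a) = tOf a b ε (w (.inl 0)) (w (.inl 1)) := rfl
  have p1 : (wC (Pl a b ε lam w (.inl (.inr 0))) (Pl a b ε lam w (.inl (.inr 1))) :
      QuadraticAlgebra F (-b) a) = wOf a b ε lam (w (.inl 0)) (w (.inl 1)) :=
    wC_coords hD _
  have p2 : (⟨Pl a b ε lam w (.inr 0), Pl a b ε lam w (.inr 1)⟩ : QuadraticAlgebra F (-b) a)
      = w (.inl 2) := rfl
  have q0 : El a b ε lam (Pl a b ε lam w) (.inl 0) = w (.inl 0) := by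
    show x1Of a b lam (tC (Pl a b ε lam w (.inl (.inl 0))) (Pl a b ε lam w (.inl (.inl 1))))
        (wC (Pl a b ε lam w (.inl (.inr 0))) (Pl a b ε lam w (.inl (.inr 1)))) = _
    rw [p0, p1, x1Of_t]
  have q1 : El a b ε lam (Pl a b ε lam w) (.inl 1) = w (.inl 1) := by
    show x2Of a b ε lam (tC (Pl a b ε lam w (.inl (.inl 0))) (Pl a b ε lam w (.inl (.inl 1))))
        (wC (Pl a b ε lam w (.inl (.inr 0))) (Pl a b ε lam w (.inl (.inr 1)))) = _
    rw [p0, p1, x2Of_t hε]
  have q2 : El a b ε lam (Pl a b ε lam w) (.inl 2) = w (.inl 2) := p2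
  funext i
  rcases i with i | i <;> fin_cases i
  · exact q0
  · exact q1
  · exact q2
  · show El a b ε lam (Pl a b ε lam w) (.inr 0) = w (.inr 0)
    rw [El_star, q0, hw]
  · show El a b ε lam (Pl a b ε lam w) (.inr 1) = w (.inr 1)
    rw [El_star, q1, hw]
  · show El a b ε lam (Pl a b ε lam w) (.inr 2) = w (.inr 2)
    rw [El_star, q2, hw]

theorem Q_El [Fact (∀ r : F, r ^ 2 ≠ -b + a * r)] (hε : ε * star ε = -1) (hl : lam + star lam = 1) (hD : 4 * b - a ^ 2 ≠ 0)
    (u : J6 → F) :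
    Cfsg.quadFormPlus 3 (QuadraticAlgebra F (-b) a) (El a b ε lam u)
      = algebraMap F _ (Cfsg.quadFormMinus 2 F a b u) := by
  have h1 := norm_x hε hl (tC (u (.inl (.inl 0))) (u (.inl (.inl 1))))
    (wC (u (.inl (.inr 0))) (u (.inl (.inr 1))))
  rw [trace_tw hD] at h1
  have h3 : (⟨u (.inr 0), u (.inr 1)⟩ : QuadraticAlgebra F (-b) a) * star ⟨u (.inr 0), u (.inr 1)⟩
      = algebraMap F _ (u (.inr 0) ^ 2 + a * u (.inr 0) * u (.inr 1) + b * u (.inr 1) ^ 2) := by
    rw [QuadraticAlgebra.algebraMap_eq]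
    ext
    · simp
      ring
    · simp
      ring
  unfold Cfsg.quadFormPlus Cfsg.quadFormMinus
  rw [Fin.sum_univ_three, Fin.sum_univ_two]
  show x1Of a b lam (tC (u (.inl (.inl 0))) (u (.inl (.inl 1))))
        (wC (u (.inl (.inr 0))) (u (.inl (.inr 1)))) *
      star (x1Of a b lam (tC (u (.inl (.inl 0))) (u (.inl (.inl 1))))
        (wC (u (.inl (.inr 0))) (u (.inl (.inr 1))))) +
      x2Of a b ε lam (tC (u (.inl (.inl 0))) (u (.inl (.inl 1))))
        (wC (u (.inl (.inr 0))) (u (.inl (.inr 1)))) *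
      star (x2Of a b ε lam (tC (u (.inl (.inl 0))) (u (.inl (.inl 1))))
        (wC (u (.inl (.inr 0))) (u (.inl (.inr 1))))) +
      (⟨u (.inr 0), u (.inr 1)⟩ : QuadraticAlgebra F (-b) a) * star ⟨u (.inr 0), u (.inr 1)⟩ = _
  rw [h1, h3, ← map_add]

end props


section Tprops

variable {K : Type*} [Field K]

theorem T_transpose (G : Matrix (Fin 4) (Fin 4) K) : T Gᵀ = (T G)ᵀ := by
  ext i j
  rcases i with i | i <;> rcases j with j | j <;> fin_cases i <;> fin_cases j <;>
    simp [T] <;> ring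

theorem T_map {K' : Type*} [Field K'] (f : K →+* K') (G : Matrix (Fin 4) (Fin 4) K) :
    T (G.map f) = (T G).map f := by
  ext i j
  rcases i with i | i <;> rcases j with j | j <;> fin_cases i <;> fin_cases j <;>
    simp [T]

/-- swapping the two halves of a vector -/
def swp (w : I6 → K) : I6 → K := fun i => w (Sum.swap i)

theorem Q_add (x y : I6 → K) :
    Cfsg.quadFormPlus 3 K (x + y) =
      Cfsg.quadFormPlus 3 K x + Cfsg.quadFormPlus 3 K y + x ⬝ᵥ swp y := by
  simp [Cfsg.quadFormPlus, dotProduct, swp, Fintype.sum_sum_type, Fin.sum_univ_three]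
  ring

theorem T_polar (G : Matrix (Fin 4) (Fin 4) K) (hdet : G.det = 1) (v w : I6 → K) :
    (T G *ᵥ v) ⬝ᵥ swp (T G *ᵥ w) = v ⬝ᵥ swp w := by
  have h1 := Q_add (T G *ᵥ v) (T G *ᵥ w)
  rw [← Matrix.mulVec_add, T_Q, T_Q, T_Q, hdet, one_mul, one_mul, one_mul, Q_add] at h1
  exact (add_left_cancel h1).symm

theorem T_swp (G Gc : Matrix (Fin 4) (Fin 4) K) (hdet : G.det = 1) (hG : Gc * Gᵀ = 1)
    (w : I6 → K) : swp (T G *ᵥ w) = T Gc *ᵥ swp w := by
  have h1 : (T G)ᵀ *ᵥ swp (T G *ᵥ w) = swp w := by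
    funext i
    have h := T_polar G hdet (Pi.single i 1) w
    rw [single_one_dotProduct] at h
    rw [← h, Matrix.mulVec_single_one]
    simp [Matrix.mulVec, dotProduct, Matrix.transpose_apply]
  rw [← T_transpose] at h1
  have h2 := congrArg (fun x => T Gc *ᵥ x) h1
  simp only [Matrix.mulVec_mulVec, ← T_mul, hG, T_one, Matrix.one_mulVec] at h2
  exact h2

end Tprops

section Vinv

variable {a b : F}

/-- unitary matrices preserve the fixed space of the semilinear involution -/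
theorem T_V (G : Matrix (Fin 4) (Fin 4) (QuadraticAlgebra F (-b) a))
    [Fact (∀ r : F, r ^ 2 ≠ -b + a * r)] (hdet : G.det = 1)
    (hG : G.map (starRingEnd (QuadraticAlgebra F (-b) a)) * Gᵀ = 1)
    (w : I6 → QuadraticAlgebra F (-b) a) (hw : ∀ i, w (.inr i) = star (w (.inl i))) (i : Fin 3) :
    (T G *ᵥ w) (.inr i) = star ((T G *ᵥ w) (.inl i)) := by
  have h1 := T_swp G _ hdet hG w
  have h2 : swp w = (starRingEnd (QuadraticAlgebra F (-b) a)) ∘ w := by
    funext j
    rcases j with j | j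
    · show w (.inr j) = star (w (.inl j))
      exact hw j
    · show w (.inl j) = star (w (.inr j))
      rw [hw, star_star]
  rw [T_map, h2] at h1
  have h3 := congrFun h1 (.inl i)
  rw [← RingHom.map_mulVec] at h3
  exact h3

end Vinv


section group

variable {K : Type*} [Field K] [Fintype K] {q : ℕ}

theorem su_entries (hq : q ≠ 0) (g : Cfsg.SU 4 K q) (k l : Fin 4) :
    ∑ i, g.1.1 i k * (g.1.1 i l) ^ q = if k = l then 1 else 0 := by
  have h := Cfsg.Agent.Lib.helper4.su_pres g (Pi.single k 1) (Pi.single l 1)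
  rw [Matrix.mulVec_single_one, Matrix.mulVec_single_one] at h
  unfold Cfsg.hermForm at h
  have h' : ∑ i, g.1.1 i k * (g.1.1 i l) ^ q =
      ∑ i, (Pi.single k (1 : K) : Fin 4 → K) i * ((Pi.single l (1 : K) : Fin 4 → K) i) ^ q := h
  rw [h']
  by_cases hkl : k = l
  · subst hkl
    simp [Pi.single_apply, hq]
  · simp [Pi.single_apply, hq, hkl, Ne.symm hkl]

variable {a b : F} [Fact (∀ r : F, r ^ 2 ≠ -b + a * r)]

/-- the matrix of an element of `SU₄(K)` over the quadratic algebra -/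
def Gm (f : K →+* QuadraticAlgebra F (-b) a) (g : Cfsg.SU 4 K q) :
    Matrix (Fin 4) (Fin 4) (QuadraticAlgebra F (-b) a) := (g.1.1).map f

omit [Fintype K] in
theorem Gm_mul (f : K →+* QuadraticAlgebra F (-b) a) (g h : Cfsg.SU 4 K q) :
    Gm f (g * h) = Gm f g * Gm f h := by
  unfold Gm
  rw [← Matrix.map_mul]
  rfl

omit [Fintype K] in
theorem Gm_one (f : K →+* QuadraticAlgebra F (-b) a) :
    Gm f (1 : Cfsg.SU 4 K q) = 1 := by
  unfold Gm
  exact Matrix.map_one f (map_zero f) (map_one f)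

omit [Fintype K] in
theorem det_Gm (f : K →+* QuadraticAlgebra F (-b) a) (g : Cfsg.SU 4 K q) :
    (Gm f g).det = 1 := by
  unfold Gm
  rw [← RingHom.mapMatrix_apply, ← RingHom.map_det, g.1.2, map_one]

theorem unit_Gm (f : K →+* QuadraticAlgebra F (-b) a) (hfq : ∀ x, f (x ^ q) = star (f x))
    (hq : q ≠ 0) (g : Cfsg.SU 4 K q) :
    (Gm f g).map (starRingEnd (QuadraticAlgebra F (-b) a)) * (Gm f g)ᵀ = 1 := by
  apply _root_.mul_eq_one_comm.mp
  refine Matrix.ext (fun k l => ?_)
  have h := su_entries hq g k l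
  have h2 := congrArg f h
  rw [map_sum] at h2
  simp only [map_mul, hfq] at h2
  rw [Matrix.mul_apply]
  simp only [Gm, Matrix.transpose_apply, Matrix.map_apply, starRingEnd_apply]
  rw [h2, Matrix.one_apply]
  split_ifs <;> simp

end group

end Cfsg.Agent.Lib.helper6.PO6m




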