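import Mathlib
import Cfsg.Prelude.Def_Classical
import Cfsg.Agent.Lib.helper6.PO6m

set_option autoImplicit false

namespace Cfsg.Agent.Lib.helper6.PO6n

open Matrix QuadraticAlgebra

open Cfsg.Agent.Lib.helper6.PO4 (quot_center_equiv)
open Cfsg.Agent.Lib.helper6.PO4m (map_mem_commutator)
open Cfsg.Agent.Lib.helper6.PO5 (center_eq_bot_of_simple)
open Cfsg.Agent.Lib.helper6.PO6
open Cfsg.Agent.Lib.helper6.PO6m

variable {F : Type*} [Field F] {K : Type*} [Field K] [Fintype K] {q : ℕ}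

variable {a b : F} [Fact (∀ r : F, r ^ 2 ≠ -b + a * r)]

/-- data for the representation -/
structure Dat (a b : F) (K : Type*) [Field K] (q : ℕ) where
  ε : QuadraticAlgebra F (-b) a
  lam : QuadraticAlgebra F (-b) a
  f : K →+* QuadraticAlgebra F (-b) a
  hε : ε * star ε = -1
  hl : lam + star lam = 1
  hD : 4 * b - a ^ 2 ≠ 0
  hf : Function.Injective f
  hfq : ∀ x, f (x ^ q) = star (f x)
  hq : q ≠ 0

variable (d : Dat a b K q)

/-- the `6 × 6` matrix over `F` of an element of `SU₄(K)` -/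
noncomputable def R (g : Cfsg.SU 4 K q) : Matrix J6 J6 F :=
  LinearMap.toMatrix' (Pl a b d.ε d.lam ∘ₗ
    ((Matrix.mulVecLin (T (Gm d.f g))).restrictScalars F) ∘ₗ El a b d.ε d.lam)

theorem R_mulVec (g : Cfsg.SU 4 K q) (u : J6 → F) :
    R d g *ᵥ u = Pl a b d.ε d.lam (T (Gm d.f g) *ᵥ El a b d.ε d.lam u) := by
  unfold R
  rw [← Matrix.toLin'_apply, Matrix.toLin'_toMatrix']
  rfl

theorem El_R (g : Cfsg.SU 4 K q) (u : J6 → F) :
    El a b d.ε d.lam (R d g *ᵥ u) = T (Gm d.f g) *ᵥ El a b d.ε d.lam u := by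
  rw [R_mulVec, El_Pl d.hε d.hD]
  intro i
  exact T_V (Gm d.f g) (det_Gm d.f g) (unit_Gm d.f d.hfq d.hq g) _ (El_star _) i

theorem R_mul (g h : Cfsg.SU 4 K q) : R d (g * h) = R d g * R d h := by
  apply Matrix.mulVec_injective
  funext u
  rw [← Matrix.mulVec_mulVec, R_mulVec, R_mulVec d g, El_R, Gm_mul, PO6.T_mul,
    Matrix.mulVec_mulVec]

theorem R_one : R d (1 : Cfsg.SU 4 K q) = 1 := by
  apply Matrix.mulVec_injective
  funext u
  rw [R_mulVec, Gm_one, PO6.T_one, Matrix.one_mulVec, Matrix.one_mulVec, Pl_El d.hε d.hD]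

theorem R_Q (g : Cfsg.SU 4 K q) (u : J6 → F) :
    Cfsg.quadFormMinus 2 F a b (R d g *ᵥ u) = Cfsg.quadFormMinus 2 F a b u := by
  apply QuadraticAlgebra.algebraMap_injective (a := -b) (b := a)
  rw [← Q_El d.hε d.hl d.hD, ← Q_El d.hε d.hl d.hD, El_R, PO6.T_Q, det_Gm, one_mul]

/-- the monoid hom `SU₄(K) → M₆(F)` -/
noncomputable def rho0 : Cfsg.SU 4 K q →* Matrix J6 J6 F where
  toFun g := R d g
  map_one' := R_one d
  map_mul' g h := R_mul d g h

theorem rho0_apply (g : Cfsg.SU 4 K q) : rho0 d g = R d g := rfl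

/-- the hom `SU₄(K) → GO⁻₆(F)` -/
noncomputable def rho : Cfsg.SU 4 K q →* Cfsg.isometryGroup F (Cfsg.quadFormMinus 2 F a b) :=
  (rho0 d).toHomUnits.codRestrict _ (fun g => by
    rw [Cfsg.Agent.Lib.helper6.mem_isometryGroup_iff]
    intro u
    rw [MonoidHom.coe_toHomUnits, rho0_apply, R_Q])

theorem rho_coe (g : Cfsg.SU 4 K q) :
    (((rho d g : Cfsg.isometryGroup F (Cfsg.quadFormMinus 2 F a b)) : GL J6 F) :
      Matrix J6 J6 F) = R d g := rfl

theorem mem_rho_ker (g : Cfsg.SU 4 K q) : g ∈ (rho d).ker ↔ R d g = 1 := by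
  rw [MonoidHom.mem_ker, ← rho_coe]
  constructor
  · intro h; rw [h]; rfl
  · intro h
    apply Subtype.ext
    apply Units.ext
    exact h


theorem decomp_aux {L : Type*} [Field L] [StarRing L] (o δ x y : L) (hδ : δ = o - star o)
    (hδ0 : δ ≠ 0) :
    star (x - o * ((x - star y) * δ⁻¹)) + o * star ((x - star y) * δ⁻¹) = y := by
  have hsd : star δ = -δ := by rw [hδ, star_sub, star_star]; ring
  have hinv : δ * δ⁻¹ = 1 := mul_inv_cancel₀ hδ0
  simp only [star_sub, star_mul', star_inv₀, star_star, hsd, inv_neg]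
  linear_combination -(star x - y) * hinv + (star x - y) * δ⁻¹ * hδ

theorem R_eq_one (g : Cfsg.SU 4 K q) (hR : R d g = 1) :
    Gm d.f g 0 0 * Gm d.f g 0 0 = 1 ∧
      Gm d.f g = Gm d.f g 0 0 • (1 : Matrix (Fin 4) (Fin 4) (QuadraticAlgebra F (-b) a)) := by
  have h1 : ∀ u, T (Gm d.f g) *ᵥ El a b d.ε d.lam u = El a b d.ε d.lam u := by
    intro u
    rw [← El_R, hR, Matrix.one_mulVec]
  have hV : ∀ v : I6 → QuadraticAlgebra F (-b) a, (∀ i, v (.inr i) = star (v (.inl i))) →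
      T (Gm d.f g) *ᵥ v = v := by
    intro v hv
    rw [← El_Pl d.hε d.hD v hv, h1]
  have hT : T (Gm d.f g) = 1 := by
    apply Matrix.mulVec_injective
    funext w
    rw [Matrix.one_mulVec]
    obtain ⟨δ, hδ⟩ : ∃ δ : QuadraticAlgebra F (-b) a, δ = ω - star ω := ⟨_, rfl⟩
    have hδ0 : δ ≠ 0 := by
      rw [hδ]
      intro h
      have e1 := congrArg QuadraticAlgebra.re h
      have e2 := congrArg QuadraticAlgebra.im h
      simp at e1 e2
      apply d.hD
      have e2' : (2 : F) = 0 := by linear_combination e2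
      rw [e1]
      linear_combination (2 * b) * e2'
    have hw : w = Sum.elim (fun i => w (.inl i) - ω * ((w (.inl i) - star (w (.inr i))) * δ⁻¹))
          (fun i => star (w (.inl i) - ω * ((w (.inl i) - star (w (.inr i))) * δ⁻¹)))
        + (ω : QuadraticAlgebra F (-b) a) •
          Sum.elim (fun i => (w (.inl i) - star (w (.inr i))) * δ⁻¹)
            (fun i => star ((w (.inl i) - star (w (.inr i))) * δ⁻¹)) := by
      funext j
      rcases j with i | i
      · simp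
      · simp only [Pi.add_apply, Sum.elim_inr, Pi.smul_apply, smul_eq_mul]
        exact (decomp_aux ω δ (w (.inl i)) (w (.inr i)) hδ hδ0).symm
    conv_lhs => rw [hw]
    rw [Matrix.mulVec_add, Matrix.mulVec_smul, hV _ (fun i => rfl), hV _ (fun i => rfl)]
    exact hw.symm
  exact T_eq_one ⟨Gm d.f g, det_Gm d.f g⟩ hT

theorem ker_scalar (g : Cfsg.SU 4 K q) (hg : g ∈ (rho d).ker) :
    g.1.1 = g.1.1 0 0 • (1 : Matrix (Fin 4) (Fin 4) K) ∧ g.1.1 0 0 * g.1.1 0 0 = 1 := by
  obtain ⟨hr, hG⟩ := R_eq_one d g ((mem_rho_ker d g).mp hg)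
  have hent : ∀ i j, d.f (g.1.1 i j) = if i = j then d.f (g.1.1 0 0) else 0 := by
    intro i j
    have h := congrFun (congrFun hG i) j
    have h' : d.f (g.1.1 i j) = (d.f (g.1.1 0 0) •
        (1 : Matrix (Fin 4) (Fin 4) (QuadraticAlgebra F (-b) a))) i j := h
    rw [h', Matrix.smul_apply, Matrix.one_apply]
    split_ifs <;> simp
  constructor
  · refine Matrix.ext (fun i j => ?_)
    apply d.hf
    rw [hent, Matrix.smul_apply, Matrix.one_apply]
    split_ifs <;> simp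
  · apply d.hf
    rw [map_mul, map_one]
    exact hr

theorem rho_ker_le_center : (rho d).ker ≤ Subgroup.center (Cfsg.SU 4 K q) := by
  intro g hg
  obtain ⟨hsc, -⟩ := ker_scalar d g hg
  rw [Subgroup.mem_center_iff]
  intro h
  apply Subtype.ext
  apply Subtype.ext
  show h.1.1 * g.1.1 = g.1.1 * h.1.1
  rw [hsc]
  simp

theorem card_rho_ker_le :
    Nat.card (rho d).ker ≤ 2 ∧ ((2 : F) = 0 → Nat.card (rho d).ker = 1) := by
  classical
  constructor
  · have : Nat.card (rho d).ker ≤ Nat.card Bool := by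
      apply Nat.card_le_card_of_injective
        (fun p : (rho d).ker => decide (p.1.1.1 0 0 = 1))
      intro p p' h
      obtain ⟨hg, hr⟩ := ker_scalar d p.1 p.2
      obtain ⟨hg', hr'⟩ := ker_scalar d p'.1 p'.2
      have h1 : p.1.1.1 0 0 = 1 ∨ p.1.1.1 0 0 = -1 := mul_self_eq_one_iff.mp hr
      have h2 : p'.1.1.1 0 0 = 1 ∨ p'.1.1.1 0 0 = -1 := mul_self_eq_one_iff.mp hr'
      have h3 : (p.1.1.1 0 0 = 1) ↔ (p'.1.1.1 0 0 = 1) := by
        simpa using h
      have h4 : p.1.1.1 0 0 = p'.1.1.1 0 0 := by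
        rcases h1 with h1 | h1
        · rw [h1, h3.mp h1]
        · rcases h2 with h2 | h2
          · rw [h3.mpr h2, h2]
          · rw [h1, h2]
      apply Subtype.ext
      apply Subtype.ext
      apply Subtype.ext
      rw [hg, hg', h4]
    simpa using this
  · intro h2
    have h2K : (2 : K) = 0 := by
      apply d.hf
      rw [map_ofNat, map_zero]
      apply QuadraticAlgebra.ext
      · simpa using h2
      · simp
    have : (rho d).ker = ⊥ := by
      rw [eq_bot_iff]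
      intro g hg
      rw [Subgroup.mem_bot]
      obtain ⟨hsc, hr⟩ := ker_scalar d g hg
      have h1 : g.1.1 0 0 = 1 := by
        have : (g.1.1 0 0 - 1) * (g.1.1 0 0 - 1) = 0 := by
          linear_combination hr - (g.1.1 0 0 - 1) * h2K
        rcases mul_eq_zero.mp this with h | h <;> linear_combination h
      apply Subtype.ext
      apply Subtype.ext
      rw [hsc, h1, one_smul]
      rfl
    rw [this, Subgroup.card_bot]


omit [Fact (∀ r : F, r ^ 2 ≠ -b + a * r)] in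
theorem card_arith (q : ℕ) (hq : 2 ≤ q) (N G : ℕ) (hN : (q + 1) * N = G)
    (hG : G = q ^ (4 * (4 - 1) / 2) *
      ∏ i ∈ Finset.range 4, (if Even i then q ^ (i + 1) + 1 else q ^ (i + 1) - 1)) :
    2 * q ^ (3 * (3 - 1)) * (q ^ 3 + 1) * ∏ i ∈ Finset.range (3 - 1), (q ^ (2 * (i + 1)) - 1)
      = 2 * N := by
  have hpos : 0 < q + 1 := by omega
  apply Nat.eq_of_mul_eq_mul_left hpos
  rw [show (q + 1) * (2 * N) = 2 * ((q + 1) * N) by ring, hN, hG]
  have e0 : Even 0 := by decide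
  have e1 : ¬ Even 1 := by decide
  have e2 : Even 2 := by decide
  have e3 : ¬ Even 3 := by decide
  simp only [Finset.prod_range_succ, Finset.prod_range_zero, e0, e1, e2, e3, if_true, if_false]
  norm_num
  ring

theorem rho_range [Fintype F] (hF : Fintype.card F = q) (hK : Fintype.card K = q ^ 2)
    (hab : ∀ z₁ z₂ : F, z₁ ^ 2 + a * z₁ * z₂ + b * z₂ ^ 2 = 0 → z₁ = 0 ∧ z₂ = 0) :
    (rho d).range = Cfsg.Omega F (Cfsg.quadFormMinus 2 F a b) := by
  classical
  have hq : 2 ≤ q := by rw [← hF]; exact Fintype.one_lt_card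
  have hperf : commutator (Cfsg.SU 4 K q) = ⊤ :=
    Cfsg.Agent.Lib.helper4.su_perfect hK (Or.inl le_rfl)
  apply Subgroup.eq_of_le_of_card_ge
  · rintro _ ⟨g, rfl⟩
    exact map_mem_commutator (rho d) hperf g
  · have hGO : Nat.card (Cfsg.isometryGroup F (Cfsg.quadFormMinus 2 F a b)) =
        2 * q ^ (3 * (3 - 1)) * (q ^ 3 + 1) *
          ∏ i ∈ Finset.range (3 - 1), (q ^ (2 * (i + 1)) - 1) :=
      Cfsg.Agent.Lib.helper6.card_GO_minus hF 3 (by norm_num) a b hab
    have h1 := Subgroup.card_mul_index (Cfsg.Omega F (Cfsg.quadFormMinus 2 F a b))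
    have hSU := Cfsg.Agent.Lib.helper4.card_su (F := K) (n := 4) hK (by norm_num)
    have hGU := Cfsg.Agent.Lib.helper4.card_gu (F := K) hK 4
    have h3 : Nat.card (rho d).range * Nat.card (rho d).ker = Nat.card (Cfsg.SU 4 K q) := by
      rw [← Subgroup.index_ker, mul_comm, Subgroup.card_mul_index]
    rw [card_arith q hq _ _ hSU hGU] at hGO
    rw [hGO, ← h3] at h1
    obtain ⟨hk2, hk1⟩ := card_rho_ker_le d
    by_cases h2 : (2 : F) = 0
    · haveI : CharP F 2 := CharTwo.of_one_ne_zero_of_two_eq_zero one_ne_zero h2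
      have hidx : (Cfsg.Omega F (Cfsg.quadFormMinus 2 F a b)).index = 2 := by
        have := Cfsg.Agent.Lib.helper4.omega_index_c2 (F := F) (ι := (Fin 2 ⊕ Fin 2) ⊕ Fin 2)
          (Or.inr (by simp))
          (Cfsg.Agent.S2679.qMg F 2 a b) (Cfsg.Agent.Lib.helper4.nondeg_qMg 2 a b hab)
          (Sum.inr 0)
        rwa [Cfsg.Agent.Lib.helper4.qMg_coe] at this
      rw [hidx, hk1 h2] at h1
      omega
    · have hidx : (Cfsg.Omega F (Cfsg.quadFormMinus 2 F a b)).index = 4 := by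
        have := Cfsg.Agent.Lib.helper4.omega_index_odd h2 (Cfsg.Agent.S2679.qMg F 2 a b)
          (Cfsg.Agent.Lib.helper4.nondeg_qMg 2 a b hab) (by simp)
        rwa [Cfsg.Agent.Lib.helper4.qMg_coe] at this
      rw [hidx] at h1
      have h6 : Nat.card (rho d).range * Nat.card (rho d).ker
          ≤ Nat.card (rho d).range * 2 := Nat.mul_le_mul_left _ hk2
      omega

theorem pomega6m_aux [Fintype F] (d₀ : Dat a b K q) (hF : Fintype.card F = q) (hK : Fintype.card K = q ^ 2)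
    (hab : ∀ z₁ z₂ : F, z₁ ^ 2 + a * z₁ * z₂ + b * z₂ ^ 2 = 0 → z₁ = 0 ∧ z₂ = 0) :
    Nonempty (Cfsg.POmega F (Cfsg.quadFormMinus 2 F a b) ≃* Cfsg.PSU 4 K q) := by
  classical
  have hperf : commutator (Cfsg.SU 4 K q) = ⊤ :=
    Cfsg.Agent.Lib.helper4.su_perfect hK (Or.inl le_rfl)
  haveI hs : IsSimpleGroup (Cfsg.PSU 4 K q) :=
    Cfsg.Agent.Lib.helper4.psu_simple hK (Or.inl le_rfl)
  have hperf' : commutator (Cfsg.PSU 4 K q) = ⊤ := by
    rw [eq_top_iff]
    intro x _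
    obtain ⟨g, rfl⟩ := QuotientGroup.mk_surjective x
    exact map_mem_commutator (QuotientGroup.mk' (Subgroup.center (Cfsg.SU 4 K q))) hperf g
  refine quot_center_equiv (rho d₀)
    (QuotientGroup.mk' (Subgroup.center (Cfsg.SU 4 K q)))
    (QuotientGroup.mk'_surjective _) ?_ ?_ (center_eq_bot_of_simple hperf') _
    (rho_range d₀ hF hK hab)
  · rw [QuotientGroup.ker_mk']
    exact rho_ker_le_center d₀
  · intro x hx
    rw [QuotientGroup.ker_mk'] at hx
    exact hx


omit [Fintype K] [Fact (∀ r : F, r ^ 2 ≠ -b + a * r)] in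
/-- `PΩ⁻₆(q) ≅ PSU₄(q)` -/
theorem pomega6m {F K : Type*} [Field F] [Fintype F] [Field K] [Fintype K] {q : ℕ}
    (hF : Fintype.card F = q) (hK : Fintype.card K = q ^ 2) (a b : F)
    (hab : ∀ z₁ z₂ : F, z₁ ^ 2 + a * z₁ * z₂ + b * z₂ ^ 2 = 0 → z₁ = 0 ∧ z₂ = 0) :
    Nonempty (Cfsg.POmega F (Cfsg.quadFormMinus 2 F a b) ≃* Cfsg.PSU 4 K q) := by
  classical
  haveI hfact : Fact (∀ r : F, r ^ 2 ≠ -b + a * r) :=
    ⟨Cfsg.Agent.Lib.helper6.noRoot_of_aniso a b hab⟩
  haveI : Finite (QuadraticAlgebra F (-b) a) := Cfsg.Agent.Lib.helper12.qa_finite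
  letI : Fintype (QuadraticAlgebra F (-b) a) := Fintype.ofFinite _
  have hq1 : 2 ≤ q := by rw [← hF]; exact Fintype.one_lt_card
  have hcardL : Fintype.card K = Fintype.card (QuadraticAlgebra F (-b) a) := by
    rw [hK, ← Nat.card_eq_fintype_card, Cfsg.Agent.Lib.helper12.qa_card, hF]
  obtain ⟨ψ⟩ : Nonempty (K ≃+* QuadraticAlgebra F (-b) a) :=
    ⟨FiniteField.ringEquivOfCardEq hcardL⟩
  have hψq : ∀ x : K, ψ (x ^ q) = star (ψ x) := by
    intro x
    rw [map_pow, ← hF, Cfsg.Agent.Lib.helper12.qa_pow_card]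
  obtain ⟨c, hc⟩ := Cfsg.Agent.Lib.helper4.unorm_surj hK (-1 : K)
    (by rw [Cfsg.Agent.Lib.helper4.frob_neg hK, one_pow])
  obtain ⟨t, ht⟩ := Cfsg.Agent.Lib.helper4.utrace_surj hK (1 : K) (one_pow q)
  have hD : 4 * b - a ^ 2 ≠ 0 := by
    intro h
    apply Cfsg.Agent.Lib.helper4.disc_ne_zero a b hab
    linear_combination -h
  exact pomega6m_aux (d₀ :=
    { ε := ψ c
      lam := ψ t
      f := ψ.toRingHom
      hε := by
        rw [← hψq, ← map_mul, ← pow_succ', hc, map_neg, map_one]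
      hl := by
        rw [← hψq, ← map_add, ht, map_one]
      hD := hD
      hf := ψ.injective
      hfq := hψq
      hq := by omega }) hF hK hab

end Cfsg.Agent.Lib.helper6.PO6n
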