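import Mathlib
import Cfsg.Prelude.Def_LieRecognition
import Cfsg.Agent.Lib.helper6.Invol

set_option autoImplicit false

namespace Cfsg.Agent.Lib.helper6

section RankOne

open MulAction
open scoped Pointwise

variable {G Ω : Type*} [Group G] [MulAction G Ω] {a : Ω} {t : G} {Q : Subgroup G}

theorem ro_ne (hS : Cfsg.IsRankOneSetup G Ω a t Q) : t • a ≠ a :=
  fun h => hS.not_mem (mem_stabilizer_iff.mpr h)

theorem ro_tinv (hS : Cfsg.IsRankOneSetup G Ω a t Q) : t⁻¹ = t :=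
  inv_eq_self_of_mul_self hS.mul_self

theorem ro_tt (hS : Cfsg.IsRankOneSetup G Ω a t Q) : t • t • a = a := by
  rw [← mul_smul, hS.mul_self, one_smul]

/-- 2-transitivity in point-stabiliser form. -/
theorem ro_exists_stab (hS : Cfsg.IsRankOneSetup G Ω a t Q) {c : Ω} (hc : c ≠ a) :
    ∃ h ∈ stabilizer G a, h • (t • a) = c := by
  have h2t : ∀ {a b c d : Ω}, a ≠ b → c ≠ d → ∃ g : G, g • a = c ∧ g • b = d :=
    MulAction.is_two_pretransitive_iff.mp hS.two_transitive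
  obtain ⟨g, h1, h2⟩ := h2t (Ne.symm (ro_ne hS)) (Ne.symm hc)
  exact ⟨g, mem_stabilizer_iff.mpr h1, h2⟩

/-- `G_a = Q D` elementwise. -/
theorem ro_decomp (hS : Cfsg.IsRankOneSetup G Ω a t Q) {h : G} (hh : h ∈ stabilizer G a) :
    ∃ x ∈ Q, ∃ d ∈ stabilizer G a ⊓ stabilizer G (t • a), h = x * d := by
  have hLE : stabilizer G a ⊓ stabilizer G (t • a) ≤ Subgroup.normalizer (Q : Set G) := by
    intro d hd
    rw [Subgroup.mem_normalizer_iff]
    intro x
    constructor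
    · exact fun hx => hS.conj_mem d hd.1 x hx
    · intro hx
      have := hS.conj_mem d⁻¹ (inv_mem hd.1) _ hx
      have e : d⁻¹ * (d * x * d⁻¹) * d⁻¹⁻¹ = x := by group
      rwa [e] at this
  have := Subgroup.coe_mul_of_right_le_normalizer_left Q _ hLE
  rw [hS.sup_eq] at this
  have hmem : h ∈ ((Q : Set G) *
      ((stabilizer G a ⊓ stabilizer G (t • a) : Subgroup G) : Set G)) := by
    rw [← this]; exact hh
  obtain ⟨x, hx, d, hd, rfl⟩ := Set.mem_mul.mp hmem
  exact ⟨x, hx, d, hd, rfl⟩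

/-- `Q` acts semiregularly off `a`. -/
theorem ro_semiregular (hS : Cfsg.IsRankOneSetup G Ω a t Q) {x : G} (hx : x ∈ Q) {c : Ω}
    (hc : c ≠ a) (hxc : x • c = c) : x = 1 := by
  obtain ⟨h, hh, rfl⟩ := ro_exists_stab hS hc
  have h1 : h⁻¹ * x * h⁻¹⁻¹ ∈ Q := hS.conj_mem h⁻¹ (inv_mem hh) x hx
  rw [inv_inv] at h1
  have h2 : h⁻¹ * x * h ∈ stabilizer G (t • a) := by
    rw [mem_stabilizer_iff, mul_smul, mul_smul, hxc, inv_smul_smul]
  have h3 : h⁻¹ * x * h ∈ Q ⊓ stabilizer G (t • a) := ⟨h1, h2⟩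
  rw [hS.inf_eq_bot, Subgroup.mem_bot] at h3
  have : x = h * (h⁻¹ * x * h) * h⁻¹ := by group
  rw [this, h3]; group

/-- `Q` acts transitively off `a`. -/
theorem ro_transitive (hS : Cfsg.IsRankOneSetup G Ω a t Q) {c : Ω} (hc : c ≠ a) :
    ∃ x ∈ Q, x • (t • a) = c := by
  obtain ⟨h, hh, rfl⟩ := ro_exists_stab hS hc
  obtain ⟨x, hx, d, hd, rfl⟩ := ro_decomp hS hh
  refine ⟨x, hx, ?_⟩
  rw [mul_smul, mem_stabilizer_iff.mp hd.2]

theorem ro_regular (hS : Cfsg.IsRankOneSetup G Ω a t Q) (b c : Ω) (hb : b ≠ a) (hc : c ≠ a) :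
    ∃! x : Q, (x : G) • b = c := by
  obtain ⟨x, hx, rfl⟩ := ro_transitive hS hb
  obtain ⟨y, hy, rfl⟩ := ro_transitive hS hc
  refine ⟨⟨y * x⁻¹, mul_mem hy (inv_mem hx)⟩, ?_, ?_⟩
  · show (y * x⁻¹) • x • t • a = y • t • a
    rw [mul_smul, inv_smul_smul]
  · rintro ⟨z, hz⟩ hzz
    have hzz' : z • x • t • a = y • t • a := hzz
    apply Subtype.ext
    show z = y * x⁻¹
    have h1 : (y⁻¹ * z * x) • (t • a) = t • a := by
      rw [mul_smul, mul_smul, hzz', inv_smul_smul]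
    have h2 := ro_semiregular hS (mul_mem (mul_mem (inv_mem hy) hz) hx) (ro_ne hS) h1
    have : z = y * (y⁻¹ * z * x) * x⁻¹ := by group
    rw [this, h2]; group

theorem ro_smul_ne (hS : Cfsg.IsRankOneSetup G Ω a t Q) {x : G} (hx : x ∈ stabilizer G a) :
    x • (t • a) ≠ a := by
  intro h
  apply ro_ne hS
  have : x⁻¹ • a = a := by rw [inv_smul_eq_iff]; exact (mem_stabilizer_iff.mp hx).symm
  have h' : t • a = x⁻¹ • a :=
    calc t • a = x⁻¹ • (x • t • a) := (inv_smul_smul x _).symm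
      _ = x⁻¹ • a := by rw [h]
  rw [h', this]

/-- `Q ∩ D = 1`. -/
theorem ro_inf_D (hS : Cfsg.IsRankOneSetup G Ω a t Q) {x : G} (hx : x ∈ Q)
    (hd : x ∈ stabilizer G a ⊓ stabilizer G (t • a)) : x = 1 := by
  have : x ∈ Q ⊓ stabilizer G (t • a) := ⟨hx, hd.2⟩
  rw [hS.inf_eq_bot] at this
  exact Subgroup.mem_bot.mp this

/-- Uniqueness of the decomposition `g h t f`. -/
theorem ro_unique (hS : Cfsg.IsRankOneSetup G Ω a t Q) {g h f g₁ h₁ f₁ : G} (hg : g ∈ Q)
    (hh : h ∈ stabilizer G a ⊓ stabilizer G (t • a)) (hf : f ∈ Q) (hg₁ : g₁ ∈ Q)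
    (hh₁ : h₁ ∈ stabilizer G a ⊓ stabilizer G (t • a)) (hf₁ : f₁ ∈ Q)
    (e : g * h * t * f = g₁ * h₁ * t * f₁) : g = g₁ ∧ h = h₁ ∧ f = f₁ := by
  have key : ∀ g h f : G, g ∈ Q → h ∈ stabilizer G a ⊓ stabilizer G (t • a) →
      (g * h * t * f)⁻¹ • a = f⁻¹ • t • a := by
    intro g h f hg hh
    have h1 : g⁻¹ • a = a := by
      rw [inv_smul_eq_iff]; exact (mem_stabilizer_iff.mp (hS.le hg)).symm
    have h2 : h⁻¹ • a = a := by
      rw [inv_smul_eq_iff]; exact (mem_stabilizer_iff.mp hh.1).symm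
    have : (g * h * t * f)⁻¹ = f⁻¹ * t⁻¹ * h⁻¹ * g⁻¹ := by group
    rw [this, mul_smul, mul_smul, mul_smul, h1, h2, ro_tinv hS]
  have h1 := key g h f hg hh
  rw [e, key g₁ h₁ f₁ hg₁ hh₁] at h1
  have h2 : (f * f₁⁻¹) • (t • a) = t • a := by
    rw [mul_smul, h1, smul_inv_smul]
  have h3 := ro_semiregular hS (mul_mem hf (inv_mem hf₁)) (ro_ne hS) h2
  have hff : f = f₁ := mul_inv_eq_one.mp h3
  subst hff
  have e2 : g * h = g₁ * h₁ := by
    have := mul_right_cancel (mul_right_cancel e)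
    exact this
  have h4 : g₁⁻¹ * g = h₁ * h⁻¹ := by
    calc g₁⁻¹ * g = g₁⁻¹ * (g * h) * h⁻¹ := by group
      _ = g₁⁻¹ * (g₁ * h₁) * h⁻¹ := by rw [e2]
      _ = h₁ * h⁻¹ := by group
  have h5 : g₁⁻¹ * g = 1 :=
    ro_inf_D hS (mul_mem (inv_mem hg₁) hg) (h4 ▸ mul_mem hh₁ (inv_mem hh))
  have hgg : g = g₁ := (inv_mul_eq_one.mp h5).symm
  subst hgg
  exact ⟨rfl, mul_left_cancel e2, rfl⟩

/-- `t` normalises `D`. -/
theorem ro_t_conj_D (hS : Cfsg.IsRankOneSetup G Ω a t Q) {d : G}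
    (hd : d ∈ stabilizer G a ⊓ stabilizer G (t • a)) :
    t * d * t ∈ stabilizer G a ⊓ stabilizer G (t • a) := by
  refine ⟨mem_stabilizer_iff.mpr ?_, mem_stabilizer_iff.mpr ?_⟩
  · rw [mul_smul, mul_smul, mem_stabilizer_iff.mp hd.2, ro_tt hS]
  · rw [mul_smul, mul_smul, ro_tt hS, mem_stabilizer_iff.mp hd.1]

/-- `|Ω| = |Q| + 1`. -/
theorem ro_card_omega [Finite G] (hS : Cfsg.IsRankOneSetup G Ω a t Q) :
    Nat.card Ω = Nat.card Q + 1 := by
  classical
  let f : Q → {c : Ω // c ≠ a} := fun x => ⟨(x : G) • t • a, ro_smul_ne hS (hS.le x.2)⟩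
  have hf : Function.Bijective f := by
    constructor
    · intro x y hxy
      have h1 : (x : G) • t • a = (y : G) • t • a := congrArg Subtype.val hxy
      have h2 : ((y : G)⁻¹ * (x : G)) • (t • a) = t • a := by
        rw [mul_smul, h1, inv_smul_smul]
      have h3 := ro_semiregular hS (mul_mem (inv_mem y.2) x.2) (ro_ne hS) h2
      apply Subtype.ext
      exact (inv_mul_eq_one.mp h3).symm
    · rintro ⟨c, hc⟩
      obtain ⟨x, hx, rfl⟩ := ro_transitive hS hc
      exact ⟨⟨x, hx⟩, rfl⟩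
  have e := Equiv.ofBijective f hf
  have : Finite {c : Ω // c ≠ a} := Finite.of_equiv _ e
  rw [← Nat.card_congr (Equiv.optionSubtypeNe a), Finite.card_option, Nat.card_congr e]

/-- `|G_a| = |Q| |D|`. -/
theorem ro_card_stab [Finite G] (hS : Cfsg.IsRankOneSetup G Ω a t Q) :
    Nat.card (stabilizer G a) =
      Nat.card Q * Nat.card ↥(stabilizer G a ⊓ stabilizer G (t • a)) := by
  let f : Q × ↥(stabilizer G a ⊓ stabilizer G (t • a)) → stabilizer G a :=
    fun p => ⟨(p.1 : G) * (p.2 : G), mul_mem (hS.le p.1.2) p.2.2.1⟩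
  have hf : Function.Bijective f := by
    constructor
    · rintro ⟨x, d⟩ ⟨y, e⟩ hxy
      have h1 : (x : G) * (d : G) = (y : G) * (e : G) := congrArg Subtype.val hxy
      have h2 : (y : G)⁻¹ * (x : G) = (e : G) * (d : G)⁻¹ := by
        calc (y : G)⁻¹ * (x : G) = (y : G)⁻¹ * ((x : G) * (d : G)) * (d : G)⁻¹ := by group
          _ = (y : G)⁻¹ * ((y : G) * (e : G)) * (d : G)⁻¹ := by rw [h1]
          _ = (e : G) * (d : G)⁻¹ := by group
      have h3 : (y : G)⁻¹ * (x : G) = 1 :=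
        ro_inf_D hS (mul_mem (inv_mem y.2) x.2) (h2 ▸ mul_mem e.2 (inv_mem d.2))
      have hxy' : (x : G) = (y : G) := (inv_mul_eq_one.mp h3).symm
      have hde : (d : G) = (e : G) := by
        rw [hxy'] at h1; exact mul_left_cancel h1
      exact Prod.ext (Subtype.ext hxy') (Subtype.ext hde)
    · rintro ⟨h, hh⟩
      obtain ⟨x, hx, d, hd, rfl⟩ := ro_decomp hS hh
      exact ⟨(⟨x, hx⟩, ⟨d, hd⟩), rfl⟩
  rw [← Nat.card_congr (Equiv.ofBijective f hf), Nat.card_prod]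

/-- `|G| = |Q| |D| (|Q| + 1)`. -/
theorem ro_card [Finite G] (hS : Cfsg.IsRankOneSetup G Ω a t Q) :
    Nat.card G = Nat.card Q * Nat.card ↥(stabilizer G a ⊓ stabilizer G (t • a)) *
      (Nat.card Q + 1) := by
  have := hS.two_transitive
  have : IsPretransitive G Ω := MulAction.isPretransitive_of_is_two_pretransitive
  rw [← (stabilizer G a).card_mul_index, MulAction.index_stabilizer_of_transitive,
    ro_card_omega hS, ro_card_stab hS]

/-- Some Sylow 2-subgroup of `G` lies in `Q`. -/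
theorem ro_sylow [Finite G] (hS : Cfsg.IsRankOneSetup G Ω a t Q) :
    ∃ P : Sylow 2 G, (P : Subgroup G) ≤ Q := by
  have : Fact (Nat.Prime 2) := ⟨Nat.prime_two⟩
  obtain ⟨P₀⟩ : Nonempty (Sylow 2 Q) := inferInstance
  have hp : IsPGroup 2 ((P₀ : Subgroup Q).map Q.subtype) := P₀.2.map Q.subtype
  have hQi : ¬ 2 ∣ Q.index := by
    have h1 := Q.card_mul_index
    rw [ro_card hS, mul_assoc] at h1
    have hpos : 0 < Nat.card Q := Nat.card_pos
    have h2 : Q.index = Nat.card ↥(stabilizer G a ⊓ stabilizer G (t • a)) *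
        (Nat.card Q + 1) := Nat.eq_of_mul_eq_mul_left hpos h1
    rw [h2, ← even_iff_two_dvd, Nat.not_even_iff_odd]
    exact hS.odd_card.mul (hS.even_card.add_one)
  have hidx : ¬ 2 ∣ ((P₀ : Subgroup Q).map Q.subtype).index := by
    rw [Subgroup.index_map_subtype]
    intro h
    rcases (Nat.Prime.dvd_mul Nat.prime_two).mp h with h | h
    · exact P₀.not_dvd_index h
    · exact hQi h
  refine ⟨hp.toSylow hidx, ?_⟩
  rw [IsPGroup.toSylow_coe]
  exact Subgroup.map_subtype_le _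

/-- Canonical form: each `g ∉ G_a` is uniquely `x t y` with `x ∈ G_a`, `y ∈ Q`. -/
theorem ro_canonical (hS : Cfsg.IsRankOneSetup G Ω a t Q) {g : G} (hg : g ∉ stabilizer G a) :
    ∃! p : G × G, p.1 ∈ stabilizer G a ∧ p.2 ∈ Q ∧ g = p.1 * t * p.2 := by
  have hga : g⁻¹ • a ≠ a := by
    intro h
    apply hg
    rw [mem_stabilizer_iff]
    rw [inv_smul_eq_iff] at h
    exact h.symm
  obtain ⟨y, hy, hy2⟩ := ro_transitive hS hga
  refine ⟨(g * y * t, y⁻¹), ⟨?_, inv_mem hy, ?_⟩, ?_⟩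
  · show g * y * t ∈ stabilizer G a
    rw [mem_stabilizer_iff, mul_smul, mul_smul, hy2, smul_inv_smul]
  · show g = g * y * t * t * y⁻¹
    rw [mul_assoc (g * y), hS.mul_self]; group
  · rintro ⟨x', y'⟩ ⟨hx', hy', e⟩
    have e' : g = x' * t * y' := e
    have h1 : g⁻¹ • a = y'⁻¹ • t • a := by
      have hx'' : x'⁻¹ • a = a := by
        rw [inv_smul_eq_iff]; exact (mem_stabilizer_iff.mp hx').symm
      have : g⁻¹ = y'⁻¹ * t⁻¹ * x'⁻¹ := by rw [e']; group
      rw [this, mul_smul, mul_smul, hx'', ro_tinv hS]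
    have h2 : (y' * y) • (t • a) = t • a := by
      rw [mul_smul, hy2, h1, smul_inv_smul]
    have h3 := ro_semiregular hS (mul_mem hy' hy) (ro_ne hS) h2
    have hy'' : y' = y⁻¹ := eq_inv_of_mul_eq_one_left h3
    have hx'' : x' = g * y * t := by
      rw [e', hy'']
      have : x' * t * y⁻¹ * y * t = x' * (t * t) := by group
      rw [this, hS.mul_self, mul_one]
    exact Prod.ext hx'' hy''

/-- The point stabiliser is strongly embedded. -/
theorem ro_se [Finite G] (hS : Cfsg.IsRankOneSetup G Ω a t Q) :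
    Cfsg.IsStronglyEmbedded (stabilizer G a) := by
  refine ⟨?_, ?_, ?_⟩
  · intro h
    exact hS.not_mem (h ▸ Subgroup.mem_top t)
  · rw [ro_card_stab hS]
    exact hS.even_card.mul_right _
  · intro g hg
    have hc : g • a ≠ a := fun h => hg (mem_stabilizer_iff.mpr h)
    obtain ⟨h, hh, hh2⟩ := ro_exists_stab hS hc
    have e1 : (stabilizer G a).map (MulAut.conj g).toMonoidHom = stabilizer G (g • a) :=
      (MulAction.stabilizer_smul_eq_stabilizer_map_conj g a).symm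
    have e2 : (stabilizer G a).map (MulAut.conj h).toMonoidHom = stabilizer G a := by
      rw [← MulAction.stabilizer_smul_eq_stabilizer_map_conj, mem_stabilizer_iff.mp hh]
    have e3 : (stabilizer G (t • a)).map (MulAut.conj h).toMonoidHom = stabilizer G (g • a) := by
      rw [← MulAction.stabilizer_smul_eq_stabilizer_map_conj, hh2]
    have e4 : stabilizer G a ⊓ (stabilizer G a).map (MulAut.conj g).toMonoidHom =
        (stabilizer G a ⊓ stabilizer G (t • a)).map (MulAut.conj h).toMonoidHom := by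
      rw [Subgroup.map_inf_eq _ _ _ (MulAut.conj h).injective, e2, e3, e1]
    rw [e4, Subgroup.card_map_of_injective (MulAut.conj h).injective]
    exact hS.odd_card

/-- `Q` contains an involution. -/
theorem ro_exists_invol [Finite G] (hS : Cfsg.IsRankOneSetup G Ω a t Q) :
    ∃ s ∈ Q, orderOf s = 2 := by
  have : Fact (Nat.Prime 2) := ⟨Nat.prime_two⟩
  obtain ⟨x, hx⟩ := exists_prime_orderOf_dvd_card' (G := Q) 2 (even_iff_two_dvd.mp hS.even_card)
  refine ⟨(x : G), x.2, ?_⟩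
  rw [← hx]
  exact (Subgroup.orderOf_coe x)

theorem ro_t_order (hS : Cfsg.IsRankOneSetup G Ω a t Q) : orderOf t = 2 :=
  orderOf_two_of_mul_self hS.mul_self hS.ne_one

end RankOne

end Cfsg.Agent.Lib.helper6
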