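import Mathlib
import Cfsg.Prelude.Def_LieRecognition
import Cfsg.Agent.Lib.helper6.RankOne
import Cfsg.Agent.Lib.helper6.SE

set_option autoImplicit false

namespace Cfsg.Agent.Lib.helper6

section RankOne2

open MulAction
open scoped Pointwise

variable {G Ω : Type*} [Group G] [Finite G] [MulAction G Ω] {a : Ω} {t : G} {Q : Subgroup G}

/-- An involution of `G_a` fixes only `a`. -/
theorem ro_invol_fix (hS : Cfsg.IsRankOneSetup G Ω a t Q) {s : G} (hs : orderOf s = 2)
    (hsH : s ∈ stabilizer G a) {c : Ω} (hc : s • c = c) : c = a := by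
  have h2 := hS.two_transitive
  have : IsPretransitive G Ω := MulAction.isPretransitive_of_is_two_pretransitive
  obtain ⟨g, rfl⟩ := MulAction.exists_smul_eq G a c
  have h1 : g⁻¹ * s * g⁻¹⁻¹ ∈ stabilizer G a := by
    rw [inv_inv, mem_stabilizer_iff, mul_smul, mul_smul, hc, inv_smul_smul]
  have h3 := se_mem_of_conj_mem (ro_se hS) hs hsH h1
  have h4 : g ∈ stabilizer G a := by simpa using inv_mem h3
  exact mem_stabilizer_iff.mp h4

/-- The `K`-conjugates of an involution of `G_a` are all the involutions of `G_a`. -/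
theorem ro_K_conj (hS : Cfsg.IsRankOneSetup G Ω a t Q) {s s' : G} (hs : orderOf s = 2)
    (hsH : s ∈ stabilizer G a) (hs' : orderOf s' = 2) (hs'H : s' ∈ stabilizer G a) :
    ∃ k ∈ Cfsg.invertedBy (stabilizer G a ⊓ stabilizer G (t • a)) t, k⁻¹ * s * k = s' := by
  have hSE := ro_se hS
  have hti := ro_tinv hS
  have huo : orderOf (t * s' * t⁻¹) = 2 := orderOf_conj_two t hs'
  have huH : t * s' * t⁻¹ ∉ stabilizer G a :=
    fun h => hS.not_mem (se_mem_of_conj_mem hSE hs' hs'H h)
  obtain ⟨i, hi, hc⟩ := se_exists_conj hSE hs huo hsH huH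
  have hii : i⁻¹ = i := inv_eq_self_of_mul_self hi
  have hconj : (i * t)⁻¹ * s * (i * t) = s' := by
    have h1 : (i * t)⁻¹ * s * (i * t) = t⁻¹ * (i⁻¹ * s * i⁻¹⁻¹) * t := by group
    rw [h1, hii, hc]; group
  have hkH : i * t ∈ stabilizer G a := by
    apply se_mem_of_conj_mem hSE hs' hs'H
    rw [← hconj]
    have : (i * t) * ((i * t)⁻¹ * s * (i * t)) * (i * t)⁻¹ = s := by group
    rw [this]; exact hsH
  have hia : i • a = t • a := by
    have h1 : s • (i⁻¹ • t • a) = i⁻¹ • t • a := by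
      have e : s = i⁻¹ * (i * s * i⁻¹) * i := by group
      have h2 : (i⁻¹ * (i * s * i⁻¹) * i) • (i⁻¹ • t • a) = i⁻¹ • t • a := by
        rw [hc, mul_smul, mul_smul, smul_inv_smul, mul_smul, mul_smul, inv_smul_smul,
          mem_stabilizer_iff.mp hs'H]
      rw [← e] at h2
      exact h2
    have h3 := ro_invol_fix hS hs hsH h1
    rw [inv_smul_eq_iff] at h3
    exact h3.symm
  refine ⟨i * t, ⟨⟨hkH, ?_⟩, ?_⟩, hconj⟩
  · show i * t ∈ stabilizer G (t • a)
    rw [mem_stabilizer_iff, mul_smul, ro_tt hS, hia]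
  · rw [mul_inv_rev, hti, hii]
    simp only [mul_assoc]
    rw [hS.mul_self, mul_one]

/-- `|K|` is the number of involutions of `G_a`. -/
theorem ro_card_K (hS : Cfsg.IsRankOneSetup G Ω a t Q) :
    Nat.card (Cfsg.invertedBy (stabilizer G a ⊓ stabilizer G (t • a)) t) =
      Nat.card {x : G // orderOf x = 2 ∧ x ∈ stabilizer G a} := by
  have hSE := ro_se hS
  have hti := ro_tinv hS
  have hne : (QuotientGroup.mk 1 : G ⧸ stabilizer G a) ≠ QuotientGroup.mk t := by
    intro h
    rw [QuotientGroup.eq] at h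
    apply hS.not_mem
    simpa using h
  rw [← se_count hSE _ _ hne]
  apply Nat.card_congr
  refine Equiv.subtypeEquiv (Equiv.mulRight t) ?_
  intro k
  simp only [Equiv.coe_mulRight]
  rw [MulAction.Quotient.smul_mk, smul_eq_mul, mul_one, QuotientGroup.eq]
  have hmem : (k * t)⁻¹ * t ∈ stabilizer G a ↔ k • t • a = t • a := by
    have e : (k * t)⁻¹ * t = t⁻¹ * k⁻¹ * t := by group
    rw [e, mem_stabilizer_iff, mul_smul, mul_smul, hti]
    constructor
    · intro h
      have h2 : t • (t • k⁻¹ • t • a) = t • a := by rw [h]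
      rw [← mul_smul t t, hS.mul_self, one_smul, inv_smul_eq_iff] at h2
      exact h2.symm
    · intro h
      have h2 : k⁻¹ • t • a = t • a := by rw [inv_smul_eq_iff]; exact h.symm
      rw [h2, ro_tt hS]
  constructor
  · rintro ⟨⟨hkH, hkb⟩, hinv⟩
    rw [hti] at hinv
    refine ⟨orderOf_two_of_mul_self ?_ ?_, hmem.mpr (mem_stabilizer_iff.mp hkb)⟩
    · have : k * t * (k * t) = k * (t * k * t) := by group
      rw [this, hinv, mul_inv_cancel]
    · intro h
      apply hS.not_mem
      have : t = k⁻¹ := eq_inv_of_mul_eq_one_right h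
      rw [this]; exact inv_mem hkH
  · rintro ⟨ho, hm⟩
    have hkb := hmem.mp hm
    have kk := mul_self_of_orderOf_two ho
    have hka : k • a = a := by
      have h1 : (k * t * (k * t)) • a = a := by rw [kk, one_smul]
      rw [mul_smul, mul_smul, mul_smul, hkb, ro_tt hS] at h1
      exact h1
    refine ⟨⟨mem_stabilizer_iff.mpr hka, mem_stabilizer_iff.mpr hkb⟩, ?_⟩
    rw [hti]
    have : t * k * t = k⁻¹ * (k * t * (k * t)) := by group
    rw [this, kk, mul_one]

end RankOne2

end Cfsg.Agent.Lib.helper6
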