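import Mathlib
import Cfsg.Prelude.Def_LieRecognition
import Cfsg.Agent.Lib.helper6.RankOne2
import Cfsg.Agent.Lib.helper6.OddInv

set_option autoImplicit false

namespace Cfsg.Agent.Lib.helper6

section RankOne3

open MulAction
open scoped Pointwise

variable {G Ω : Type*} [Group G] [Finite G] [MulAction G Ω] {a : Ω} {t : G} {Q : Subgroup G}

/-- Every involution of `G` has exactly one fixed point. -/
theorem ro_invol_fix_exists (hS : Cfsg.IsRankOneSetup G Ω a t Q) {u : G} (hu : orderOf u = 2) :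
    ∃ w : Ω, u • w = w ∧ ∀ c : Ω, u • c = c → c = w := by
  have hSE := ro_se hS
  obtain ⟨s₀, hs₀Q, hs₀⟩ := ro_exists_invol hS
  have hs₀H : s₀ ∈ stabilizer G a := hS.le hs₀Q
  have key : ∃ i s : G, orderOf s = 2 ∧ s ∈ stabilizer G a ∧ i * s * i⁻¹ = u := by
    by_cases huH : u ∈ stabilizer G a
    · exact ⟨1, u, hu, huH, by group⟩
    · obtain ⟨i, -, hc⟩ := se_exists_conj hSE hs₀ hu hs₀H huH
      exact ⟨i, s₀, hs₀, hs₀H, hc⟩
  obtain ⟨i, s, hs, hsH, rfl⟩ := key
  refine ⟨i • a, ?_, ?_⟩
  · rw [mul_smul, mul_smul, inv_smul_smul, mem_stabilizer_iff.mp hsH]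
  · intro c hc
    have h1 : s • (i⁻¹ • c) = i⁻¹ • c := by
      rw [mul_smul, mul_smul] at hc
      have h0 := congrArg (fun z => i⁻¹ • z) hc
      simp only [inv_smul_smul] at h0
      exact h0
    have h2 := ro_invol_fix hS hs hsH h1
    rw [inv_smul_eq_iff] at h2
    exact h2

/-- If an involution fixes two points they coincide. -/
theorem ro_invol_fix_unique (hS : Cfsg.IsRankOneSetup G Ω a t Q) {u : G} (hu : orderOf u = 2)
    {c c' : Ω} (hc : u • c = c) (hc' : u • c' = c') : c = c' := by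
  obtain ⟨w, -, hw⟩ := ro_invol_fix_exists hS hu
  rw [hw c hc, hw c' hc']

omit [Finite G] in
/-- Involutions of `G_a` lie in `Q`. -/
theorem ro_invol_mem_Q (hS : Cfsg.IsRankOneSetup G Ω a t Q) {s : G} (hss : s * s = 1)
    (hsH : s ∈ stabilizer G a) : s ∈ Q := by
  obtain ⟨x, hx, d, hd, rfl⟩ := ro_decomp hS hsH
  obtain ⟨k, hk⟩ := hS.odd_card
  have h1 : d * d = (x * (d * x * d⁻¹))⁻¹ := by
    have e : x * (d * x * d⁻¹) * (d * d) = x * d * (x * d) := by group
    rw [eq_inv_iff_mul_eq_one, mul_eq_one_iff_eq_inv.mpr]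
    rw [← inv_eq_iff_eq_inv, ← eq_inv_iff_mul_eq_one.mpr]
    rw [e, hss]
  have h2 : d * d = 1 :=
    ro_inf_D hS (h1 ▸ inv_mem (mul_mem hx (hS.conj_mem d hd.1 x hx))) (mul_mem hd hd)
  have h3 : d ^ (2 * k + 1) = 1 := odd_pow_card hk hd
  rw [pow_succ, pow_mul, pow_two, h2, one_pow, one_mul] at h3
  rw [h3, mul_one]
  exact hx

/-- A normal subgroup of odd order fixes the fixed point of a pair of commuting involutions. -/
theorem ro_odd_normal_fix (hS : Cfsg.IsRankOneSetup G Ω a t Q) {x y : G} (hx : orderOf x = 2)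
    (hy : orderOf y = 2) (hxy : x ≠ y) (hc : x * y = y * x) {p : Ω} (hxp : x • p = p)
    {N : Subgroup G} (hN : N.Normal) (hodd : (Nat.card N).Coprime 2) {n : G} (hn : n ∈ N) :
    n • p = p := by
  have hxx := mul_self_of_orderOf_two hx
  have hyy := mul_self_of_orderOf_two hy
  have hyi : y⁻¹ = y := inv_eq_self_of_mul_self hyy
  have hyp : y • p = p := by
    apply ro_invol_fix_unique hS hx _ hxp
    rw [← mul_smul, hc, mul_smul, hxp]
  have hv : orderOf (n * y * n⁻¹) = 2 := orderOf_conj_two n hy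
  have hvv := mul_self_of_orderOf_two hv
  have hvp : (n * y * n⁻¹) • (n • p) = n • p := by
    rw [mul_smul, mul_smul, inv_smul_smul, hyp]
  rcases Nat.even_or_odd (orderOf (x * (n * y * n⁻¹))) with heven | hodd'
  · obtain ⟨z, hz1, hzz, hxz, hvz, -, -⟩ :=
      exists_central_invol_of_even hxx hvv heven (orderOf_pos _).ne'
    have hz : orderOf z = 2 := orderOf_two_of_mul_self hzz hz1
    have hzp : z • p = p := by
      apply ro_invol_fix_unique hS hx _ hxp
      rw [← mul_smul, hxz, mul_smul, hxp]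
    have hznp : z • (n • p) = n • p := by
      apply ro_invol_fix_unique hS hv _ hvp
      rw [← mul_smul, hvz, mul_smul, hvp]
    exact ro_invol_fix_unique hS hz hznp hzp
  · exfalso
    obtain ⟨j, hj⟩ := hodd'
    have hpow : (x * (n * y * n⁻¹)) ^ (2 * j + 1) = 1 := by
      rw [← hj]; exact pow_orderOf_eq_one _
    have hφ : (QuotientGroup.mk' N) (x * (n * y * n⁻¹)) = (QuotientGroup.mk' N) (x * y) := by
      have h1 : (QuotientGroup.mk' N) n = 1 := (QuotientGroup.eq_one_iff n).mpr hn
      simp only [map_mul, map_inv, h1, one_mul, inv_one, mul_one]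
    have h2 : ((QuotientGroup.mk' N) (x * y)) ^ (2 * j + 1) = 1 := by
      rw [← hφ, ← map_pow, hpow, map_one]
    have h3 : ((QuotientGroup.mk' N) (x * y)) ^ 2 = 1 := by
      rw [← map_pow]
      have : (x * y) ^ 2 = 1 := by
        rw [pow_two]
        calc x * y * (x * y) = x * (y * x) * y := by group
          _ = x * (x * y) * y := by rw [hc]
          _ = (x * x) * (y * y) := by group
          _ = 1 := by rw [hxx, hyy, one_mul]
      rw [this, map_one]
    have h4 : (QuotientGroup.mk' N) (x * y) = 1 := by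
      rw [pow_succ, pow_mul, h3, one_pow, one_mul] at h2
      exact h2
    have h5 : x * y ∈ N := (QuotientGroup.eq_one_iff (x * y)).mp h4
    have h6 : orderOf (x * y) ∣ 2 := by
      apply orderOf_dvd_of_pow_eq_one
      rw [pow_two]
      calc x * y * (x * y) = x * (y * x) * y := by group
        _ = x * (x * y) * y := by rw [hc]
        _ = (x * x) * (y * y) := by group
        _ = 1 := by rw [hxx, hyy, one_mul]
    have h7 : orderOf (x * y) ∣ Nat.card N := by
      have := orderOf_dvd_natCard (⟨x * y, h5⟩ : N)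
      rwa [Subgroup.orderOf_mk] at this
    have h8 : orderOf (x * y) = 1 := Nat.eq_one_of_dvd_coprimes hodd h7 h6
    rw [orderOf_eq_one_iff] at h8
    apply hxy
    rw [← hyi]
    exact eq_inv_of_mul_eq_one_left h8

end RankOne3

end Cfsg.Agent.Lib.helper6
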