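import Mathlib
import Cfsg.Prelude.Def_LieRecognition
import Cfsg.Agent.Lib.helper6.RankOne3

set_option autoImplicit false

namespace Cfsg.Agent.Lib.helper6

section RankOne4

open MulAction
open scoped Pointwise

theorem exists_third {α : Type*} {b c d : α} (p₁ p₂ : α) (hbc : b ≠ c) (hbd : b ≠ d)
    (hcd : c ≠ d) : ∃ e, (e = b ∨ e = c ∨ e = d) ∧ e ≠ p₁ ∧ e ≠ p₂ := by
  by_cases h1 : b ≠ p₁ ∧ b ≠ p₂
  · exact ⟨b, Or.inl rfl, h1.1, h1.2⟩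
  by_cases h2 : c ≠ p₁ ∧ c ≠ p₂
  · exact ⟨c, Or.inr (Or.inl rfl), h2.1, h2.2⟩
  refine ⟨d, Or.inr (Or.inr rfl), ?_, ?_⟩
  · rintro rfl
    grind
  · rintro rfl
    grind

/-- In a group of odd order, an element inverted by another is trivial. -/
theorem odd_inverts_trivial {M : Type*} [Group M] {D : Subgroup M} {k : ℕ}
    (hk : Nat.card D = 2 * k + 1) {e x : M} (he : e ∈ D) (hx : x ∈ D) (h : e * x * e⁻¹ = x⁻¹) :
    x = 1 := by
  have h2 : ∀ n : ℕ, e ^ (2 * n) * x * (e ^ (2 * n))⁻¹ = x := by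
    intro n
    induction n with
    | zero => simp
    | succ n ih =>
      have e1 : e ^ (2 * (n + 1)) = e * e * e ^ (2 * n) := by
        have e0 : 2 * (n + 1) = 2 + 2 * n := by ring
        rw [e0, pow_add, pow_two]
      rw [e1]
      have e2 : e * e * e ^ (2 * n) * x * (e * e * e ^ (2 * n))⁻¹ =
          e * (e * (e ^ (2 * n) * x * (e ^ (2 * n))⁻¹) * e⁻¹) * e⁻¹ := by group
      rw [e2, ih, h]
      have e3 : e * x⁻¹ * e⁻¹ = (e * x * e⁻¹)⁻¹ := by group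
      rw [e3, h, inv_inv]
  have h3 : x = x⁻¹ := by
    have e1 : e ^ (2 * k + 1) = 1 := odd_pow_card hk he
    have e2 : e ^ (2 * k + 1) * x * (e ^ (2 * k + 1))⁻¹ = x⁻¹ := by
      rw [pow_succ']
      have e3 : e * e ^ (2 * k) * x * (e * e ^ (2 * k))⁻¹ =
          e * (e ^ (2 * k) * x * (e ^ (2 * k))⁻¹) * e⁻¹ := by group
      rw [e3, h2 k, h]
    rw [e1] at e2
    simpa using e2
  have h4 : x * x = 1 := by
    nth_rewrite 2 [h3]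
    exact mul_inv_cancel x
  have h5 : x ^ (2 * k + 1) = 1 := odd_pow_card hk hx
  rw [pow_succ, pow_mul, pow_two, h4, one_pow, one_mul] at h5
  exact h5

variable {G Ω : Type*} [Group G] [Finite G] [MulAction G Ω] {a : Ω} {t : G} {Q : Subgroup G}

omit [Finite G] in
/-- A point `e ≠ a` fixed by `Y ⊆ D` is `q • b₀` for some `q ∈ C_Q(Y)`. -/
theorem ro_fix_cent (hS : Cfsg.IsRankOneSetup G Ω a t Q) {Y : Set G}
    (hY : ∀ y ∈ Y, y ∈ stabilizer G a ⊓ stabilizer G (t • a)) {e : Ω} (he : e ≠ a)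
    (hYe : ∀ y ∈ Y, y • e = e) :
    ∃ q ∈ Q, q • (t • a) = e ∧ ∀ y ∈ Y, y * q = q * y := by
  obtain ⟨q, hq, hqe⟩ := ro_transitive hS he
  refine ⟨q, hq, hqe, ?_⟩
  intro y hy
  have hyD := hY y hy
  have h1 : y * q * y⁻¹ ∈ Q := hS.conj_mem y hyD.1 q hq
  have hyinv : y⁻¹ • (t • a) = t • a := by
    rw [inv_smul_eq_iff]; exact (mem_stabilizer_iff.mp hyD.2).symm
  have h2 : (q⁻¹ * (y * q * y⁻¹)) • (t • a) = t • a := by
    rw [mul_smul, mul_smul, mul_smul, hyinv, hqe, hYe y hy, ← hqe, inv_smul_smul]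
  have h3 := ro_semiregular hS (mul_mem (inv_mem hq) h1) (ro_ne hS) h2
  have h4 : y * q * y⁻¹ = q := by
    have : y * q * y⁻¹ = q * (q⁻¹ * (y * q * y⁻¹)) := by group
    rw [this, h3, mul_one]
  calc y * q = (y * q * y⁻¹) * y := by group
    _ = q * y := by rw [h4]

omit [Finite G] in
/-- If `X` fixes `c`, `c'`, `c''` with `c ≠ c'`, `c ≠ c''`, some element of `C_G(X)` fixes `c` and
maps `c'` to `c''`. -/
theorem ro_cent_trans1 (hS : Cfsg.IsRankOneSetup G Ω a t Q) {X : Set G} {c c' c'' : Ω}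
    (hc : ∀ x ∈ X, x • c = c) (hc' : ∀ x ∈ X, x • c' = c') (hc'' : ∀ x ∈ X, x • c'' = c'')
    (h1 : c ≠ c') (h2 : c ≠ c'') :
    ∃ g ∈ Subgroup.centralizer X, g • c = c ∧ g • c' = c'' := by
  have h2t : ∀ {a b c d : Ω}, a ≠ b → c ≠ d → ∃ g : G, g • a = c ∧ g • b = d :=
    MulAction.is_two_pretransitive_iff.mp hS.two_transitive
  obtain ⟨g₀, hg₀a, hg₀b⟩ := h2t (Ne.symm (ro_ne hS)) h1
  have hg₀a' : g₀⁻¹ • c = a := by rw [inv_smul_eq_iff]; exact hg₀a.symm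
  have hg₀b' : g₀⁻¹ • c' = t • a := by rw [inv_smul_eq_iff]; exact hg₀b.symm
  have hY : ∀ y ∈ (fun x => g₀⁻¹ * x * g₀) '' X, y ∈ stabilizer G a ⊓ stabilizer G (t • a) := by
    rintro y ⟨x, hx, rfl⟩
    refine ⟨?_, ?_⟩
    · show g₀⁻¹ * x * g₀ ∈ stabilizer G a
      rw [mem_stabilizer_iff, mul_smul, mul_smul, hg₀a, hc x hx, hg₀a']
    · show g₀⁻¹ * x * g₀ ∈ stabilizer G (t • a)
      rw [mem_stabilizer_iff, mul_smul, mul_smul, hg₀b, hc' x hx, hg₀b']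
  have he : g₀⁻¹ • c'' ≠ a := by
    intro h
    rw [inv_smul_eq_iff, hg₀a] at h
    exact h2 h.symm
  have hYe : ∀ y ∈ (fun x => g₀⁻¹ * x * g₀) '' X, y • (g₀⁻¹ • c'') = g₀⁻¹ • c'' := by
    rintro y ⟨x, hx, rfl⟩
    rw [mul_smul, mul_smul, smul_inv_smul, hc'' x hx]
  obtain ⟨q, hq, hqe, hqc⟩ := ro_fix_cent hS hY he hYe
  refine ⟨g₀ * q * g₀⁻¹, ?_, ?_, ?_⟩
  · rw [Subgroup.mem_centralizer_iff]
    intro x hx
    have h3 := hqc (g₀⁻¹ * x * g₀) ⟨x, hx, rfl⟩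
    calc x * (g₀ * q * g₀⁻¹) = g₀ * ((g₀⁻¹ * x * g₀) * q) * g₀⁻¹ := by group
      _ = g₀ * (q * (g₀⁻¹ * x * g₀)) * g₀⁻¹ := by rw [h3]
      _ = g₀ * q * g₀⁻¹ * x := by group
  · rw [mul_smul, mul_smul, hg₀a', mem_stabilizer_iff.mp (hS.le hq), hg₀a]
  · rw [mul_smul, mul_smul, hg₀b', hqe, smul_inv_smul]

omit [Finite G] in
/-- `C_G(X)` is transitive on the fixed points of `X` if there are at least three. -/
theorem ro_cent_trans (hS : Cfsg.IsRankOneSetup G Ω a t Q) {X : Set G}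
    (h3 : ∃ b c d : Ω, b ≠ c ∧ b ≠ d ∧ c ≠ d ∧ ∀ x ∈ X, x • b = b ∧ x • c = c ∧ x • d = d)
    {p₁ p₂ : Ω} (hp₁ : ∀ x ∈ X, x • p₁ = p₁) (hp₂ : ∀ x ∈ X, x • p₂ = p₂) :
    ∃ g ∈ Subgroup.centralizer X, g • p₁ = p₂ := by
  by_cases h : p₁ = p₂
  · exact ⟨1, one_mem _, by rw [one_smul, h]⟩
  obtain ⟨b, c, d, hbc, hbd, hcd, hfix⟩ := h3
  obtain ⟨e, he, he1, he2⟩ := exists_third p₁ p₂ hbc hbd hcd
  have hefix : ∀ x ∈ X, x • e = e := by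
    intro x hx
    rcases he with rfl | rfl | rfl
    · exact (hfix x hx).1
    · exact (hfix x hx).2.1
    · exact (hfix x hx).2.2
  obtain ⟨g, hg, -, hg2⟩ := ro_cent_trans1 hS hefix hp₁ hp₂ he1 he2
  exact ⟨g, hg, hg2⟩

omit [Finite G] in
/-- `C_G(X)` is doubly transitive on the fixed points of `X` if there are at least three. -/
theorem ro_cent_two_trans (hS : Cfsg.IsRankOneSetup G Ω a t Q) {X : Set G}
    (h3 : ∃ b c d : Ω, b ≠ c ∧ b ≠ d ∧ c ≠ d ∧ ∀ x ∈ X, x • b = b ∧ x • c = c ∧ x • d = d)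
    {b₁ b₂ c₁ c₂ : Ω} (hb₁ : ∀ x ∈ X, x • b₁ = b₁) (hb₂ : ∀ x ∈ X, x • b₂ = b₂)
    (hc₁ : ∀ x ∈ X, x • c₁ = c₁) (hc₂ : ∀ x ∈ X, x • c₂ = c₂) (hb : b₁ ≠ b₂) (hc : c₁ ≠ c₂) :
    ∃ g ∈ Subgroup.centralizer X, g • b₁ = c₁ ∧ g • b₂ = c₂ := by
  obtain ⟨g₁, hg₁, hg₁b⟩ := ro_cent_trans hS h3 hb₁ hc₁
  have hfix : ∀ x ∈ X, x • (g₁ • b₂) = g₁ • b₂ := by
    intro x hx
    rw [← mul_smul, (Subgroup.mem_centralizer_iff.mp hg₁) x hx, mul_smul, hb₂ x hx]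
  have hne : c₁ ≠ g₁ • b₂ := by
    intro h
    rw [← hg₁b] at h
    exact hb (smul_left_cancel g₁ h)
  obtain ⟨g₂, hg₂, hg₂1, hg₂2⟩ := ro_cent_trans1 hS hc₁ hfix hc₂ hne hc
  refine ⟨g₂ * g₁, mul_mem hg₂ hg₁, ?_, ?_⟩
  · rw [mul_smul, hg₁b, hg₂1]
  · rw [mul_smul, hg₂2]

omit [Finite G] in
/-- If `X ⊆ D` fixes at least three points, `C_G(X)` contains an involution swapping `a` and
`t • a`. -/
theorem ro_cent_swap_invol (hS : Cfsg.IsRankOneSetup G Ω a t Q) {X : Set G}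
    (hX : ∀ x ∈ X, x ∈ stabilizer G a ⊓ stabilizer G (t • a))
    (h3 : ∃ b c d : Ω, b ≠ c ∧ b ≠ d ∧ c ≠ d ∧ ∀ x ∈ X, x • b = b ∧ x • c = c ∧ x • d = d) :
    ∃ u ∈ Subgroup.centralizer X, orderOf u = 2 ∧ u • a = t • a ∧ u • (t • a) = a := by
  have hXa : ∀ x ∈ X, x • a = a := fun x hx => mem_stabilizer_iff.mp (hX x hx).1
  have hXb : ∀ x ∈ X, x • (t • a) = t • a := fun x hx => mem_stabilizer_iff.mp (hX x hx).2
  obtain ⟨g₀, hg₀, hg₀a, hg₀b⟩ :=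
    ro_cent_two_trans hS h3 hXa hXb hXb hXa (Ne.symm (ro_ne hS)) (ro_ne hS)
  obtain ⟨k, hk⟩ := hS.odd_card
  have hggD : g₀ * g₀ ∈ stabilizer G a ⊓ stabilizer G (t • a) := by
    refine ⟨mem_stabilizer_iff.mpr ?_, mem_stabilizer_iff.mpr ?_⟩
    · rw [mul_smul, hg₀a, hg₀b]
    · rw [mul_smul, hg₀b, hg₀a]
  have hpow : (g₀ * g₀) ^ (2 * k + 1) = 1 := odd_pow_card hk hggD
  have hu_eq : g₀ ^ (2 * k + 1) = (g₀ * g₀) ^ k * g₀ := by
    rw [pow_succ, pow_mul, pow_two]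
  have hua : g₀ ^ (2 * k + 1) • a = t • a := by
    rw [hu_eq, mul_smul, hg₀a]
    exact mem_stabilizer_iff.mp (pow_mem hggD k).2
  have hub : g₀ ^ (2 * k + 1) • (t • a) = a := by
    rw [hu_eq, mul_smul, hg₀b]
    exact mem_stabilizer_iff.mp (pow_mem hggD k).1
  have huu : g₀ ^ (2 * k + 1) * g₀ ^ (2 * k + 1) = 1 := by
    rw [← (Commute.refl g₀).mul_pow]; exact hpow
  have hu1 : g₀ ^ (2 * k + 1) ≠ 1 := by
    intro h
    rw [h, one_smul] at hua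
    exact ro_ne hS hua.symm
  exact ⟨g₀ ^ (2 * k + 1), pow_mem hg₀ _, orderOf_two_of_mul_self huu hu1, hua, hub⟩

omit [Finite G] in
/-- A subset of `D` fixing at least three points is `D`-conjugate into `C_D(t)`. -/
theorem ro_conj_into_V (hS : Cfsg.IsRankOneSetup G Ω a t Q) {X : Set G}
    (hX : ∀ x ∈ X, x ∈ stabilizer G a ⊓ stabilizer G (t • a))
    (h3 : ∃ b c d : Ω, b ≠ c ∧ b ≠ d ∧ c ≠ d ∧ ∀ x ∈ X, x • b = b ∧ x • c = c ∧ x • d = d) :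
    ∃ k ∈ stabilizer G a ⊓ stabilizer G (t • a),
      ∀ x ∈ X, (k * x * k⁻¹) * t = t * (k * x * k⁻¹) := by
  obtain ⟨u, huC, hu, hua, hub⟩ := ro_cent_swap_invol hS hX h3
  have huu := mul_self_of_orderOf_two hu
  have hui : u⁻¹ = u := inv_eq_self_of_mul_self huu
  have hti := ro_tinv hS
  have hk₀D : u * t ∈ stabilizer G a ⊓ stabilizer G (t • a) := by
    refine ⟨mem_stabilizer_iff.mpr ?_, mem_stabilizer_iff.mpr ?_⟩
    · rw [mul_smul, hub]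
    · rw [mul_smul, ro_tt hS, hua]
  have hk₀inv : t * (u * t) * t⁻¹ = (u * t)⁻¹ := by
    rw [mul_inv_rev, hti, hui]
    simp only [mul_assoc]
    rw [hS.mul_self, mul_one]
  obtain ⟨m, hm⟩ := hS.odd_card
  have hodd : Odd (orderOf (u * t)) := by
    have h1 : orderOf (u * t) ∣ 2 * m + 1 := orderOf_dvd_of_pow_eq_one (odd_pow_card hm hk₀D)
    exact Odd.of_dvd_nat ⟨m, rfl⟩ h1
  obtain ⟨n, hn⟩ := odd_sqrt hodd
  have hk₁D : (u * t) ^ n ∈ stabilizer G a ⊓ stabilizer G (t • a) := pow_mem hk₀D n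
  have hk₁inv : t * (u * t) ^ n * t⁻¹ = ((u * t) ^ n)⁻¹ := inv_pow_of_inv hk₀inv n
  have hconj : u = (u * t) ^ n * t * ((u * t) ^ n)⁻¹ := by
    rw [← sq_mul_eq_conj hS.mul_self hk₁inv, hn, mul_assoc, hS.mul_self, mul_one]
  refine ⟨((u * t) ^ n)⁻¹, inv_mem hk₁D, ?_⟩
  intro x hx
  have hxu : x * u = u * x := (Subgroup.mem_centralizer_iff.mp huC) x hx
  rw [inv_inv]
  generalize (u * t) ^ n = k₁ at hconj
  rw [hconj] at hxu
  calc k₁⁻¹ * x * k₁ * t = k₁⁻¹ * (x * (k₁ * t * k₁⁻¹)) * k₁ := by group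
    _ = k₁⁻¹ * (k₁ * t * k₁⁻¹ * x) * k₁ := by rw [hxu]
    _ = t * (k₁⁻¹ * x * k₁) := by group

omit [Finite G] in
/-- Non-identity elements of `D` inverted by `t` act fixed-point-freely on `Q`. -/
theorem ro_inverted_fpf (hS : Cfsg.IsRankOneSetup G Ω a t Q) {x : G}
    (hx : x ∈ Cfsg.invertedBy (stabilizer G a ⊓ stabilizer G (t • a)) t) (hx1 : x ≠ 1) :
    Q ⊓ Subgroup.centralizer {x} = ⊥ := by
  obtain ⟨hxD, hxinv⟩ := hx
  rw [Subgroup.eq_bot_iff_forall]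
  rintro q ⟨hq, hqx⟩
  have hqx' : q * x = x * q := Subgroup.mem_centralizer_singleton_iff.mp hqx
  by_contra hq1
  have hXD : ∀ y ∈ ({x} : Set G), y ∈ stabilizer G a ⊓ stabilizer G (t • a) := by
    rintro y rfl; exact hxD
  have h3 : ∃ b c d : Ω, b ≠ c ∧ b ≠ d ∧ c ≠ d ∧
      ∀ y ∈ ({x} : Set G), y • b = b ∧ y • c = c ∧ y • d = d := by
    refine ⟨a, t • a, q • (t • a), Ne.symm (ro_ne hS), Ne.symm (ro_smul_ne hS (hS.le hq)), ?_, ?_⟩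
    · intro h
      exact hq1 (ro_semiregular hS hq (ro_ne hS) h.symm)
    · rintro y rfl
      refine ⟨mem_stabilizer_iff.mp hxD.1, mem_stabilizer_iff.mp hxD.2, ?_⟩
      rw [← mul_smul, ← hqx', mul_smul, mem_stabilizer_iff.mp hxD.2]
  obtain ⟨k, hkD, hk⟩ := ro_conj_into_V hS hXD h3
  have hkx := hk x rfl
  obtain ⟨m, hm⟩ := hS.odd_card
  have heD : k * (t * k⁻¹ * t) ∈ stabilizer G a ⊓ stabilizer G (t • a) :=
    mul_mem hkD (ro_t_conj_D hS (inv_mem hkD))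
  have hti := ro_tinv hS
  have hinv : (k * (t * k⁻¹ * t)) * (k * x * k⁻¹) * (k * (t * k⁻¹ * t))⁻¹ = (k * x * k⁻¹)⁻¹ := by
    have e1 : (k * (t * k⁻¹ * t⁻¹)) * (k * x * k⁻¹) * (k * (t * k⁻¹ * t⁻¹))⁻¹ =
        k * t * k⁻¹ * (t⁻¹ * (k * x * k⁻¹) * t) * (k * t * k⁻¹)⁻¹ := by group
    have e2 : t⁻¹ * (k * x * k⁻¹) * t = k * x * k⁻¹ := by
      calc t⁻¹ * (k * x * k⁻¹) * t = t⁻¹ * ((k * x * k⁻¹) * t) := by group
        _ = t⁻¹ * (t * (k * x * k⁻¹)) := by rw [hkx]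
        _ = k * x * k⁻¹ := by group
    rw [e2] at e1
    have e3 : k * t * k⁻¹ * (k * x * k⁻¹) * (k * t * k⁻¹)⁻¹ = k * (t * x * t⁻¹) * k⁻¹ := by group
    rw [e3, hxinv, hti] at e1
    rw [e1]; group
  have h4 : k * x * k⁻¹ = 1 :=
    odd_inverts_trivial hm heD (mul_mem (mul_mem hkD hxD) (inv_mem hkD)) hinv
  apply hx1
  have : x = k⁻¹ * (k * x * k⁻¹) * k := by group
  rw [this, h4]; group

/-- If `X ⊆ D` fixes at least three points then `|C_Q(X)|` is even. -/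
theorem ro_cent_Q_even (hS : Cfsg.IsRankOneSetup G Ω a t Q) {X : Set G}
    (hX : ∀ x ∈ X, x ∈ stabilizer G a ⊓ stabilizer G (t • a))
    (h3 : ∃ b c d : Ω, b ≠ c ∧ b ≠ d ∧ c ≠ d ∧ ∀ x ∈ X, x • b = b ∧ x • c = c ∧ x • d = d) :
    Even (Nat.card ↥(Subgroup.centralizer X ⊓ Q)) := by
  have hXa : ∀ x ∈ X, x • a = a := fun x hx => mem_stabilizer_iff.mp (hX x hx).1
  obtain ⟨u, huC, hu, -, -⟩ := ro_cent_swap_invol hS hX h3
  obtain ⟨w, huw, hwu⟩ := ro_invol_fix_exists hS hu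
  have hXw : ∀ x ∈ X, x • w = w := by
    intro x hx
    apply hwu
    rw [← mul_smul, ← (Subgroup.mem_centralizer_iff.mp huC) x hx, mul_smul, huw]
  obtain ⟨g, hg, hgw⟩ := ro_cent_trans hS h3 hXw hXa
  have hu' : orderOf (g * u * g⁻¹) = 2 := orderOf_conj_two g hu
  have hu'C : g * u * g⁻¹ ∈ Subgroup.centralizer X := mul_mem (mul_mem hg huC) (inv_mem hg)
  have hu'H : g * u * g⁻¹ ∈ stabilizer G a := by
    rw [mem_stabilizer_iff, mul_smul, mul_smul, ← hgw, inv_smul_smul, huw]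
  have hu'Q : g * u * g⁻¹ ∈ Q := ro_invol_mem_Q hS (mul_self_of_orderOf_two hu') hu'H
  have h1 : orderOf (⟨g * u * g⁻¹, Subgroup.mem_inf.mpr ⟨hu'C, hu'Q⟩⟩ :
      ↥(Subgroup.centralizer X ⊓ Q)) = 2 := by
    rw [Subgroup.orderOf_mk]; exact hu'
  rw [even_iff_two_dvd, ← h1]
  exact orderOf_dvd_natCard _

omit [Finite G] in
/-- `C_{G_a}(X) = C_Q(X) C_D(X)` for `X ⊆ D`. -/
theorem ro_cent_stab (hS : Cfsg.IsRankOneSetup G Ω a t Q) {X : Set G}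
    (hX : ∀ x ∈ X, x ∈ stabilizer G a ⊓ stabilizer G (t • a)) :
    (Subgroup.centralizer X ⊓ Q) ⊔
        (Subgroup.centralizer X ⊓ (stabilizer G a ⊓ stabilizer G (t • a))) =
      Subgroup.centralizer X ⊓ stabilizer G a := by
  apply le_antisymm
  · apply sup_le
    · exact inf_le_inf_left _ hS.le
    · exact inf_le_inf_left _ inf_le_left
  · intro h hh
    obtain ⟨hhC, hhH⟩ := Subgroup.mem_inf.mp hh
    have hhC' := Subgroup.mem_centralizer_iff.mp hhC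
    have hXe : ∀ x ∈ X, x • (h • (t • a)) = h • (t • a) := by
      intro x hx
      rw [← mul_smul, hhC' x hx, mul_smul, mem_stabilizer_iff.mp (hX x hx).2]
    obtain ⟨q, hq, hqe, hqc⟩ := ro_fix_cent hS hX (ro_smul_ne hS hhH) hXe
    have hqC : q ∈ Subgroup.centralizer X := Subgroup.mem_centralizer_iff.mpr hqc
    have e : h = q * (q⁻¹ * h) := by group
    rw [e]
    apply Subgroup.mul_mem_sup
    · exact Subgroup.mem_inf.mpr ⟨hqC, hq⟩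
    · refine Subgroup.mem_inf.mpr ⟨mul_mem (inv_mem hqC) hhC,
        Subgroup.mem_inf.mpr ⟨mul_mem (inv_mem (hS.le hq)) hhH, ?_⟩⟩
      rw [mem_stabilizer_iff, mul_smul, ← hqe, inv_smul_smul]

end RankOne4

end Cfsg.Agent.Lib.helper6
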