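import Mathlib
import Cfsg.Prelude.Def_LieRecognition
import Cfsg.Agent.Lib.helper6.RankOne4

set_option autoImplicit false

namespace Cfsg.Agent.Lib.helper6

section RankOne5

open MulAction
open scoped Pointwise

variable {G Ω : Type*} [Group G] [Finite G] [MulAction G Ω] {a : Ω} {t : G} {Q : Subgroup G}

/-- `K` acts regularly (by conjugation) on the involutions of `G_a`: injectivity. -/
theorem ro_K_conj_inj (hS : Cfsg.IsRankOneSetup G Ω a t Q) {s : G} (hs : orderOf s = 2)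
    (hsH : s ∈ stabilizer G a) {k₁ k₂ : G}
    (hk₁ : k₁ ∈ Cfsg.invertedBy (stabilizer G a ⊓ stabilizer G (t • a)) t)
    (hk₂ : k₂ ∈ Cfsg.invertedBy (stabilizer G a ⊓ stabilizer G (t • a)) t)
    (h : k₁⁻¹ * s * k₁ = k₂⁻¹ * s * k₂) : k₁ = k₂ := by
  have hmem : ∀ k ∈ Cfsg.invertedBy (stabilizer G a ⊓ stabilizer G (t • a)) t,
      orderOf (k⁻¹ * s * k) = 2 ∧ k⁻¹ * s * k ∈ stabilizer G a := by
    rintro k ⟨hkD, -⟩
    exact ⟨orderOf_conj_two' k hs, mul_mem (mul_mem (inv_mem hkD.1) hsH) hkD.1⟩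
  let f : ↥(Cfsg.invertedBy (stabilizer G a ⊓ stabilizer G (t • a)) t) →
      {x : G // orderOf x = 2 ∧ x ∈ stabilizer G a} :=
    fun k => ⟨(k : G)⁻¹ * s * (k : G), hmem k k.2⟩
  have hsurj : Function.Surjective f := by
    rintro ⟨s', hs', hs'H⟩
    obtain ⟨k, hk, hks⟩ := ro_K_conj hS hs hsH hs' hs'H
    exact ⟨⟨k, hk⟩, Subtype.ext hks⟩
  have hbij : Function.Bijective f :=
    (Nat.bijective_iff_surjective_and_card f).mpr ⟨hsurj, ro_card_K hS⟩
  have h1 : f ⟨k₁, hk₁⟩ = f ⟨k₂, hk₂⟩ := Subtype.ext h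
  exact congrArg Subtype.val (hbij.1 h1)

/-- `|D| = |C_D(s)| |K|` for an involution `s` of `G_a`. -/
theorem ro_card_D_cent (hS : Cfsg.IsRankOneSetup G Ω a t Q) {s : G} (hs : orderOf s = 2)
    (hsH : s ∈ stabilizer G a) :
    Nat.card ↥(stabilizer G a ⊓ stabilizer G (t • a)) =
      Nat.card ↥((stabilizer G a ⊓ stabilizer G (t • a)) ⊓ Subgroup.centralizer {s}) *
        Nat.card (Cfsg.invertedBy (stabilizer G a ⊓ stabilizer G (t • a)) t) := by
  rw [← Nat.card_prod]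
  symm
  apply Nat.card_eq_of_bijective
    (fun p : ↥((stabilizer G a ⊓ stabilizer G (t • a)) ⊓ Subgroup.centralizer {s}) ×
        ↥(Cfsg.invertedBy (stabilizer G a ⊓ stabilizer G (t • a)) t) =>
      (⟨(p.1 : G) * (p.2 : G), mul_mem p.1.2.1 p.2.2.1⟩ :
        ↥(stabilizer G a ⊓ stabilizer G (t • a))))
  constructor
  · rintro ⟨⟨c, hc⟩, ⟨k, hk⟩⟩ ⟨⟨c', hc'⟩, ⟨k', hk'⟩⟩ h
    have e : c * k = c' * k' := congrArg Subtype.val h
    have hcs : c * s = s * c := Subgroup.mem_centralizer_singleton_iff.mp hc.2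
    have hcs' : c' * s = s * c' := Subgroup.mem_centralizer_singleton_iff.mp hc'.2
    have key : ∀ c k : G, c * s = s * c → (c * k)⁻¹ * s * (c * k) = k⁻¹ * s * k := by
      intro c k hcs
      calc (c * k)⁻¹ * s * (c * k) = k⁻¹ * c⁻¹ * (s * c) * k := by group
        _ = k⁻¹ * c⁻¹ * (c * s) * k := by rw [hcs]
        _ = k⁻¹ * s * k := by group
    have h1 : k⁻¹ * s * k = k'⁻¹ * s * k' := by
      rw [← key c k hcs, ← key c' k' hcs', e]
    have hkk : k = k' := ro_K_conj_inj hS hs hsH hk hk' h1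
    subst hkk
    have hcc : c = c' := mul_right_cancel e
    subst hcc
    rfl
  · rintro ⟨d, hd⟩
    have hs' : orderOf (d⁻¹ * s * d) = 2 := orderOf_conj_two' d hs
    have hs'H : d⁻¹ * s * d ∈ stabilizer G a := mul_mem (mul_mem (inv_mem hd.1) hsH) hd.1
    obtain ⟨k, hk, hks⟩ := ro_K_conj hS hs hsH hs' hs'H
    have hcD : d * k⁻¹ ∈ stabilizer G a ⊓ stabilizer G (t • a) := mul_mem hd (inv_mem hk.1)
    have hcs : (d * k⁻¹) * s = s * (d * k⁻¹) := by
      calc (d * k⁻¹) * s = d * (k⁻¹ * s * k) * k⁻¹ := by group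
        _ = d * (d⁻¹ * s * d) * k⁻¹ := by rw [hks]
        _ = s * (d * k⁻¹) := by group
    refine ⟨(⟨d * k⁻¹, ⟨hcD, Subgroup.mem_centralizer_singleton_iff.mpr hcs⟩⟩, ⟨k, hk⟩), ?_⟩
    apply Subtype.ext
    show d * k⁻¹ * k = d
    group

end RankOne5

end Cfsg.Agent.Lib.helper6
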