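import Mathlib
import Cfsg.Agent.Lib.helper4.SpSimple
import Cfsg.Agent.Lib.helper4.SpTv
import Cfsg.Agent.Lib.helper6.TvRootSub
import Cfsg.Agent.S0765
import Cfsg.Agent.S0766

set_option autoImplicit false

/-! Symplectic transvection subgroups as a degenerate class of abstract root subgroups. -/

namespace Cfsg.Agent.Lib.helper6.SpRootSub

open Matrix Cfsg Cfsg.Agent.Lib.helper4 Cfsg.Agent.S0766
open Cfsg.Agent.Lib.helper6.TvRootSub (mem_conjBy conjBy_mul conjBy_one upT loT upT_00 upT_01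
  upT_10 upT_11 loT_00 loT_01 loT_10 loT_11)

variable {F : Type*} [Field F] {m : ℕ}

theorem tv_inv' (p : Fin m ⊕ Fin m → F) (c : F) : (tv p c)⁻¹ = tv p (-c) :=
  inv_eq_of_mul_eq_one_right (tv_mul_neg p c)

/-- the group of symplectic transvections with centre `p` -/
def TS (p : Fin m ⊕ Fin m → F) : Subgroup (Matrix.symplecticGroup (Fin m) F) where
  carrier := {x | ∃ c : F, x = tv p c}
  mul_mem' := by
    rintro _ _ ⟨s, rfl⟩ ⟨t, rfl⟩
    exact ⟨s + t, tv_add p s t⟩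
  one_mem' := ⟨0, (tv_zero_right p).symm⟩
  inv_mem' := by
    rintro _ ⟨s, rfl⟩
    exact ⟨-s, tv_inv' p s⟩

theorem tv_mem_TS (p : Fin m ⊕ Fin m → F) (c : F) : tv p c ∈ TS p := ⟨c, rfl⟩

theorem tv_act (p : Fin m ⊕ Fin m → F) (c : F) (x : Fin m ⊕ Fin m → F) :
    ((tv p c : Matrix.symplecticGroup (Fin m) F) : Matrix (Fin m ⊕ Fin m) (Fin m ⊕ Fin m) F) *ᵥ x
      = x + (c * sympForm m F x p) • p := by
  rw [tv_val, tv_apply]

theorem one_act (x : Fin m ⊕ Fin m → F) :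
    ((1 : Matrix.symplecticGroup (Fin m) F) : Matrix (Fin m ⊕ Fin m) (Fin m ⊕ Fin m) F) *ᵥ x
      = x := by
  show (1 : Matrix (Fin m ⊕ Fin m) (Fin m ⊕ Fin m) F) *ᵥ x = x
  rw [one_mulVec]

theorem TS_comm (p : Fin m ⊕ Fin m → F) : IsMulCommutative (TS p) := by
  refine ⟨⟨?_⟩⟩
  rintro ⟨_, ⟨s, rfl⟩⟩ ⟨_, ⟨t, rfl⟩⟩
  apply Subtype.ext
  show tv p s * tv p t = tv p t * tv p s
  rw [tv_add, tv_add, add_comm]

theorem TS_nilp (p : Fin m ⊕ Fin m → F) : Group.IsNilpotent (TS p) :=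
  ⟨⟨1, Subgroup.upperCentralSeries_one_eq_top_iff.2 (TS_comm p)⟩⟩

theorem tv_ne_one' (p : Fin m ⊕ Fin m → F) (hp : p ≠ 0) (c : F) (hc : c ≠ 0) : tv p c ≠ 1 := by
  intro h
  obtain ⟨x, hx⟩ := exists_sf_eq_one p hp
  have h2 := congrArg (fun A : Matrix.symplecticGroup (Fin m) F =>
    (A : Matrix (Fin m ⊕ Fin m) (Fin m ⊕ Fin m) F) *ᵥ x) h
  simp only [tv_act, hx, mul_one, one_act] at h2
  have h4 : c • p = 0 := by
    have : x + c • p = x + 0 := by rw [h2, add_zero]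
    exact add_left_cancel this
  rcases smul_eq_zero.1 h4 with h5 | h5
  · exact hc h5
  · exact hp h5

theorem TS_ne_bot (p : Fin m ⊕ Fin m → F) (hp : p ≠ 0) : TS p ≠ ⊥ := by
  intro hb
  have h1 : tv p 1 ∈ TS p := tv_mem_TS p 1
  rw [hb, Subgroup.mem_bot] at h1
  exact tv_ne_one' p hp 1 one_ne_zero h1

theorem conjBy_TS (g : Matrix.symplecticGroup (Fin m) F) (p : Fin m ⊕ Fin m → F) :
    conjBy (TS p) g = TS ((g : Matrix (Fin m ⊕ Fin m) (Fin m ⊕ Fin m) F) *ᵥ p) := by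
  ext x
  rw [mem_conjBy]
  constructor
  · rintro ⟨_, ⟨c, rfl⟩, rfl⟩
    exact ⟨c, by rw [tv_conj, mul_inv_cancel_right]⟩
  · rintro ⟨c, rfl⟩
    exact ⟨tv p c, ⟨c, rfl⟩, by rw [tv_conj, mul_inv_cancel_right]⟩

theorem TS_smul (a : F) (ha : a ≠ 0) (p : Fin m ⊕ Fin m → F) : TS (a • p) = TS p := by
  ext x
  constructor
  · rintro ⟨c, rfl⟩
    exact ⟨a * a * c, tv_smul p a c⟩
  · rintro ⟨c, rfl⟩
    refine ⟨c / (a * a), ?_⟩
    rw [tv_smul]
    congr 1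
    field_simp

theorem exists_map (p q : Fin m ⊕ Fin m → F) (hp : p ≠ 0) (hq : q ≠ 0) :
    ∃ g : Matrix.symplecticGroup (Fin m) F,
      (g : Matrix (Fin m ⊕ Fin m) (Fin m ⊕ Fin m) F) *ᵥ p = q := by
  obtain ⟨x, hx⟩ := exists_sf_eq_one p hp
  obtain ⟨y, hy⟩ := exists_sf_eq_one q hq
  have h1 : sympForm m F p (-x) = 1 := by
    rw [← neg_one_smul F x, sf_smul_right, sf_anti, hx]
    ring
  have h2 : sympForm m F q (-y) = 1 := by
    rw [← neg_one_smul F y, sf_smul_right, sf_anti, hy]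
    ring
  obtain ⟨A, -, hA, -⟩ := Cfsg.Agent.S0766.result m p (-x) q (-y) h1 h2
  exact ⟨A, hA⟩

theorem tv_comm' (p q : Fin m ⊕ Fin m → F) (h : sympForm m F p q = 0) (s t : F) :
    tv p s * tv q t = tv q t * tv p s := by
  have h' : sympForm m F q p = 0 := by rw [sf_anti, h, neg_zero]
  apply sp_ext
  intro x
  rw [val_mul, val_mul, ← Matrix.mulVec_mulVec, ← Matrix.mulVec_mulVec]
  simp only [tv_act, sf_add_left, sf_smul_left, h, h', mul_zero, add_zero]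
  abel

theorem comm_bot' (p q : Fin m ⊕ Fin m → F) (h : sympForm m F p q = 0) : ⁅TS p, TS q⁆ = ⊥ := by
  rw [Subgroup.commutator_eq_bot_iff_le_centralizer]
  rintro _ ⟨s, rfl⟩
  rw [Subgroup.mem_centralizer_iff]
  rintro _ ⟨t, rfl⟩
  exact (tv_comm' p q h s t).symm

theorem tv_comm_imp (p q : Fin m ⊕ Fin m → F) (hq : q ≠ 0) (s t : F) (hs : s ≠ 0) (ht : t ≠ 0)
    (h : tv p s * tv q t = tv q t * tv p s) : sympForm m F p q = 0 := by
  have h2 := congrArg (fun A : Matrix.symplecticGroup (Fin m) F =>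
    (A : Matrix (Fin m ⊕ Fin m) (Fin m ⊕ Fin m) F) *ᵥ q) h
  simp only [val_mul, ← Matrix.mulVec_mulVec, tv_act, sf_self, sf_add_left, sf_smul_left, mul_zero,
    zero_smul, add_zero, zero_add] at h2
  have h3 : (t * (s * sympForm m F q p * sympForm m F p q)) • q = 0 := by
    have : q + (s * sympForm m F q p) • p + (t * (s * sympForm m F q p * sympForm m F p q)) • q
        = q + (s * sympForm m F q p) • p + 0 := by rw [← h2, add_zero]
    exact add_left_cancel this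
  rcases smul_eq_zero.1 h3 with h4 | h4
  · rw [sf_anti q p] at h4
    simpa [hs, ht] using h4
  · exact absurd h4 hq

theorem TS_ne_of (p q : Fin m ⊕ Fin m → F) (hp : p ≠ 0) (h : sympForm m F p q ≠ 0) :
    TS p ≠ TS q := by
  intro heq
  have hm : tv p 1 ∈ TS q := heq ▸ tv_mem_TS p 1
  obtain ⟨r, hr⟩ := hm
  have h2 := congrArg (fun A : Matrix.symplecticGroup (Fin m) F =>
    (A : Matrix (Fin m ⊕ Fin m) (Fin m ⊕ Fin m) F) *ᵥ q) hr
  simp only [tv_act, sf_self, mul_zero, zero_smul, add_zero, one_mul] at h2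
  have h4 : (sympForm m F q p) • p = 0 := by
    have : q + (sympForm m F q p) • p = q + 0 := by rw [h2, add_zero]
    exact add_left_cancel this
  rcases smul_eq_zero.1 h4 with h5 | h5
  · apply h
    rw [sf_anti, h5, neg_zero]
  · exact hp h5

theorem conj_inv_TS (p q : Fin m ⊕ Fin m → F) (t : F) :
    conjBy (TS p) (tv q t)⁻¹ = TS (p - (t * sympForm m F p q) • q) := by
  rw [conjBy_TS, tv_inv', tv_act, neg_mul, neg_smul, sub_eq_add_neg]

theorem rank_one_cond' (p q : Fin m ⊕ Fin m → F) (hq : q ≠ 0) (h : sympForm m F p q ≠ 0) :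
    RankOneCondition (TS p) (TS q) := by
  rintro _ ⟨s, rfl⟩ ha1
  have hs : s ≠ 0 := by
    rintro rfl
    exact ha1 (tv_zero_right p)
  have h' : sympForm m F q p = - sympForm m F p q := sf_anti q p
  obtain ⟨t, ht⟩ : ∃ t : F, t = -1 / (s * sympForm m F p q * sympForm m F p q) := ⟨_, rfl⟩
  have ht0 : t ≠ 0 := by
    rw [ht]
    exact div_ne_zero (neg_ne_zero.mpr one_ne_zero) (mul_ne_zero (mul_ne_zero hs h) h)
  refine ⟨tv q t, tv_mem_TS q t, tv_ne_one' q hq t ht0, ?_⟩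
  rw [conj_inv_TS, conj_inv_TS, h']
  have e : p - (t * sympForm m F p q) • q
      = (1 / (s * sympForm m F p q)) • (q - (s * -sympForm m F p q) • p) := by
    rw [ht]
    ext i
    simp only [Pi.sub_apply, Pi.smul_apply, smul_eq_mul]
    field_simp
    ring
  rw [e, TS_smul _ (one_div_ne_zero (mul_ne_zero hs h))]

theorem rank_one_TS (p q : Fin m ⊕ Fin m → F) (hp : p ≠ 0) (hq : q ≠ 0)
    (h : sympForm m F p q ≠ 0) : IsRankOnePair (TS p) (TS q) :=
  ⟨TS_ne_of p q hp h, TS_nilp p, TS_nilp q, rank_one_cond' p q hq h,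
    rank_one_cond' q p hp (by rw [sf_anti]; exact neg_ne_zero.mpr h)⟩

theorem rank_one_sf (p q : Fin m ⊕ Fin m → F) (hp : p ≠ 0) (hR : IsRankOnePair (TS p) (TS q)) :
    sympForm m F p q ≠ 0 := by
  intro h
  obtain ⟨b, ⟨t, rfl⟩, -, heq⟩ := hR.cond_left (tv p 1) (tv_mem_TS p 1)
    (tv_ne_one' p hp 1 one_ne_zero)
  rw [conj_inv_TS, conj_inv_TS, h, sf_anti q p, h] at heq
  simp only [neg_zero, mul_zero, zero_smul, sub_zero] at heq
  exact hR.ne heq

/-! ### the image of `SL₂`, over an arbitrary index type -/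

section Gen

variable {ι : Type*} [Fintype ι] [DecidableEq ι] (u v f g : ι → F)

/-- the image of a `2 × 2` matrix acting on the plane `⟨u, v⟩` -/
def MMg (X : Matrix (Fin 2) (Fin 2) F) : Matrix ι ι F :=
  1 + (X 0 0 - 1) • vecMulVec u f + X 0 1 • vecMulVec u g + X 1 0 • vecMulVec v f
    + (X 1 1 - 1) • vecMulVec v g

theorem vvg_mul (v φ w ψ : ι → F) :
    vecMulVec v φ * vecMulVec w ψ = (φ ⬝ᵥ w) • vecMulVec v ψ := by
  rw [vecMulVec_mul_vecMulVec, vecMulVec_smul]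

theorem vvg_mulVec (v φ x : ι → F) : vecMulVec v φ *ᵥ x = (φ ⬝ᵥ x) • v := by
  ext i
  simp only [mulVec, dotProduct, vecMulVec_apply, Pi.smul_apply, smul_eq_mul, Finset.sum_mul]
  apply Finset.sum_congr rfl
  intro j _
  ring

theorem MMg_one : MMg u v f g (1 : Matrix (Fin 2) (Fin 2) F) = 1 := by
  simp [MMg]

theorem MMg_mul (fu : f ⬝ᵥ u = 1) (fv : f ⬝ᵥ v = 0) (gu : g ⬝ᵥ u = 0) (gv : g ⬝ᵥ v = 1)
    (X Y : Matrix (Fin 2) (Fin 2) F) :
    MMg u v f g (X * Y) = MMg u v f g X * MMg u v f g Y := by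
  simp only [MMg, Matrix.mul_apply, Fin.sum_univ_two, mul_add, add_mul, mul_one, one_mul,
    smul_mul_assoc, mul_smul_comm, vvg_mul, fu, fv, gu, gv, zero_smul,
    smul_zero, add_zero, one_smul]
  module

theorem MMg_upper (X : Matrix (Fin 2) (Fin 2) F) (h10 : X 1 0 = 0)
    (h00 : X 0 0 = 1) (h11 : X 1 1 = 1) :
    MMg u v f g X = 1 + X 0 1 • vecMulVec u g := by
  rw [MMg, h10, h00, h11]
  simp

theorem MMg_lower (X : Matrix (Fin 2) (Fin 2) F) (h01 : X 0 1 = 0)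
    (h00 : X 0 0 = 1) (h11 : X 1 1 = 1) :
    MMg u v f g X = 1 + X 1 0 • vecMulVec v f := by
  rw [MMg, h01, h00, h11]
  simp

theorem MMg_tv (i j : Fin 2) (hij : i ≠ j) (a : F) :
    (∃ t : F, MMg u v f g
        (Matrix.SpecialLinearGroup.transvection hij a : Matrix.SpecialLinearGroup (Fin 2) F).1
        = 1 + t • vecMulVec u g) ∨
    (∃ t : F, MMg u v f g
        (Matrix.SpecialLinearGroup.transvection hij a : Matrix.SpecialLinearGroup (Fin 2) F).1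
        = 1 + t • vecMulVec v f) := by
  have hc : ((Matrix.SpecialLinearGroup.transvection hij a : Matrix.SpecialLinearGroup (Fin 2) F) :
      Matrix (Fin 2) (Fin 2) F) = Matrix.transvection i j a :=
    Matrix.SpecialLinearGroup.transvection_coe hij a
  fin_cases i <;> fin_cases j
  · exact absurd rfl hij
  · left
    refine ⟨_, MMg_upper u v f g _ ?_ ?_ ?_⟩ <;>
      · rw [hc]; simp [Matrix.transvection]
  · right
    refine ⟨_, MMg_lower u v f g _ ?_ ?_ ?_⟩ <;>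
      · rw [hc]; simp [Matrix.transvection]
  · exact absurd rfl hij

theorem MMg_entries (fu : f ⬝ᵥ u = 1) (fv : f ⬝ᵥ v = 0) (gu : g ⬝ᵥ u = 0) (gv : g ⬝ᵥ v = 1)
    (X : Matrix (Fin 2) (Fin 2) F) :
    f ⬝ᵥ (MMg u v f g X *ᵥ u) = X 0 0 ∧ g ⬝ᵥ (MMg u v f g X *ᵥ u) = X 1 0 ∧
    f ⬝ᵥ (MMg u v f g X *ᵥ v) = X 0 1 ∧ g ⬝ᵥ (MMg u v f g X *ᵥ v) = X 1 1 := by
  refine ⟨?_, ?_, ?_, ?_⟩ <;>
    · simp only [MMg, add_mulVec, one_mulVec, smul_mulVec, vvg_mulVec, dotProduct_add,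
        dotProduct_smul, fu, fv, gu, gv, smul_eq_mul, mul_one, mul_zero, add_zero, zero_add]
      try ring

theorem MMg_eq_one (fu : f ⬝ᵥ u = 1) (fv : f ⬝ᵥ v = 0) (gu : g ⬝ᵥ u = 0) (gv : g ⬝ᵥ v = 1)
    (X : Matrix.SpecialLinearGroup (Fin 2) F)
    (hM : MMg u v f g (X : Matrix (Fin 2) (Fin 2) F) = 1) : X = 1 := by
  obtain ⟨e00, e10, e01, e11⟩ := MMg_entries u v f g fu fv gu gv (X : Matrix (Fin 2) (Fin 2) F)
  rw [hM, one_mulVec] at e00 e10 e01 e11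
  apply Subtype.ext
  ext i j
  fin_cases i <;> fin_cases j
  · show (X : Matrix (Fin 2) (Fin 2) F) 0 0 = _
    rw [← e00, fu]; simp
  · show (X : Matrix (Fin 2) (Fin 2) F) 0 1 = _
    rw [← e01, fv]; simp
  · show (X : Matrix (Fin 2) (Fin 2) F) 1 0 = _
    rw [← e10, gu]; simp
  · show (X : Matrix (Fin 2) (Fin 2) F) 1 1 = _
    rw [← e11, gv]; simp

end Gen

/-! ### the symplectic `SL₂` -/

section SpSL2

variable (e f' : Fin m ⊕ Fin m → F)

theorem up_eq (t : F) :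
    (1 : Matrix (Fin m ⊕ Fin m) (Fin m ⊕ Fin m) F)
        + t • vecMulVec e (-(Matrix.J (Fin m) F *ᵥ e))
      = ((tv e (-t) : Matrix.symplecticGroup (Fin m) F) :
          Matrix (Fin m ⊕ Fin m) (Fin m ⊕ Fin m) F) := by
  rw [tv_val]
  unfold Cfsg.sympTransvection
  rw [vecMulVec_neg, smul_neg, neg_smul]

theorem lo_eq (t : F) :
    (1 : Matrix (Fin m ⊕ Fin m) (Fin m ⊕ Fin m) F)
        + t • vecMulVec f' (Matrix.J (Fin m) F *ᵥ f')
      = ((tv f' t : Matrix.symplecticGroup (Fin m) F) :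
          Matrix (Fin m ⊕ Fin m) (Fin m ⊕ Fin m) F) := rfl

theorem dots (h : sympForm m F e f' = 1) :
    (Matrix.J (Fin m) F *ᵥ f') ⬝ᵥ e = 1 ∧ (Matrix.J (Fin m) F *ᵥ f') ⬝ᵥ f' = 0 ∧
    (-(Matrix.J (Fin m) F *ᵥ e)) ⬝ᵥ e = 0 ∧ (-(Matrix.J (Fin m) F *ᵥ e)) ⬝ᵥ f' = 1 := by
  refine ⟨?_, ?_, ?_, ?_⟩
  · rw [dotProduct_comm]
    exact h
  · rw [dotProduct_comm]
    exact sf_self f'
  · rw [neg_dotProduct, dotProduct_comm]
    show -(sympForm m F e e) = 0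
    rw [sf_self, neg_zero]
  · rw [neg_dotProduct, dotProduct_comm]
    show -(sympForm m F f' e) = 1
    rw [sf_anti f' e, h, neg_neg]

theorem MMs_mem (h : sympForm m F e f' = 1) (X : Matrix.SpecialLinearGroup (Fin 2) F) :
    MMg e f' (Matrix.J (Fin m) F *ᵥ f') (-(Matrix.J (Fin m) F *ᵥ e))
      (X : Matrix (Fin 2) (Fin 2) F) ∈ Matrix.symplecticGroup (Fin m) F := by
  obtain ⟨fu, fv, gu, gv⟩ := dots e f' h
  refine Cfsg.Agent.Lib.helper13.SLSimple.transvection_induction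
    (fun X : Matrix.SpecialLinearGroup (Fin 2) F =>
      MMg e f' (Matrix.J (Fin m) F *ᵥ f') (-(Matrix.J (Fin m) F *ᵥ e))
        (X : Matrix (Fin 2) (Fin 2) F) ∈ Matrix.symplecticGroup (Fin m) F) ?_ ?_ X
  · intro i j hij a
    rcases MMg_tv e f' (Matrix.J (Fin m) F *ᵥ f') (-(Matrix.J (Fin m) F *ᵥ e)) i j hij a
      with ⟨t, ht⟩ | ⟨t, ht⟩
    · show MMg e f' _ _ _ ∈ _
      rw [ht, up_eq]
      exact (tv e (-t)).2
    · show MMg e f' _ _ _ ∈ _
      rw [ht, lo_eq]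
      exact (tv f' t).2
  · intro A B hA hB
    show MMg e f' _ _ _ ∈ _
    rw [Matrix.SpecialLinearGroup.coe_mul, MMg_mul e f' _ _ fu fv gu gv]
    exact Submonoid.mul_mem _ hA hB

/-- the homomorphism `SL₂ → Sp` attached to a hyperbolic pair -/
def phiS (h : sympForm m F e f' = 1) :
    Matrix.SpecialLinearGroup (Fin 2) F →* Matrix.symplecticGroup (Fin m) F where
  toFun X := ⟨MMg e f' (Matrix.J (Fin m) F *ᵥ f') (-(Matrix.J (Fin m) F *ᵥ e))
    (X : Matrix (Fin 2) (Fin 2) F), MMs_mem e f' h X⟩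
  map_one' := Subtype.ext (MMg_one _ _ _ _)
  map_mul' X Y := Subtype.ext (by
    show MMg e f' _ _ ((X * Y : Matrix.SpecialLinearGroup (Fin 2) F) : Matrix (Fin 2) (Fin 2) F)
      = MMg e f' _ _ (X : Matrix (Fin 2) (Fin 2) F) * MMg e f' _ _ (Y : Matrix (Fin 2) (Fin 2) F)
    rw [Matrix.SpecialLinearGroup.coe_mul]
    exact MMg_mul e f' _ _ (dots e f' h).1 (dots e f' h).2.1 (dots e f' h).2.2.1
      (dots e f' h).2.2.2 _ _)

theorem phiS_coe (h : sympForm m F e f' = 1) (X : Matrix.SpecialLinearGroup (Fin 2) F) :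
    ((phiS e f' h X : Matrix.symplecticGroup (Fin m) F) :
        Matrix (Fin m ⊕ Fin m) (Fin m ⊕ Fin m) F)
      = MMg e f' (Matrix.J (Fin m) F *ᵥ f') (-(Matrix.J (Fin m) F *ᵥ e))
        (X : Matrix (Fin 2) (Fin 2) F) := rfl

theorem psl2_sp (h : sympForm m F e f' = 1) : IsPSL2PairOver F (TS e) (TS f') := by
  obtain ⟨fu, fv, gu, gv⟩ := dots e f' h
  have hup : (upperUnipotentSL2 F).map (phiS e f' h) = TS e := by
    rw [upperUnipotentSL2, MonoidHom.map_closure]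
    have : (phiS e f' h) '' {X : Matrix.SpecialLinearGroup (Fin 2) F |
        (X : Matrix (Fin 2) (Fin 2) F) 1 0 = 0 ∧ (X : Matrix (Fin 2) (Fin 2) F) 0 0 = 1 ∧
        (X : Matrix (Fin 2) (Fin 2) F) 1 1 = 1}
        = ((TS e : Subgroup (Matrix.symplecticGroup (Fin m) F)) :
          Set (Matrix.symplecticGroup (Fin m) F)) := by
      ext y
      constructor
      · rintro ⟨X, ⟨h10, h00, h11⟩, rfl⟩
        refine ⟨-((X : Matrix (Fin 2) (Fin 2) F) 0 1), Subtype.ext ?_⟩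
        rw [phiS_coe, MMg_upper e f' _ _ _ h10 h00 h11, up_eq]
      · rintro ⟨t, rfl⟩
        refine ⟨upT (-t), ⟨upT_10 _, upT_00 _, upT_11 _⟩, Subtype.ext ?_⟩
        rw [phiS_coe, MMg_upper e f' _ _ _ (upT_10 _) (upT_00 _) (upT_11 _), upT_01, up_eq,
          neg_neg]
    rw [this, Subgroup.closure_eq]
  have hlow : (lowerUnipotentSL2 F).map (phiS e f' h) = TS f' := by
    rw [lowerUnipotentSL2, MonoidHom.map_closure]
    have : (phiS e f' h) '' {X : Matrix.SpecialLinearGroup (Fin 2) F |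
        (X : Matrix (Fin 2) (Fin 2) F) 0 1 = 0 ∧ (X : Matrix (Fin 2) (Fin 2) F) 0 0 = 1 ∧
        (X : Matrix (Fin 2) (Fin 2) F) 1 1 = 1}
        = ((TS f' : Subgroup (Matrix.symplecticGroup (Fin m) F)) :
          Set (Matrix.symplecticGroup (Fin m) F)) := by
      ext y
      constructor
      · rintro ⟨X, ⟨h01, h00, h11⟩, rfl⟩
        refine ⟨(X : Matrix (Fin 2) (Fin 2) F) 1 0, Subtype.ext ?_⟩
        rw [phiS_coe, MMg_lower e f' _ _ _ h01 h00 h11, lo_eq]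
      · rintro ⟨t, rfl⟩
        refine ⟨loT t, ⟨loT_01 _, loT_00 _, loT_11 _⟩, Subtype.ext ?_⟩
        rw [phiS_coe, MMg_lower e f' _ _ _ (loT_01 _) (loT_00 _) (loT_11 _), loT_10, lo_eq]
    rw [this, Subgroup.closure_eq]
  refine ⟨phiS e f' h, ?_, ?_, hup, hlow⟩
  · apply le_antisymm
    · rintro _ ⟨X, rfl⟩
      refine Cfsg.Agent.Lib.helper13.SLSimple.transvection_induction
        (fun X : Matrix.SpecialLinearGroup (Fin 2) F => phiS e f' h X ∈ TS e ⊔ TS f') ?_ ?_ X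
      · intro i j hij a
        rcases MMg_tv e f' (Matrix.J (Fin m) F *ᵥ f') (-(Matrix.J (Fin m) F *ᵥ e)) i j hij a
          with ⟨t, ht⟩ | ⟨t, ht⟩
        · exact (le_sup_left : TS e ≤ TS e ⊔ TS f')
            ⟨-t, Subtype.ext (by rw [phiS_coe, ht, up_eq])⟩
        · exact (le_sup_right : TS f' ≤ TS e ⊔ TS f')
            ⟨t, Subtype.ext (by rw [phiS_coe, ht, lo_eq])⟩
      · intro A B hA hB
        show phiS e f' h (A * B) ∈ _
        rw [map_mul]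
        exact Subgroup.mul_mem _ hA hB
    · rw [sup_le_iff]
      constructor
      · rw [← hup]
        exact Subgroup.map_le_range _ _
      · rw [← hlow]
        exact Subgroup.map_le_range _ _
  · intro X hX
    rw [MonoidHom.mem_ker] at hX
    have hM : MMg e f' (Matrix.J (Fin m) F *ᵥ f') (-(Matrix.J (Fin m) F *ᵥ e))
        (X : Matrix (Fin 2) (Fin 2) F) = 1 := by
      rw [← phiS_coe e f' h, hX]
      rfl
    rw [MMg_eq_one e f' _ _ fu fv gu gv X hM]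
    exact Subgroup.one_mem _

end SpSL2

theorem psl2_of_sf (p q : Fin m ⊕ Fin m → F) (h : sympForm m F p q ≠ 0) :
    IsPSL2PairOver F (TS p) (TS q) := by
  have h1 : sympForm m F p ((sympForm m F p q)⁻¹ • q) = 1 := by
    rw [sf_smul_right, inv_mul_cancel₀ h]
  have key := psl2_sp p ((sympForm m F p q)⁻¹ • q) h1
  rw [TS_smul _ (inv_ne_zero h)] at key
  exact key

/-! ### the class of the statement -/

/-- the set of symplectic transvection subgroups, as in the statement -/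
def S1 (F : Type*) [Field F] (m : ℕ) :
    Set (Subgroup ↥(Matrix.symplecticGroup (Fin (m + 1)) F)) :=
  {A : Subgroup ↥(Matrix.symplecticGroup (Fin (m + 1)) F) | ∃ p : Fin (m + 1) ⊕ Fin (m + 1) → F, p ≠ 0 ∧
        A = Subgroup.closure {g : ↥(Matrix.symplecticGroup (Fin (m + 1)) F) | ∃ c : F, ∀ v : Fin (m + 1) ⊕ Fin (m + 1) → F,
          (g : Matrix (Fin (m + 1) ⊕ Fin (m + 1)) (Fin (m + 1) ⊕ Fin (m + 1)) F) *ᵥ v =
            v + (c * (v ⬝ᵥ (Matrix.J (Fin (m + 1)) F *ᵥ p))) • p}}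

theorem closure_eq_TS (p : Fin m ⊕ Fin m → F) :
    Subgroup.closure {g : ↥(Matrix.symplecticGroup (Fin m) F) | ∃ c : F,
      ∀ v : Fin m ⊕ Fin m → F, (g : Matrix (Fin m ⊕ Fin m) (Fin m ⊕ Fin m) F) *ᵥ v =
        v + (c * (v ⬝ᵥ (Matrix.J (Fin m) F *ᵥ p))) • p} = TS p := by
  have : {g : ↥(Matrix.symplecticGroup (Fin m) F) | ∃ c : F,
      ∀ v : Fin m ⊕ Fin m → F, (g : Matrix (Fin m ⊕ Fin m) (Fin m ⊕ Fin m) F) *ᵥ v =
        v + (c * (v ⬝ᵥ (Matrix.J (Fin m) F *ᵥ p))) • p}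
      = ((TS p : Subgroup (Matrix.symplecticGroup (Fin m) F)) :
          Set (Matrix.symplecticGroup (Fin m) F)) := by
    ext g
    constructor
    · rintro ⟨c, hc⟩
      refine ⟨c, sp_ext _ _ ?_⟩
      intro x
      rw [tv_act]
      exact hc x
    · rintro ⟨c, rfl⟩
      exact ⟨c, fun x => tv_act p c x⟩
  rw [this, Subgroup.closure_eq]

theorem mem_S1 (m : ℕ) (A : Subgroup ↥(Matrix.symplecticGroup (Fin (m + 1)) F)) :
    A ∈ S1 F m ↔ ∃ p : Fin (m + 1) ⊕ Fin (m + 1) → F, p ≠ 0 ∧ A = TS p := by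
  constructor
  · rintro ⟨p, hp, rfl⟩
    exact ⟨p, hp, closure_eq_TS p⟩
  · rintro ⟨p, hp, rfl⟩
    exact ⟨p, hp, (closure_eq_TS p).symm⟩

theorem TS_mem_S1 (m : ℕ) (p : Fin (m + 1) ⊕ Fin (m + 1) → F) (hp : p ≠ 0) : TS p ∈ S1 F m :=
  (mem_S1 m _).2 ⟨p, hp, rfl⟩

theorem S1_generates (m : ℕ) : (⨆ A ∈ S1 F m, A) = ⊤ := by
  rw [eq_top_iff, ← Cfsg.Agent.S0765.result (F := F) (m + 1), Subgroup.closure_le]
  rintro A ⟨w, c, hA⟩
  have hA' : A = tv w c := Subtype.ext hA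
  rw [hA']
  by_cases hw : w = 0
  · rw [hw, tv_zero_left]
    exact Subgroup.one_mem _
  · have hle : TS w ≤ ⨆ A ∈ S1 F m, A :=
      le_iSup₂ (f := fun (A : Subgroup ↥(Matrix.symplecticGroup (Fin (m + 1)) F))
        (_ : A ∈ S1 F m) => A) _ (TS_mem_S1 m w hw)
    exact hle (tv_mem_TS w c)

theorem S1_rootSet (m : ℕ) : IsRootSubgroupSet (S1 F m) where
  commutative := by
    intro A hA
    obtain ⟨p, hp, rfl⟩ := (mem_S1 m A).1 hA
    exact TS_comm p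
  ne_bot := by
    intro A hA
    obtain ⟨p, hp, rfl⟩ := (mem_S1 m A).1 hA
    exact TS_ne_bot p hp
  generates := S1_generates m
  conj_mem := by
    intro A hA g
    obtain ⟨p, hp, rfl⟩ := (mem_S1 m A).1 hA
    rw [conjBy_TS]
    exact TS_mem_S1 m _ (mulVec_ne_zero' g p hp)
  pair := by
    intro A hA B hB
    obtain ⟨p, hp, rfl⟩ := (mem_S1 m A).1 hA
    obtain ⟨q, hq, rfl⟩ := (mem_S1 m B).1 hB
    by_cases h : sympForm (m + 1) F p q = 0
    · left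
      exact comm_bot' p q h
    · right; left
      exact rank_one_TS p q hp hq h

theorem S1_class (m : ℕ) : IsConjClassOfSubgroups (S1 F m) := by
  refine ⟨⟨_, TS_mem_S1 m _ (single_ne_zero' (Sum.inl 0))⟩, ?_⟩
  intro A hA B hB
  obtain ⟨p, hp, rfl⟩ := (mem_S1 m A).1 hA
  obtain ⟨q, hq, rfl⟩ := (mem_S1 m B).1 hB
  obtain ⟨g, hg⟩ := exists_map p q hp hq
  exact ⟨g, by rw [conjBy_TS, hg]⟩

theorem S1_degenerate (m : ℕ) : IsDegenerateRootSet (S1 F m) := by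
  rintro A hA B hB ⟨h1, h2, -, -⟩
  obtain ⟨p, hp, rfl⟩ := (mem_S1 m A).1 hA
  obtain ⟨q, hq, rfl⟩ := (mem_S1 m B).1 hB
  by_cases h : sympForm (m + 1) F p q = 0
  · rw [comm_bot' p q h] at h1
    obtain ⟨r, hr, hbot⟩ := (mem_S1 m _).1 h1
    exact TS_ne_bot r hr hbot.symm
  · have hc := Subgroup.commutator_mem_commutator (tv_mem_TS p 1) (tv_mem_TS q 1)
    have hb : tv q 1 ∈ TS p ⊔ TS q := (le_sup_right : TS q ≤ TS p ⊔ TS q) (tv_mem_TS q 1)
    have h3 := h2 _ hc _ hb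
    rw [commutatorElement_def] at h3
    have h4 : (tv p 1 * tv q 1 * (tv p 1)⁻¹) * tv q 1 = tv q 1 * (tv p 1 * tv q 1 * (tv p 1)⁻¹) := by
      have e1 : tv p 1 * tv q 1 * (tv p 1)⁻¹ * tv q 1
          = tv p 1 * tv q 1 * (tv p 1)⁻¹ * (tv q 1)⁻¹ * tv q 1 * tv q 1 := by group
      have e2 : tv q 1 * (tv p 1 * tv q 1 * (tv p 1)⁻¹)
          = tv q 1 * (tv p 1 * tv q 1 * (tv p 1)⁻¹ * (tv q 1)⁻¹) * tv q 1 := by group
      rw [e1, e2, h3]
    have e3 : tv p 1 * tv q 1 * (tv p 1)⁻¹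
        = tv (((tv p 1 : Matrix.symplecticGroup (Fin (m + 1)) F) :
          Matrix (Fin (m + 1) ⊕ Fin (m + 1)) (Fin (m + 1) ⊕ Fin (m + 1)) F) *ᵥ q) 1 := by
      rw [tv_conj (tv p 1) q 1, mul_inv_cancel_right]
    rw [e3] at h4
    have h5 := tv_comm_imp _ q hq 1 1 one_ne_zero one_ne_zero h4
    rw [tv_act, sf_add_left, sf_self, zero_add, sf_smul_left, one_mul, sf_anti q p] at h5
    have h6 : sympForm (m + 1) F p q * sympForm (m + 1) F p q = 0 := by linear_combination -h5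
    exact h (mul_self_eq_zero.1 h6)

theorem S1_kroot (m : ℕ) : IsKRootSubgroupSet F (S1 F m) := by
  refine ⟨S1_rootSet m, ?_⟩
  intro A hA B hB hR
  obtain ⟨p, hp, rfl⟩ := (mem_S1 m A).1 hA
  obtain ⟨q, hq, rfl⟩ := (mem_S1 m B).1 hB
  exact psl2_of_sf p q (rank_one_sf p q hp hR)

theorem S1_connected (m : ℕ) : IsConnectedFamily (FAdj (S1 F m)) (S1 F m) := by
  intro A hA B hB
  obtain ⟨p, hp, rfl⟩ := (mem_S1 m A).1 hA
  obtain ⟨q, hq, rfl⟩ := (mem_S1 m B).1 hB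
  obtain ⟨x, hxp, hxq⟩ := exists_nonorth p q hp hq
  have hx : x ≠ 0 := by
    rintro rfl
    apply hxp
    have := sf_smul_left (0 : F) (0 : Fin (m + 1) ⊕ Fin (m + 1) → F) p
    rw [zero_smul, zero_mul] at this
    exact this
  have hC : TS x ∈ S1 F m := TS_mem_S1 m x hx
  have hpx : sympForm (m + 1) F p x ≠ 0 := by
    rw [sf_anti]
    exact neg_ne_zero.mpr hxp
  have s1 : FAdj (S1 F m) (TS p) (TS x) := ⟨hA, hC, rank_one_TS p x hp hx hpx⟩
  have s2 : FAdj (S1 F m) (TS x) (TS q) := ⟨hC, hB, rank_one_TS x q hx hq hxq⟩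
  exact (Relation.ReflTransGen.single s1).trans (Relation.ReflTransGen.single s2)

theorem main (m : ℕ) : IsRootSubgroupClass (S1 F m) ∧ IsDegenerateRootSet (S1 F m) ∧
    IsKRootSubgroupSet F (S1 F m) ∧ IsConnectedFamily (FAdj (S1 F m)) (S1 F m) :=
  ⟨⟨S1_rootSet m, S1_class m⟩, S1_degenerate m, S1_kroot m, S1_connected m⟩

end Cfsg.Agent.Lib.helper6.SpRootSub
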