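import Mathlib
import Cfsg.Agent.Lib.helper4.UComm
import Cfsg.Agent.Lib.helper6.SU2
import Cfsg.Agent.Lib.helper6.SpRootSub

set_option autoImplicit false

/-! Unitary transvection subgroups as a degenerate class of abstract root subgroups. -/

namespace Cfsg.Agent.Lib.helper6.URootSub

open Matrix Cfsg Cfsg.Agent.Lib.helper4
open Cfsg.Agent.Lib.helper6.TvRootSub (mem_conjBy conjBy_mul conjBy_one upT loT upT_00 upT_01
  upT_10 upT_11 loT_00 loT_01 loT_10 loT_11)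
open Cfsg.Agent.Lib.helper6.SpRootSub (MMg MMg_one MMg_mul MMg_upper MMg_lower MMg_tv MMg_entries)

section Basic

variable {F : Type*} [Field F] [Fintype F] {q : ℕ} {n : ℕ}

theorem q_ne_zero (hF : Fintype.card F = q ^ 2) : q ≠ 0 := by
  have := uq_ge_two hF
  omega

theorem tz_zero (hF : Fintype.card F = q ^ 2) : (0 : F) + 0 ^ q = 0 := by
  rw [zero_pow (q_ne_zero hF), add_zero]

theorem tz_add (hF : Fintype.card F = q ^ 2) {a b : F} (ha : a + a ^ q = 0)
    (hb : b + b ^ q = 0) : (a + b) + (a + b) ^ q = 0 := by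
  rw [frob_add hF]
  linear_combination ha + hb

theorem tz_neg (hF : Fintype.card F = q ^ 2) {a : F} (ha : a + a ^ q = 0) :
    (-a) + (-a) ^ q = 0 := by
  rw [frob_neg hF]
  linear_combination -ha

theorem tz_mul_fix {a c : F} (ha : a + a ^ q = 0) (hc : c ^ q = c) :
    (a * c) + (a * c) ^ q = 0 := by
  rw [mul_pow, hc]
  linear_combination c * ha

theorem utv_add (hF : Fintype.card F = q ^ 2) (p : Fin n → F)
    (hp : Cfsg.hermForm n F q p p = 0) (a b : F) (ha : a + a ^ q = 0) (hb : b + b ^ q = 0) :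
    utvSU hF p a * utvSU hF p b = utvSU hF p (a + b) := by
  apply su_ext
  intro x
  rw [suM_mul, ← Matrix.mulVec_mulVec, utvSU_mulVec hF p b hp hb, utvSU_mulVec hF p a hp ha,
    utvSU_mulVec hF p (a + b) hp (tz_add hF ha hb), herm_add_left, herm_smul_left, hp]
  module

theorem utv_zero (hF : Fintype.card F = q ^ 2) (p : Fin n → F)
    (hp : Cfsg.hermForm n F q p p = 0) : utvSU hF p 0 = 1 := by
  apply su_ext
  intro x
  rw [utvSU_mulVec hF p 0 hp (tz_zero hF), suM_one, Matrix.one_mulVec, zero_mul, zero_smul,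
    add_zero]

theorem utv_inv (hF : Fintype.card F = q ^ 2) (p : Fin n → F)
    (hp : Cfsg.hermForm n F q p p = 0) (a : F) (ha : a + a ^ q = 0) :
    (utvSU hF p a)⁻¹ = utvSU hF p (-a) := by
  apply inv_eq_of_mul_eq_one_right
  rw [utv_add hF p hp a (-a) ha (tz_neg hF ha), add_neg_cancel, utv_zero hF p hp]

/-- the unitary transvections with centre `p` -/
def TUset (hF : Fintype.card F = q ^ 2) (p : Fin n → F) : Set (Cfsg.SU n F q) :=
  {x | ∃ a : F, a + a ^ q = 0 ∧ x = utvSU hF p a}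

/-- the group of unitary transvections with centre `p` -/
def TU (hF : Fintype.card F = q ^ 2) (p : Fin n → F) : Subgroup (Cfsg.SU n F q) :=
  Subgroup.closure (TUset hF p)

theorem mem_TU (hF : Fintype.card F = q ^ 2) (p : Fin n → F)
    (hp : Cfsg.hermForm n F q p p = 0) (x : Cfsg.SU n F q) :
    x ∈ TU hF p ↔ ∃ a : F, a + a ^ q = 0 ∧ x = utvSU hF p a := by
  constructor
  · intro hx
    unfold TU at hx
    induction hx using Subgroup.closure_induction with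
    | mem y hy => exact hy
    | one => exact ⟨0, tz_zero hF, (utv_zero hF p hp).symm⟩
    | mul y z _ _ hy hz =>
      obtain ⟨a, ha, rfl⟩ := hy
      obtain ⟨b, hb, rfl⟩ := hz
      exact ⟨a + b, tz_add hF ha hb, utv_add hF p hp a b ha hb⟩
    | inv y _ hy =>
      obtain ⟨a, ha, rfl⟩ := hy
      exact ⟨-a, tz_neg hF ha, utv_inv hF p hp a ha⟩
  · intro hx
    exact Subgroup.subset_closure hx

theorem utv_mem_TU (hF : Fintype.card F = q ^ 2) (p : Fin n → F) (a : F)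
    (ha : a + a ^ q = 0) : utvSU hF p a ∈ TU hF p :=
  Subgroup.subset_closure ⟨a, ha, rfl⟩

theorem exists_herm_one (hF : Fintype.card F = q ^ 2) (p : Fin n → F) (hp0 : p ≠ 0) :
    ∃ y, Cfsg.hermForm n F q y p = 1 := by
  have hex : ∃ y, Cfsg.hermForm n F q p y ≠ 0 := by
    by_contra hcon
    push Not at hcon
    exact hp0 (herm_nondeg hF p hcon)
  obtain ⟨y, hy⟩ := hex
  have hy' : Cfsg.hermForm n F q y p ≠ 0 := by
    rw [← herm_symm hF p y]
    exact pow_ne_zero q hy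
  exact ⟨(Cfsg.hermForm n F q y p)⁻¹ • y, by rw [herm_smul_left, inv_mul_cancel₀ hy']⟩

theorem genset_eq (hF : Fintype.card F = q ^ 2) (p : Fin n → F) (hp0 : p ≠ 0)
    (hp : Cfsg.hermForm n F q p p = 0) :
    {g : ↥(Cfsg.SU n F q) |
      (∀ v : Fin n → F, ∃ c : F, ((g : Matrix.SpecialLinearGroup (Fin n) F) :
        Matrix (Fin n) (Fin n) F) *ᵥ v = v + c • p) ∧
      ∀ v : Fin n → F, Cfsg.hermForm n F q v p = 0 →
        ((g : Matrix.SpecialLinearGroup (Fin n) F) : Matrix (Fin n) (Fin n) F) *ᵥ v = v}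
      = TUset hF p := by
  ext g
  constructor
  · rintro ⟨h1, h2⟩
    obtain ⟨y, hy⟩ := exists_herm_one hF p hp0
    obtain ⟨a, ha⟩ := h1 y
    have hact : ∀ v, suM g *ᵥ v = v + (a * Cfsg.hermForm n F q v p) • p := by
      intro v
      have hv : Cfsg.hermForm n F q (v - Cfsg.hermForm n F q v p • y) p = 0 := by
        rw [herm_sub_left, herm_smul_left, hy, mul_one, sub_self]
      have e := h2 _ hv
      rw [Matrix.mulVec_sub, Matrix.mulVec_smul, ha] at e
      have e2 : suM g *ᵥ v = v - Cfsg.hermForm n F q v p • y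
          + Cfsg.hermForm n F q v p • (y + a • p) := by
        rw [← e]
        abel
      rw [e2]
      module
    have hmat : suM g = Cfsg.unitaryTransvection n q p a := by
      apply Matrix.mulVec_injective
      funext v
      rw [hact, utv_mulVec]
    obtain ⟨hc, hg⟩ := eq_utvSU hF g p a hp0 hp hmat
    exact ⟨a, hc, hg⟩
  · rintro ⟨a, ha, rfl⟩
    refine ⟨fun v => ⟨a * Cfsg.hermForm n F q v p, utvSU_mulVec hF p a hp ha v⟩, fun v hv => ?_⟩
    have := utvSU_mulVec hF p a hp ha v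
    rw [hv, mul_zero, zero_smul, add_zero] at this
    exact this

theorem herm_su_inv (g : Cfsg.SU n F q) (x p : Fin n → F) :
    Cfsg.hermForm n F q (suM g⁻¹ *ᵥ x) p = Cfsg.hermForm n F q x (suM g *ᵥ p) := by
  have := su_pres g (suM g⁻¹ *ᵥ x) p
  rw [suM_mulVec_inv] at this
  exact this.symm

theorem utv_conj (hF : Fintype.card F = q ^ 2) (g : Cfsg.SU n F q) (p : Fin n → F)
    (hp : Cfsg.hermForm n F q p p = 0) (a : F) (ha : a + a ^ q = 0) :
    g * utvSU hF p a * g⁻¹ = utvSU hF (suM g *ᵥ p) a := by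
  have hp' : Cfsg.hermForm n F q (suM g *ᵥ p) (suM g *ᵥ p) = 0 := by rw [su_pres, hp]
  apply su_ext
  intro x
  rw [suM_mul, suM_mul, ← Matrix.mulVec_mulVec, ← Matrix.mulVec_mulVec,
    utvSU_mulVec hF p a hp ha, utvSU_mulVec hF _ a hp' ha, Matrix.mulVec_add,
    Matrix.mulVec_smul, suM_mulVec_inv, herm_su_inv]

theorem conjBy_TU (hF : Fintype.card F = q ^ 2) (g : Cfsg.SU n F q) (p : Fin n → F)
    (hp : Cfsg.hermForm n F q p p = 0) :
    conjBy (TU hF p) g = TU hF (suM g *ᵥ p) := by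
  have hp' : Cfsg.hermForm n F q (suM g *ᵥ p) (suM g *ᵥ p) = 0 := by rw [su_pres, hp]
  ext x
  rw [mem_conjBy, mem_TU hF _ hp']
  constructor
  · rintro ⟨y, hy, rfl⟩
    obtain ⟨a, ha, rfl⟩ := (mem_TU hF p hp y).1 hy
    exact ⟨a, ha, utv_conj hF g p hp a ha⟩
  · rintro ⟨a, ha, rfl⟩
    exact ⟨utvSU hF p a, utv_mem_TU hF p a ha, (utv_conj hF g p hp a ha).symm⟩

theorem herm_smul_smul (hF : Fintype.card F = q ^ 2) (l : F) (p : Fin n → F)
    (hp : Cfsg.hermForm n F q p p = 0) : Cfsg.hermForm n F q (l • p) (l • p) = 0 := by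
  rw [herm_smul_left, herm_smul_right, hp, mul_zero, mul_zero]

theorem utv_smul (hF : Fintype.card F = q ^ 2) (l : F) (p : Fin n → F)
    (hp : Cfsg.hermForm n F q p p = 0) (a : F) (ha : a + a ^ q = 0) :
    utvSU hF (l • p) a = utvSU hF p (a * l ^ (q + 1)) := by
  apply su_ext
  intro x
  rw [utvSU_mulVec hF _ a (herm_smul_smul hF l p hp) ha,
    utvSU_mulVec hF p _ hp (tz_mul_fix ha (unorm_fixed hF l)), herm_smul_right, smul_smul]
  congr 2
  rw [unorm_eq]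
  ring

theorem TU_smul (hF : Fintype.card F = q ^ 2) (l : F) (hl : l ≠ 0) (p : Fin n → F)
    (hp : Cfsg.hermForm n F q p p = 0) : TU hF (l • p) = TU hF p := by
  have hN : l ^ (q + 1) ≠ 0 := pow_ne_zero _ hl
  ext x
  rw [mem_TU hF _ (herm_smul_smul hF l p hp), mem_TU hF p hp]
  constructor
  · rintro ⟨a, ha, rfl⟩
    exact ⟨a * l ^ (q + 1), tz_mul_fix ha (unorm_fixed hF l), utv_smul hF l p hp a ha⟩
  · rintro ⟨a, ha, rfl⟩
    have hfix : ((l ^ (q + 1))⁻¹) ^ q = (l ^ (q + 1))⁻¹ := by rw [inv_pow, unorm_fixed hF l]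
    refine ⟨a * (l ^ (q + 1))⁻¹, tz_mul_fix ha hfix, ?_⟩
    rw [utv_smul hF l p hp _ (tz_mul_fix ha hfix), mul_assoc, inv_mul_cancel₀ hN, mul_one]

end Basic

theorem nilp_of_comm {G : Type*} [Group G] (A : Subgroup G)
    (h : ∀ a ∈ A, ∀ b ∈ A, a * b = b * a) : Group.IsNilpotent A :=
  ⟨⟨1, Subgroup.upperCentralSeries_one_eq_top_iff.2
    ⟨⟨fun a b => Subtype.ext (h a a.2 b b.2)⟩⟩⟩⟩

section Pairs

variable {F : Type*} [Field F] [Fintype F] {q : ℕ} {n : ℕ}

theorem utv_ne_one (hF : Fintype.card F = q ^ 2) (p : Fin n → F) (hp0 : p ≠ 0)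
    (hp : Cfsg.hermForm n F q p p = 0) (a : F) (ha : a + a ^ q = 0) (ha0 : a ≠ 0) :
    utvSU hF p a ≠ 1 := by
  intro h
  obtain ⟨y, hy⟩ := exists_herm_one hF p hp0
  have h2 := congrArg (fun A : Cfsg.SU n F q => suM A *ᵥ y) h
  simp only [utvSU_mulVec hF p a hp ha, hy, mul_one, suM_one, Matrix.one_mulVec] at h2
  have h4 : a • p = 0 := by
    have : y + a • p = y + 0 := by rw [h2, add_zero]
    exact add_left_cancel this
  rcases smul_eq_zero.1 h4 with h5 | h5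
  · exact ha0 h5
  · exact hp0 h5

theorem TU_ne_bot (hF : Fintype.card F = q ^ 2) (p : Fin n → F) (hp0 : p ≠ 0)
    (hp : Cfsg.hermForm n F q p p = 0) : TU hF p ≠ ⊥ := by
  intro hb
  obtain ⟨κ, hκ0, hκ⟩ := exists_trace_zero hF
  have h1 := utv_mem_TU hF p κ hκ
  rw [hb, Subgroup.mem_bot] at h1
  exact utv_ne_one hF p hp0 hp κ hκ hκ0 h1

theorem TU_comm_elem (hF : Fintype.card F = q ^ 2) (p : Fin n → F)
    (hp : Cfsg.hermForm n F q p p = 0) :
    ∀ x ∈ TU hF p, ∀ y ∈ TU hF p, x * y = y * x := by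
  intro x hx y hy
  obtain ⟨a, ha, rfl⟩ := (mem_TU hF p hp x).1 hx
  obtain ⟨b, hb, rfl⟩ := (mem_TU hF p hp y).1 hy
  rw [utv_add hF p hp a b ha hb, utv_add hF p hp b a hb ha, add_comm]

theorem utv_comm (hF : Fintype.card F = q ^ 2) (p p' : Fin n → F)
    (hp : Cfsg.hermForm n F q p p = 0) (hp' : Cfsg.hermForm n F q p' p' = 0)
    (h : Cfsg.hermForm n F q p p' = 0) (a b : F) (ha : a + a ^ q = 0) (hb : b + b ^ q = 0) :
    utvSU hF p a * utvSU hF p' b = utvSU hF p' b * utvSU hF p a := by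
  have h' : Cfsg.hermForm n F q p' p = 0 := herm_zero_of_symm hF h
  apply su_ext
  intro x
  rw [suM_mul, suM_mul, ← Matrix.mulVec_mulVec, ← Matrix.mulVec_mulVec]
  simp only [utvSU_mulVec hF p a hp ha, utvSU_mulVec hF p' b hp' hb, herm_add_left,
    herm_smul_left, h, h', mul_zero, add_zero]
  abel

theorem TU_comm_pair (hF : Fintype.card F = q ^ 2) (p p' : Fin n → F)
    (hp : Cfsg.hermForm n F q p p = 0) (hp' : Cfsg.hermForm n F q p' p' = 0)
    (h : Cfsg.hermForm n F q p p' = 0) :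
    ∀ x ∈ TU hF p, ∀ y ∈ TU hF p', x * y = y * x := by
  intro x hx y hy
  obtain ⟨a, ha, rfl⟩ := (mem_TU hF p hp x).1 hx
  obtain ⟨b, hb, rfl⟩ := (mem_TU hF p' hp' y).1 hy
  exact utv_comm hF p p' hp hp' h a b ha hb

theorem utv_comm_imp (hF : Fintype.card F = q ^ 2) (r t' : Fin n → F)
    (hr : Cfsg.hermForm n F q r r = 0) (ht' : Cfsg.hermForm n F q t' t' = 0) (ht'0 : t' ≠ 0)
    (s t : F) (hs : s + s ^ q = 0) (ht : t + t ^ q = 0) (hs0 : s ≠ 0) (ht0 : t ≠ 0)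
    (h : utvSU hF r s * utvSU hF t' t = utvSU hF t' t * utvSU hF r s) :
    Cfsg.hermForm n F q r t' = 0 := by
  have h2 := congrArg (fun A : Cfsg.SU n F q => suM A *ᵥ t') h
  simp only [suM_mul, ← Matrix.mulVec_mulVec, utvSU_mulVec hF r s hr hs,
    utvSU_mulVec hF t' t ht' ht, herm_add_left, herm_smul_left, ht', mul_zero, zero_smul,
    add_zero, zero_add] at h2
  have h3 : (t * (s * Cfsg.hermForm n F q t' r * Cfsg.hermForm n F q r t')) • t' = 0 := by
    have : t' + (s * Cfsg.hermForm n F q t' r) • r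
        + (t * (s * Cfsg.hermForm n F q t' r * Cfsg.hermForm n F q r t')) • t'
        = t' + (s * Cfsg.hermForm n F q t' r) • r + 0 := by rw [← h2, add_zero]
    exact add_left_cancel this
  rcases smul_eq_zero.1 h3 with h4 | h4
  · rw [← herm_symm hF r t'] at h4
    have h5 : Cfsg.hermForm n F q r t' ^ q * Cfsg.hermForm n F q r t' = 0 := by
      rcases mul_eq_zero.1 h4 with h6 | h6
      · exact absurd h6 ht0
      · rcases mul_eq_zero.1 h6 with h7 | h7
        · rcases mul_eq_zero.1 h7 with h8 | h8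
          · exact absurd h8 hs0
          · rw [h8, zero_mul]
        · rw [h7, mul_zero]
    rcases mul_eq_zero.1 h5 with h6 | h6
    · exact (pow_eq_zero_iff (q_ne_zero hF)).1 h6
    · exact h6
  · exact absurd h4 ht'0

theorem TU_ne_of (hF : Fintype.card F = q ^ 2) (p p' : Fin n → F) (hp0 : p ≠ 0)
    (hp : Cfsg.hermForm n F q p p = 0) (hp' : Cfsg.hermForm n F q p' p' = 0)
    (h : Cfsg.hermForm n F q p p' ≠ 0) : TU hF p ≠ TU hF p' := by
  intro heq
  obtain ⟨κ, hκ0, hκ⟩ := exists_trace_zero hF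
  have hm : utvSU hF p κ ∈ TU hF p' := heq ▸ utv_mem_TU hF p κ hκ
  obtain ⟨b, hb, hr⟩ := (mem_TU hF p' hp' _).1 hm
  have h2 := congrArg (fun A : Cfsg.SU n F q => suM A *ᵥ p') hr
  simp only [utvSU_mulVec hF p κ hp hκ, utvSU_mulVec hF p' b hp' hb, hp', mul_zero, zero_smul,
    add_zero] at h2
  have h4 : (κ * Cfsg.hermForm n F q p' p) • p = 0 := by
    have : p' + (κ * Cfsg.hermForm n F q p' p) • p = p' + 0 := by rw [h2, add_zero]
    exact add_left_cancel this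
  rcases smul_eq_zero.1 h4 with h5 | h5
  · rcases mul_eq_zero.1 h5 with h6 | h6
    · exact hκ0 h6
    · exact h (herm_zero_of_symm hF h6)
  · exact hp0 h5

theorem conj_inv_TU (hF : Fintype.card F = q ^ 2) (p p' : Fin n → F)
    (hp : Cfsg.hermForm n F q p p = 0) (hp' : Cfsg.hermForm n F q p' p' = 0) (b : F)
    (hb : b + b ^ q = 0) :
    conjBy (TU hF p) (utvSU hF p' b)⁻¹ = TU hF (p - (b * Cfsg.hermForm n F q p p') • p') := by
  rw [conjBy_TU hF _ p hp, utv_inv hF p' hp' b hb,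
    utvSU_mulVec hF p' (-b) hp' (tz_neg hF hb), neg_mul, neg_smul, sub_eq_add_neg]

theorem iso_conj (hF : Fintype.card F = q ^ 2) (p p' : Fin n → F)
    (hp : Cfsg.hermForm n F q p p = 0) (hp' : Cfsg.hermForm n F q p' p' = 0) (b : F)
    (hb : b + b ^ q = 0) :
    Cfsg.hermForm n F q (p - (b * Cfsg.hermForm n F q p p') • p')
      (p - (b * Cfsg.hermForm n F q p p') • p') = 0 := by
  have e : p - (b * Cfsg.hermForm n F q p p') • p' = suM (utvSU hF p' (-b)) *ᵥ p := by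
    rw [utvSU_mulVec hF p' (-b) hp' (tz_neg hF hb), neg_mul, neg_smul, sub_eq_add_neg]
  rw [e, su_pres, hp]

theorem rank_one_cond_U (hF : Fintype.card F = q ^ 2) (p p' : Fin n → F) (hp'0 : p' ≠ 0)
    (hp : Cfsg.hermForm n F q p p = 0) (hp' : Cfsg.hermForm n F q p' p' = 0)
    (h : Cfsg.hermForm n F q p p' ≠ 0) : RankOneCondition (TU hF p) (TU hF p') := by
  intro x hx hx1
  obtain ⟨a, ha, rfl⟩ := (mem_TU hF p hp x).1 hx
  have ha0 : a ≠ 0 := by
    rintro rfl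
    exact hx1 (utv_zero hF p hp)
  obtain ⟨β, hβ⟩ : ∃ β : F, β = Cfsg.hermForm n F q p p' := ⟨_, rfl⟩
  rw [← hβ] at h
  have hβ' : Cfsg.hermForm n F q p' p = β ^ q := by rw [hβ]; exact (herm_symm hF p p').symm
  obtain ⟨b, hbdef⟩ : ∃ b : F, b = a⁻¹ * (β ^ (q + 1))⁻¹ := ⟨_, rfl⟩
  have hb : b + b ^ q = 0 := by
    have ha' : a⁻¹ + (a⁻¹) ^ q = 0 := by
      have haq : a ^ q = -a := by linear_combination ha
      rw [inv_pow, haq, inv_neg, add_neg_cancel]
    rw [hbdef]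
    exact tz_mul_fix ha' (by rw [inv_pow, unorm_fixed hF])
  have hb0 : b ≠ 0 := by
    rw [hbdef]
    exact mul_ne_zero (inv_ne_zero ha0) (inv_ne_zero (pow_ne_zero _ h))
  refine ⟨utvSU hF p' b, utv_mem_TU hF p' b hb, utv_ne_one hF p' hp'0 hp' b hb hb0, ?_⟩
  have hiso := iso_conj hF p' p hp' hp a ha
  rw [conj_inv_TU hF p p' hp hp' b hb, conj_inv_TU hF p' p hp' hp a ha]
  rw [hβ'] at hiso ⊢
  rw [← hβ]
  have e : p - (b * β) • p' = (-(a * β ^ q)⁻¹) • (p' - (a * β ^ q) • p) := by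
    rw [hbdef, pow_succ]
    have hβq : β ^ q ≠ 0 := pow_ne_zero _ h
    ext i
    simp only [Pi.sub_apply, Pi.smul_apply, smul_eq_mul]
    field_simp
    ring
  rw [e, TU_smul hF _ (neg_ne_zero.mpr (inv_ne_zero (mul_ne_zero ha0 (pow_ne_zero _ h)))) _ hiso]

theorem rank_one_U (hF : Fintype.card F = q ^ 2) (p p' : Fin n → F) (hp0 : p ≠ 0)
    (hp'0 : p' ≠ 0) (hp : Cfsg.hermForm n F q p p = 0) (hp' : Cfsg.hermForm n F q p' p' = 0)
    (h : Cfsg.hermForm n F q p p' ≠ 0) : IsRankOnePair (TU hF p) (TU hF p') :=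
  ⟨TU_ne_of hF p p' hp0 hp hp' h, nilp_of_comm _ (TU_comm_elem hF p hp),
    nilp_of_comm _ (TU_comm_elem hF p' hp'), rank_one_cond_U hF p p' hp'0 hp hp' h,
    rank_one_cond_U hF p' p hp0 hp' hp (fun h0 => h (herm_zero_of_symm hF h0))⟩

theorem TU_eq_of_cond (hF : Fintype.card F = q ^ 2) (p p' : Fin n → F) (hp0 : p ≠ 0)
    (hp : Cfsg.hermForm n F q p p = 0) (hp' : Cfsg.hermForm n F q p' p' = 0)
    (h : Cfsg.hermForm n F q p p' = 0) (hR : RankOneCondition (TU hF p) (TU hF p')) :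
    TU hF p = TU hF p' := by
  obtain ⟨κ, hκ0, hκ⟩ := exists_trace_zero hF
  obtain ⟨y, hy, -, heq⟩ := hR (utvSU hF p κ) (utv_mem_TU hF p κ hκ)
    (utv_ne_one hF p hp0 hp κ hκ hκ0)
  obtain ⟨b, hb, rfl⟩ := (mem_TU hF p' hp' y).1 hy
  rw [conj_inv_TU hF p p' hp hp' b hb, conj_inv_TU hF p' p hp' hp κ hκ, h,
    herm_zero_of_symm hF h] at heq
  simpa using heq

theorem exists_connect (hF : Fintype.card F = q ^ 2) (p p' : Fin n → F) (hp0 : p ≠ 0)
    (hp'0 : p' ≠ 0) (hp : Cfsg.hermForm n F q p p = 0)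
    (h : Cfsg.hermForm n F q p p' = 0) :
    ∃ r : Fin n → F, r ≠ 0 ∧ Cfsg.hermForm n F q r r = 0 ∧ Cfsg.hermForm n F q p r ≠ 0 ∧
      Cfsg.hermForm n F q p' r ≠ 0 := by
  obtain ⟨x₁, hx₁⟩ := exists_herm_one hF p hp0
  obtain ⟨x₂, hx₂⟩ := exists_herm_one hF p' hp'0
  obtain ⟨x, hxp, hxp'⟩ : ∃ x, Cfsg.hermForm n F q x p ≠ 0 ∧ Cfsg.hermForm n F q x p' ≠ 0 := by
    by_cases h1 : Cfsg.hermForm n F q x₁ p' = 0
    · by_cases h2 : Cfsg.hermForm n F q x₂ p = 0
      · exact ⟨x₁ + x₂, by rw [herm_add_left, hx₁, h2, add_zero]; exact one_ne_zero,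
          by rw [herm_add_left, h1, hx₂, zero_add]; exact one_ne_zero⟩
      · exact ⟨x₂, h2, by rw [hx₂]; exact one_ne_zero⟩
    · exact ⟨x₁, by rw [hx₁]; exact one_ne_zero, h1⟩
  obtain ⟨γ, hγ⟩ : ∃ γ : F, γ = Cfsg.hermForm n F q x p := ⟨_, rfl⟩
  rw [← hγ] at hxp
  obtain ⟨ν, hν⟩ := utrace_surj hF (-(Cfsg.hermForm n F q x x))
    (by rw [frob_neg hF, herm_self_fixed hF])
  obtain ⟨μ, hμ⟩ : ∃ μ : F, μ = ν / γ ^ q := ⟨_, rfl⟩
  have hγq : γ ^ q ≠ 0 := pow_ne_zero _ hxp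
  have hpx : Cfsg.hermForm n F q p x = γ ^ q := by rw [hγ]; exact (herm_symm hF x p).symm
  refine ⟨x + μ • p, ?_, ?_, ?_, ?_⟩
  · intro h0
    have h1 : Cfsg.hermForm n F q (x + μ • p) p = 0 := by rw [h0, herm_zero_left]
    rw [herm_add_left, herm_smul_left, hp, mul_zero, add_zero, ← hγ] at h1
    exact hxp h1
  · rw [herm_add_left, herm_add_right hF, herm_add_right hF, herm_smul_left, herm_smul_left,
      herm_smul_right, herm_smul_right, hp, hpx, ← hγ]
    have e1 : μ * γ ^ q = ν := by rw [hμ]; field_simp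
    have e2 : μ ^ q * γ = ν ^ q := by
      rw [hμ, div_pow, frob_frob hF]
      field_simp
    linear_combination e1 + e2 + hν
  · rw [herm_add_right hF, herm_smul_right, hp, mul_zero, add_zero, hpx]
    exact hγq
  · rw [herm_add_right hF, herm_smul_right, herm_zero_of_symm hF h, mul_zero, add_zero,
      ← herm_symm hF x p']
    exact pow_ne_zero _ hxp'

end Pairs

/-! ### the unitary `SL₂` -/

section PSL2U

variable {F : Type*} [Field F] [Fintype F] {q : ℕ} {n : ℕ} {L : Type*} [Field L]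

/-- twisting a `2 × 2` matrix over the fixed field into `F` -/
def twist (ι : L →+* F) (ε : F) (X : Matrix (Fin 2) (Fin 2) L) : Matrix (Fin 2) (Fin 2) F :=
  !![ι (X 0 0), ε * ι (X 0 1); ε⁻¹ * ι (X 1 0), ι (X 1 1)]

theorem twist_00 (ι : L →+* F) (ε : F) (X : Matrix (Fin 2) (Fin 2) L) :
    twist ι ε X 0 0 = ι (X 0 0) := rfl

theorem twist_01 (ι : L →+* F) (ε : F) (X : Matrix (Fin 2) (Fin 2) L) :
    twist ι ε X 0 1 = ε * ι (X 0 1) := rfl

theorem twist_10 (ι : L →+* F) (ε : F) (X : Matrix (Fin 2) (Fin 2) L) :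
    twist ι ε X 1 0 = ε⁻¹ * ι (X 1 0) := rfl

theorem twist_11 (ι : L →+* F) (ε : F) (X : Matrix (Fin 2) (Fin 2) L) :
    twist ι ε X 1 1 = ι (X 1 1) := rfl

theorem twist_one (ι : L →+* F) (ε : F) : twist ι ε 1 = 1 := by
  ext i j
  fin_cases i <;> fin_cases j <;> simp [twist]

theorem twist_mul (ι : L →+* F) (ε : F) (hε : ε ≠ 0) (X Y : Matrix (Fin 2) (Fin 2) L) :
    twist ι ε (X * Y) = twist ι ε X * twist ι ε Y := by
  ext i j
  fin_cases i <;> fin_cases j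
  · show twist ι ε (X * Y) 0 0 = (twist ι ε X * twist ι ε Y) 0 0
    rw [Matrix.mul_apply, Fin.sum_univ_two, twist_00, twist_00, twist_00, twist_01, twist_10,
      Matrix.mul_apply, Fin.sum_univ_two, map_add, map_mul, map_mul]
    field_simp
  · show twist ι ε (X * Y) 0 1 = (twist ι ε X * twist ι ε Y) 0 1
    rw [Matrix.mul_apply, Fin.sum_univ_two, twist_01, twist_00, twist_01, twist_01, twist_11,
      Matrix.mul_apply, Fin.sum_univ_two, map_add, map_mul, map_mul]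
    ring
  · show twist ι ε (X * Y) 1 0 = (twist ι ε X * twist ι ε Y) 1 0
    rw [Matrix.mul_apply, Fin.sum_univ_two, twist_10, twist_10, twist_00, twist_11, twist_10,
      Matrix.mul_apply, Fin.sum_univ_two, map_add, map_mul, map_mul]
    ring
  · show twist ι ε (X * Y) 1 1 = (twist ι ε X * twist ι ε Y) 1 1
    rw [Matrix.mul_apply, Fin.sum_univ_two, twist_11, twist_10, twist_01, twist_11, twist_11,
      Matrix.mul_apply, Fin.sum_univ_two, map_add, map_mul, map_mul]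
    field_simp

/-- the image of a `2 × 2` matrix over the fixed field -/
def Psi (q : ℕ) (ι : L →+* F) (ε : F) (p p' : Fin n → F) (X : Matrix (Fin 2) (Fin 2) L) :
    Matrix (Fin n) (Fin n) F :=
  MMg p p' (fun j => p' j ^ q) (fun j => p j ^ q) (twist ι ε X)

theorem dot_frob (p p' : Fin n → F) :
    (fun j => p' j ^ q) ⬝ᵥ p = Cfsg.hermForm n F q p p' := by
  simp only [dotProduct, Cfsg.hermForm]
  exact Finset.sum_congr rfl fun i _ => mul_comm _ _

theorem Psi_one (ι : L →+* F) (ε : F) (p p' : Fin n → F) :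
    Psi q ι ε p p' 1 = 1 := by
  rw [Psi, twist_one, MMg_one]

theorem Psi_mul (hF : Fintype.card F = q ^ 2) (ι : L →+* F) (ε : F) (hε : ε ≠ 0)
    (p p' : Fin n → F)
    (hp : Cfsg.hermForm n F q p p = 0) (hp' : Cfsg.hermForm n F q p' p' = 0)
    (h1 : Cfsg.hermForm n F q p p' = 1) (X Y : Matrix (Fin 2) (Fin 2) L) :
    Psi q ι ε p p' (X * Y) = Psi q ι ε p p' X * Psi q ι ε p p' Y := by
  rw [Psi, Psi, Psi, twist_mul ι ε hε]
  exact MMg_mul p p' _ _ (by rw [dot_frob, h1]) (by rw [dot_frob, hp']) (by rw [dot_frob, hp])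
    (by rw [dot_frob, herm_one_of_symm hF h1]) _ _

theorem Psi_upper (ι : L →+* F) (ε : F) (p p' : Fin n → F)
    (X : Matrix (Fin 2) (Fin 2) L) (h10 : X 1 0 = 0) (h00 : X 0 0 = 1) (h11 : X 1 1 = 1) :
    Psi q ι ε p p' X = Cfsg.unitaryTransvection n q p (ε * ι (X 0 1)) := by
  rw [Psi, MMg_upper p p' _ _ (twist ι ε X) (by rw [twist_10, h10, map_zero, mul_zero])
    (by rw [twist_00, h00, map_one]) (by rw [twist_11, h11, map_one]), twist_01]
  rfl

theorem Psi_lower (ι : L →+* F) (ε : F) (p p' : Fin n → F)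
    (X : Matrix (Fin 2) (Fin 2) L) (h01 : X 0 1 = 0) (h00 : X 0 0 = 1) (h11 : X 1 1 = 1) :
    Psi q ι ε p p' X = Cfsg.unitaryTransvection n q p' (ε⁻¹ * ι (X 1 0)) := by
  rw [Psi, MMg_lower p p' _ _ (twist ι ε X) (by rw [twist_01, h01, map_zero, mul_zero])
    (by rw [twist_00, h00, map_one]) (by rw [twist_11, h11, map_one]), twist_10]
  rfl

theorem tz_eps (ε : F) (hε : ε + ε ^ q = 0) (ι : L →+* F) (hι : ∀ s : L, ι s ^ q = ι s)
    (s : L) : ε * ι s + (ε * ι s) ^ q = 0 := tz_mul_fix hε (hι s)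

theorem tz_inv {ε : F} (hε : ε + ε ^ q = 0) : ε⁻¹ + (ε⁻¹) ^ q = 0 := by
  have haq : ε ^ q = -ε := by linear_combination hε
  rw [inv_pow, haq, inv_neg, add_neg_cancel]

theorem Psi_exists (hF : Fintype.card F = q ^ 2) (ι : L →+* F) (hι : ∀ s : L, ι s ^ q = ι s)
    (ε : F) (hε0 : ε ≠ 0) (hε : ε + ε ^ q = 0) (p p' : Fin n → F)
    (hp : Cfsg.hermForm n F q p p = 0) (hp' : Cfsg.hermForm n F q p' p' = 0)
    (h1 : Cfsg.hermForm n F q p p' = 1) (X : Matrix.SpecialLinearGroup (Fin 2) L) :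
    ∃ g : Cfsg.SU n F q, g ∈ TU hF p ⊔ TU hF p' ∧
      suM g = Psi q ι ε p p' (X : Matrix (Fin 2) (Fin 2) L) := by
  refine Cfsg.Agent.Lib.helper13.SLSimple.transvection_induction
    (fun X : Matrix.SpecialLinearGroup (Fin 2) L => ∃ g : Cfsg.SU n F q,
      g ∈ TU hF p ⊔ TU hF p' ∧ suM g = Psi q ι ε p p' (X : Matrix (Fin 2) (Fin 2) L)) ?_ ?_ X
  · intro i j hij a
    have hc : ((Matrix.SpecialLinearGroup.transvection hij a :
        Matrix.SpecialLinearGroup (Fin 2) L) : Matrix (Fin 2) (Fin 2) L)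
        = Matrix.transvection i j a := Matrix.SpecialLinearGroup.transvection_coe hij a
    fin_cases i <;> fin_cases j
    · exact absurd rfl hij
    · have hz := tz_eps ε hε ι hι (((Matrix.SpecialLinearGroup.transvection hij a :
        Matrix.SpecialLinearGroup (Fin 2) L) : Matrix (Fin 2) (Fin 2) L) 0 1)
      refine ⟨utvSU hF p _, (le_sup_left : TU hF p ≤ TU hF p ⊔ TU hF p')
        (utv_mem_TU hF p _ hz), ?_⟩
      rw [utvSU_val hF p _ hp hz]
      refine (Psi_upper ι ε p p' _ ?_ ?_ ?_).symm <;>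
        · rw [hc]; simp [Matrix.transvection]
    · have hz := tz_mul_fix (tz_inv hε) (hι (((Matrix.SpecialLinearGroup.transvection hij a :
        Matrix.SpecialLinearGroup (Fin 2) L) : Matrix (Fin 2) (Fin 2) L) 1 0))
      refine ⟨utvSU hF p' _, (le_sup_right : TU hF p' ≤ TU hF p ⊔ TU hF p')
        (utv_mem_TU hF p' _ hz), ?_⟩
      rw [utvSU_val hF p' _ hp' hz]
      refine (Psi_lower ι ε p p' _ ?_ ?_ ?_).symm <;>
        · rw [hc]; simp [Matrix.transvection]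
    · exact absurd rfl hij
  · rintro A B ⟨gA, hA, eA⟩ ⟨gB, hB, eB⟩
    refine ⟨gA * gB, Subgroup.mul_mem _ hA hB, ?_⟩
    rw [suM_mul, eA, eB, Matrix.SpecialLinearGroup.coe_mul,
      Psi_mul hF ι ε hε0 p p' hp hp' h1]

/-- the homomorphism `SL₂(L) → SU` attached to a hyperbolic pair -/
noncomputable def phiU (hF : Fintype.card F = q ^ 2) (ι : L →+* F)
    (hι : ∀ s : L, ι s ^ q = ι s)
    (ε : F) (hε0 : ε ≠ 0) (hε : ε + ε ^ q = 0) (p p' : Fin n → F)
    (hp : Cfsg.hermForm n F q p p = 0) (hp' : Cfsg.hermForm n F q p' p' = 0)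
    (h1 : Cfsg.hermForm n F q p p' = 1) :
    Matrix.SpecialLinearGroup (Fin 2) L →* Cfsg.SU n F q where
  toFun X := Classical.choose (Psi_exists hF ι hι ε hε0 hε p p' hp hp' h1 X)
  map_one' := by
    apply suM_injective
    rw [(Classical.choose_spec (Psi_exists hF ι hι ε hε0 hε p p' hp hp' h1 1)).2, suM_one]
    exact Psi_one ι ε p p'
  map_mul' X Y := by
    apply suM_injective
    rw [(Classical.choose_spec (Psi_exists hF ι hι ε hε0 hε p p' hp hp' h1 (X * Y))).2, suM_mul,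
      (Classical.choose_spec (Psi_exists hF ι hι ε hε0 hε p p' hp hp' h1 X)).2,
      (Classical.choose_spec (Psi_exists hF ι hι ε hε0 hε p p' hp hp' h1 Y)).2,
      Matrix.SpecialLinearGroup.coe_mul, Psi_mul hF ι ε hε0 p p' hp hp' h1]

theorem phiU_val (hF : Fintype.card F = q ^ 2) (ι : L →+* F)
    (hι : ∀ s : L, ι s ^ q = ι s)
    (ε : F) (hε0 : ε ≠ 0) (hε : ε + ε ^ q = 0) (p p' : Fin n → F)
    (hp : Cfsg.hermForm n F q p p = 0) (hp' : Cfsg.hermForm n F q p' p' = 0)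
    (h1 : Cfsg.hermForm n F q p p' = 1) (X : Matrix.SpecialLinearGroup (Fin 2) L) :
    suM (phiU hF ι hι ε hε0 hε p p' hp hp' h1 X)
      = Psi q ι ε p p' (X : Matrix (Fin 2) (Fin 2) L) :=
  (Classical.choose_spec (Psi_exists hF ι hι ε hε0 hε p p' hp hp' h1 X)).2

theorem phiU_mem (hF : Fintype.card F = q ^ 2) (ι : L →+* F)
    (hι : ∀ s : L, ι s ^ q = ι s)
    (ε : F) (hε0 : ε ≠ 0) (hε : ε + ε ^ q = 0) (p p' : Fin n → F)
    (hp : Cfsg.hermForm n F q p p = 0) (hp' : Cfsg.hermForm n F q p' p' = 0)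
    (h1 : Cfsg.hermForm n F q p p' = 1) (X : Matrix.SpecialLinearGroup (Fin 2) L) :
    phiU hF ι hι ε hε0 hε p p' hp hp' h1 X ∈ TU hF p ⊔ TU hF p' :=
  (Classical.choose_spec (Psi_exists hF ι hι ε hε0 hε p p' hp hp' h1 X)).1

theorem psl2_U (hF : Fintype.card F = q ^ 2) (ι : L →+* F)
    (hι : ∀ s : L, ι s ^ q = ι s) (hsurj : ∀ x : F, x ^ q = x → ∃ s : L, ι s = x)
    (p p' : Fin n → F)
    (hp : Cfsg.hermForm n F q p p = 0) (hp' : Cfsg.hermForm n F q p' p' = 0)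
    (h1 : Cfsg.hermForm n F q p p' = 1) : IsPSL2PairOver L (TU hF p) (TU hF p') := by
  obtain ⟨ε, hε0, hε⟩ := exists_trace_zero hF
  have hεq : ε ^ q = -ε := by linear_combination hε
  have hup : (upperUnipotentSL2 L).map (phiU hF ι hι ε hε0 hε p p' hp hp' h1) = TU hF p := by
    rw [upperUnipotentSL2, MonoidHom.map_closure]
    have : (phiU hF ι hι ε hε0 hε p p' hp hp' h1) '' {X : Matrix.SpecialLinearGroup (Fin 2) L |
        (X : Matrix (Fin 2) (Fin 2) L) 1 0 = 0 ∧ (X : Matrix (Fin 2) (Fin 2) L) 0 0 = 1 ∧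
        (X : Matrix (Fin 2) (Fin 2) L) 1 1 = 1}
        = ((TU hF p : Subgroup (Cfsg.SU n F q)) : Set (Cfsg.SU n F q)) := by
      ext y
      constructor
      · rintro ⟨X, ⟨h10, h00, h11⟩, rfl⟩
        have hz := tz_eps ε hε ι hι ((X : Matrix (Fin 2) (Fin 2) L) 0 1)
        have e : phiU hF ι hι ε hε0 hε p p' hp hp' h1 X
            = utvSU hF p (ε * ι ((X : Matrix (Fin 2) (Fin 2) L) 0 1)) := by
          apply suM_injective
          rw [phiU_val, utvSU_val hF p _ hp hz, Psi_upper ι ε p p' _ h10 h00 h11]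
        rw [e]
        exact utv_mem_TU hF p _ hz
      · intro hy
        obtain ⟨a, ha, rfl⟩ := (mem_TU hF p hp y).1 hy
        have haq : a ^ q = -a := by linear_combination ha
        obtain ⟨s, hs⟩ := hsurj (a / ε) (by rw [div_pow, haq, hεq, neg_div_neg_eq])
        refine ⟨upT s, ⟨upT_10 s, upT_00 s, upT_11 s⟩, ?_⟩
        have hz := tz_eps ε hε ι hι s
        apply suM_injective
        rw [phiU_val, utvSU_val hF p _ hp ha,
          Psi_upper ι ε p p' _ (upT_10 s) (upT_00 s) (upT_11 s), upT_01, hs,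
          mul_div_cancel₀ _ hε0]
    rw [this, Subgroup.closure_eq]
  have hlow : (lowerUnipotentSL2 L).map (phiU hF ι hι ε hε0 hε p p' hp hp' h1) = TU hF p' := by
    rw [lowerUnipotentSL2, MonoidHom.map_closure]
    have : (phiU hF ι hι ε hε0 hε p p' hp hp' h1) '' {X : Matrix.SpecialLinearGroup (Fin 2) L |
        (X : Matrix (Fin 2) (Fin 2) L) 0 1 = 0 ∧ (X : Matrix (Fin 2) (Fin 2) L) 0 0 = 1 ∧
        (X : Matrix (Fin 2) (Fin 2) L) 1 1 = 1}
        = ((TU hF p' : Subgroup (Cfsg.SU n F q)) : Set (Cfsg.SU n F q)) := by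
      ext y
      constructor
      · rintro ⟨X, ⟨h01, h00, h11⟩, rfl⟩
        have hz := tz_mul_fix (tz_inv hε) (hι ((X : Matrix (Fin 2) (Fin 2) L) 1 0))
        have e : phiU hF ι hι ε hε0 hε p p' hp hp' h1 X
            = utvSU hF p' (ε⁻¹ * ι ((X : Matrix (Fin 2) (Fin 2) L) 1 0)) := by
          apply suM_injective
          rw [phiU_val, utvSU_val hF p' _ hp' hz, Psi_lower ι ε p p' _ h01 h00 h11]
        rw [e]
        exact utv_mem_TU hF p' _ hz
      · intro hy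
        obtain ⟨a, ha, rfl⟩ := (mem_TU hF p' hp' y).1 hy
        have haq : a ^ q = -a := by linear_combination ha
        obtain ⟨s, hs⟩ := hsurj (ε * a) (by rw [mul_pow, haq, hεq, neg_mul_neg])
        refine ⟨loT s, ⟨loT_01 s, loT_00 s, loT_11 s⟩, ?_⟩
        apply suM_injective
        rw [phiU_val, utvSU_val hF p' _ hp' ha,
          Psi_lower ι ε p p' _ (loT_01 s) (loT_00 s) (loT_11 s), loT_10, hs,
          inv_mul_cancel_left₀ hε0]
    rw [this, Subgroup.closure_eq]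
  refine ⟨phiU hF ι hι ε hε0 hε p p' hp hp' h1, ?_, ?_, hup, hlow⟩
  · apply le_antisymm
    · rintro _ ⟨X, rfl⟩
      exact phiU_mem hF ι hι ε hε0 hε p p' hp hp' h1 X
    · rw [sup_le_iff]
      constructor
      · rw [← hup]
        exact Subgroup.map_le_range _ _
      · rw [← hlow]
        exact Subgroup.map_le_range _ _
  · intro X hX
    rw [MonoidHom.mem_ker] at hX
    have hM : Psi q ι ε p p' (X : Matrix (Fin 2) (Fin 2) L) = 1 := by
      rw [← phiU_val hF ι hι ε hε0 hε p p' hp hp' h1, hX, suM_one]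
    obtain ⟨e00, e10, e01, e11⟩ := MMg_entries p p' (fun j => p' j ^ q) (fun j => p j ^ q)
      (by rw [dot_frob, h1]) (by rw [dot_frob, hp']) (by rw [dot_frob, hp])
      (by rw [dot_frob, herm_one_of_symm hF h1]) (twist ι ε (X : Matrix (Fin 2) (Fin 2) L))
    unfold Psi at hM
    rw [hM, one_mulVec] at e00 e10 e01 e11
    rw [dot_frob] at e00 e10 e01 e11
    rw [h1, twist_00] at e00
    rw [hp, twist_10] at e10
    rw [hp', twist_01] at e01
    rw [herm_one_of_symm hF h1, twist_11] at e11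
    have hinj := RingHom.injective ι
    have x00 : (X : Matrix (Fin 2) (Fin 2) L) 0 0 = 1 := hinj (by rw [← e00, map_one])
    have x11 : (X : Matrix (Fin 2) (Fin 2) L) 1 1 = 1 := hinj (by rw [← e11, map_one])
    have x01 : (X : Matrix (Fin 2) (Fin 2) L) 0 1 = 0 := by
      apply hinj
      rw [map_zero]
      rcases mul_eq_zero.1 e01.symm with h | h
      · exact absurd h hε0
      · exact h
    have x10 : (X : Matrix (Fin 2) (Fin 2) L) 1 0 = 0 := by
      apply hinj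
      rw [map_zero]
      rcases mul_eq_zero.1 e10.symm with h | h
      · exact absurd h (inv_ne_zero hε0)
      · exact h
    have hX1 : X = 1 := by
      apply Subtype.ext
      ext i j
      fin_cases i <;> fin_cases j
      · show (X : Matrix (Fin 2) (Fin 2) L) 0 0 = _
        rw [x00]; simp
      · show (X : Matrix (Fin 2) (Fin 2) L) 0 1 = _
        rw [x01]; simp
      · show (X : Matrix (Fin 2) (Fin 2) L) 1 0 = _
        rw [x10]; simp
      · show (X : Matrix (Fin 2) (Fin 2) L) 1 1 = _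
        rw [x11]; simp
    rw [hX1]
    exact Subgroup.one_mem _

end PSL2U

/-! ### transfer to a subgroup -/

section SubgroupOf

variable {G : Type*} [Group G] (K : Subgroup G)

theorem conjBy_subgroupOf (A : Subgroup G) (g : K) :
    conjBy (A.subgroupOf K) g = (conjBy A (g : G)).subgroupOf K := by
  ext x
  rw [mem_conjBy, Subgroup.mem_subgroupOf, mem_conjBy]
  constructor
  · rintro ⟨a, ha, rfl⟩
    exact ⟨(a : G), Subgroup.mem_subgroupOf.1 ha, rfl⟩
  · rintro ⟨a, ha, hx⟩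
    have haK : a ∈ K := by
      have e : a = (g : G)⁻¹ * (x : G) * (g : G) := by rw [hx]; group
      rw [e]
      exact K.mul_mem (K.mul_mem (K.inv_mem g.2) x.2) g.2
    exact ⟨⟨a, haK⟩, Subgroup.mem_subgroupOf.2 ha, Subtype.ext hx⟩

theorem subgroupOf_inj' {A B : Subgroup G} (hA : A ≤ K) (hB : B ≤ K)
    (h : A.subgroupOf K = B.subgroupOf K) : A = B := by
  have h1 := Subgroup.subgroupOf_inj.1 h
  rwa [inf_eq_left.2 hA, inf_eq_left.2 hB] at h1

theorem conjBy_le {A : Subgroup G} (hA : A ≤ K) (g : G) (hg : g ∈ K) : conjBy A g ≤ K := by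
  intro x hx
  rw [mem_conjBy] at hx
  obtain ⟨a, ha, rfl⟩ := hx
  exact K.mul_mem (K.mul_mem hg (hA ha)) (K.inv_mem hg)

theorem rankOneCond_subgroupOf {A B : Subgroup G} (hB : B ≤ K) (h : RankOneCondition A B) :
    RankOneCondition (A.subgroupOf K) (B.subgroupOf K) := by
  intro a ha ha1
  obtain ⟨b, hb, hb1, heq⟩ := h (a : G) (Subgroup.mem_subgroupOf.1 ha)
    (fun h1 => ha1 (Subtype.ext h1))
  refine ⟨⟨b, hB hb⟩, Subgroup.mem_subgroupOf.2 hb, fun h1 => hb1 (congrArg Subtype.val h1), ?_⟩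
  rw [conjBy_subgroupOf, conjBy_subgroupOf]
  exact congrArg (fun X : Subgroup G => X.subgroupOf K) heq

theorem rankOneCond_of_subgroupOf {A B : Subgroup G} (hA : A ≤ K) (hB : B ≤ K)
    (h : RankOneCondition (A.subgroupOf K) (B.subgroupOf K)) : RankOneCondition A B := by
  intro a ha ha1
  obtain ⟨b, hb, hb1, heq⟩ := h ⟨a, hA ha⟩ (Subgroup.mem_subgroupOf.2 ha)
    (fun h1 => ha1 (congrArg Subtype.val h1))
  refine ⟨(b : G), Subgroup.mem_subgroupOf.1 hb, fun h1 => hb1 (Subtype.ext h1), ?_⟩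
  rw [conjBy_subgroupOf, conjBy_subgroupOf] at heq
  exact subgroupOf_inj' K (conjBy_le K hA _ (K.inv_mem b.2))
    (conjBy_le K hB _ (K.inv_mem (hA ha))) heq

theorem commutator_subgroupOf_bot {A B : Subgroup G}
    (h : ∀ a ∈ A, ∀ b ∈ B, a * b = b * a) : ⁅A.subgroupOf K, B.subgroupOf K⁆ = ⊥ := by
  rw [Subgroup.commutator_eq_bot_iff_le_centralizer]
  intro a ha
  rw [Subgroup.mem_centralizer_iff]
  intro b hb
  exact Subtype.ext (h a.1 (Subgroup.mem_subgroupOf.1 ha) b.1 (Subgroup.mem_subgroupOf.1 hb)).symm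

theorem sup_subgroupOf_le {A B : Subgroup G} (hA : A ≤ K) (hB : B ≤ K) :
    (A ⊔ B).subgroupOf K ≤ A.subgroupOf K ⊔ B.subgroupOf K := by
  intro x hx
  have hx' : (x : G) ∈ A ⊔ B := Subgroup.mem_subgroupOf.1 hx
  have e : (A.subgroupOf K ⊔ B.subgroupOf K).map K.subtype = A ⊔ B := by
    rw [Subgroup.map_sup, Subgroup.subgroupOf_map_subtype, Subgroup.subgroupOf_map_subtype,
      inf_eq_left.2 hA, inf_eq_left.2 hB]
  rw [← e] at hx'
  obtain ⟨z, hz, hzx⟩ := hx'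
  have hzx' : z = x := Subtype.ext hzx
  rwa [hzx'] at hz

theorem psl2_subgroupOf {k : Type*} [Field k] {A B : Subgroup G} (hA : A ≤ K) (hB : B ≤ K)
    (h : IsPSL2PairOver k A B) : IsPSL2PairOver k (A.subgroupOf K) (B.subgroupOf K) := by
  obtain ⟨φ, hr, hk, hu, hl⟩ := h
  have hφK : ∀ x, φ x ∈ K := fun x => by
    have h1 : φ x ∈ φ.range := ⟨x, rfl⟩
    rw [hr] at h1
    exact (sup_le hA hB) h1
  have hmap : ∀ U : Subgroup (Matrix.SpecialLinearGroup (Fin 2) k),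
      U.map (φ.codRestrict K hφK) = (U.map φ).subgroupOf K := by
    intro U
    ext x
    rw [Subgroup.mem_subgroupOf, Subgroup.mem_map, Subgroup.mem_map]
    constructor
    · rintro ⟨y, hy, rfl⟩
      exact ⟨y, hy, rfl⟩
    · rintro ⟨y, hy, hx⟩
      exact ⟨y, hy, Subtype.ext hx⟩
  refine ⟨φ.codRestrict K hφK, ?_, ?_, ?_, ?_⟩
  · apply le_antisymm
    · rintro _ ⟨y, rfl⟩
      apply sup_subgroupOf_le K hA hB
      rw [Subgroup.mem_subgroupOf, ← hr]
      exact ⟨y, rfl⟩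
    · rw [sup_le_iff]
      constructor
      · rw [← hu, ← hmap]
        exact Subgroup.map_le_range _ _
      · rw [← hl, ← hmap]
        exact Subgroup.map_le_range _ _
  · intro x hx
    apply hk
    rw [MonoidHom.mem_ker] at hx ⊢
    exact congrArg Subtype.val hx
  · rw [hmap, hu]
  · rw [hmap, hl]

theorem generates_subgroupOf (S : Set (Subgroup G)) (hK : K = ⨆ B ∈ S, B) :
    (⨆ A' ∈ (fun A : Subgroup G => A.subgroupOf K) '' S, A') = ⊤ := by
  rw [eq_top_iff]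
  intro y _
  have hle : K ≤ (⨆ A' ∈ (fun A : Subgroup G => A.subgroupOf K) '' S, A').map K.subtype := by
    conv_lhs => rw [hK]
    apply iSup₂_le
    intro B hB x hx
    have hxK : x ∈ K := by
      rw [hK]
      exact (le_iSup₂ (f := fun (B : Subgroup G) (_ : B ∈ S) => B) B hB) hx
    have hle' : B.subgroupOf K ≤ ⨆ A' ∈ (fun A : Subgroup G => A.subgroupOf K) '' S, A' :=
      le_iSup₂ (f := fun (A' : Subgroup K)
        (_ : A' ∈ (fun A : Subgroup G => A.subgroupOf K) '' S) => A') (B.subgroupOf K)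
        ⟨B, hB, rfl⟩
    exact ⟨⟨x, hxK⟩, hle' (Subgroup.mem_subgroupOf.2 hx), rfl⟩
  obtain ⟨z, hz, hzy⟩ := hle y.2
  have hzy' : z = y := Subtype.ext hzy
  rwa [hzy'] at hz

theorem conj_of_cond (A B : Subgroup G) (a b : G) (h : conjBy A b⁻¹ = conjBy B a⁻¹) :
    B = conjBy A (a * b⁻¹) := by
  rw [← conjBy_mul, h, conjBy_mul, mul_inv_cancel, conjBy_one]

end SubgroupOf

/-! ### the class of the statement -/

section Main

variable {F : Type*} [Field F] [Fintype F] {q : ℕ} {n : ℕ}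

open Cfsg.Agent.Lib.helper6 (fixSubfield mem_fixSubfield card_fixSubfield)

theorem exists_field (hF : Fintype.card F = q ^ 2) :
    ∃ (L : Type) (_ : Field L) (_ : Fintype L), Fintype.card L = q ∧
      ∃ ι : L →+* F, (∀ s : L, ι s ^ q = ι s) ∧ ∀ x : F, x ^ q = x → ∃ s : L, ι s = x := by
  classical
  haveI : Fintype (fixSubfield hF) := Fintype.ofFinite _
  have hc : Fintype.card (fixSubfield hF) = q := by
    rw [← Nat.card_eq_fintype_card]
    exact card_fixSubfield hF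
  obtain ⟨p, k, hp, hk, hpk⟩ := FiniteField.isPrimePow_card (fixSubfield hF)
  rw [hc] at hpk
  haveI : Fact p.Prime := ⟨Nat.prime_iff.2 hp⟩
  haveI : Fintype (GaloisField p k) := Fintype.ofFinite _
  have hcL : Fintype.card (GaloisField p k) = q := by
    rw [← Nat.card_eq_fintype_card, GaloisField.card p k hk.ne', hpk]
  have e : GaloisField p k ≃+* fixSubfield hF :=
    FiniteField.ringEquivOfCardEq (by rw [hcL, hc])
  refine ⟨GaloisField p k, inferInstance, inferInstance, hcL,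
    (fixSubfield hF).subtype.comp e.toRingHom, ?_, ?_⟩
  · intro s
    exact (e s).2
  · intro x hx
    exact ⟨e.symm ⟨x, hx⟩, by simp⟩

/-- the set `Σ` of the statement -/
def SigU (F : Type*) [Field F] (q n : ℕ) : Set (Subgroup ↥(Cfsg.SU (n + 2) F q)) :=
  {A : Subgroup ↥(Cfsg.SU (n + 2) F q) | ∃ p : Fin (n + 2) → F, p ≠ 0 ∧ Cfsg.hermForm (n + 2) F q p p = 0 ∧
          A = Subgroup.closure {g : ↥(Cfsg.SU (n + 2) F q) |
            (∀ v : Fin (n + 2) → F, ∃ c : F, ((g : Matrix.SpecialLinearGroup (Fin (n + 2)) F) : Matrix (Fin (n + 2)) (Fin (n + 2)) F) *ᵥ v = v + c • p) ∧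
            ∀ v : Fin (n + 2) → F, Cfsg.hermForm (n + 2) F q v p = 0 →
              ((g : Matrix.SpecialLinearGroup (Fin (n + 2)) F) : Matrix (Fin (n + 2)) (Fin (n + 2)) F) *ᵥ v = v}}

/-- the group `G₀` generated by `Σ` -/
def G0 (F : Type*) [Field F] (q n : ℕ) : Subgroup ↥(Cfsg.SU (n + 2) F q) :=
  ⨆ B ∈ SigU F q n, B

/-- `Σ` inside `G₀` -/
def SigU' (F : Type*) [Field F] (q n : ℕ) : Set (Subgroup ↥(G0 F q n)) :=
  (fun A : Subgroup ↥(Cfsg.SU (n + 2) F q) => A.subgroupOf (G0 F q n)) '' SigU F q n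

theorem mem_SigU (hF : Fintype.card F = q ^ 2) (A : Subgroup ↥(Cfsg.SU (n + 2) F q)) :
    A ∈ SigU F q n ↔ ∃ p : Fin (n + 2) → F, p ≠ 0 ∧ Cfsg.hermForm (n + 2) F q p p = 0 ∧
      A = TU hF p := by
  constructor
  · rintro ⟨p, hp0, hp, rfl⟩
    refine ⟨p, hp0, hp, ?_⟩
    rw [genset_eq hF p hp0 hp]
    rfl
  · rintro ⟨p, hp0, hp, rfl⟩
    refine ⟨p, hp0, hp, ?_⟩
    rw [genset_eq hF p hp0 hp]
    rfl

theorem TU_le_G0 (hF : Fintype.card F = q ^ 2) (p : Fin (n + 2) → F) (hp0 : p ≠ 0)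
    (hp : Cfsg.hermForm (n + 2) F q p p = 0) : TU hF p ≤ G0 F q n :=
  le_iSup₂ (f := fun (B : Subgroup ↥(Cfsg.SU (n + 2) F q)) (_ : B ∈ SigU F q n) => B) (TU hF p)
    ((mem_SigU hF _).2 ⟨p, hp0, hp, rfl⟩)

theorem mem_SigU' (hF : Fintype.card F = q ^ 2) (A : Subgroup ↥(G0 F q n)) :
    A ∈ SigU' F q n ↔ ∃ p : Fin (n + 2) → F, p ≠ 0 ∧ Cfsg.hermForm (n + 2) F q p p = 0 ∧
      A = (TU hF p).subgroupOf (G0 F q n) := by
  constructor
  · rintro ⟨B, hB, rfl⟩
    obtain ⟨p, hp0, hp, rfl⟩ := (mem_SigU hF B).1 hB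
    exact ⟨p, hp0, hp, rfl⟩
  · rintro ⟨p, hp0, hp, rfl⟩
    exact ⟨TU hF p, (mem_SigU hF _).2 ⟨p, hp0, hp, rfl⟩, rfl⟩

theorem TG_mem (hF : Fintype.card F = q ^ 2) (p : Fin (n + 2) → F) (hp0 : p ≠ 0)
    (hp : Cfsg.hermForm (n + 2) F q p p = 0) :
    (TU hF p).subgroupOf (G0 F q n) ∈ SigU' F q n :=
  (mem_SigU' hF _).2 ⟨p, hp0, hp, rfl⟩

theorem rankOne_TG (hF : Fintype.card F = q ^ 2) (p p' : Fin (n + 2) → F) (hp0 : p ≠ 0)
    (hp'0 : p' ≠ 0) (hp : Cfsg.hermForm (n + 2) F q p p = 0)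
    (hp' : Cfsg.hermForm (n + 2) F q p' p' = 0) (h : Cfsg.hermForm (n + 2) F q p p' ≠ 0) :
    IsRankOnePair ((TU hF p).subgroupOf (G0 F q n)) ((TU hF p').subgroupOf (G0 F q n)) := by
  have hA := TU_le_G0 hF p hp0 hp
  have hB := TU_le_G0 hF p' hp'0 hp'
  have h' : Cfsg.hermForm (n + 2) F q p' p ≠ 0 := fun h0 => h (herm_zero_of_symm hF h0)
  refine ⟨?_, ?_, ?_, ?_, ?_⟩
  · intro heq
    exact TU_ne_of hF p p' hp0 hp hp' h (subgroupOf_inj' _ hA hB heq)
  · apply nilp_of_comm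
    intro a ha b hb
    exact Subtype.ext (TU_comm_elem hF p hp a.1 (Subgroup.mem_subgroupOf.1 ha) b.1
      (Subgroup.mem_subgroupOf.1 hb))
  · apply nilp_of_comm
    intro a ha b hb
    exact Subtype.ext (TU_comm_elem hF p' hp' a.1 (Subgroup.mem_subgroupOf.1 ha) b.1
      (Subgroup.mem_subgroupOf.1 hb))
  · exact rankOneCond_subgroupOf _ hB (rank_one_cond_U hF p p' hp'0 hp hp' h)
  · exact rankOneCond_subgroupOf _ hA (rank_one_cond_U hF p' p hp0 hp' hp h')

theorem su_mulVec_ne_zero (g : Cfsg.SU n F q) (p : Fin n → F) (hp0 : p ≠ 0) :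
    suM g *ᵥ p ≠ 0 := by
  intro h
  have h1 := suM_inv_mulVec g p
  rw [h, Matrix.mulVec_zero] at h1
  exact hp0 h1.symm

theorem SigU'_rootSet (hF : Fintype.card F = q ^ 2) : IsRootSubgroupSet (SigU' F q n) where
  commutative := by
    intro A hA
    obtain ⟨p, hp0, hp, rfl⟩ := (mem_SigU' hF A).1 hA
    refine ⟨⟨fun a b => Subtype.ext (Subtype.ext ?_)⟩⟩
    exact TU_comm_elem hF p hp a.1.1 (Subgroup.mem_subgroupOf.1 a.2) b.1.1
      (Subgroup.mem_subgroupOf.1 b.2)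
  ne_bot := by
    intro A hA
    obtain ⟨p, hp0, hp, rfl⟩ := (mem_SigU' hF A).1 hA
    intro hbot
    obtain ⟨κ, hκ0, hκ⟩ := exists_trace_zero hF
    have hm : utvSU hF p κ ∈ TU hF p := utv_mem_TU hF p κ hκ
    have hmG : utvSU hF p κ ∈ G0 F q n := TU_le_G0 hF p hp0 hp hm
    have h1 : (⟨utvSU hF p κ, hmG⟩ : G0 F q n) ∈ (TU hF p).subgroupOf (G0 F q n) :=
      Subgroup.mem_subgroupOf.2 hm
    rw [hbot, Subgroup.mem_bot] at h1
    exact utv_ne_one hF p hp0 hp κ hκ hκ0 (congrArg Subtype.val h1)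
  generates := generates_subgroupOf (G0 F q n) (SigU F q n) rfl
  conj_mem := by
    intro A hA g
    obtain ⟨p, hp0, hp, rfl⟩ := (mem_SigU' hF A).1 hA
    rw [conjBy_subgroupOf, conjBy_TU hF _ p hp]
    exact TG_mem hF _ (su_mulVec_ne_zero _ p hp0) (by rw [su_pres, hp])
  pair := by
    intro A hA B hB
    obtain ⟨p, hp0, hp, rfl⟩ := (mem_SigU' hF A).1 hA
    obtain ⟨p', hp'0, hp', rfl⟩ := (mem_SigU' hF B).1 hB
    by_cases h : Cfsg.hermForm (n + 2) F q p p' = 0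
    · left
      exact commutator_subgroupOf_bot _ (TU_comm_pair hF p p' hp hp' h)
    · right; left
      exact rankOne_TG hF p p' hp0 hp'0 hp hp' h

theorem exists_iso (hF : Fintype.card F = q ^ 2) :
    ∃ p : Fin (n + 2) → F, p ≠ 0 ∧ Cfsg.hermForm (n + 2) F q p p = 0 := by
  classical
  have h00 : Cfsg.hermForm (n + 2) F q (Pi.single (0 : Fin (n + 2)) 1) (Pi.single 0 1) = 1 := by
    rw [herm_single_single hF, if_pos rfl]
  have h11 : Cfsg.hermForm (n + 2) F q (Pi.single (1 : Fin (n + 2)) 1) (Pi.single 1 1) = 1 := by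
    rw [herm_single_single hF, if_pos rfl]
  have h01 : Cfsg.hermForm (n + 2) F q (Pi.single (0 : Fin (n + 2)) 1) (Pi.single 1 1) = 0 := by
    rw [herm_single_single hF, if_neg Fin.zero_ne_one]
  obtain ⟨a, b, -, -, hiso, -, -, hne⟩ := exists_hyp_of_orth hF _ _ h00 h11 h01
  exact ⟨_, hne, hiso⟩

theorem conj_TG (hF : Fintype.card F = q ^ 2) (p p' : Fin (n + 2) → F) (hp0 : p ≠ 0)
    (hp'0 : p' ≠ 0) (hp : Cfsg.hermForm (n + 2) F q p p = 0)
    (hp' : Cfsg.hermForm (n + 2) F q p' p' = 0) (h : Cfsg.hermForm (n + 2) F q p p' ≠ 0) :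
    ∃ g : G0 F q n, (TU hF p').subgroupOf (G0 F q n)
      = conjBy ((TU hF p).subgroupOf (G0 F q n)) g := by
  have hR := rankOne_TG (n := n) hF p p' hp0 hp'0 hp hp' h
  obtain ⟨κ, hκ0, hκ⟩ := exists_trace_zero hF
  have hm : utvSU hF p κ ∈ TU hF p := utv_mem_TU hF p κ hκ
  have hmG : utvSU hF p κ ∈ G0 F q n := TU_le_G0 hF p hp0 hp hm
  obtain ⟨b, -, -, heq⟩ := hR.cond_left ⟨utvSU hF p κ, hmG⟩ (Subgroup.mem_subgroupOf.2 hm)
    (fun h1 => utv_ne_one hF p hp0 hp κ hκ hκ0 (congrArg Subtype.val h1))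
  exact ⟨_, conj_of_cond _ _ _ _ heq⟩

theorem SigU'_class (hF : Fintype.card F = q ^ 2) : IsConjClassOfSubgroups (SigU' F q n) := by
  obtain ⟨p₀, hp₀0, hp₀⟩ := exists_iso (n := n) hF
  refine ⟨⟨_, TG_mem hF p₀ hp₀0 hp₀⟩, ?_⟩
  intro A hA B hB
  obtain ⟨p, hp0, hp, rfl⟩ := (mem_SigU' hF A).1 hA
  obtain ⟨p', hp'0, hp', rfl⟩ := (mem_SigU' hF B).1 hB
  by_cases h : Cfsg.hermForm (n + 2) F q p p' = 0
  · obtain ⟨r, hr0, hr, hpr, hp'r⟩ := exists_connect hF p p' hp0 hp'0 hp h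
    obtain ⟨g1, hg1⟩ := conj_TG hF p r hp0 hr0 hp hr hpr
    obtain ⟨g2, hg2⟩ := conj_TG hF r p' hr0 hp'0 hr hp'
      (fun h0 => hp'r (herm_zero_of_symm hF h0))
    exact ⟨g2 * g1, by rw [← conjBy_mul, ← hg1, ← hg2]⟩
  · exact conj_TG hF p p' hp0 hp'0 hp hp' h

theorem SigU'_degenerate (hF : Fintype.card F = q ^ 2) : IsDegenerateRootSet (SigU' F q n) := by
  rintro A hA B hB ⟨h1, h2, -, -⟩
  obtain ⟨p, hp0, hp, rfl⟩ := (mem_SigU' hF A).1 hA
  obtain ⟨p', hp'0, hp', rfl⟩ := (mem_SigU' hF B).1 hB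
  by_cases h : Cfsg.hermForm (n + 2) F q p p' = 0
  · rw [commutator_subgroupOf_bot _ (TU_comm_pair hF p p' hp hp' h)] at h1
    exact (SigU'_rootSet hF).ne_bot _ h1 rfl
  · obtain ⟨κ, hκ0, hκ⟩ := exists_trace_zero hF
    have hm : utvSU hF p κ ∈ TU hF p := utv_mem_TU hF p κ hκ
    have hmG : utvSU hF p κ ∈ G0 F q n := TU_le_G0 hF p hp0 hp hm
    have hm' : utvSU hF p' κ ∈ TU hF p' := utv_mem_TU hF p' κ hκ
    have hmG' : utvSU hF p' κ ∈ G0 F q n := TU_le_G0 hF p' hp'0 hp' hm'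
    have ha : (⟨utvSU hF p κ, hmG⟩ : G0 F q n) ∈ (TU hF p).subgroupOf (G0 F q n) :=
      Subgroup.mem_subgroupOf.2 hm
    have hb : (⟨utvSU hF p' κ, hmG'⟩ : G0 F q n) ∈ (TU hF p').subgroupOf (G0 F q n) :=
      Subgroup.mem_subgroupOf.2 hm'
    have hc := Subgroup.commutator_mem_commutator ha hb
    have h3 := h2 _ hc _ ((le_sup_right : (TU hF p').subgroupOf (G0 F q n)
      ≤ (TU hF p).subgroupOf (G0 F q n) ⊔ (TU hF p').subgroupOf (G0 F q n)) hb)
    rw [commutatorElement_def] at h3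
    have h3' := congrArg Subtype.val h3
    have h4 : (utvSU hF p κ * utvSU hF p' κ * (utvSU hF p κ)⁻¹) * utvSU hF p' κ
        = utvSU hF p' κ * (utvSU hF p κ * utvSU hF p' κ * (utvSU hF p κ)⁻¹) := by
      have e1 : utvSU hF p κ * utvSU hF p' κ * (utvSU hF p κ)⁻¹ * utvSU hF p' κ
          = utvSU hF p κ * utvSU hF p' κ * (utvSU hF p κ)⁻¹ * (utvSU hF p' κ)⁻¹ * utvSU hF p' κ
            * utvSU hF p' κ := by group
      have e2 : utvSU hF p' κ * (utvSU hF p κ * utvSU hF p' κ * (utvSU hF p κ)⁻¹)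
          = utvSU hF p' κ * (utvSU hF p κ * utvSU hF p' κ * (utvSU hF p κ)⁻¹
            * (utvSU hF p' κ)⁻¹) * utvSU hF p' κ := by group
      rw [e1, e2]
      exact congrArg (fun z => z * utvSU hF p' κ) h3'
    rw [utv_conj hF (utvSU hF p κ) p' hp' κ hκ] at h4
    have hiso : Cfsg.hermForm (n + 2) F q (suM (utvSU hF p κ) *ᵥ p')
        (suM (utvSU hF p κ) *ᵥ p') = 0 := by rw [su_pres, hp']
    have h6 := utv_comm_imp hF _ p' hiso hp' hp'0 κ κ hκ hκ hκ0 hκ0 h4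
    rw [utvSU_mulVec hF p κ hp hκ, herm_add_left, hp', zero_add, herm_smul_left] at h6
    have h' : Cfsg.hermForm (n + 2) F q p' p ≠ 0 := fun h0 => h (herm_zero_of_symm hF h0)
    exact mul_ne_zero (mul_ne_zero hκ0 h') h h6

theorem SigU'_kroot (hF : Fintype.card F = q ^ 2) :
    ∃ (L : Type) (_ : Field L) (_ : Fintype L), Fintype.card L = q ∧
      IsKRootSubgroupSet L (SigU' F q n) := by
  obtain ⟨L, hLf, hLfin, hcard, ι, hι, hsurj⟩ := exists_field hF
  refine ⟨L, hLf, hLfin, hcard, SigU'_rootSet hF, ?_⟩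
  intro A hA B hB hR
  obtain ⟨p, hp0, hp, rfl⟩ := (mem_SigU' hF A).1 hA
  obtain ⟨p', hp'0, hp', rfl⟩ := (mem_SigU' hF B).1 hB
  have hAle := TU_le_G0 hF p hp0 hp
  have hBle := TU_le_G0 hF p' hp'0 hp'
  have hβ : Cfsg.hermForm (n + 2) F q p p' ≠ 0 := by
    intro h0
    have hc := rankOneCond_of_subgroupOf _ hAle hBle hR.cond_left
    have e := TU_eq_of_cond hF p p' hp0 hp hp' h0 hc
    exact hR.ne (by rw [e])
  have hlam0 : ((Cfsg.hermForm (n + 2) F q p p')⁻¹) ^ q ≠ 0 := pow_ne_zero _ (inv_ne_zero hβ)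
  have h1 : Cfsg.hermForm (n + 2) F q p ((((Cfsg.hermForm (n + 2) F q p p')⁻¹) ^ q) • p') = 1 := by
    rw [herm_smul_right, frob_frob hF, inv_mul_cancel₀ hβ]
  have key := psl2_U hF ι hι hsurj p _ hp (herm_smul_smul hF _ p' hp') h1
  rw [TU_smul hF _ hlam0 p' hp'] at key
  exact psl2_subgroupOf _ hAle hBle key

theorem SigU'_connected (hF : Fintype.card F = q ^ 2) :
    IsConnectedFamily (FAdj (SigU' F q n)) (SigU' F q n) := by
  intro A hA B hB
  obtain ⟨p, hp0, hp, rfl⟩ := (mem_SigU' hF A).1 hA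
  obtain ⟨p', hp'0, hp', rfl⟩ := (mem_SigU' hF B).1 hB
  by_cases h : Cfsg.hermForm (n + 2) F q p p' = 0
  · obtain ⟨r, hr0, hr, hpr, hp'r⟩ := exists_connect hF p p' hp0 hp'0 hp h
    have hC := TG_mem (n := n) hF r hr0 hr
    have s1 : FAdj (SigU' F q n) ((TU hF p).subgroupOf (G0 F q n))
        ((TU hF r).subgroupOf (G0 F q n)) := ⟨hA, hC, rankOne_TG hF p r hp0 hr0 hp hr hpr⟩
    have s2 : FAdj (SigU' F q n) ((TU hF r).subgroupOf (G0 F q n))
        ((TU hF p').subgroupOf (G0 F q n)) :=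
      ⟨hC, hB, rankOne_TG hF r p' hr0 hp'0 hr hp' (fun h0 => hp'r (herm_zero_of_symm hF h0))⟩
    exact (Relation.ReflTransGen.single s1).trans (Relation.ReflTransGen.single s2)
  · exact Relation.ReflTransGen.single ⟨hA, hB, rankOne_TG hF p p' hp0 hp'0 hp hp' h⟩

theorem main (hF : Fintype.card F = q ^ 2) :
    IsRootSubgroupClass (SigU' F q n) ∧ IsDegenerateRootSet (SigU' F q n) ∧
    (∃ (L : Type) (_ : Field L) (_ : Fintype L), Fintype.card L = q ∧
      IsKRootSubgroupSet L (SigU' F q n)) ∧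
    IsConnectedFamily (FAdj (SigU' F q n)) (SigU' F q n) :=
  ⟨⟨SigU'_rootSet hF, SigU'_class hF⟩, SigU'_degenerate hF, SigU'_kroot hF, SigU'_connected hF⟩

end Main

end Cfsg.Agent.Lib.helper6.URootSub
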