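import Mathlib
import Cfsg.Agent.Lib.helper6.URootSub

/-!
# Siegel transvection subgroups of the hyperbolic orthogonal group (helper6)
-/

set_option autoImplicit false

namespace Cfsg.Agent.Lib.helper6.SiegelRootSub

open Matrix Cfsg
open Cfsg.Agent.Lib.helper6.TvRootSub (mem_conjBy conjBy_mul conjBy_one upT loT upT_00 upT_01
  upT_10 upT_11 loT_00 loT_01 loT_10 loT_11)
open Cfsg.Agent.Lib.helper6.SpRootSub (MMg MMg_one MMg_mul MMg_upper MMg_lower MMg_tv MMg_entries
  vvg_mul vvg_mulVec)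
open Cfsg.Agent.Lib.helper6.URootSub (nilp_of_comm conjBy_subgroupOf subgroupOf_inj' conjBy_le
  rankOneCond_subgroupOf rankOneCond_of_subgroupOf commutator_subgroupOf_bot sup_subgroupOf_le
  psl2_subgroupOf generates_subgroupOf)

section Basic

variable {F : Type*} [Field F] {N : ℕ}

/-- swapping the two halves of a vector -/
def sw (x : Fin N ⊕ Fin N → F) : Fin N ⊕ Fin N → F := fun i => x (Sum.swap i)

/-- the polar form of the hyperbolic quadratic form -/
def B (x y : Fin N ⊕ Fin N → F) : F := x ⬝ᵥ sw y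

theorem B_eq (x y : Fin N ⊕ Fin N → F) :
    B x y = ∑ i : Fin N, (x (.inl i) * y (.inr i) + x (.inr i) * y (.inl i)) := by
  simp [B, sw, dotProduct, Fintype.sum_sum_type, Finset.sum_add_distrib]

theorem B_symm (x y : Fin N ⊕ Fin N → F) : B x y = B y x := by
  rw [B_eq, B_eq]
  exact Finset.sum_congr rfl fun i _ => by ring

theorem B_add_left (x y z : Fin N ⊕ Fin N → F) : B (x + y) z = B x z + B y z :=
  add_dotProduct _ _ _

theorem B_smul_left (c : F) (x z : Fin N ⊕ Fin N → F) : B (c • x) z = c * B x z :=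
  smul_dotProduct _ _ _

theorem B_add_right (x y z : Fin N ⊕ Fin N → F) : B x (y + z) = B x y + B x z :=
  dotProduct_add _ _ _

theorem B_smul_right (c : F) (x z : Fin N ⊕ Fin N → F) : B x (c • z) = c * B x z :=
  dotProduct_smul _ _ _

theorem B_neg_left (x z : Fin N ⊕ Fin N → F) : B (-x) z = -B x z :=
  neg_dotProduct _ _

theorem B_neg_right (x z : Fin N ⊕ Fin N → F) : B x (-z) = -B x z :=
  dotProduct_neg _ _

theorem B_sub_left (x y z : Fin N ⊕ Fin N → F) : B (x - y) z = B x z - B y z :=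
  sub_dotProduct _ _ _

theorem B_sub_right (x y z : Fin N ⊕ Fin N → F) : B x (y - z) = B x y - B x z :=
  dotProduct_sub _ _ _

theorem B_zero_left (z : Fin N ⊕ Fin N → F) : B 0 z = 0 := zero_dotProduct _

theorem B_zero_right (z : Fin N ⊕ Fin N → F) : B z 0 = 0 := dotProduct_zero _

theorem Q_add (x y : Fin N ⊕ Fin N → F) :
    quadFormPlus N F (x + y) = quadFormPlus N F x + quadFormPlus N F y + B x y := by
  rw [B_eq]
  simp only [quadFormPlus, Pi.add_apply, ← Finset.sum_add_distrib]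
  exact Finset.sum_congr rfl fun i _ => by ring

theorem Q_smul (c : F) (x : Fin N ⊕ Fin N → F) :
    quadFormPlus N F (c • x) = c ^ 2 * quadFormPlus N F x := by
  simp only [quadFormPlus, Pi.smul_apply, smul_eq_mul, Finset.mul_sum]
  exact Finset.sum_congr rfl fun i _ => by ring

theorem Q_zero : quadFormPlus N F (0 : Fin N ⊕ Fin N → F) = 0 := by
  simp [quadFormPlus]

theorem B_self (x : Fin N ⊕ Fin N → F) : B x x = 2 * quadFormPlus N F x := by
  rw [B_eq]
  simp only [quadFormPlus, Finset.mul_sum]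
  exact Finset.sum_congr rfl fun i _ => by ring

theorem Q_comb (a b : F) (p r : Fin N ⊕ Fin N → F) :
    quadFormPlus N F (a • p + b • r)
      = a ^ 2 * quadFormPlus N F p + b ^ 2 * quadFormPlus N F r + a * b * B p r := by
  rw [Q_add, Q_smul, Q_smul, B_smul_left, B_smul_right]
  ring

/-- the dual coordinate vector -/
def e' (i : Fin N ⊕ Fin N) : Fin N ⊕ Fin N → F := Pi.single (Sum.swap i) 1

theorem B_e' (x : Fin N ⊕ Fin N → F) (i : Fin N ⊕ Fin N) : B x (e' i) = x i := by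
  have h : sw (e' i : Fin N ⊕ Fin N → F) = Pi.single i 1 := by
    funext j
    simp only [sw, e', Pi.single_apply]
    by_cases hj : j = i
    · subst hj; simp
    · rw [if_neg hj, if_neg]
      intro h2
      apply hj
      have := congrArg Sum.swap h2
      simpa using this
  rw [B, h, dotProduct_single_one]

theorem B_nondeg (x : Fin N ⊕ Fin N → F) (h : ∀ y, B x y = 0) : x = 0 := by
  funext i
  have := h (e' i)
  rw [B_e'] at this
  simpa using this

/-- the isometry group -/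
abbrev OG (N : ℕ) (F : Type*) [Field F] : Type _ :=
  ↥(Cfsg.isometryGroup F (Cfsg.quadFormPlus N F))

/-- the action on vectors -/
def act (g : OG N F) (x : Fin N ⊕ Fin N → F) : Fin N ⊕ Fin N → F :=
  ((g : Matrix.GeneralLinearGroup (Fin N ⊕ Fin N) F) :
    Matrix (Fin N ⊕ Fin N) (Fin N ⊕ Fin N) F) *ᵥ x

theorem act_mul (g h : OG N F) (x : Fin N ⊕ Fin N → F) : act (g * h) x = act g (act h x) := by
  simp only [act, Subgroup.coe_mul, Units.val_mul, Matrix.mulVec_mulVec]

theorem act_one (x : Fin N ⊕ Fin N → F) : act (1 : OG N F) x = x := by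
  simp [act]

theorem act_inv_act (g : OG N F) (x : Fin N ⊕ Fin N → F) : act g⁻¹ (act g x) = x := by
  rw [← act_mul, inv_mul_cancel, act_one]

theorem act_act_inv (g : OG N F) (x : Fin N ⊕ Fin N → F) : act g (act g⁻¹ x) = x := by
  rw [← act_mul, mul_inv_cancel, act_one]

theorem act_add (g : OG N F) (x y : Fin N ⊕ Fin N → F) : act g (x + y) = act g x + act g y :=
  Matrix.mulVec_add _ _ _

theorem act_smul (g : OG N F) (c : F) (x : Fin N ⊕ Fin N → F) : act g (c • x) = c • act g x :=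
  Matrix.mulVec_smul _ _ _

theorem act_sub (g : OG N F) (x y : Fin N ⊕ Fin N → F) : act g (x - y) = act g x - act g y :=
  Matrix.mulVec_sub _ _ _

theorem act_neg (g : OG N F) (x : Fin N ⊕ Fin N → F) : act g (-x) = -act g x :=
  Matrix.mulVec_neg _ _

theorem act_zero (g : OG N F) : act g (0 : Fin N ⊕ Fin N → F) = 0 :=
  Matrix.mulVec_zero _

theorem Q_act (g : OG N F) (x : Fin N ⊕ Fin N → F) :
    quadFormPlus N F (act g x) = quadFormPlus N F x := g.2 x x

theorem B_act (g : OG N F) (x y : Fin N ⊕ Fin N → F) : B (act g x) (act g y) = B x y := by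
  have h := Q_add (act g x) (act g y)
  rw [← act_add, Q_act, Q_act, Q_act, Q_add] at h
  linear_combination -h

theorem B_act_inv (g : OG N F) (x y : Fin N ⊕ Fin N → F) : B (act g⁻¹ x) y = B x (act g y) := by
  rw [← B_act g, act_act_inv]

theorem mat_ext {M M' : Matrix (Fin N ⊕ Fin N) (Fin N ⊕ Fin N) F}
    (H : ∀ x, M *ᵥ x = M' *ᵥ x) : M = M' := by
  ext i j
  have := congrFun (H (Pi.single j 1)) i
  simpa using this

theorem ext_act {g h : OG N F} (H : ∀ x, act g x = act h x) : g = h :=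
  Subtype.ext (Units.ext (mat_ext H))

/-- the matrix of a Siegel transformation -/
def sgM (p r : Fin N ⊕ Fin N → F) (c : F) : Matrix (Fin N ⊕ Fin N) (Fin N ⊕ Fin N) F :=
  1 + c • (vecMulVec r (sw p) - vecMulVec p (sw r))

theorem sgM_mulVec (p r : Fin N ⊕ Fin N → F) (c : F) (x : Fin N ⊕ Fin N → F) :
    sgM p r c *ᵥ x = x + c • (B x p • r - B x r • p) := by
  rw [sgM, add_mulVec, one_mulVec, smul_mulVec, sub_mulVec, vvg_mulVec, vvg_mulVec,
    dotProduct_comm (sw p) x, dotProduct_comm (sw r) x]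
  rfl

theorem sgM_zero (p r : Fin N ⊕ Fin N → F) : sgM p r 0 = 1 := by
  rw [sgM, zero_smul, add_zero]

/-- a singular pair of vectors (spanning a totally singular subspace) -/
def Sing (p r : Fin N ⊕ Fin N → F) : Prop :=
  quadFormPlus N F p = 0 ∧ quadFormPlus N F r = 0 ∧ B p r = 0

theorem Sing.pp {p r : Fin N ⊕ Fin N → F} (h : Sing p r) : B p p = 0 := by
  rw [B_self, h.1, mul_zero]

theorem Sing.rr {p r : Fin N ⊕ Fin N → F} (h : Sing p r) : B r r = 0 := by
  rw [B_self, h.2.1, mul_zero]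

theorem Sing.pr {p r : Fin N ⊕ Fin N → F} (h : Sing p r) : B p r = 0 := h.2.2

theorem Sing.rp {p r : Fin N ⊕ Fin N → F} (h : Sing p r) : B r p = 0 := by
  rw [B_symm]; exact h.2.2

theorem Q_sgM {p r : Fin N ⊕ Fin N → F} (h : Sing p r) (c : F) (x : Fin N ⊕ Fin N → F) :
    quadFormPlus N F (sgM p r c *ᵥ x) = quadFormPlus N F x := by
  rw [sgM_mulVec, Q_add, Q_smul, sub_eq_add_neg, ← neg_smul, Q_comb, B_smul_right, B_add_right,
    B_smul_right, B_smul_right, h.1, h.2.1, h.rp]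
  ring

theorem sgM_mul {p r : Fin N ⊕ Fin N → F} (h : Sing p r) (c d : F) :
    sgM p r c * sgM p r d = sgM p r (c + d) := by
  apply mat_ext
  intro x
  rw [← Matrix.mulVec_mulVec, sgM_mulVec, sgM_mulVec, sgM_mulVec]
  simp only [B_add_left, B_sub_left, B_smul_left, h.rp, h.pp, h.rr, h.pr, mul_zero, sub_zero,
    add_zero]
  module

open Classical in
/-- the Siegel transformation `x ↦ x + c (B(x,p) r - B(x,r) p)` -/
noncomputable def sg (p r : Fin N ⊕ Fin N → F) (c : F) : OG N F :=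
  if h : Sing p r then
    ⟨⟨sgM p r c, sgM p r (-c), by rw [sgM_mul h, add_neg_cancel, sgM_zero],
      by rw [sgM_mul h, neg_add_cancel, sgM_zero]⟩, fun x _ => Q_sgM h c x⟩
  else 1

theorem sg_act {p r : Fin N ⊕ Fin N → F} (h : Sing p r) (c : F) (x : Fin N ⊕ Fin N → F) :
    act (sg p r c) x = x + c • (B x p • r - B x r • p) := by
  rw [sg, dif_pos h]
  exact sgM_mulVec p r c x

theorem sg_of_not {p r : Fin N ⊕ Fin N → F} (h : ¬ Sing p r) (c : F) : sg p r c = 1 := by
  rw [sg, dif_neg h]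

theorem sg_add (p r : Fin N ⊕ Fin N → F) (c d : F) : sg p r c * sg p r d = sg p r (c + d) := by
  by_cases h : Sing p r
  · apply ext_act
    intro x
    rw [act_mul, sg_act h, sg_act h, sg_act h]
    simp only [B_add_left, B_sub_left, B_smul_left, h.rp, h.pp, h.rr, h.pr, mul_zero, sub_zero,
      add_zero]
    module
  · rw [sg_of_not h, sg_of_not h, sg_of_not h, mul_one]

theorem sg_zero (p r : Fin N ⊕ Fin N → F) : sg p r 0 = 1 := by
  by_cases h : Sing p r
  · apply ext_act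
    intro x
    rw [sg_act h, act_one, zero_smul, add_zero]
  · rw [sg_of_not h]

theorem sg_inv (p r : Fin N ⊕ Fin N → F) (c : F) : (sg p r c)⁻¹ = sg p r (-c) :=
  inv_eq_of_mul_eq_one_right (by rw [sg_add, add_neg_cancel, sg_zero])

theorem sg_comm (p r : Fin N ⊕ Fin N → F) (c d : F) :
    sg p r c * sg p r d = sg p r d * sg p r c := by
  rw [sg_add, sg_add, add_comm]

/-- the Siegel transvection subgroup of the line `⟨p, r⟩` -/
noncomputable def SG (p r : Fin N ⊕ Fin N → F) : Subgroup (OG N F) where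
  carrier := Set.range (sg p r)
  mul_mem' := by
    rintro _ _ ⟨c, rfl⟩ ⟨d, rfl⟩
    exact ⟨c + d, (sg_add p r c d).symm⟩
  one_mem' := ⟨0, sg_zero p r⟩
  inv_mem' := by
    rintro _ ⟨c, rfl⟩
    exact ⟨-c, (sg_inv p r c).symm⟩

theorem mem_SG {p r : Fin N ⊕ Fin N → F} {x : OG N F} : x ∈ SG p r ↔ ∃ c, sg p r c = x :=
  Iff.rfl

theorem sg_mem (p r : Fin N ⊕ Fin N → F) (c : F) : sg p r c ∈ SG p r := ⟨c, rfl⟩

theorem SG_comm_elem (p r : Fin N ⊕ Fin N → F) (a : OG N F) (ha : a ∈ SG p r) (b : OG N F)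
    (hb : b ∈ SG p r) : a * b = b * a := by
  obtain ⟨c, rfl⟩ := ha
  obtain ⟨d, rfl⟩ := hb
  exact sg_comm p r c d

theorem Sing_act (g : OG N F) {p r : Fin N ⊕ Fin N → F} (h : Sing p r) :
    Sing (act g p) (act g r) := by
  refine ⟨?_, ?_, ?_⟩
  · rw [Q_act]; exact h.1
  · rw [Q_act]; exact h.2.1
  · rw [B_act]; exact h.2.2

theorem Sing_of_act (g : OG N F) {p r : Fin N ⊕ Fin N → F} (h : Sing (act g p) (act g r)) :
    Sing p r := by
  have := Sing_act g⁻¹ h
  rwa [act_inv_act, act_inv_act] at this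

theorem sg_conj (g : OG N F) (p r : Fin N ⊕ Fin N → F) (c : F) :
    g * sg p r c * g⁻¹ = sg (act g p) (act g r) c := by
  by_cases h : Sing p r
  · apply ext_act
    intro x
    rw [act_mul, act_mul, sg_act h, sg_act (Sing_act g h), act_add, act_act_inv, act_smul,
      act_sub, act_smul, act_smul, B_act_inv, B_act_inv]
  · rw [sg_of_not h, sg_of_not (fun h' => h (Sing_of_act g h'))]
    group

theorem conjBy_SG (g : OG N F) (p r : Fin N ⊕ Fin N → F) :
    conjBy (SG p r) g = SG (act g p) (act g r) := by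
  ext x
  rw [mem_conjBy]
  constructor
  · rintro ⟨_, ⟨c, rfl⟩, rfl⟩
    exact ⟨c, (sg_conj g p r c).symm⟩
  · rintro ⟨c, rfl⟩
    exact ⟨_, ⟨c, rfl⟩, (sg_conj g p r c).symm⟩

theorem Sing_bc {p r : Fin N ⊕ Fin N → F} (h : Sing p r) (a b c d : F) :
    Sing (a • p + b • r) (c • p + d • r) := by
  refine ⟨?_, ?_, ?_⟩
  · rw [Q_comb, h.1, h.2.1, h.pr]; ring
  · rw [Q_comb, h.1, h.2.1, h.pr]; ring
  · simp only [B_add_left, B_add_right, B_smul_left, B_smul_right, h.pp, h.rr, h.pr, h.rp]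
    ring

theorem sg_bc {p r : Fin N ⊕ Fin N → F} (h : Sing p r) (a b c d t : F) :
    sg (a • p + b • r) (c • p + d • r) t = sg p r (t * (a * d - b * c)) := by
  apply ext_act
  intro x
  rw [sg_act (Sing_bc h a b c d), sg_act h]
  simp only [B_add_right, B_smul_right]
  module

theorem SG_bc {p r : Fin N ⊕ Fin N → F} (h : Sing p r) (a b c d : F) (hdet : a * d - b * c ≠ 0) :
    SG (a • p + b • r) (c • p + d • r) = SG p r := by
  ext x
  constructor
  · rintro ⟨t, rfl⟩
    exact ⟨t * (a * d - b * c), (sg_bc h a b c d t).symm⟩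
  · rintro ⟨t, rfl⟩
    exact ⟨t / (a * d - b * c), by rw [sg_bc h, div_mul_cancel₀ _ hdet]⟩

theorem LI_bc {p r : Fin N ⊕ Fin N → F} (hLI : LinearIndependent F ![p, r]) (a b c d : F)
    (hdet : a * d - b * c ≠ 0) : LinearIndependent F ![a • p + b • r, c • p + d • r] := by
  rw [LinearIndependent.pair_iff] at hLI ⊢
  intro s t hst
  have h1 := hLI (s * a + t * c) (s * b + t * d) (by rw [← hst]; module)
  constructor
  · have : s * (a * d - b * c) = 0 := by linear_combination d * h1.1 - c * h1.2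
    rcases mul_eq_zero.1 this with h | h
    · exact h
    · exact absurd h hdet
  · have : t * (a * d - b * c) = 0 := by linear_combination a * h1.2 - b * h1.1
    rcases mul_eq_zero.1 this with h | h
    · exact h
    · exact absurd h hdet

theorem Sing_swap {p r : Fin N ⊕ Fin N → F} (h : Sing p r) : Sing r p :=
  ⟨h.2.1, h.1, h.rp⟩

theorem SG_swap {p r : Fin N ⊕ Fin N → F} (h : Sing p r) : SG r p = SG p r := by
  have := SG_bc h 0 1 1 0 (by norm_num)
  simpa using this

theorem LI_swap {p r : Fin N ⊕ Fin N → F} (hLI : LinearIndependent F ![p, r]) :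
    LinearIndependent F ![r, p] := by
  have := LI_bc hLI 0 1 1 0 (by norm_num)
  simpa using this

theorem LI_act (g : OG N F) {p r : Fin N ⊕ Fin N → F} (hLI : LinearIndependent F ![p, r]) :
    LinearIndependent F ![act g p, act g r] := by
  rw [LinearIndependent.pair_iff] at hLI ⊢
  intro s t hst
  apply hLI s t
  have := congrArg (act g⁻¹) hst
  rwa [act_add, act_smul, act_smul, act_inv_act, act_inv_act, act_zero] at this

theorem LI_ne_zero_left {p r : Fin N ⊕ Fin N → F} (hLI : LinearIndependent F ![p, r]) : p ≠ 0 := by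
  rw [LinearIndependent.pair_iff] at hLI
  rintro rfl
  have := (hLI 1 0 (by simp)).1
  exact one_ne_zero this

theorem LI_ne_zero_right {p r : Fin N ⊕ Fin N → F} (hLI : LinearIndependent F ![p, r]) :
    r ≠ 0 := LI_ne_zero_left (LI_swap hLI)

theorem exists_dual {p r : Fin N ⊕ Fin N → F} (hLI : LinearIndependent F ![p, r]) :
    ∃ ps rs : Fin N ⊕ Fin N → F, B ps p = 1 ∧ B ps r = 0 ∧ B rs p = 0 ∧ B rs r = 1 := by
  have hp0 := LI_ne_zero_left hLI
  rw [LinearIndependent.pair_iff] at hLI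
  have hminor : ∃ i j, p i * r j - p j * r i ≠ 0 := by
    by_contra hcon
    push Not at hcon
    obtain ⟨i, hi⟩ : ∃ i, p i ≠ 0 := by
      by_contra h0
      push Not at h0
      exact hp0 (funext h0)
    have := hLI (r i) (-p i) (by
      funext j
      have := hcon i j
      simp only [Pi.add_apply, Pi.smul_apply, smul_eq_mul, Pi.zero_apply]
      linear_combination -this)
    exact hi (neg_eq_zero.1 this.2)
  obtain ⟨i, j, hδ⟩ := hminor
  refine ⟨(p i * r j - p j * r i)⁻¹ • (r j • e' i - r i • e' j),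
    (p i * r j - p j * r i)⁻¹ • (p i • e' j - p j • e' i), ?_, ?_, ?_, ?_⟩
  · rw [B_symm, B_smul_right, B_sub_right, B_smul_right, B_smul_right, B_e', B_e']
    field_simp
  · rw [B_symm, B_smul_right, B_sub_right, B_smul_right, B_smul_right, B_e', B_e']
    field_simp
    ring
  · rw [B_symm, B_smul_right, B_sub_right, B_smul_right, B_smul_right, B_e', B_e']
    field_simp
    ring
  · rw [B_symm, B_smul_right, B_sub_right, B_smul_right, B_smul_right, B_e', B_e']
    field_simp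

theorem sg_ne_one {p r : Fin N ⊕ Fin N → F} (h : Sing p r) (hLI : LinearIndependent F ![p, r])
    (c : F) (hc : c ≠ 0) : sg p r c ≠ 1 := by
  obtain ⟨ps, rs, h1, h2, h3, h4⟩ := exists_dual hLI
  intro h1'
  have := sg_act h c ps
  rw [h1', act_one, h1, h2, zero_smul, sub_zero, one_smul] at this
  have h0 : c • r = 0 := by
    have h5 : ps + c • r - ps = ps - ps := by rw [← this]
    simpa using h5
  rcases smul_eq_zero.1 h0 with h6 | h6
  · exact hc h6
  · exact LI_ne_zero_right hLI h6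

theorem SG_ne_bot {p r : Fin N ⊕ Fin N → F} (h : Sing p r) (hLI : LinearIndependent F ![p, r]) :
    SG p r ≠ ⊥ := by
  intro hbot
  have := sg_mem p r (1 : F)
  rw [hbot, Subgroup.mem_bot] at this
  exact sg_ne_one h hLI 1 one_ne_zero this

end Basic

section Genset

variable {F : Type*} [Field F] {N : ℕ}

theorem perp_perp {p r ps rs : Fin N ⊕ Fin N → F} (h1 : B ps p = 1) (h2 : B ps r = 0)
    (h3 : B rs p = 0) (h4 : B rs r = 1) (d : Fin N ⊕ Fin N → F)
    (hd : ∀ w, B w p = 0 → B w r = 0 → B d w = 0) : d = B d ps • p + B d rs • r := by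
  have : d - (B d ps • p + B d rs • r) = 0 := by
    apply B_nondeg
    intro v
    have h0 := hd (v - B v p • ps - B v r • rs)
      (by simp only [B_sub_left, B_smul_left, h1, h3]; ring)
      (by simp only [B_sub_left, B_smul_left, h2, h4]; ring)
    rw [B_sub_right, B_sub_right, B_smul_right, B_smul_right] at h0
    rw [B_sub_left, B_add_left, B_smul_left, B_smul_left, B_symm p v, B_symm r v]
    linear_combination h0
  exact sub_eq_zero.1 this

theorem genset_eq {p r : Fin N ⊕ Fin N → F} (h : Sing p r)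
    (hLI : LinearIndependent F ![p, r]) :
    {σ : OG N F | ∀ v : Fin N ⊕ Fin N → F,
      quadFormPlus N F (v + p) - quadFormPlus N F v - quadFormPlus N F p = 0 →
      quadFormPlus N F (v + r) - quadFormPlus N F v - quadFormPlus N F r = 0 →
      ((σ : Matrix.GeneralLinearGroup (Fin N ⊕ Fin N) F) :
        Matrix (Fin N ⊕ Fin N) (Fin N ⊕ Fin N) F) *ᵥ v = v}
      = ((SG p r : Subgroup (OG N F)) : Set (OG N F)) := by
  obtain ⟨ps, rs, h1, h2, h3, h4⟩ := exists_dual hLI
  have hp := h.1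
  have hr := h.2.1
  have hpr := h.pr
  have hrp := h.rp
  have hpp := h.pp
  have hrr := h.rr
  ext σ
  simp only [Set.mem_setOf_eq, SetLike.mem_coe]
  constructor
  · intro hσ
    have hfix : ∀ v, B v p = 0 → B v r = 0 → act σ v = v := by
      intro v hv1 hv2
      exact hσ v (by rw [Q_add, hv1]; ring) (by rw [Q_add, hv2]; ring)
    obtain ⟨d1, hd1⟩ : ∃ d1, d1 = act σ ps - ps := ⟨_, rfl⟩
    obtain ⟨d2, hd2⟩ : ∃ d2, d2 = act σ rs - rs := ⟨_, rfl⟩
    have hs1 : act σ ps = ps + d1 := by rw [hd1]; abel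
    have hs2 : act σ rs = rs + d2 := by rw [hd2]; abel
    have hdec : ∀ v, act σ v = v + B v p • d1 + B v r • d2 := by
      intro v
      have h0 := hfix (v - B v p • ps - B v r • rs)
        (by simp only [B_sub_left, B_smul_left, h1, h3]; ring)
        (by simp only [B_sub_left, B_smul_left, h2, h4]; ring)
      rw [act_sub, act_sub, act_smul, act_smul, hs1, hs2] at h0
      have h5 : act σ v = (act σ v - B v p • (ps + d1) - B v r • (rs + d2))
          + B v p • (ps + d1) + B v r • (rs + d2) := by abel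
      rw [h5, h0]
      module
    have hperp1 : ∀ w, B w p = 0 → B w r = 0 → B d1 w = 0 := by
      intro w hw1 hw2
      have h5 := B_act σ ps w
      rw [hfix w hw1 hw2] at h5
      rw [hd1, B_sub_left, h5, sub_self]
    have hperp2 : ∀ w, B w p = 0 → B w r = 0 → B d2 w = 0 := by
      intro w hw1 hw2
      have h5 := B_act σ rs w
      rw [hfix w hw1 hw2] at h5
      rw [hd2, B_sub_left, h5, sub_self]
    obtain ⟨a1, ha1⟩ : ∃ a1, a1 = B d1 ps := ⟨_, rfl⟩
    obtain ⟨b1, hb1⟩ : ∃ b1, b1 = B d1 rs := ⟨_, rfl⟩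
    obtain ⟨a2, ha2⟩ : ∃ a2, a2 = B d2 ps := ⟨_, rfl⟩
    obtain ⟨b2, hb2⟩ : ∃ b2, b2 = B d2 rs := ⟨_, rfl⟩
    have e1 : d1 = a1 • p + b1 • r := by
      rw [ha1, hb1]; exact perp_perp h1 h2 h3 h4 d1 hperp1
    have e2 : d2 = a2 • p + b2 • r := by
      rw [ha2, hb2]; exact perp_perp h1 h2 h3 h4 d2 hperp2
    have hQd1 : quadFormPlus N F d1 = 0 := by
      rw [e1, Q_comb, hp, hr, hpr]; ring
    have hQd2 : quadFormPlus N F d2 = 0 := by
      rw [e2, Q_comb, hp, hr, hpr]; ring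
    have ha1z : a1 = 0 := by
      have h5 := Q_act σ ps
      rw [hs1, Q_add, hQd1, e1, B_add_right, B_smul_right, B_smul_right, h1, h2] at h5
      linear_combination h5
    have hb2z : b2 = 0 := by
      have h5 := Q_act σ rs
      rw [hs2, Q_add, hQd2, e2, B_add_right, B_smul_right, B_smul_right, h3, h4] at h5
      linear_combination h5
    have ha2z : a2 = -b1 := by
      have h5 := B_act σ ps rs
      rw [hs1, hs2, e1, e2] at h5
      simp only [B_add_left, B_add_right, B_smul_left, B_smul_right, h1, h2, h3, h4,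
        B_symm p rs, B_symm r rs, B_symm p ps, B_symm r ps, hpp, hrr, hpr, hrp] at h5
      linear_combination h5
    refine ⟨b1, ?_⟩
    apply ext_act
    intro v
    rw [hdec v, sg_act h, e1, e2, ha1z, hb2z, ha2z]
    module
  · rintro ⟨c, rfl⟩ v hv1 hv2
    have e1 : B v p = 0 := by rw [Q_add] at hv1; linear_combination hv1
    have e2 : B v r = 0 := by rw [Q_add] at hv2; linear_combination hv2
    have h5 := sg_act h c v
    rw [e1, e2, zero_smul, zero_smul, sub_zero, smul_zero, add_zero] at h5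
    exact h5

end Genset

section Pairs

variable {F : Type*} [Field F] {N : ℕ}

theorem sg_comm_of {p r p' r' : Fin N ⊕ Fin N → F} (h : Sing p r) (h' : Sing p' r')
    (g11 : B p p' = 0) (g12 : B p r' = 0) (g21 : B r p' = 0) (g22 : B r r' = 0) (s t : F) :
    sg p r s * sg p' r' t = sg p' r' t * sg p r s := by
  apply ext_act
  intro x
  rw [act_mul, act_mul, sg_act h, sg_act h', sg_act h, sg_act h']
  simp only [B_add_left, B_sub_left, B_smul_left, g11, g12, g21, g22, B_symm p' p, B_symm r' p,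
    B_symm p' r, B_symm r' r, mul_zero, sub_zero, add_zero]
  module

theorem SG_comm_of {p r p' r' : Fin N ⊕ Fin N → F} (h : Sing p r) (h' : Sing p' r')
    (g11 : B p p' = 0) (g12 : B p r' = 0) (g21 : B r p' = 0) (g22 : B r r' = 0) :
    ∀ a ∈ SG p r, ∀ b ∈ SG p' r', a * b = b * a := by
  rintro _ ⟨s, rfl⟩ _ ⟨t, rfl⟩
  exact sg_comm_of h h' g11 g12 g21 g22 s t

/-- rank one condition in normal form -/
theorem rank_one_cond_nf {p r p' r' : Fin N ⊕ Fin N → F} (h : Sing p r) (h' : Sing p' r')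
    (n11 : B p p' = 1) (n12 : B p r' = 0) (n21 : B r p' = 0) (n22 : B r r' = 1) :
    RankOneCondition (SG p r) (SG p' r') := by
  rintro _ ⟨s, rfl⟩ ha1
  have hs : s ≠ 0 := by
    rintro rfl
    exact ha1 (sg_zero _ _)
  have hr'0 : r' ≠ 0 := by
    rintro rfl
    rw [B_zero_right] at n22
    exact zero_ne_one n22
  refine ⟨sg p' r' (-s⁻¹), sg_mem _ _ _, ?_, ?_⟩
  · intro h1
    have h5 := sg_act h' (-s⁻¹) p
    rw [h1, act_one, n11, n12, zero_smul, sub_zero, one_smul] at h5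
    have h0 : (-s⁻¹) • r' = 0 := by
      have h6 : p + (-s⁻¹) • r' - p = p - p := by rw [← h5]
      simpa using h6
    rcases smul_eq_zero.1 h0 with h6 | h6
    · exact inv_ne_zero hs (neg_eq_zero.1 h6)
    · exact hr'0 h6
  · rw [conjBy_SG, conjBy_SG, sg_inv, sg_inv, neg_neg]
    have hX : Sing (act (sg p r (-s)) p') (act (sg p r (-s)) r') := Sing_act _ h'
    have e1 : act (sg p' r' s⁻¹) p
        = (0 : F) • act (sg p r (-s)) p' + s⁻¹ • act (sg p r (-s)) r' := by
      rw [sg_act h', sg_act h, sg_act h, n11, n12, B_symm r' p, n12, B_symm r' r, n22]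
      simp only [smul_add, smul_sub, smul_smul, zero_smul, one_smul, sub_zero, zero_sub,
        smul_neg, neg_neg, neg_mul, mul_neg, inv_mul_cancel₀ hs, mul_one, zero_add]
      module
    have e2 : act (sg p' r' s⁻¹) r
        = (-s⁻¹) • act (sg p r (-s)) p' + (0 : F) • act (sg p r (-s)) r' := by
      rw [sg_act h', sg_act h, sg_act h, n21, n22, B_symm p' p, n11, B_symm p' r, n21]
      simp only [smul_add, smul_sub, smul_smul, zero_smul, one_smul, sub_zero, zero_sub,
        smul_neg, neg_neg, neg_mul, mul_neg, inv_mul_cancel₀ hs, mul_one, add_zero]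
      module
    rw [e1, e2]
    exact SG_bc hX 0 s⁻¹ (-s⁻¹) 0 (by
      have : (0 : F) * 0 - s⁻¹ * -s⁻¹ = s⁻¹ * s⁻¹ := by ring
      rw [this]
      exact mul_ne_zero (inv_ne_zero hs) (inv_ne_zero hs))

theorem SG_ne_nf {p r p' r' : Fin N ⊕ Fin N → F} (h : Sing p r) (h' : Sing p' r')
    (n11 : B p p' = 1) (n12 : B p r' = 0) (n21 : B r p' = 0) (n22 : B r r' = 1) :
    SG p r ≠ SG p' r' := by
  intro heq
  have hr'0 : r' ≠ 0 := by
    rintro rfl
    rw [B_zero_right] at n22
    exact zero_ne_one n22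
  have hr0 : r ≠ 0 := by
    rintro rfl
    rw [B_zero_left] at n22
    exact zero_ne_one n22
  have hm := sg_mem p r (1 : F)
  rw [heq] at hm
  obtain ⟨t, ht⟩ := hm
  have h5 := sg_act h' t p
  rw [ht, sg_act h, h.pp, h.pr, n11, n12] at h5
  simp only [zero_smul, sub_zero, smul_zero, add_zero, one_smul] at h5
  have h0 : t • r' = 0 := by
    have h6 : p + t • r' - p = p - p := by rw [← h5]
    simpa using h6
  have ht0 : t = 0 := by
    rcases smul_eq_zero.1 h0 with h6 | h6
    · exact h6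
    · exact absurd h6 hr'0
  rw [ht0, sg_zero] at ht
  have h7 := sg_act h (1 : F) p'
  rw [← ht, act_one, B_symm p' p, n11, B_symm p' r, n21] at h7
  simp only [zero_smul, sub_zero, one_smul] at h7
  have h8 : p' + r - p' = p' - p' := by rw [← h7]
  apply hr0
  simpa using h8

theorem rank_one_nf {p r p' r' : Fin N ⊕ Fin N → F} (h : Sing p r) (h' : Sing p' r')
    (n11 : B p p' = 1) (n12 : B p r' = 0) (n21 : B r p' = 0) (n22 : B r r' = 1) :
    IsRankOnePair (SG p r) (SG p' r') :=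
  ⟨SG_ne_nf h h' n11 n12 n21 n22, nilp_of_comm _ (SG_comm_elem p r),
    nilp_of_comm _ (SG_comm_elem p' r'), rank_one_cond_nf h h' n11 n12 n21 n22,
    rank_one_cond_nf h' h (by rw [B_symm]; exact n11) (by rw [B_symm]; exact n21)
      (by rw [B_symm]; exact n12) (by rw [B_symm]; exact n22)⟩

/-- normal form for an invertible Gram matrix -/
theorem exists_nf1 {p r p' r' : Fin N ⊕ Fin N → F} (h' : Sing p' r')
    (hLI' : LinearIndependent F ![p', r'])
    (hdet : B p p' * B r r' - B p r' * B r p' ≠ 0) :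
    ∃ P' R' : Fin N ⊕ Fin N → F, Sing P' R' ∧ LinearIndependent F ![P', R'] ∧
      SG P' R' = SG p' r' ∧ B p P' = 1 ∧ B p R' = 0 ∧ B r P' = 0 ∧ B r R' = 1 := by
  obtain ⟨δ, hδ⟩ : ∃ δ, δ = B p p' * B r r' - B p r' * B r p' := ⟨_, rfl⟩
  rw [← hδ] at hdet
  have hd : (B r r' / δ) * (B p p' / δ) - (-B r p' / δ) * (-B p r' / δ) ≠ 0 := by
    have : (B r r' / δ) * (B p p' / δ) - (-B r p' / δ) * (-B p r' / δ) = δ⁻¹ := by
      field_simp
      rw [hδ]; ring
    rw [this]
    exact inv_ne_zero hdet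
  refine ⟨(B r r' / δ) • p' + (-B r p' / δ) • r', (-B p r' / δ) • p' + (B p p' / δ) • r',
    Sing_bc h' _ _ _ _, LI_bc hLI' _ _ _ _ hd, SG_bc h' _ _ _ _ hd, ?_, ?_, ?_, ?_⟩
  · rw [B_add_right, B_smul_right, B_smul_right]
    field_simp
    rw [hδ]; ring
  · rw [B_add_right, B_smul_right, B_smul_right]
    field_simp
    ring
  · rw [B_add_right, B_smul_right, B_smul_right]
    field_simp
    ring
  · rw [B_add_right, B_smul_right, B_smul_right]
    field_simp
    rw [hδ]; ring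

theorem rank_one_of_det {p r p' r' : Fin N ⊕ Fin N → F} (h : Sing p r) (h' : Sing p' r')
    (hLI' : LinearIndependent F ![p', r'])
    (hdet : B p p' * B r r' - B p r' * B r p' ≠ 0) :
    IsRankOnePair (SG p r) (SG p' r') := by
  obtain ⟨P', R', hS, _, hSG, n11, n12, n21, n22⟩ := exists_nf1 h' hLI' hdet
  rw [← hSG]
  exact rank_one_nf h hS n11 n12 n21 n22

end Pairs

section PSL2

variable {F : Type*} [Field F] {N : ℕ}

/-- conjugating a `2 × 2` matrix by `diag(1, -1)` -/
def hat (X : Matrix (Fin 2) (Fin 2) F) : Matrix (Fin 2) (Fin 2) F :=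
  !![X 0 0, -X 0 1; -X 1 0, X 1 1]

theorem hat_00 (X : Matrix (Fin 2) (Fin 2) F) : hat X 0 0 = X 0 0 := rfl
theorem hat_01 (X : Matrix (Fin 2) (Fin 2) F) : hat X 0 1 = -X 0 1 := rfl
theorem hat_10 (X : Matrix (Fin 2) (Fin 2) F) : hat X 1 0 = -X 1 0 := rfl
theorem hat_11 (X : Matrix (Fin 2) (Fin 2) F) : hat X 1 1 = X 1 1 := rfl

theorem hat_one : hat (1 : Matrix (Fin 2) (Fin 2) F) = 1 := by
  ext i j
  fin_cases i <;> fin_cases j <;> simp [hat]

theorem hat_mul (X Y : Matrix (Fin 2) (Fin 2) F) : hat (X * Y) = hat X * hat Y := by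
  ext i j
  fin_cases i <;> fin_cases j
  · show hat (X * Y) 0 0 = (hat X * hat Y) 0 0
    rw [Matrix.mul_apply, Fin.sum_univ_two, hat_00, hat_00, hat_00, hat_01, hat_10,
      Matrix.mul_apply, Fin.sum_univ_two]
    ring
  · show hat (X * Y) 0 1 = (hat X * hat Y) 0 1
    rw [Matrix.mul_apply, Fin.sum_univ_two, hat_01, hat_00, hat_01, hat_01, hat_11,
      Matrix.mul_apply, Fin.sum_univ_two]
    ring
  · show hat (X * Y) 1 0 = (hat X * hat Y) 1 0
    rw [Matrix.mul_apply, Fin.sum_univ_two, hat_10, hat_10, hat_00, hat_11, hat_10,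
      Matrix.mul_apply, Fin.sum_univ_two]
    ring
  · show hat (X * Y) 1 1 = (hat X * hat Y) 1 1
    rw [Matrix.mul_apply, Fin.sum_univ_two, hat_11, hat_10, hat_01, hat_11, hat_11,
      Matrix.mul_apply, Fin.sum_univ_two]
    ring

theorem sw_dot (a b : Fin N ⊕ Fin N → F) : sw a ⬝ᵥ b = B b a := dotProduct_comm _ _

theorem MMg_comm (u v f g u' v' f' g' : Fin N ⊕ Fin N → F)
    (c1 : f ⬝ᵥ u' = 0) (c2 : f ⬝ᵥ v' = 0) (c3 : g ⬝ᵥ u' = 0) (c4 : g ⬝ᵥ v' = 0)
    (c5 : f' ⬝ᵥ u = 0) (c6 : f' ⬝ᵥ v = 0) (c7 : g' ⬝ᵥ u = 0) (c8 : g' ⬝ᵥ v = 0)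
    (X Y : Matrix (Fin 2) (Fin 2) F) :
    MMg u v f g X * MMg u' v' f' g' Y = MMg u' v' f' g' Y * MMg u v f g X := by
  simp only [MMg, mul_add, add_mul, mul_one, one_mul, smul_mul_assoc, mul_smul_comm, vvg_mul,
    c1, c2, c3, c4, c5, c6, c7, c8, zero_smul, smul_zero, add_zero]
  abel

theorem MMg_fix (u v f g x : Fin N ⊕ Fin N → F) (hf : f ⬝ᵥ x = 0) (hg : g ⬝ᵥ x = 0)
    (X : Matrix (Fin 2) (Fin 2) F) : MMg u v f g X *ᵥ x = x := by
  simp only [MMg, add_mulVec, one_mulVec, smul_mulVec, vvg_mulVec, hf, hg, zero_smul, smul_zero,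
    add_zero]

/-- the matrix of the image of `X ∈ SL₂` for a pair of opposite lines in normal form -/
def M4 (p r p' r' : Fin N ⊕ Fin N → F) (X : Matrix (Fin 2) (Fin 2) F) :
    Matrix (Fin N ⊕ Fin N) (Fin N ⊕ Fin N) F :=
  MMg r p' (sw r') (sw p) X * MMg p r' (sw p') (sw r) (hat X)

theorem M4_one (p r p' r' : Fin N ⊕ Fin N → F) : M4 p r p' r' (1 : Matrix (Fin 2) (Fin 2) F) = 1 := by
  rw [M4, hat_one, MMg_one, MMg_one, mul_one]

theorem M4_mul {p r p' r' : Fin N ⊕ Fin N → F} (h : Sing p r) (h' : Sing p' r')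
    (n11 : B p p' = 1) (n12 : B p r' = 0) (n21 : B r p' = 0) (n22 : B r r' = 1)
    (X Y : Matrix (Fin 2) (Fin 2) F) :
    M4 p r p' r' (X * Y) = M4 p r p' r' X * M4 p r p' r' Y := by
  have hc := MMg_comm r p' (sw r') (sw p) p r' (sw p') (sw r)
    (by rw [sw_dot, n12]) (by rw [sw_dot, h'.rr]) (by rw [sw_dot, h.pp])
    (by rw [sw_dot, B_symm, n12]) (by rw [sw_dot, n21]) (by rw [sw_dot, h'.pp])
    (by rw [sw_dot, h.rr]) (by rw [sw_dot, B_symm, n21]) Y (hat X)
  rw [M4, M4, M4, hat_mul,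
    MMg_mul r p' (sw r') (sw p) (by rw [sw_dot, n22]) (by rw [sw_dot, h'.pr])
      (by rw [sw_dot, h.rp]) (by rw [sw_dot, B_symm, n11]),
    MMg_mul p r' (sw p') (sw r) (by rw [sw_dot, n11]) (by rw [sw_dot, h'.rp])
      (by rw [sw_dot, h.pr]) (by rw [sw_dot, B_symm, n22])]
  rw [Matrix.mul_assoc, ← Matrix.mul_assoc (MMg r p' (sw r') (sw p) Y), hc]
  simp only [Matrix.mul_assoc]

theorem M4_upper {p r : Fin N ⊕ Fin N → F} (h : Sing p r) (p' r' : Fin N ⊕ Fin N → F)
    (X : Matrix (Fin 2) (Fin 2) F) (h10 : X 1 0 = 0) (h00 : X 0 0 = 1) (h11 : X 1 1 = 1) :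
    M4 p r p' r' X = sgM p r (X 0 1) := by
  rw [M4, MMg_upper _ _ _ _ X h10 h00 h11,
    MMg_upper _ _ _ _ (hat X) (by rw [hat_10, h10, neg_zero]) (by rw [hat_00, h00])
      (by rw [hat_11, h11]), hat_01, sgM]
  simp only [mul_add, add_mul, mul_one, one_mul, smul_mul_assoc, mul_smul_comm, vvg_mul, sw_dot,
    h.pp, zero_smul, smul_zero, add_zero]
  module

theorem M4_lower (p r : Fin N ⊕ Fin N → F) {p' r' : Fin N ⊕ Fin N → F} (h' : Sing p' r')
    (X : Matrix (Fin 2) (Fin 2) F) (h01 : X 0 1 = 0) (h00 : X 0 0 = 1) (h11 : X 1 1 = 1) :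
    M4 p r p' r' X = sgM p' r' (-X 1 0) := by
  rw [M4, MMg_lower _ _ _ _ X h01 h00 h11,
    MMg_lower _ _ _ _ (hat X) (by rw [hat_01, h01, neg_zero]) (by rw [hat_00, h00])
      (by rw [hat_11, h11]), hat_10, sgM]
  simp only [mul_add, add_mul, mul_one, one_mul, smul_mul_assoc, mul_smul_comm, vvg_mul, sw_dot,
    h'.rr, zero_smul, smul_zero, add_zero]
  module

/-- the matrix of an element of the isometry group -/
def mat (g : OG N F) : Matrix (Fin N ⊕ Fin N) (Fin N ⊕ Fin N) F :=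
  ((g : Matrix.GeneralLinearGroup (Fin N ⊕ Fin N) F) :
    Matrix (Fin N ⊕ Fin N) (Fin N ⊕ Fin N) F)

theorem mat_injective : Function.Injective (mat : OG N F → _) := by
  intro g h hgh
  exact Subtype.ext (Units.ext hgh)

theorem mat_mul (g h : OG N F) : mat (g * h) = mat g * mat h := rfl

theorem mat_one : mat (1 : OG N F) = 1 := rfl

theorem mat_sg {p r : Fin N ⊕ Fin N → F} (h : Sing p r) (c : F) : mat (sg p r c) = sgM p r c := by
  rw [sg, dif_pos h]
  rfl

theorem M4_exists {p r p' r' : Fin N ⊕ Fin N → F} (h : Sing p r) (h' : Sing p' r')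
    (n11 : B p p' = 1) (n12 : B p r' = 0) (n21 : B r p' = 0) (n22 : B r r' = 1)
    (X : Matrix.SpecialLinearGroup (Fin 2) F) :
    ∃ g : OG N F, g ∈ SG p r ⊔ SG p' r' ∧
      mat g = M4 p r p' r' (X : Matrix (Fin 2) (Fin 2) F) := by
  refine Cfsg.Agent.Lib.helper13.SLSimple.transvection_induction
    (fun X : Matrix.SpecialLinearGroup (Fin 2) F => ∃ g : OG N F,
      g ∈ SG p r ⊔ SG p' r' ∧ mat g = M4 p r p' r' (X : Matrix (Fin 2) (Fin 2) F)) ?_ ?_ X
  · intro i j hij a
    have hc : ((Matrix.SpecialLinearGroup.transvection hij a :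
        Matrix.SpecialLinearGroup (Fin 2) F) : Matrix (Fin 2) (Fin 2) F)
        = Matrix.transvection i j a := Matrix.SpecialLinearGroup.transvection_coe hij a
    fin_cases i <;> fin_cases j
    · exact absurd rfl hij
    · refine ⟨sg p r (((Matrix.SpecialLinearGroup.transvection hij a :
        Matrix.SpecialLinearGroup (Fin 2) F) : Matrix (Fin 2) (Fin 2) F) 0 1),
        (le_sup_left : SG p r ≤ SG p r ⊔ SG p' r') (sg_mem p r _), ?_⟩
      rw [mat_sg h]
      refine (M4_upper h p' r' _ ?_ ?_ ?_).symm <;>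
        · rw [hc]; simp [Matrix.transvection]
    · refine ⟨sg p' r' (-((Matrix.SpecialLinearGroup.transvection hij a :
        Matrix.SpecialLinearGroup (Fin 2) F) : Matrix (Fin 2) (Fin 2) F) 1 0),
        (le_sup_right : SG p' r' ≤ SG p r ⊔ SG p' r') (sg_mem p' r' _), ?_⟩
      rw [mat_sg h']
      refine (M4_lower p r h' _ ?_ ?_ ?_).symm <;>
        · rw [hc]; simp [Matrix.transvection]
    · exact absurd rfl hij
  · rintro A B' ⟨gA, hA, eA⟩ ⟨gB, hB, eB⟩
    refine ⟨gA * gB, Subgroup.mul_mem _ hA hB, ?_⟩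
    rw [mat_mul, eA, eB, Matrix.SpecialLinearGroup.coe_mul, M4_mul h h' n11 n12 n21 n22]

/-- the homomorphism `SL₂(F) → O` attached to a pair of opposite lines in normal form -/
noncomputable def phiS {p r p' r' : Fin N ⊕ Fin N → F} (h : Sing p r) (h' : Sing p' r')
    (n11 : B p p' = 1) (n12 : B p r' = 0) (n21 : B r p' = 0) (n22 : B r r' = 1) :
    Matrix.SpecialLinearGroup (Fin 2) F →* OG N F where
  toFun X := Classical.choose (M4_exists h h' n11 n12 n21 n22 X)
  map_one' := by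
    apply mat_injective
    rw [(Classical.choose_spec (M4_exists h h' n11 n12 n21 n22 1)).2, mat_one]
    exact M4_one p r p' r'
  map_mul' X Y := by
    apply mat_injective
    rw [(Classical.choose_spec (M4_exists h h' n11 n12 n21 n22 (X * Y))).2, mat_mul,
      (Classical.choose_spec (M4_exists h h' n11 n12 n21 n22 X)).2,
      (Classical.choose_spec (M4_exists h h' n11 n12 n21 n22 Y)).2,
      Matrix.SpecialLinearGroup.coe_mul, M4_mul h h' n11 n12 n21 n22]

theorem phiS_val {p r p' r' : Fin N ⊕ Fin N → F} (h : Sing p r) (h' : Sing p' r')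
    (n11 : B p p' = 1) (n12 : B p r' = 0) (n21 : B r p' = 0) (n22 : B r r' = 1)
    (X : Matrix.SpecialLinearGroup (Fin 2) F) :
    mat (phiS h h' n11 n12 n21 n22 X) = M4 p r p' r' (X : Matrix (Fin 2) (Fin 2) F) :=
  (Classical.choose_spec (M4_exists h h' n11 n12 n21 n22 X)).2

theorem phiS_mem {p r p' r' : Fin N ⊕ Fin N → F} (h : Sing p r) (h' : Sing p' r')
    (n11 : B p p' = 1) (n12 : B p r' = 0) (n21 : B r p' = 0) (n22 : B r r' = 1)
    (X : Matrix.SpecialLinearGroup (Fin 2) F) :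
    phiS h h' n11 n12 n21 n22 X ∈ SG p r ⊔ SG p' r' :=
  (Classical.choose_spec (M4_exists h h' n11 n12 n21 n22 X)).1

theorem psl2_nf {p r p' r' : Fin N ⊕ Fin N → F} (h : Sing p r) (h' : Sing p' r')
    (n11 : B p p' = 1) (n12 : B p r' = 0) (n21 : B r p' = 0) (n22 : B r r' = 1) :
    IsPSL2PairOver F (SG p r) (SG p' r') := by
  have hup : (upperUnipotentSL2 F).map (phiS h h' n11 n12 n21 n22) = SG p r := by
    rw [upperUnipotentSL2, MonoidHom.map_closure]
    have : (phiS h h' n11 n12 n21 n22) '' {X : Matrix.SpecialLinearGroup (Fin 2) F |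
        (X : Matrix (Fin 2) (Fin 2) F) 1 0 = 0 ∧ (X : Matrix (Fin 2) (Fin 2) F) 0 0 = 1 ∧
        (X : Matrix (Fin 2) (Fin 2) F) 1 1 = 1}
        = ((SG p r : Subgroup (OG N F)) : Set (OG N F)) := by
      ext y
      constructor
      · rintro ⟨X, ⟨h10, h00, h11⟩, rfl⟩
        refine ⟨(X : Matrix (Fin 2) (Fin 2) F) 0 1, ?_⟩
        apply mat_injective
        rw [phiS_val, mat_sg h, M4_upper h p' r' _ h10 h00 h11]
      · rintro ⟨s, rfl⟩
        refine ⟨upT s, ⟨upT_10 s, upT_00 s, upT_11 s⟩, ?_⟩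
        apply mat_injective
        rw [phiS_val, mat_sg h, M4_upper h p' r' _ (upT_10 s) (upT_00 s) (upT_11 s), upT_01]
    rw [this, Subgroup.closure_eq]
  have hlow : (lowerUnipotentSL2 F).map (phiS h h' n11 n12 n21 n22) = SG p' r' := by
    rw [lowerUnipotentSL2, MonoidHom.map_closure]
    have : (phiS h h' n11 n12 n21 n22) '' {X : Matrix.SpecialLinearGroup (Fin 2) F |
        (X : Matrix (Fin 2) (Fin 2) F) 0 1 = 0 ∧ (X : Matrix (Fin 2) (Fin 2) F) 0 0 = 1 ∧
        (X : Matrix (Fin 2) (Fin 2) F) 1 1 = 1}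
        = ((SG p' r' : Subgroup (OG N F)) : Set (OG N F)) := by
      ext y
      constructor
      · rintro ⟨X, ⟨h01, h00, h11⟩, rfl⟩
        refine ⟨-(X : Matrix (Fin 2) (Fin 2) F) 1 0, ?_⟩
        apply mat_injective
        rw [phiS_val, mat_sg h', M4_lower p r h' _ h01 h00 h11]
      · rintro ⟨s, rfl⟩
        refine ⟨loT (-s), ⟨loT_01 _, loT_00 _, loT_11 _⟩, ?_⟩
        apply mat_injective
        rw [phiS_val, mat_sg h', M4_lower p r h' _ (loT_01 _) (loT_00 _) (loT_11 _), loT_10,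
          neg_neg]
    rw [this, Subgroup.closure_eq]
  refine ⟨phiS h h' n11 n12 n21 n22, ?_, ?_, hup, hlow⟩
  · apply le_antisymm
    · rintro _ ⟨X, rfl⟩
      exact phiS_mem h h' n11 n12 n21 n22 X
    · rw [sup_le_iff]
      constructor
      · rw [← hup]
        exact Subgroup.map_le_range _ _
      · rw [← hlow]
        exact Subgroup.map_le_range _ _
  · intro X hX
    rw [MonoidHom.mem_ker] at hX
    have hM : M4 p r p' r' (X : Matrix (Fin 2) (Fin 2) F) = 1 := by
      rw [← phiS_val h h' n11 n12 n21 n22, hX, mat_one]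
    have fu : sw r' ⬝ᵥ r = 1 := by rw [sw_dot, n22]
    have fv : sw r' ⬝ᵥ p' = 0 := by rw [sw_dot, h'.pr]
    have gu : sw p ⬝ᵥ r = 0 := by rw [sw_dot, h.rp]
    have gv : sw p ⬝ᵥ p' = 1 := by rw [sw_dot, B_symm, n11]
    obtain ⟨e00, e10, e01, e11⟩ := MMg_entries r p' (sw r') (sw p) fu fv gu gv
      (X : Matrix (Fin 2) (Fin 2) F)
    have k1 : MMg r p' (sw r') (sw p) (X : Matrix (Fin 2) (Fin 2) F) *ᵥ r = r := by
      have h5 : M4 p r p' r' (X : Matrix (Fin 2) (Fin 2) F) *ᵥ r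
          = MMg r p' (sw r') (sw p) (X : Matrix (Fin 2) (Fin 2) F) *ᵥ r := by
        rw [M4, ← Matrix.mulVec_mulVec, MMg_fix p r' (sw p') (sw r) r (by rw [sw_dot, n21])
          (by rw [sw_dot, h.rr])]
      rw [← h5, hM, one_mulVec]
    have k2 : MMg r p' (sw r') (sw p) (X : Matrix (Fin 2) (Fin 2) F) *ᵥ p' = p' := by
      have h5 : M4 p r p' r' (X : Matrix (Fin 2) (Fin 2) F) *ᵥ p'
          = MMg r p' (sw r') (sw p) (X : Matrix (Fin 2) (Fin 2) F) *ᵥ p' := by
        rw [M4, ← Matrix.mulVec_mulVec, MMg_fix p r' (sw p') (sw r) p' (by rw [sw_dot, h'.pp])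
          (by rw [sw_dot, B_symm, n21])]
      rw [← h5, hM, one_mulVec]
    rw [k1] at e00 e10
    rw [k2] at e01 e11
    rw [fu] at e00
    rw [gu] at e10
    rw [fv] at e01
    rw [gv] at e11
    have hX1 : X = 1 := by
      apply Subtype.ext
      ext i j
      fin_cases i <;> fin_cases j
      · show (X : Matrix (Fin 2) (Fin 2) F) 0 0 = _
        rw [← e00]; simp
      · show (X : Matrix (Fin 2) (Fin 2) F) 0 1 = _
        rw [← e01]; simp
      · show (X : Matrix (Fin 2) (Fin 2) F) 1 0 = _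
        rw [← e10]; simp
      · show (X : Matrix (Fin 2) (Fin 2) F) 1 1 = _
        rw [← e11]; simp
    rw [hX1]
    exact Subgroup.one_mem _

theorem psl2_of_det {p r p' r' : Fin N ⊕ Fin N → F} (h : Sing p r) (h' : Sing p' r')
    (hLI' : LinearIndependent F ![p', r'])
    (hdet : B p p' * B r r' - B p r' * B r p' ≠ 0) :
    IsPSL2PairOver F (SG p r) (SG p' r') := by
  obtain ⟨P', R', hS, _, hSG, n11, n12, n21, n22⟩ := exists_nf1 h' hLI' hdet
  rw [← hSG]
  exact psl2_nf h hS n11 n12 n21 n22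

end PSL2

section Comm

variable {F : Type*} [Field F] {N : ℕ}

/-- the commutator relation in the second normal form -/
theorem comm_nf {p r p' r' : Fin N ⊕ Fin N → F} (h : Sing p r) (h' : Sing p' r')
    (n11 : B p p' = 1) (n12 : B p r' = 0) (n21 : B r p' = 0) (n22 : B r r' = 0) (s t : F) :
    sg p r s * sg p' r' t = sg r r' (s * t) * (sg p' r' t * sg p r s) := by
  have hrr' : Sing r r' := ⟨h.2.1, h'.2.1, n22⟩
  apply ext_act
  intro x
  rw [act_mul, act_mul, act_mul, sg_act h, sg_act h', sg_act hrr', sg_act h', sg_act h]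
  simp only [B_add_left, B_sub_left, B_smul_left, n11, n12, n21, n22, B_symm p' p, B_symm r' p,
    B_symm p' r, B_symm r' r, h.pp, h.rr, h.pr, h.rp, h'.pp, h'.rr, h'.pr, h'.rp,
    mul_zero, sub_zero, add_zero, mul_one, zero_sub]
  module

theorem comm_elt_nf {p r p' r' : Fin N ⊕ Fin N → F} (h : Sing p r) (h' : Sing p' r')
    (n11 : B p p' = 1) (n12 : B p r' = 0) (n21 : B r p' = 0) (n22 : B r r' = 0) (s t : F) :
    sg p r s * sg p' r' t * (sg p r s)⁻¹ * (sg p' r' t)⁻¹ = sg r r' (s * t) := by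
  rw [comm_nf h h' n11 n12 n21 n22]
  group

theorem sg_dep {r r' : Fin N ⊕ Fin N → F} (hdep : ¬ LinearIndependent F ![r, r']) (c : F) :
    sg r r' c = 1 := by
  by_cases hS : Sing r r'
  · rw [LinearIndependent.pair_iff] at hdep
    push Not at hdep
    obtain ⟨s, t, hst, hne⟩ := hdep
    apply ext_act
    intro x
    rw [sg_act hS, act_one]
    have key : B x r • r' - B x r' • r = 0 := by
      by_cases ht : t = 0
      · have hs : s ≠ 0 := fun hs => hne hs ht
        rw [ht, zero_smul, add_zero] at hst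
        have hr0 : r = 0 := by
          rcases smul_eq_zero.1 hst with h1 | h1
          · exact absurd h1 hs
          · exact h1
        rw [hr0, B_zero_right, zero_smul, smul_zero, sub_zero]
      · have hr' : r' = (-s / t) • r := by
          have h1 : t • r' = -s • r := by
            rw [← sub_eq_zero, neg_smul, sub_neg_eq_add, add_comm]; exact hst
          calc r' = t⁻¹ • (t • r') := by rw [smul_smul, inv_mul_cancel₀ ht, one_smul]
            _ = (-s / t) • r := by rw [h1, smul_smul]; congr 1; field_simp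
        rw [hr', B_smul_right]
        module
    rw [key, smul_zero, add_zero]
  · exact sg_of_not hS c

end Comm

section Generic

variable {G : Type*} [Group G]

theorem not_rankOne_of_comm {A B : Subgroup G} (hcomm : ∀ a ∈ A, ∀ b ∈ B, a * b = b * a)
    (hne : ∃ a ∈ A, a ≠ 1) : ¬ IsRankOnePair A B := by
  intro hR
  obtain ⟨a, ha, ha1⟩ := hne
  obtain ⟨b, hb, _, heq⟩ := hR.cond_left a ha ha1
  have e1 : conjBy A b⁻¹ = A := by
    ext x
    rw [mem_conjBy]
    constructor
    · rintro ⟨y, hy, rfl⟩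
      have h1 := hcomm y hy b hb
      have h2 : b⁻¹ * y * b⁻¹⁻¹ = y := by
        rw [inv_inv, mul_assoc, h1, inv_mul_cancel_left]
      rw [h2]; exact hy
    · intro hx
      have h1 := hcomm x hx b hb
      refine ⟨x, hx, ?_⟩
      rw [inv_inv, mul_assoc, h1, inv_mul_cancel_left]
  have e2 : conjBy B a⁻¹ = B := by
    ext x
    rw [mem_conjBy]
    constructor
    · rintro ⟨y, hy, rfl⟩
      have h1 := hcomm a ha y hy
      have h2 : a⁻¹ * y * a⁻¹⁻¹ = y := by
        rw [inv_inv, mul_assoc, ← h1, inv_mul_cancel_left]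
      rw [h2]; exact hy
    · intro hx
      have h1 := hcomm a ha x hx
      refine ⟨x, hx, ?_⟩
      rw [inv_inv, mul_assoc, ← h1, inv_mul_cancel_left]
  rw [e1, e2] at heq
  exact hR.ne heq

/-- the commutator case inside a subgroup, from elementwise facts -/
theorem rcc_of_facts (K : Subgroup G) (S' : Set (Subgroup K)) {A B C : Subgroup G}
    (hA : A ≤ K) (hB : B ≤ K) (hC : C.subgroupOf K ∈ S')
    (F1 : ∀ a ∈ A, ∀ b ∈ B, a * b * a⁻¹ * b⁻¹ ∈ C)
    (F2 : ∀ c ∈ C, ∀ a ∈ A, c * a = a * c) (F2' : ∀ c ∈ C, ∀ b ∈ B, c * b = b * c)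
    (F3 : ∀ a ∈ A, a ≠ 1 → ∀ c ∈ C, ∃ b ∈ B, a * b * a⁻¹ * b⁻¹ = c)
    (F4 : ∀ b ∈ B, b ≠ 1 → ∀ c ∈ C, ∃ a ∈ A, a * b * a⁻¹ * b⁻¹ = c)
    (F5 : ∃ a ∈ A, a ≠ 1) :
    RootCommutatorCase S' (A.subgroupOf K) (B.subgroupOf K) := by
  have hcomm : ⁅A.subgroupOf K, B.subgroupOf K⁆ = C.subgroupOf K := by
    apply le_antisymm
    · rw [Subgroup.commutator_le]
      intro a ha b hb
      rw [commutatorElement_def, Subgroup.mem_subgroupOf]
      exact F1 a.1 (Subgroup.mem_subgroupOf.1 ha) b.1 (Subgroup.mem_subgroupOf.1 hb)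
    · intro c hc
      obtain ⟨a, ha, ha1⟩ := F5
      obtain ⟨b, hb, hab⟩ := F3 a ha ha1 c.1 (Subgroup.mem_subgroupOf.1 hc)
      have h1 := Subgroup.commutator_mem_commutator
        (H₁ := A.subgroupOf K) (H₂ := B.subgroupOf K) (g₁ := ⟨a, hA ha⟩) (g₂ := ⟨b, hB hb⟩)
        (Subgroup.mem_subgroupOf.2 ha) (Subgroup.mem_subgroupOf.2 hb)
      rw [commutatorElement_def] at h1
      have h2 : (⟨a, hA ha⟩ : K) * ⟨b, hB hb⟩ * (⟨a, hA ha⟩ : K)⁻¹ * (⟨b, hB hb⟩ : K)⁻¹ = c :=
        Subtype.ext hab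
      rwa [h2] at h1
  refine ⟨by rw [hcomm]; exact hC, ?_, ?_, ?_⟩
  · rw [hcomm]
    intro c hc x hx
    have hle : A.subgroupOf K ⊔ B.subgroupOf K ≤ Subgroup.centralizer {c} := by
      rw [sup_le_iff]
      constructor
      · intro a ha
        rw [Subgroup.mem_centralizer_iff]
        intro y hy
        rw [Set.mem_singleton_iff] at hy
        rw [hy]
        exact Subtype.ext (F2 c.1 (Subgroup.mem_subgroupOf.1 hc) a.1 (Subgroup.mem_subgroupOf.1 ha))
      · intro b hb
        rw [Subgroup.mem_centralizer_iff]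
        intro y hy
        rw [Set.mem_singleton_iff] at hy
        rw [hy]
        exact Subtype.ext (F2' c.1 (Subgroup.mem_subgroupOf.1 hc) b.1 (Subgroup.mem_subgroupOf.1 hb))
    have := hle hx
    rw [Subgroup.mem_centralizer_iff] at this
    exact this c rfl
  · intro a ha ha1
    rw [hcomm]
    apply le_antisymm
    · rw [Subgroup.closure_le]
      rintro _ ⟨b, hb, rfl⟩
      rw [SetLike.mem_coe, Subgroup.mem_subgroupOf]
      exact F1 a.1 (Subgroup.mem_subgroupOf.1 ha) b.1 (Subgroup.mem_subgroupOf.1 hb)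
    · intro c hc
      obtain ⟨b, hb, hab⟩ := F3 a.1 (Subgroup.mem_subgroupOf.1 ha)
        (fun h1 => ha1 (Subtype.ext h1)) c.1 (Subgroup.mem_subgroupOf.1 hc)
      apply Subgroup.subset_closure
      exact ⟨⟨b, hB hb⟩, Subgroup.mem_subgroupOf.2 hb, Subtype.ext hab⟩
  · intro b hb hb1
    rw [hcomm]
    apply le_antisymm
    · rw [Subgroup.closure_le]
      rintro _ ⟨a, ha, rfl⟩
      rw [SetLike.mem_coe, Subgroup.mem_subgroupOf]
      exact F1 a.1 (Subgroup.mem_subgroupOf.1 ha) b.1 (Subgroup.mem_subgroupOf.1 hb)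
    · intro c hc
      obtain ⟨a, ha, hab⟩ := F4 b.1 (Subgroup.mem_subgroupOf.1 hb)
        (fun h1 => hb1 (Subtype.ext h1)) c.1 (Subgroup.mem_subgroupOf.1 hc)
      apply Subgroup.subset_closure
      exact ⟨⟨a, hA ha⟩, Subgroup.mem_subgroupOf.2 ha, Subtype.ext hab⟩

end Generic

section NF2

variable {F : Type*} [Field F] {N : ℕ}

theorem nf2_aux {p r p' r' : Fin N ⊕ Fin N → F} (h : Sing p r) (h' : Sing p' r')
    (hLI : LinearIndependent F ![p, r]) (hLI' : LinearIndependent F ![p', r'])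
    (hdet : B p p' * B r r' - B p r' * B r p' = 0) (h11 : B p p' ≠ 0) :
    ∃ P R P' R' : Fin N ⊕ Fin N → F, Sing P R ∧ Sing P' R' ∧ LinearIndependent F ![P, R] ∧
      LinearIndependent F ![P', R'] ∧ SG P R = SG p r ∧ SG P' R' = SG p' r' ∧
      B P P' = 1 ∧ B P R' = 0 ∧ B R P' = 0 ∧ B R R' = 0 := by
  have d1 : (1 : F) * 1 - 0 * (-B r p' / B p p') ≠ 0 := by norm_num
  have d2 : (1 / B p p') * 1 - 0 * (-B p r' / B p p') ≠ 0 := by
    rw [mul_one, zero_mul, sub_zero]
    exact one_div_ne_zero h11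
  refine ⟨(1 : F) • p + (0 : F) • r, (-B r p' / B p p') • p + (1 : F) • r,
    (1 / B p p') • p' + (0 : F) • r', (-B p r' / B p p') • p' + (1 : F) • r',
    Sing_bc h _ _ _ _, Sing_bc h' _ _ _ _, LI_bc hLI _ _ _ _ d1, LI_bc hLI' _ _ _ _ d2,
    SG_bc h _ _ _ _ d1, SG_bc h' _ _ _ _ d2, ?_, ?_, ?_, ?_⟩
  · simp only [B_add_left, B_add_right, B_smul_left, B_smul_right]
    field_simp
    ring
  · simp only [B_add_left, B_add_right, B_smul_left, B_smul_right]
    field_simp
    ring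
  · simp only [B_add_left, B_add_right, B_smul_left, B_smul_right]
    field_simp
    ring
  · simp only [B_add_left, B_add_right, B_smul_left, B_smul_right]
    field_simp
    linear_combination hdet

/-- normal form for a Gram matrix of rank one -/
theorem exists_nf2 {p r p' r' : Fin N ⊕ Fin N → F} (h : Sing p r) (h' : Sing p' r')
    (hLI : LinearIndependent F ![p, r]) (hLI' : LinearIndependent F ![p', r'])
    (hdet : B p p' * B r r' - B p r' * B r p' = 0)
    (hne : ¬ (B p p' = 0 ∧ B p r' = 0 ∧ B r p' = 0 ∧ B r r' = 0)) :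
    ∃ P R P' R' : Fin N ⊕ Fin N → F, Sing P R ∧ Sing P' R' ∧ LinearIndependent F ![P, R] ∧
      LinearIndependent F ![P', R'] ∧ SG P R = SG p r ∧ SG P' R' = SG p' r' ∧
      B P P' = 1 ∧ B P R' = 0 ∧ B R P' = 0 ∧ B R R' = 0 := by
  by_cases h11 : B p p' = 0
  · by_cases h12 : B p r' = 0
    · by_cases h21 : B r p' = 0
      · have h22 : B r r' ≠ 0 := fun h22 => hne ⟨h11, h12, h21, h22⟩
        obtain ⟨P, R, P', R', k1, k2, k3, k4, k5, k6, k7⟩ := nf2_aux (Sing_swap h) (Sing_swap h')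
          (LI_swap hLI) (LI_swap hLI') (by linear_combination hdet) h22
        exact ⟨P, R, P', R', k1, k2, k3, k4, k5.trans (SG_swap h), k6.trans (SG_swap h'), k7⟩
      · obtain ⟨P, R, P', R', k1, k2, k3, k4, k5, k6, k7⟩ := nf2_aux (Sing_swap h) h'
          (LI_swap hLI) hLI' (by linear_combination -hdet) h21
        exact ⟨P, R, P', R', k1, k2, k3, k4, k5.trans (SG_swap h), k6, k7⟩
    · obtain ⟨P, R, P', R', k1, k2, k3, k4, k5, k6, k7⟩ := nf2_aux h (Sing_swap h')
        hLI (LI_swap hLI') (by linear_combination -hdet) h12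
      exact ⟨P, R, P', R', k1, k2, k3, k4, k5, k6.trans (SG_swap h'), k7⟩
  · exact nf2_aux h h' hLI hLI' hdet h11

/-- no rank one pair in the second normal form -/
theorem not_rank_one_nf2 {p r p' r' : Fin N ⊕ Fin N → F} (h : Sing p r) (h' : Sing p' r')
    (hLI : LinearIndependent F ![p, r]) (hLI' : LinearIndependent F ![p', r'])
    (n11 : B p p' = 1) (n12 : B p r' = 0) (n21 : B r p' = 0) (n22 : B r r' = 0) :
    ¬ IsRankOnePair (SG p r) (SG p' r') := by
  intro hR
  have ha1 : sg p r (1 : F) ≠ 1 := sg_ne_one h hLI 1 one_ne_zero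
  obtain ⟨b, ⟨t, rfl⟩, _, heq⟩ := hR.cond_left (sg p r 1) (sg_mem p r 1) ha1
  have hm : (sg p' r' t)⁻¹ * sg p r 1 * (sg p' r' t)⁻¹⁻¹ ∈ conjBy (SG p r) (sg p' r' t)⁻¹ :=
    (mem_conjBy _ _ _).2 ⟨_, sg_mem p r 1, rfl⟩
  rw [heq, mem_conjBy] at hm
  obtain ⟨_, ⟨c, rfl⟩, hc⟩ := hm
  have hr'0 : r' ≠ 0 := LI_ne_zero_right hLI'
  -- evaluate both sides at `p`
  have e1 : act (sg p r 1) (act (sg p' r' t) p) = act (sg p' r' t) p := by
    rw [sg_act h', sg_act h]
    simp only [B_add_left, B_sub_left, B_smul_left, n11, n12, B_symm r' p, B_symm p' p,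
      B_symm r' r, B_symm p' r, n21, n22, h.pp, h.pr, h.rp, h.rr]
    module
  have e2 : act ((sg p' r' t)⁻¹ * sg p r 1 * (sg p' r' t)⁻¹⁻¹) p = p := by
    rw [inv_inv, act_mul, act_mul, e1, act_inv_act]
  have e3 : act ((sg p r 1)⁻¹ * sg p' r' c * (sg p r 1)⁻¹⁻¹) p = p + c • r' := by
    rw [inv_inv, act_mul, act_mul, sg_inv, sg_act h, sg_act h', sg_act h]
    simp only [B_add_left, B_sub_left, B_smul_left, n11, n12, B_symm r' p, B_symm p' p,
      B_symm r' r, B_symm p' r, n21, n22, h.pp, h.pr, h.rp, h.rr]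
    module
  rw [hc, e3] at e2
  have h0 : c • r' = 0 := by
    have h6 : p + c • r' - p = p - p := by rw [e2]
    simpa using h6
  have hc0 : c = 0 := by
    rcases smul_eq_zero.1 h0 with h6 | h6
    · exact h6
    · exact absurd h6 hr'0
  rw [hc0, sg_zero, mul_one, mul_inv_cancel] at hc
  apply ha1
  have h7 : sg p r (1 : F) = sg p' r' t * ((sg p' r' t)⁻¹ * sg p r 1 * (sg p' r' t)⁻¹⁻¹)
      * (sg p' r' t)⁻¹ := by group
  rw [h7, hc]
  group

theorem not_rank_one_of_det {p r p' r' : Fin N ⊕ Fin N → F} (h : Sing p r) (h' : Sing p' r')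
    (hLI : LinearIndependent F ![p, r]) (hLI' : LinearIndependent F ![p', r'])
    (hdet : B p p' * B r r' - B p r' * B r p' = 0) :
    ¬ IsRankOnePair (SG p r) (SG p' r') := by
  by_cases hz : B p p' = 0 ∧ B p r' = 0 ∧ B r p' = 0 ∧ B r r' = 0
  · exact not_rankOne_of_comm (SG_comm_of h h' hz.1 hz.2.1 hz.2.2.1 hz.2.2.2)
      ⟨sg p r 1, sg_mem p r 1, sg_ne_one h hLI 1 one_ne_zero⟩
  · obtain ⟨P, R, P', R', k1, k2, k3, k4, k5, k6, n11, n12, n21, n22⟩ :=
      exists_nf2 h h' hLI hLI' hdet hz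
    rw [← k5, ← k6]
    exact not_rank_one_nf2 k1 k2 k3 k4 n11 n12 n21 n22

end NF2

section Connect

variable {F : Type*} [Field F] {N : ℕ}

theorem exists_perp_ne (x z : Fin N ⊕ Fin N → F) (hz : ∀ c : F, z ≠ c • x) :
    ∃ w, B x w = 0 ∧ B z w ≠ 0 := by
  by_contra hcon
  push Not at hcon
  by_cases hx : x = 0
  · apply hz 0
    rw [zero_smul]
    apply B_nondeg
    intro y
    exact hcon y (by rw [hx, B_zero_left])
  · obtain ⟨w0, hw0⟩ : ∃ w0, B x w0 ≠ 0 := by
      by_contra h0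
      push Not at h0
      exact hx (B_nondeg x h0)
    apply hz (B z w0 / B x w0)
    have : z - (B z w0 / B x w0) • x = 0 := by
      apply B_nondeg
      intro y
      have h1 := hcon (y - (B x y / B x w0) • w0)
        (by rw [B_sub_right, B_smul_right, div_mul_cancel₀ _ hw0, sub_self])
      rw [B_sub_right, B_smul_right] at h1
      rw [B_sub_left, B_smul_left]
      linear_combination h1
    exact sub_eq_zero.1 this

theorem exists_perp3 (hN : 3 ≤ N) (x z z' : Fin N ⊕ Fin N → F) :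
    ∃ w, (∀ c : F, w ≠ c • x) ∧ B x w = 0 ∧ B z w = 0 ∧ B z' w = 0 := by
  obtain ⟨i0, hi0⟩ : ∃ i0 : Fin N ⊕ Fin N, x = 0 ∨ x i0 ≠ 0 := by
    by_cases hx : x = 0
    · exact ⟨Sum.inl ⟨0, by omega⟩, Or.inl hx⟩
    · have : ∃ i, x i ≠ 0 := by
        by_contra h0
        push Not at h0
        exact hx (funext h0)
      obtain ⟨i, hi⟩ := this
      exact ⟨i, Or.inr hi⟩
  let f : (Fin N ⊕ Fin N → F) →ₗ[F] (Fin 4 → F) :=
    { toFun := fun w => ![B x w, B z w, B z' w, w i0]
      map_add' := by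
        intro a b
        ext i
        fin_cases i <;> simp [B_add_right]
      map_smul' := by
        intro c a
        ext i
        fin_cases i <;> simp [B_smul_right] }
  have hker : LinearMap.ker f ≠ ⊥ := by
    apply LinearMap.ker_ne_bot_of_finrank_lt
    rw [Module.finrank_fin_fun, Module.finrank_fintype_fun_eq_card, Fintype.card_sum,
      Fintype.card_fin]
    omega
  obtain ⟨w, hw, hw0⟩ := (Submodule.ne_bot_iff _).1 hker
  rw [LinearMap.mem_ker] at hw
  have h1 : B x w = 0 := by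
    have := congrFun hw 0
    simpa [f] using this
  have h2 : B z w = 0 := by
    have := congrFun hw 1
    simpa [f] using this
  have h3 : B z' w = 0 := by
    have := congrFun hw 2
    simpa [f] using this
  have h4 : w i0 = 0 := by
    have := congrFun hw 3
    simpa [f] using this
  refine ⟨w, ?_, h1, h2, h3⟩
  intro c hc
  rcases hi0 with hx | hx
  · apply hw0
    rw [hc, hx, smul_zero]
  · have h5 : c * x i0 = 0 := by
      rw [hc] at h4
      simpa using h4
    rcases mul_eq_zero.1 h5 with h6 | h6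
    · apply hw0
      rw [hc, h6, zero_smul]
    · exact hx h6

theorem exists_sing_perp (hN : 3 ≤ N) (x z z' : Fin N ⊕ Fin N → F)
    (hz : quadFormPlus N F z = 0) (hz' : quadFormPlus N F z' = 0)
    (hxz : B x z = 0) (hxz' : B x z' = 0) (hzn : ∀ c : F, z ≠ c • x)
    (hz'n : ∀ c : F, z' ≠ c • x) :
    ∃ y, quadFormPlus N F y = 0 ∧ B x y = 0 ∧ B z y ≠ 0 ∧ B z' y ≠ 0 := by
  have hzz : B z z = 0 := by rw [B_self, hz, mul_zero]
  have hz'z' : B z' z' = 0 := by rw [B_self, hz', mul_zero]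
  by_cases hk : B z z' = 0
  · obtain ⟨w1, h1, h1'⟩ := exists_perp_ne x z hzn
    obtain ⟨w2, h2, h2'⟩ := exists_perp_ne x z' hz'n
    obtain ⟨w, hw1, hw2, hw3⟩ : ∃ w, B x w = 0 ∧ B z w ≠ 0 ∧ B z' w ≠ 0 := by
      by_cases c1 : B z' w1 = 0
      · by_cases c2 : B z w2 = 0
        · refine ⟨w1 + w2, ?_, ?_, ?_⟩
          · rw [B_add_right, h1, h2, add_zero]
          · rw [B_add_right, c2, add_zero]; exact h1'
          · rw [B_add_right, c1, zero_add]; exact h2'
        · exact ⟨w2, h2, c2, h2'⟩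
      · exact ⟨w1, h1, h1', c1⟩
    have hwz : B w z ≠ 0 := by rw [B_symm]; exact hw2
    refine ⟨w + (-quadFormPlus N F w / B w z) • z, ?_, ?_, ?_, ?_⟩
    · rw [Q_add, Q_smul, hz, B_smul_right, mul_zero, add_zero, div_mul_cancel₀ _ hwz,
        add_neg_cancel]
    · rw [B_add_right, B_smul_right, hw1, hxz, mul_zero, add_zero]
    · rw [B_add_right, B_smul_right, hzz, mul_zero, add_zero]; exact hw2
    · rw [B_add_right, B_smul_right, B_symm z' z, hk, mul_zero, add_zero]; exact hw3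
  · obtain ⟨t, ht1, ht2, ht3, htQ⟩ :
        ∃ t, B x t = 0 ∧ B z t = 0 ∧ B z' t = 0 ∧ quadFormPlus N F t ≠ 0 := by
      by_contra hcon
      push Not at hcon
      obtain ⟨w, hwn, hw1, hw2, hw3⟩ := exists_perp3 hN x z z'
      obtain ⟨v, hv1, hv2⟩ := exists_perp_ne x w hwn
      obtain ⟨v1, hv1def⟩ : ∃ v1, v1 = v - (B v z' / B z z') • z - (B v z / B z z') • z' :=
        ⟨_, rfl⟩
      have a1 : B x v1 = 0 := by
        rw [hv1def, B_sub_right, B_sub_right, B_smul_right, B_smul_right, hv1, hxz, hxz']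
        ring
      have a2 : B z v1 = 0 := by
        rw [hv1def, B_sub_right, B_sub_right, B_smul_right, B_smul_right, hzz, B_symm z v,
          div_mul_cancel₀ _ hk]
        ring
      have a3 : B z' v1 = 0 := by
        rw [hv1def, B_sub_right, B_sub_right, B_smul_right, B_smul_right, hz'z', B_symm z' z,
          B_symm z' v, div_mul_cancel₀ _ hk]
        ring
      have q1 := hcon w hw1 hw2 hw3
      have q2 := hcon v1 a1 a2 a3
      have q3 := hcon (w + v1) (by rw [B_add_right, hw1, a1, add_zero])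
        (by rw [B_add_right, hw2, a2, add_zero]) (by rw [B_add_right, hw3, a3, add_zero])
      rw [Q_add, q1, q2, zero_add, zero_add] at q3
      apply hv2
      rw [hv1def, B_sub_right, B_sub_right, B_smul_right, B_smul_right, B_symm w z, hw2,
        B_symm w z', hw3] at q3
      linear_combination q3
    refine ⟨z + (-quadFormPlus N F t / B z z') • z' + t, ?_, ?_, ?_, ?_⟩
    · rw [Q_add, Q_add, Q_smul, hz, hz', B_smul_right, B_add_left, B_smul_left, ht2, ht3,
        div_mul_cancel₀ _ hk]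
      ring
    · rw [B_add_right, B_add_right, B_smul_right, hxz, hxz', ht1]
      ring
    · rw [B_add_right, B_add_right, B_smul_right, hzz, ht2, div_mul_cancel₀ _ hk, zero_add,
        add_zero]
      exact neg_ne_zero.2 htQ
    · rw [B_add_right, B_add_right, B_smul_right, hz'z', ht3, B_symm z' z, mul_zero, add_zero,
        add_zero]
      exact hk

theorem exists_common_opp (hN : 3 ≤ N) {p r p' r' : Fin N ⊕ Fin N → F} (h : Sing p r)
    (h' : Sing p' r') (hLI : LinearIndependent F ![p, r])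
    (hLI' : LinearIndependent F ![p', r']) :
    ∃ x y : Fin N ⊕ Fin N → F, Sing x y ∧ LinearIndependent F ![x, y] ∧
      B p x * B r y - B p y * B r x ≠ 0 ∧ B p' x * B r' y - B p' y * B r' x ≠ 0 := by
  have hp0 := LI_ne_zero_left hLI
  have hp'0 := LI_ne_zero_left hLI'
  obtain ⟨x, hxQ, -, hpx, hp'x⟩ := exists_sing_perp hN (0 : Fin N ⊕ Fin N → F) p p' h.1 h'.1
    (B_zero_left _) (B_zero_left _) (fun c hc => hp0 (by rw [hc, smul_zero]))
    (fun c hc => hp'0 (by rw [hc, smul_zero]))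
  have key : ∀ {p r : Fin N ⊕ Fin N → F}, Sing p r → LinearIndependent F ![p, r] → B p x ≠ 0 →
      quadFormPlus N F (B r x • p + (-B p x) • r) = 0 ∧ B x (B r x • p + (-B p x) • r) = 0 ∧
      ∀ c : F, B r x • p + (-B p x) • r ≠ c • x := by
    intro p r h hLI hpx
    refine ⟨?_, ?_, ?_⟩
    · rw [Q_comb, h.1, h.2.1, h.pr]; ring
    · rw [B_add_right, B_smul_right, B_smul_right, B_symm x p, B_symm x r]; ring
    · intro c hc
      have h1 : B p (B r x • p + (-B p x) • r) = 0 := by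
        rw [B_add_right, B_smul_right, B_smul_right, h.pp, h.pr]; ring
      rw [hc, B_smul_right] at h1
      have hc0 : c = 0 := by
        rcases mul_eq_zero.1 h1 with h2 | h2
        · exact h2
        · exact absurd h2 hpx
      rw [hc0, zero_smul] at hc
      rw [LinearIndependent.pair_iff] at hLI
      have := (hLI _ _ hc).2
      exact hpx (neg_eq_zero.1 this)
  obtain ⟨k1, k2, k3⟩ := key h hLI hpx
  obtain ⟨k1', k2', k3'⟩ := key h' hLI' hp'x
  obtain ⟨y, hyQ, hxy, hzy, hz'y⟩ := exists_sing_perp hN x _ _ k1 k1' k2 k2' k3 k3'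
  have d1 : B p x * B r y - B p y * B r x ≠ 0 := by
    intro h0
    apply hzy
    rw [B_add_left, B_smul_left, B_smul_left]
    linear_combination -h0
  have d2 : B p' x * B r' y - B p' y * B r' x ≠ 0 := by
    intro h0
    apply hz'y
    rw [B_add_left, B_smul_left, B_smul_left]
    linear_combination -h0
  refine ⟨x, y, ⟨hxQ, hyQ, hxy⟩, ?_, d1, d2⟩
  rw [LinearIndependent.pair_iff]
  intro s t hst
  have e1 : s * B p x + t * B p y = 0 := by
    have := congrArg (B p) hst
    rwa [B_add_right, B_smul_right, B_smul_right, B_zero_right] at this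
  have e2 : s * B r x + t * B r y = 0 := by
    have := congrArg (B r) hst
    rwa [B_add_right, B_smul_right, B_smul_right, B_zero_right] at this
  constructor
  · have h3 : s * (B p x * B r y - B p y * B r x) = 0 := by
      linear_combination B r y * e1 - B p y * e2
    rcases mul_eq_zero.1 h3 with h1 | h1
    · exact h1
    · exact absurd h1 d1
  · have h3 : t * (B p x * B r y - B p y * B r x) = 0 := by
      linear_combination B p x * e2 - B r x * e1
    rcases mul_eq_zero.1 h3 with h1 | h1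
    · exact h1
    · exact absurd h1 d1

end Connect

section Main

variable {F : Type*} [Field F] {m : ℕ}

/-- the set `Σ` of the statement -/
def SigS (F : Type*) [Field F] (m : ℕ) :
    Set (Subgroup ↥(Cfsg.isometryGroup F (Cfsg.quadFormPlus (m + 3) F))) :=
  {A : Subgroup ↥(Cfsg.isometryGroup F (Cfsg.quadFormPlus (m + 3) F)) | ∃ p r : Fin (m + 3) ⊕ Fin (m + 3) → F, LinearIndependent F ![p, r] ∧
          Cfsg.quadFormPlus (m + 3) F p = 0 ∧ Cfsg.quadFormPlus (m + 3) F r = 0 ∧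
          Cfsg.quadFormPlus (m + 3) F (p + r) = 0 ∧
          A = Subgroup.closure {σ : ↥(Cfsg.isometryGroup F (Cfsg.quadFormPlus (m + 3) F)) | ∀ v : Fin (m + 3) ⊕ Fin (m + 3) → F,
            Cfsg.quadFormPlus (m + 3) F (v + p) - Cfsg.quadFormPlus (m + 3) F v - Cfsg.quadFormPlus (m + 3) F p = 0 →
            Cfsg.quadFormPlus (m + 3) F (v + r) - Cfsg.quadFormPlus (m + 3) F v - Cfsg.quadFormPlus (m + 3) F r = 0 →
              ((σ : Matrix.GeneralLinearGroup (Fin (m + 3) ⊕ Fin (m + 3)) F) : Matrix (Fin (m + 3) ⊕ Fin (m + 3)) (Fin (m + 3) ⊕ Fin (m + 3)) F) *ᵥ v = v}}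

/-- the group `G₀` generated by `Σ` -/
def G0 (F : Type*) [Field F] (m : ℕ) :
    Subgroup ↥(Cfsg.isometryGroup F (Cfsg.quadFormPlus (m + 3) F)) :=
  ⨆ B ∈ SigS F m, B

/-- `Σ` inside `G₀` -/
def SigS' (F : Type*) [Field F] (m : ℕ) : Set (Subgroup ↥(G0 F m)) :=
  (fun A : Subgroup ↥(Cfsg.isometryGroup F (Cfsg.quadFormPlus (m + 3) F)) =>
    A.subgroupOf (G0 F m)) '' SigS F m

theorem mem_SigS (A : Subgroup ↥(Cfsg.isometryGroup F (Cfsg.quadFormPlus (m + 3) F))) :
    A ∈ SigS F m ↔ ∃ p r : Fin (m + 3) ⊕ Fin (m + 3) → F, LinearIndependent F ![p, r] ∧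
      Sing p r ∧ A = SG p r := by
  constructor
  · rintro ⟨p, r, hLI, hp, hr, hpr, rfl⟩
    have hS : Sing p r := ⟨hp, hr, by rw [Q_add, hp, hr] at hpr; linear_combination hpr⟩
    refine ⟨p, r, hLI, hS, ?_⟩
    rw [genset_eq hS hLI, Subgroup.closure_eq]
  · rintro ⟨p, r, hLI, hS, rfl⟩
    refine ⟨p, r, hLI, hS.1, hS.2.1, by rw [Q_add, hS.1, hS.2.1, hS.pr]; ring, ?_⟩
    rw [genset_eq hS hLI, Subgroup.closure_eq]

theorem SG_mem_SigS {p r : Fin (m + 3) ⊕ Fin (m + 3) → F} (hLI : LinearIndependent F ![p, r])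
    (hS : Sing p r) : SG p r ∈ SigS F m :=
  (mem_SigS _).2 ⟨p, r, hLI, hS, rfl⟩

theorem SG_le_G0 {p r : Fin (m + 3) ⊕ Fin (m + 3) → F} (hLI : LinearIndependent F ![p, r])
    (hS : Sing p r) : SG p r ≤ G0 F m :=
  le_iSup₂ (f := fun (B : Subgroup ↥(Cfsg.isometryGroup F (Cfsg.quadFormPlus (m + 3) F)))
    (_ : B ∈ SigS F m) => B) (SG p r) (SG_mem_SigS hLI hS)

theorem mem_SigS' (A : Subgroup ↥(G0 F m)) :
    A ∈ SigS' F m ↔ ∃ p r : Fin (m + 3) ⊕ Fin (m + 3) → F, LinearIndependent F ![p, r] ∧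
      Sing p r ∧ A = (SG p r).subgroupOf (G0 F m) := by
  constructor
  · rintro ⟨B, hB, rfl⟩
    obtain ⟨p, r, hLI, hS, rfl⟩ := (mem_SigS B).1 hB
    exact ⟨p, r, hLI, hS, rfl⟩
  · rintro ⟨p, r, hLI, hS, rfl⟩
    exact ⟨SG p r, SG_mem_SigS hLI hS, rfl⟩

theorem SG'_mem {p r : Fin (m + 3) ⊕ Fin (m + 3) → F} (hLI : LinearIndependent F ![p, r])
    (hS : Sing p r) : (SG p r).subgroupOf (G0 F m) ∈ SigS' F m :=
  (mem_SigS' _).2 ⟨p, r, hLI, hS, rfl⟩

theorem rankOne_G0 {p r p' r' : Fin (m + 3) ⊕ Fin (m + 3) → F}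
    (hLI : LinearIndependent F ![p, r]) (hS : Sing p r)
    (hLI' : LinearIndependent F ![p', r']) (hS' : Sing p' r')
    (hdet : B p p' * B r r' - B p r' * B r p' ≠ 0) :
    IsRankOnePair ((SG p r).subgroupOf (G0 F m)) ((SG p' r').subgroupOf (G0 F m)) := by
  have hA := SG_le_G0 hLI hS
  have hB := SG_le_G0 hLI' hS'
  have hR := rank_one_of_det hS hS' hLI' hdet
  refine ⟨?_, ?_, ?_, ?_, ?_⟩
  · intro heq
    exact hR.ne (subgroupOf_inj' _ hA hB heq)
  · apply nilp_of_comm
    intro a ha b hb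
    exact Subtype.ext (SG_comm_elem p r a.1 (Subgroup.mem_subgroupOf.1 ha) b.1
      (Subgroup.mem_subgroupOf.1 hb))
  · apply nilp_of_comm
    intro a ha b hb
    exact Subtype.ext (SG_comm_elem p' r' a.1 (Subgroup.mem_subgroupOf.1 ha) b.1
      (Subgroup.mem_subgroupOf.1 hb))
  · exact rankOneCond_subgroupOf _ hB hR.cond_left
  · exact rankOneCond_subgroupOf _ hA hR.cond_right

theorem SigS'_rootSet : IsRootSubgroupSet (SigS' F m) where
  commutative := by
    intro A hA
    obtain ⟨p, r, hLI, hS, rfl⟩ := (mem_SigS' A).1 hA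
    refine ⟨⟨fun a b => Subtype.ext (Subtype.ext ?_)⟩⟩
    exact SG_comm_elem p r a.1.1 (Subgroup.mem_subgroupOf.1 a.2) b.1.1
      (Subgroup.mem_subgroupOf.1 b.2)
  ne_bot := by
    intro A hA
    obtain ⟨p, r, hLI, hS, rfl⟩ := (mem_SigS' A).1 hA
    intro hbot
    have hm : sg p r (1 : F) ∈ SG p r := sg_mem p r 1
    have hmG : sg p r (1 : F) ∈ G0 F m := SG_le_G0 hLI hS hm
    have h1 : (⟨sg p r (1 : F), hmG⟩ : G0 F m) ∈ (SG p r).subgroupOf (G0 F m) :=
      Subgroup.mem_subgroupOf.2 hm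
    rw [hbot, Subgroup.mem_bot] at h1
    exact sg_ne_one hS hLI 1 one_ne_zero (congrArg Subtype.val h1)
  generates := generates_subgroupOf (G0 F m) (SigS F m) rfl
  conj_mem := by
    intro A hA g
    obtain ⟨p, r, hLI, hS, rfl⟩ := (mem_SigS' A).1 hA
    rw [conjBy_subgroupOf, conjBy_SG]
    exact SG'_mem (LI_act _ hLI) (Sing_act _ hS)
  pair := by
    intro A hA A' hA'
    obtain ⟨p, r, hLI, hS, rfl⟩ := (mem_SigS' A).1 hA
    obtain ⟨p', r', hLI', hS', rfl⟩ := (mem_SigS' A').1 hA'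
    by_cases hdet : B p p' * B r r' - B p r' * B r p' = 0
    · by_cases hz : B p p' = 0 ∧ B p r' = 0 ∧ B r p' = 0 ∧ B r r' = 0
      · left
        exact commutator_subgroupOf_bot _ (SG_comm_of hS hS' hz.1 hz.2.1 hz.2.2.1 hz.2.2.2)
      · obtain ⟨P, R, P', R', k1, k2, k3, k4, k5, k6, n11, n12, n21, n22⟩ :=
          exists_nf2 hS hS' hLI hLI' hdet hz
        rw [← k5, ← k6]
        by_cases hdep : LinearIndependent F ![R, R']
        · right; right
          have hRR' : Sing R R' := ⟨k1.2.1, k2.2.1, n22⟩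
          refine rcc_of_facts (G0 F m) (SigS' F m) (A := SG P R) (B := SG P' R') (C := SG R R')
            (SG_le_G0 k3 k1) (SG_le_G0 k4 k2) (SG'_mem hdep hRR') ?_ ?_ ?_ ?_ ?_ ?_
          · rintro _ ⟨s, rfl⟩ _ ⟨t, rfl⟩
            rw [comm_elt_nf k1 k2 n11 n12 n21 n22]
            exact sg_mem _ _ _
          · rintro _ ⟨c, rfl⟩ _ ⟨s, rfl⟩
            exact sg_comm_of hRR' k1 k1.rp k1.rr (by rw [B_symm]; exact n12)
              (by rw [B_symm]; exact n22) c s
          · rintro _ ⟨c, rfl⟩ _ ⟨t, rfl⟩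
            exact sg_comm_of hRR' k2 n21 n22 k2.rp k2.rr c t
          · rintro _ ⟨s, rfl⟩ hs1 _ ⟨c, rfl⟩
            have hs : s ≠ 0 := by
              rintro rfl
              exact hs1 (sg_zero _ _)
            refine ⟨sg P' R' (c / s), sg_mem _ _ _, ?_⟩
            rw [comm_elt_nf k1 k2 n11 n12 n21 n22, mul_div_cancel₀ _ hs]
          · rintro _ ⟨t, rfl⟩ ht1 _ ⟨c, rfl⟩
            have ht : t ≠ 0 := by
              rintro rfl
              exact ht1 (sg_zero _ _)
            refine ⟨sg P R (c / t), sg_mem _ _ _, ?_⟩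
            rw [comm_elt_nf k1 k2 n11 n12 n21 n22, div_mul_cancel₀ _ ht]
          · exact ⟨sg P R 1, sg_mem _ _ _, sg_ne_one k1 k3 1 one_ne_zero⟩
        · left
          apply commutator_subgroupOf_bot
          rintro _ ⟨s, rfl⟩ _ ⟨t, rfl⟩
          rw [comm_nf k1 k2 n11 n12 n21 n22, sg_dep hdep, one_mul]
    · right; left
      exact rankOne_G0 hLI hS hLI' hS' hdet

theorem SigS'_kroot : IsKRootSubgroupSet F (SigS' F m) := by
  refine ⟨SigS'_rootSet, ?_⟩
  intro A hA A' hA' hR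
  obtain ⟨p, r, hLI, hS, rfl⟩ := (mem_SigS' A).1 hA
  obtain ⟨p', r', hLI', hS', rfl⟩ := (mem_SigS' A').1 hA'
  have hAle := SG_le_G0 hLI hS
  have hBle := SG_le_G0 hLI' hS'
  have hdet : B p p' * B r r' - B p r' * B r p' ≠ 0 := by
    intro hdet
    apply not_rank_one_of_det hS hS' hLI hLI' hdet
    refine ⟨?_, nilp_of_comm _ (SG_comm_elem p r), nilp_of_comm _ (SG_comm_elem p' r'),
      rankOneCond_of_subgroupOf _ hAle hBle hR.cond_left,
      rankOneCond_of_subgroupOf _ hBle hAle hR.cond_right⟩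
    intro heq
    exact hR.ne (by rw [heq])
  exact psl2_subgroupOf _ hAle hBle (psl2_of_det hS hS' hLI' hdet)

theorem SigS_connected : IsConnectedFamily (FAdj (SigS F m)) (SigS F m) := by
  intro A hA A' hA'
  obtain ⟨p, r, hLI, hS, rfl⟩ := (mem_SigS A).1 hA
  obtain ⟨p', r', hLI', hS', rfl⟩ := (mem_SigS A').1 hA'
  obtain ⟨x, y, hxy, hLIxy, d1, d2⟩ := exists_common_opp (by omega) hS hS' hLI hLI'
  have hC : SG x y ∈ SigS F m := SG_mem_SigS hLIxy hxy
  have h1 : FAdj (SigS F m) (SG p r) (SG x y) := ⟨hA, hC, rank_one_of_det hS hxy hLIxy d1⟩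
  have h2 : FAdj (SigS F m) (SG x y) (SG p' r') :=
    ⟨hC, hA', rank_one_of_det hxy hS' hLI' (by
      rw [B_symm x p', B_symm y r', B_symm x r', B_symm y p']
      intro h0
      apply d2
      linear_combination h0)⟩
  exact Relation.ReflTransGen.tail (Relation.ReflTransGen.single h1) h2

theorem main (F : Type*) [Field F] (m : ℕ) :
    IsKRootSubgroupSet F (SigS' F m) ∧ IsConnectedFamily (FAdj (SigS F m)) (SigS F m) :=
  ⟨SigS'_kroot, SigS_connected⟩

end Main

end Cfsg.Agent.Lib.helper6.SiegelRootSub
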