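import Mathlib
import Cfsg.Agent.Lib.helper6.TvCent
import Cfsg.Agent.Lib.helper14.Basic

set_option autoImplicit false

namespace Cfsg.Agent.Lib.helper6.TvSyl

open Cfsg Matrix
open Cfsg.Agent.Lib.helper13.PN
open Cfsg.Agent.Lib.helper6.TvCent

/-- If the centre of a Sylow 2-subgroup `T` of `C = C_G(z)` contains only `1` and `z`, then `T`
is a Sylow 2-subgroup of `G`. -/
theorem odd_index_aux {G : Type*} [Group G] [Finite G] (z : G) (hz : orderOf z = 2)
    (C : Subgroup G) (hC : ∀ g : G, g ∈ C ↔ g * z = z * g)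
    (T : Sylow 2 C)
    (hZ : ∀ c : ↥C, c ∈ (T : Subgroup _) →
      (∀ t ∈ (T : Subgroup _), c * t = t * c) → c = 1 ∨ (c : G) = z) :
    ¬ 2 ∣ ((T : Subgroup C).map C.subtype).index := by
  haveI : Fact (Nat.Prime 2) := ⟨Nat.prime_two⟩
  have hz1 : z ≠ 1 := by
    intro h
    rw [h, orderOf_one] at hz
    omega
  have hzC : z ∈ C := (hC z).2 rfl
  have hT'p : IsPGroup 2 ((T : Subgroup C).map C.subtype) := T.isPGroup'.map _
  obtain ⟨P, hP⟩ := hT'p.exists_le_sylow
  -- `P ∩ C = T'`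
  have hPC : ∀ x : G, x ∈ (P : Subgroup G) → ∀ hx : x ∈ C, (⟨x, hx⟩ : ↥C) ∈ (T : Subgroup ↥C) := by
    intro x hxP hx
    have hK : IsPGroup 2 ((P : Subgroup G).subgroupOf C) := P.isPGroup'.comap_subtype
    have hTK : (T : Subgroup ↥C) ≤ (P : Subgroup G).subgroupOf C := by
      intro t ht
      rw [Subgroup.mem_subgroupOf]
      exact hP ⟨t, ht, rfl⟩
    have hKT := T.is_maximal' hK hTK
    rw [← hKT, Subgroup.mem_subgroupOf]
    exact hxP
  -- `z ∈ T`
  have hzT : (⟨z, hzC⟩ : ↥C) ∈ (T : Subgroup ↥C) := by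
    have hcen : ∀ g : ↥C, g * (⟨z, hzC⟩ : ↥C) = (⟨z, hzC⟩ : ↥C) * g := by
      rintro ⟨g, hg⟩
      apply Subtype.ext
      exact (hC g).1 hg
    have hN : (Subgroup.zpowers (⟨z, hzC⟩ : ↥C)).Normal := by
      constructor
      intro n hn g
      obtain ⟨k, rfl⟩ := hn
      have : g * (⟨z, hzC⟩ : ↥C) ^ k * g⁻¹ = (⟨z, hzC⟩ : ↥C) ^ k := by
        have h1 : g * (⟨z, hzC⟩ : ↥C) ^ k = (⟨z, hzC⟩ : ↥C) ^ k * g :=
          ((Commute.zpow_right (hcen g) k)).eq
        rw [h1, mul_inv_cancel_right]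
      rw [this]
      exact ⟨k, rfl⟩
    have hNp : IsPGroup 2 (Subgroup.zpowers (⟨z, hzC⟩ : ↥C)) := by
      apply IsPGroup.of_card (n := 1)
      rw [Nat.card_zpowers, pow_one]
      rw [← hz]
      exact (Subgroup.orderOf_mk z hzC)
    exact hNp.le_sylow_of_normal T (Subgroup.mem_zpowers _)
  have hzT' : z ∈ (T : Subgroup C).map C.subtype := ⟨⟨z, hzC⟩, hzT, rfl⟩
  -- `T' = P`
  have hTP : (T : Subgroup C).map C.subtype = (P : Subgroup G) := by
    by_contra hne
    haveI : Group.IsNilpotent ↥(P : Subgroup G) := P.isPGroup'.isNilpotent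
    have hnc : NormalizerCondition ↥(P : Subgroup G) := normalizerCondition_of_isNilpotent
    have hlt : ((T : Subgroup C).map C.subtype).subgroupOf (P : Subgroup G) < ⊤ := by
      rw [lt_top_iff_ne_top]
      intro h
      rw [Subgroup.subgroupOf_eq_top] at h
      exact hne (le_antisymm hP h)
    have h2 := hnc _ hlt
    obtain ⟨x, hxN, hxT⟩ := SetLike.exists_of_lt h2
    rw [Subgroup.mem_normalizer_iff] at hxN
    have hconj : ∀ t : G, t ∈ (T : Subgroup C).map C.subtype →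
        (x : G) * t * (x : G)⁻¹ ∈ (T : Subgroup C).map C.subtype := by
      intro t ht
      have := (hxN ⟨t, hP ht⟩).1 (Subgroup.mem_subgroupOf.2 ht)
      exact Subgroup.mem_subgroupOf.1 this
    have hconj' : ∀ t : G, t ∈ (T : Subgroup C).map C.subtype →
        (x : G)⁻¹ * t * (x : G) ∈ (T : Subgroup C).map C.subtype := by
      intro t ht
      have h3 := (hxN (x⁻¹ * ⟨t, hP ht⟩ * x)).2 (by
        rw [Subgroup.mem_subgroupOf]
        have : ((x * (x⁻¹ * ⟨t, hP ht⟩ * x) * x⁻¹ : ↥(P : Subgroup G)) : G) = t := by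
          push_cast
          group
        rw [this]
        exact ht)
      exact Subgroup.mem_subgroupOf.1 h3
    obtain ⟨c, hcT, hcz⟩ := hconj z hzT'
    have hcz' : (c : G) = (x : G) * z * (x : G)⁻¹ := hcz
    have hcen : ∀ t ∈ (T : Subgroup ↥C), c * t = t * c := by
      intro t ht
      apply Subtype.ext
      rw [Subgroup.coe_mul, Subgroup.coe_mul, hcz']
      obtain ⟨t', ht', ht'e⟩ := hconj' (t : G) ⟨t, ht, rfl⟩
      have h4 : (t' : G) * z = z * (t' : G) := (hC _).1 t'.2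
      have ht'e' : (t' : G) = (x : G)⁻¹ * (t : G) * (x : G) := ht'e
      rw [ht'e'] at h4
      calc (x : G) * z * (x : G)⁻¹ * (t : G)
          = (x : G) * (z * ((x : G)⁻¹ * (t : G) * (x : G))) * (x : G)⁻¹ := by group
        _ = (x : G) * ((x : G)⁻¹ * (t : G) * (x : G) * z) * (x : G)⁻¹ := by rw [h4]
        _ = (t : G) * ((x : G) * z * (x : G)⁻¹) := by group
    rcases hZ c hcT hcen with h | h
    · rw [h] at hcz'
      have : z = 1 := by
        have h5 : (x : G)⁻¹ * ((x : G) * z * (x : G)⁻¹) * (x : G) = 1 := by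
          rw [← hcz']
          simp
        rw [← h5]
        group
      exact hz1 this
    · rw [h] at hcz'
      have hxC : (x : G) ∈ C := by
        rw [hC]
        calc (x : G) * z = (x : G) * z * (x : G)⁻¹ * (x : G) := by group
          _ = z * (x : G) := by rw [← hcz']
      have := hPC (x : G) x.2 hxC
      exact hxT (Subgroup.mem_subgroupOf.2 ⟨⟨(x : G), hxC⟩, this, rfl⟩)
  rw [hTP]
  exact P.not_dvd_index

theorem odd_index_of_center {G : Type*} [Group G] [Finite G] (z : G) (hz : orderOf z = 2)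
    (T : Sylow 2 (Subgroup.centralizer ({z} : Set G)))
    (hZ : ∀ c : ↥(Subgroup.centralizer ({z} : Set G)), c ∈ (T : Subgroup _) →
      (∀ t ∈ (T : Subgroup _), c * t = t * c) → c = 1 ∨ (c : G) = z) :
    ¬ 2 ∣ ((T : Subgroup (Subgroup.centralizer ({z} : Set G))).map
      (Subgroup.subtype (Subgroup.centralizer ({z} : Set G)))).index := by
  refine odd_index_aux z hz _ ?_ T hZ
  intro g
  rw [Subgroup.mem_centralizer_iff]
  constructor
  · intro h
    exact (h z rfl).symm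
  · intro h y hy
    rw [Set.mem_singleton_iff] at hy
    rw [hy, h]

/-- elements of `C_G(z)` centralising the preimage of `O_2` are `1` or correspond to `zS` -/
theorem key_cent {C : Type*} [Group C] (e : C ≃* ↥(Cz 3)) (c : C)
    (hc : ∀ t : C, e t ∈ Cfsg.pCore 2 ↥(Cz 3) → c * t = t * c) :
    ((e c : ↥(Cz 3)) : SLn (3 + 2) (ZMod 2)) = 1 ∨ ((e c : ↥(Cz 3)) : SLn (3 + 2) (ZMod 2)) = zS := by
  have h1 : ((e c : ↥(Cz 3)) : SLn (3 + 2) (ZMod 2)) ∈
      Subgroup.centralizer ((Qs 3 : Subgroup (SLn (3 + 2) (ZMod 2))) : Set (SLn (3 + 2) (ZMod 2))) := by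
    rw [Subgroup.mem_centralizer_iff]
    intro q hq
    rw [SetLike.mem_coe, ← pcore_eq (by norm_num : 2 ≤ 3)] at hq
    obtain ⟨q', hq', rfl⟩ := hq
    have h2 := hc (e.symm q') (by rw [MulEquiv.apply_symm_apply]; exact hq')
    have h3 := congrArg e h2
    rw [map_mul, map_mul, MulEquiv.apply_symm_apply] at h3
    exact (congrArg Subtype.val h3).symm
  rw [centralizer_Qs] at h1
  obtain ⟨y, hy, hye⟩ := h1
  obtain ⟨a, ha⟩ := center_elim y hy
  have hye' : (y : SLn (3 + 2) (ZMod 2)) = ((e c : ↥(Cz 3)) : SLn (3 + 2) (ZMod 2)) := hye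
  rw [← hye', ha]
  have ha01 : ∀ b : ZMod 2, b = 0 ∨ b = 1 := by decide
  rcases ha01 a with rfl | rfl
  · left
    exact qS_zero
  · right
    rfl

theorem center_cond {G : Type*} [Group G] [Finite G] (z : G) (hz : orderOf z = 2)
    (e : (Subgroup.centralizer ({z} : Set G)) ≃* ↥(Cz 3))
    (T : Sylow 2 (Subgroup.centralizer ({z} : Set G))) :
    ∀ c : ↥(Subgroup.centralizer ({z} : Set G)), c ∈ (T : Subgroup _) →
      (∀ t ∈ (T : Subgroup _), c * t = t * c) → c = 1 ∨ (c : G) = z := by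
  haveI : Fact (Nat.Prime 2) := ⟨Nat.prime_two⟩
  have hz1 : z ≠ 1 := by
    intro h
    rw [h, orderOf_one] at hz
    omega
  have hzC : z ∈ Subgroup.centralizer ({z} : Set G) := by
    rw [Subgroup.mem_centralizer_iff]
    intro h hh
    rw [Set.mem_singleton_iff] at hh
    rw [hh]
  -- the preimage of `O_2` lies in `T`
  have hNT : (Cfsg.pCore 2 ↥(Cz 3)).comap e.toMonoidHom ≤ (T : Subgroup _) := by
    haveI : (Cfsg.pCore 2 ↥(Cz 3)).Normal := Cfsg.Agent.Lib.helper14.pCore_normal' 2 _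
    haveI : ((Cfsg.pCore 2 ↥(Cz 3)).comap e.toMonoidHom).Normal := Subgroup.Normal.comap ‹_› _
    have hp : IsPGroup 2 ((Cfsg.pCore 2 ↥(Cz 3)).comap e.toMonoidHom) :=
      (Cfsg.Agent.Lib.helper14.isPGroup_pCore 2 _).comap_of_injective _ e.injective
    exact hp.le_sylow_of_normal T
  -- the image of `z`
  have hez : ((e ⟨z, hzC⟩ : ↥(Cz 3)) : SLn (3 + 2) (ZMod 2)) = zS := by
    rcases key_cent e ⟨z, hzC⟩ (by
      rintro ⟨t, ht⟩ _
      apply Subtype.ext
      rw [Subgroup.mem_centralizer_iff] at ht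
      exact ht z rfl) with h | h
    · exfalso
      have h1 : e ⟨z, hzC⟩ = 1 := Subtype.ext h
      rw [MulEquiv.map_eq_one_iff] at h1
      exact hz1 (congrArg Subtype.val h1)
    · exact h
  intro c hcT hc
  rcases key_cent e c (fun t ht => hc t (hNT ht)) with h | h
  · left
    have h1 : e c = 1 := Subtype.ext h
    rwa [MulEquiv.map_eq_one_iff] at h1
  · right
    have h1 : e c = e ⟨z, hzC⟩ := Subtype.ext (h.trans hez.symm)
    have h2 := e.injective h1
    rw [h2]

theorem main {G : Type*} [Group G] [Finite G] (s : Matrix.SpecialLinearGroup (Fin 5) (ZMod 2))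
    (hs : (s : Matrix (Fin 5) (Fin 5) (ZMod 2)) = Matrix.transvection 0 1 1) (z : G)
    (hz : orderOf z = 2)
    (e : (Subgroup.centralizer ({z} : Set G)) ≃*
      Subgroup.centralizer ({s} : Set (Matrix.SpecialLinearGroup (Fin 5) (ZMod 2))))
    (T : Sylow 2 (Subgroup.centralizer ({z} : Set G))) :
    ¬ 2 ∣ ((T : Subgroup (Subgroup.centralizer ({z} : Set G))).map
      (Subgroup.subtype (Subgroup.centralizer ({z} : Set G)))).index := by
  have hs' : s = (zS : SLn (3 + 2) (ZMod 2)) := Subtype.ext (hs.trans zS_coe'.symm)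
  subst hs'
  exact odd_index_of_center z hz T (center_cond z hz e T)

end Cfsg.Agent.Lib.helper6.TvSyl
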