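import Mathlib
import Cfsg.Agent.Lib.helper6.WR22
import Cfsg.Agent.Lib.helper6.Fus13

set_option autoImplicit false

namespace Cfsg.Agent.Lib.helper6

namespace WR

variable {G : Type*} [Group G] [Finite G] {n q : ℕ}

/-- Index 2 for `U` and `z` not fused to `ζ`: no fusion in `Z(S)`. -/
theorem s2_weak (S : Sylow 2 G) {x y z : ↥(S : Subgroup G)} (h : WR ↥(S : Subgroup G) n q x y z)
    (h₁ : (Subgroup.centralizer (h.gA : Set G)).relIndex (Subgroup.normalizer (h.gA : Set G)) = 2)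
    (hnc : ¬ IsConj (z:G) ((x:G) ^ (2 * (q:ℤ)) * (y:G) ^ (2 * (q:ℤ)))) :
    ∀ w ∈ h.gZ, ∀ g : G, g * w * g⁻¹ ∈ (S : Subgroup G) → g * w * g⁻¹ = w := by
  obtain ⟨K, hKn, hKi, hKm, hKpow, hfoc⟩ := s26_K S h h₁ hnc
  intro w hwZ g hgS
  by_cases hA : g * w * g⁻¹ ∈ h.gA
  · exact s_central_fix S h h₁ w hwZ g hA
  · exfalso
    obtain ⟨k', rfl⟩ := (h.mem_gZ w).mp hwZ
    rcases h.g_nf _ hgS with ⟨a, b, hab⟩ | ⟨a, b, hab⟩
    · exact hA (hab ▸ h.gE_mem a b)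
    have hf := hfoc _ (h.gA_le (h.gE_mem k' k')) g hgS
    rw [hab, h.gE_inv, h.gmul_z] at hf
    rcases h.gY0_struct _ hf with ⟨i', j', c', hc', he⟩ | ⟨i', j', c', hc', he⟩
    · exact h.gEz_notin _ _ (he ▸ h.gE_mem i' j')
    · obtain ⟨⟨c₁, hc₁⟩, ⟨c₂, hc₂⟩⟩ := (h.gEz_eq _ _ _ _).mp he
      have hsq : g * ((x:G) ^ (k' + k') * (y:G) ^ (k' + k')) * g⁻¹
          = (x:G) ^ (a + b) * (y:G) ^ (b + a) := by
        rw [← h.gmul_zz a b a b, ← hab, ← h.gE_mul k' k' k' k']; group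
      have h3 := s_central_fix S h h₁ _ ((h.mem_gZ _).mpr ⟨k' + k', rfl⟩) g
        (by rw [hsq]; exact h.gE_mem _ _)
      rw [hsq] at h3
      obtain ⟨⟨c₃, hc₃⟩, -⟩ := (h.gE_eq _ _ _ _).mp h3
      exact h.no_half (c₃ - c' - c₁ - c₂) (by linarith)

/-- Wreathed Sylow 2-subgroup with an isolated involution: no fusion in `Z(S)`. -/
theorem s_iso_ctrl (S : Sylow 2 G) {x y z : ↥(S : Subgroup G)} (h : WR ↥(S : Subgroup G) n q x y z)
    (t : G) (htS : t ∈ (S : Subgroup G)) (ht : Cfsg.IsIsolatedInvolution t) :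
    ∀ w ∈ h.gZ, ∀ g : G, g * w * g⁻¹ ∈ (S : Subgroup G) → g * w * g⁻¹ = w := by
  have htc := iso_central S t htS ht
  have htt : t * t = 1 := iso_mul_self ht
  have ht1 : t ≠ 1 := by
    intro h'
    have := ht.1
    rw [h', orderOf_one] at this
    omega
  have htZ : t ∈ h.gZ := ⟨⟨t, htS⟩, by
    rw [SetLike.mem_coe, Subgroup.mem_center_iff]; intro s; exact Subtype.ext (htc s s.2), rfl⟩
  obtain ⟨k, hk⟩ := (h.mem_gZ t).mp htZ
  have hteq : t = (x:G) ^ (2 * (q:ℤ)) * (y:G) ^ (2 * (q:ℤ)) := by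
    have h1 := htt
    rw [hk, h.gE_mul, h.gE_one] at h1
    obtain ⟨⟨c, hc⟩, -⟩ := h1
    have hk2 : k = 2 * q * c := by linarith
    have e : t = ((x:G) ^ (2 * (q:ℤ)) * (y:G) ^ (2 * (q:ℤ))) ^ c := by
      rw [h.gE_zpow, hk, hk2]
    rcases zpow_invol _ h.g_zeta_sq c with ⟨_, -, h5⟩ | ⟨_, -, h5⟩
    · exfalso; rw [h5] at e; exact ht1 e
    · rw [h5] at e; exact e
  have h2 : (Subgroup.centralizer (h.gA : Set G)).relIndex
      (Subgroup.normalizer (h.gA : Set G)) = 2 := by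
    rcases g_U_idx S h with h2 | h6
    · exact h2
    · exfalso
      obtain ⟨g, hg⟩ := isConj_iff.mp (s_U6 S h h6)
      rw [← hteq] at hg
      have h3 : Commute t (g * t * g⁻¹) := by
        rw [hg]; exact (htc _ (h.gA_le h.g_u1_mem)).symm
      have h4 := ht.2 g h3
      rw [hg, hteq] at h4
      exact h.g_u1_ne_zeta h4
  have hnc : ¬ IsConj (z:G) ((x:G) ^ (2 * (q:ℤ)) * (y:G) ^ (2 * (q:ℤ))) := by
    intro hc
    obtain ⟨g, hg⟩ := isConj_iff.mp hc.symm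
    rw [← hteq] at hg
    have h3 : Commute t (g * t * g⁻¹) := by
      rw [hg]; exact (htc _ z.2).symm
    have h4 := ht.2 g h3
    rw [hg] at h4
    have h5 := h.gEz_notin 0 0
    apply h5
    simp only [zpow_zero, one_mul]
    rw [h4, hteq]; exact h.gE_mem _ _
  exact s2_weak S h h2 hnc

end WR

end Cfsg.Agent.Lib.helper6
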